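import Cfsg.Statements.S0213
import Cfsg.Agent.H4.Isolated

set_option autoImplicit false
open Cfsg

namespace Cfsg.Agent.S0213

open CfsgH4

/-- Thompson Order Formula, two-class case: if every involution of the finite group G is conjugate to exactly one of the non-conjugate involutions x₁, x₂, and nᵢ is the number of pairs (u, v) with u conjugate to x₁, v conjugate to x₂ and xᵢ in the cyclic group generated by uv, then |G| = |C(x₂)| n₁ + |C(x₁)| n₂. -/
theorem result {G : Type*} [Group G] [Finite G] (x₁ x₂ : G) (h₁ : orderOf x₁ = 2) (h₂ : orderOf x₂ = 2) (hnc : ¬ IsConj x₁ x₂) (hall : ∀ t : G, orderOf t = 2 → IsConj x₁ t ∨ IsConj x₂ t) : Nat.card G = Nat.card (Subgroup.centralizer ({x₂} : Set G)) * Nat.card {p : G × G // IsConj x₁ p.1 ∧ IsConj x₂ p.2 ∧ x₁ ∈ Subgroup.zpowers (p.1 * p.2)} + Nat.card (Subgroup.centralizer ({x₁} : Set G)) * Nat.card {p : G × G // IsConj x₁ p.1 ∧ IsConj x₂ p.2 ∧ x₂ ∈ Subgroup.zpowers (p.1 * p.2)} := by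
  classical
  have hne : x₁ ≠ x₂ := fun h => hnc (h ▸ IsConj.refl _)
  have h := thompson_order_formula x₁ x₂ h₁ h₂ hnc {x₁, x₂} (by simp [h₁, h₂]) (by
    intro t ht
    rcases hall t ht with h | h
    · refine ⟨x₁, by simp, h.symm, fun w' hw' h' => ?_⟩
      simp only [Finset.mem_insert, Finset.mem_singleton] at hw'
      rcases hw' with rfl | rfl
      · rfl
      · exact absurd (h.trans h') hnc
    · refine ⟨x₂, by simp, h.symm, fun w' hw' h' => ?_⟩
      simp only [Finset.mem_insert, Finset.mem_singleton] at hw'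
      rcases hw' with rfl | rfl
      · exact absurd (h.trans h').symm hnc
      · rfl)
  rw [Finset.sum_pair hne] at h
  have e1 := card_isConj_mul_card_centralizer x₁
  have e2 := card_isConj_mul_card_centralizer x₂
  change _ = _ * thompsonCount x₁ x₂ x₁ + _ * thompsonCount x₁ x₂ x₂
  have hg : 0 < Nat.card G := Nat.card_pos
  apply Nat.eq_of_mul_eq_mul_left hg
  generalize Nat.card {y // IsConj x₁ y} = a at *
  generalize Nat.card {y // IsConj x₂ y} = b at *
  generalize Nat.card (Subgroup.centralizer ({x₁} : Set G)) = c at *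
  generalize Nat.card (Subgroup.centralizer ({x₂} : Set G)) = d at *
  calc Nat.card G * Nat.card G = (a * c) * (b * d) := by rw [e1, e2]
    _ = (a * b) * (c * d) := by ring
    _ = (a * c) * (d * thompsonCount x₁ x₂ x₁) + (b * d) * (c * thompsonCount x₁ x₂ x₂) := by
      rw [h]; ring
    _ = _ := by rw [e1, e2]; ring

end Cfsg.Agent.S0213
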