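import Cfsg.Statements.S0073
import Cfsg.Agent.H1.Transfer

set_option autoImplicit false
open Cfsg

namespace Cfsg.Agent.S0073

open CfsgH1 Subgroup
open scoped commutatorElement

/-- For a finite non-abelian simple group, either the cube of the least prime divisor of the order divides the order, or 12 does. -/
theorem result {G : Type*} [Group G] [Finite G] [IsSimpleGroup G] (hG : ∃ x y : G, x * y ≠ y * x) : (Nat.card G).minFac ^ 3 ∣ Nat.card G ∨ 12 ∣ Nat.card G := by
  by_contra hcon
  push Not at hcon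
  obtain ⟨h1, h2⟩ := hcon
  set p := (Nat.card G).minFac with hp
  have hG1 : Nat.card G ≠ 1 := Finite.one_lt_card.ne'
  haveI hpp : Fact p.Prime := ⟨Nat.minFac_prime hG1⟩
  obtain ⟨P, hP⟩ := exists_isSylowIn p (⊤ : Subgroup G)
  obtain ⟨k, hk⟩ := hP.pgroup.exists_card_eq
  have hk2 : k ≤ 2 := by
    by_contra h
    exact h1 ((pow_dvd_pow p (by omega)).trans (hk ▸ card_subgroup_dvd_card P))
  have hc : IsMulCommutative P := by
    interval_cases k
    · haveI : Subsingleton P := (Nat.card_eq_one_iff_unique.mp (by simpa using hk)).1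
      exact ⟨⟨fun a b => Subsingleton.elim _ _⟩⟩
    · exact (isCyclic_of_prime_card (p := p) (by simpa using hk)).isMulCommutative
    · exact ⟨⟨IsPGroup.commutative_of_card_eq_prime_sq hk⟩⟩
  have hnil := hP.pNil_of_card (le_centralizer_self_of_comm hc) fun r hr hrp hd C hC h => by
    rw [card_top] at hd
    have hpr : p < r := lt_of_le_of_ne (Nat.minFac_le_of_dvd hr.two_le hd) hrp.symm
    obtain ⟨j, hj⟩ := (hP.pgroup.to_le hC.le).exists_card_eq
    have h3 := card_lt_of_lt hC
    rw [hk, hj] at h h3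
    have hjk : j < k := (Nat.pow_lt_pow_iff_right hpp.out.one_lt).mp h3
    have h5 := (Nat.modEq_iff_dvd' h3.le).mp h.symm
    have h6 : p ^ k - p ^ j = p ^ j * (p ^ (k - j) - 1) := by
      rw [Nat.mul_sub, ← pow_add, mul_one, Nat.add_sub_cancel' hjk.le]
    rw [h6] at h5
    have h7 : r ∣ p ^ (k - j) - 1 := ((Nat.Prime.dvd_mul hr).mp h5).resolve_left fun h =>
      hrp ((Nat.prime_dvd_prime_iff_eq hr hpp.out).mp (hr.dvd_of_dvd_pow h))
    have h2p := hpp.out.two_le
    have h8 : ¬ r ∣ p - 1 := fun h => by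
      have := Nat.le_of_dvd (by omega) h
      omega
    have h9 : k - j = 1 ∨ k - j = 2 := by omega
    rcases h9 with h9 | h9
    · rw [h9, pow_one] at h7
      exact h8 h7
    · rw [h9, show p ^ 2 - 1 = (p + 1) * (p - 1) from Nat.sq_sub_sq p 1] at h7
      have h10 := Nat.le_of_dvd (by omega) (((Nat.Prime.dvd_mul hr).mp h7).resolve_right h8)
      have h11 : r = p + 1 := by omega
      have h12 : p = 2 := by
        rcases hpp.out.eq_two_or_odd' with h | h
        · exact h
        · exfalso
          have : 2 ∣ r := by rw [h11]; exact h.add_one.two_dvd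
          have := (Nat.prime_dvd_prime_iff_eq Nat.prime_two hr).mp this
          omega
      have hk' : k = 2 := by omega
      rw [h12, hk'] at hk
      refine h2 (Nat.Coprime.mul_dvd_of_dvd_of_dvd (show Nat.Coprime 4 3 by decide) ?_ ?_)
      · exact (show 2 ^ 2 = 4 by norm_num) ▸ hk ▸ card_subgroup_dvd_card P
      · rw [h11, h12] at hd
        exact hd
  rcases (resIn_normal (p := p) (⊤ : Subgroup G)).eq_bot_or_eq_top with h | h
  · obtain ⟨x, y, hxy⟩ := hG
    have h3 := hP.sup_resIn
    rw [h, sup_bot_eq] at h3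
    exact hxy (CfsgH2.isMulCommutative_iff.mp hc x (h3 ▸ mem_top x) y (h3 ▸ mem_top y))
  · refine hnil ?_
    rw [h, card_top]
    exact Nat.minFac_dvd _

end Cfsg.Agent.S0073
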