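import Cfsg.Statements.S0074
import Cfsg.Agent.H1.PNil

set_option autoImplicit false
open Cfsg

namespace Cfsg.Agent.S0074

open CfsgH1 Subgroup

/-- For an abelian Sylow p-subgroup P, the intersection of P with the derived subgroup of G equals its intersection with the derived subgroup of the normalizer of P. -/
theorem result {G : Type*} [Group G] [Finite G] {p : ℕ} [Fact p.Prime] (P : Sylow p G) (hP : IsMulCommutative P) : commutator G ⊓ (P : Subgroup G) = ⁅Subgroup.normalizer (P : Set G), Subgroup.normalizer (P : Set G)⁆ ⊓ (P : Subgroup G) := by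
  apply le_antisymm
  · refine le_inf ?_ inf_le_right
    rw [inf_comm]
    refine ((isSylowIn_top P).inf_commutator_le_of_fusion (M := normalizer (P : Set G))
      fun x hx g _ hxg => ?_).trans (commutator_mono le_normalizer le_rfl)
    obtain ⟨n, hn, e⟩ := P.conj_eq_normalizer_conj_of_mem x g⁻¹ hx (by rw [inv_inv]; exact hxg)
    exact ⟨n⁻¹, inv_mem hn, by simpa using e.symm⟩
  · exact inf_le_inf_right _ (commutator_mono le_top le_top)

end Cfsg.Agent.S0074
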