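import Cfsg.Statements.S0076
import Cfsg.Agent.H1.Transfer

set_option autoImplicit false
open Cfsg

namespace Cfsg.Agent.S0076

open CfsgH1 Subgroup
open scoped commutatorElement

/-- Two P-invariant subsets of a Sylow p-subgroup P that are conjugate in G are conjugate under the normalizer of P. -/
theorem result {G : Type*} [Group G] [Finite G] {p : ℕ} [Fact p.Prime] (P : Sylow p G) (X Y : Set G) (hXP : X ⊆ P) (hYP : Y ⊆ P) (hX : ∀ x ∈ P, (fun y => x * y * x⁻¹) '' X = X) (hY : ∀ x ∈ P, (fun y => x * y * x⁻¹) '' Y = Y) (g : G) (hg : (fun y => g * y * g⁻¹) '' X = Y) : ∃ n ∈ Subgroup.normalizer (P : Set G), (fun y => n * y * n⁻¹) '' X = Y := by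
  have h1 : ∀ Z : Set G, (∀ x ∈ P, (fun y => x * y * x⁻¹) '' Z = Z) →
      (P : Subgroup G) ≤ normalizer Z := by
    intro Z hZ x hx n
    constructor
    · intro hn
      rw [← hZ x hx]
      exact ⟨n, hn, rfl⟩
    · intro hn
      rw [← hZ x hx] at hn
      obtain ⟨m, hm, e⟩ := hn
      simp only [mul_left_inj, mul_right_inj] at e
      exact e ▸ hm
  obtain ⟨m, hm, e⟩ := (isSylowIn_top P).exists_mul_mem_normalizer (M := normalizer X) (mem_top g)
    (h1 X hX) (by rw [cj_le_iff_le_cj_inv, inv_inv, cj_normalizer_set, hg]; exact h1 Y hY)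
  refine ⟨g * m, e, ?_⟩
  rw [← hg]
  ext y
  constructor
  · rintro ⟨x, hx, rfl⟩
    exact ⟨m * x * m⁻¹, (mem_set_normalizer_iff.mp hm.2 x).mp hx, by simp [mul_assoc]⟩
  · rintro ⟨x, hx, rfl⟩
    exact ⟨m⁻¹ * x * m⁻¹⁻¹, (mem_set_normalizer_iff.mp (inv_mem hm.2) x).mp hx,
      by simp [mul_assoc]⟩

end Cfsg.Agent.S0076
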