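import Cfsg.Statements.S0078
import Cfsg.Agent.H1.Transfer

set_option autoImplicit false
open Cfsg

namespace Cfsg.Agent.S0078

open CfsgH1 Subgroup
open scoped commutatorElement

/-- In a p-normal group, a Sylow p-subgroup P meets O^p(G) exactly where it meets O^p(V), for any subgroup V containing the normalizer of the centre of P. -/
theorem result {G : Type*} [Group G] [Finite G] {p : ℕ} [Fact p.Prime] (P : Sylow p G) (hn : ∀ Q : Sylow p G, (P : Subgroup G) ⊓ Subgroup.centralizer (P : Set G) ≤ (Q : Subgroup G) → (Q : Subgroup G) ⊓ Subgroup.centralizer (Q : Set G) = (P : Subgroup G) ⊓ Subgroup.centralizer (P : Set G)) (V : Subgroup G) (hV : Subgroup.normalizer (((P : Subgroup G) ⊓ Subgroup.centralizer (P : Set G) : Subgroup G) : Set G) ≤ V) : (P : Subgroup G) ⊓ Cfsg.pResidual p G = (P : Subgroup G) ⊓ (Cfsg.pResidual p V).map V.subtype := by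
  have hS := isSylowIn_top P
  have h := hS.sfBy_of_weaklyClosed (Z := (P : Subgroup G) ⊓ centralizer ((P : Subgroup G) : Set G))
    inf_le_left inf_le_right fun g _ hg => by
      have h1 := hn (g⁻¹ • P) (by rw [cj_sylow]; exact cj_le_iff_le_cj_inv.mp hg)
      change ((g⁻¹ • P : Sylow p G) : Subgroup G) ⊓
        centralizer (((g⁻¹ • P : Sylow p G) : Subgroup G) : Set G) =
        (P : Subgroup G) ⊓ centralizer ((P : Subgroup G) : Set G) at h1
      rw [cj_sylow, ← cj_centralizer, ← cj_inf] at h1
      conv_lhs => rw [← h1, cj_cj_inv]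
  rw [top_inf_eq] at h
  rw [map_pResidual_subtype, ← resIn_top]
  refine le_antisymm (le_inf inf_le_left (hS.inf_resIn_le_of_fusion (le_trans (fun x hx => ?_) hV)
    fun x hx g hg hxg => (h.mono_left hV).exists_conj_eq hx hg hxg))
    (inf_le_inf_left _ (resIn_mono le_top))
  change x ∈ normalizer (((P : Subgroup G) ⊓ centralizer ((P : Subgroup G) : Set G) : Subgroup G) : Set G)
  rw [mem_normalizer_iff_cj, cj_inf, cj_centralizer, cj_eq_of_mem hx]

end Cfsg.Agent.S0078
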