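import Cfsg.Statements.S0079
import Cfsg.Agent.H1.Transfer

set_option autoImplicit false
open Cfsg

namespace Cfsg.Agent.S0079

open CfsgH1 Subgroup
open scoped commutatorElement

/-- A nilpotent Hall subgroup has a normal complement exactly when elements of it that are conjugate in the whole group are already conjugate inside it. -/
theorem result {G : Type*} [Group G] [Finite G] (H : Subgroup G) (hH : Group.IsNilpotent H) (hHall : Nat.Coprime (Nat.card H) H.index) : (∃ N : Subgroup G, N.Normal ∧ N.IsComplement' H) ↔ ∀ x ∈ H, ∀ y ∈ H, (∃ g : G, g * x * g⁻¹ = y) → ∃ h ∈ H, h * x * h⁻¹ = y := by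
  constructor
  · rintro ⟨N, _, hN⟩ x hx y hy ⟨g, rfl⟩
    obtain ⟨⟨n, h⟩, rfl⟩ := hN.2 g
    refine ⟨h, h.2, ?_⟩
    have h1 : (h : G) * x * (h : G)⁻¹ ∈ H := mul_mem (mul_mem h.2 hx) (inv_mem h.2)
    have : (n : G) * h * x * ((n : G) * h)⁻¹ * ((h : G) * x * (h : G)⁻¹)⁻¹ ∈ N ⊓ H := by
      refine ⟨?_, H.mul_mem hy (H.inv_mem h1)⟩
      have := N.mul_mem n.2 (Normal.conj_mem ‹_› _ (N.inv_mem n.2) ((h : G) * x * (h : G)⁻¹))
      simpa [mul_assoc] using this
    rw [hN.disjoint.eq_bot, mem_bot] at this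
    exact (mul_inv_eq_one.mp this).symm
  · intro hf
    refine exists_complement_of_forall_pNil hHall fun p hp hd => ?_
    obtain ⟨P, hP⟩ := exists_isSylowIn p H
    have hP' : IsSylowIn p P ⊤ := hP.trans_of_not_dvd le_top (by
      rw [relIndex_top_right]
      intro h2
      exact hp.out.one_lt.ne' (Nat.eq_one_of_dvd_coprimes hHall hd h2))
    have hnil : PNil p H := by
      refine pNil_of_pow_mem (not_dvd_card_pPrimeCoreOf H) fun x hx => ?_
      rw [← CfsgL0.pCoreOf_sup_pPrimeCoreOf (p := p) hH] at hx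
      obtain ⟨a, ha, b, hb, rfl⟩ := (mem_sup_of_le_normalizer
        (CfsgL0.pCoreOf_le.trans CfsgL0.le_normalizer_pPrimeCoreOf)).mp hx
      obtain ⟨k, hk⟩ := isPGroup_iff_forall.mp CfsgL0.isPGroup_pCoreOf a ha
      have hab : Commute a b := commutatorElement_eq_one_iff_commute.mp (mem_bot.mp
        (CfsgL0.commutator_pCoreOf_pPrimeCoreOf (p := p) (H := H) ▸ commutator_mem_commutator ha hb))
      exact ⟨k, by rw [hab.mul_pow, hk, one_mul]; exact pow_mem hb _⟩
    refine hP'.pNil_of_fusion fun x hx g _ hxg => ?_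
    obtain ⟨h, hh, e⟩ := hf x (hP.le hx) _ (hP.le hxg) ⟨g, rfl⟩
    obtain ⟨t, ht, e'⟩ := hnil.exists_conj_eq hP hh
    exact ⟨t, ht, (e' x hx (e ▸ hxg)).trans e⟩

end Cfsg.Agent.S0079
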