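import Cfsg.Statements.S0080
import Cfsg.Agent.H1.Transfer

set_option autoImplicit false
open Cfsg

namespace Cfsg.Agent.S0080

open CfsgH1 Subgroup
open scoped commutatorElement IsMulCommutative

/-- When the index of H is prime to the order of H/H', the focal subgroup of H is G' ∩ H, and H/(G' ∩ H) has a normal complement. -/
theorem result {G : Type*} [Group G] [Finite G] (H : Subgroup G) (h : Nat.Coprime H.index (⁅H, H⁆.relIndex H)) : Subgroup.focalSubgroup H = commutator G ⊓ H ∧ ∃ N : Subgroup G, N.Normal ∧ N ⊓ H = commutator G ⊓ H ∧ N ⊔ H = ⊤ := by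
  have h1 : Nat.Coprime (Nat.card (H ⧸ H.focalSubgroupOf)) H.index :=
    h.symm.coprime_dvd_left (relIndex_dvd_of_le_left H (commutator_le_focalSubgroup H))
  have h2 : H.transferFocal.ker ⊓ H ≤ H.focalSubgroup := by
    rintro x ⟨hx, hxH⟩
    have := transferFocal_eq_pow H ⟨x, hxH⟩
    rw [MonoidHom.mem_ker.mp hx] at this
    have h3 := CfsgH2.eq_one_of_pow_coprime pow_card_eq_one' this.symm h1
    exact (QuotientGroup.eq_one_iff (N := H.focalSubgroupOf) ⟨x, hxH⟩).mp h3
  have h3 : _root_.commutator G ≤ H.transferFocal.ker := Abelianization.commutator_subset_ker _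
  have h4 : H.focalSubgroup ≤ _root_.commutator G ⊓ H :=
    le_inf (focalSubgroup_le_commutator H) (focalSubgroup_le H)
  refine ⟨le_antisymm h4 ((inf_le_inf_right _ h3).trans h2), H.transferFocal.ker, inferInstance,
    le_antisymm (h2.trans h4) (inf_le_inf_right _ h3), eq_top_iff.mpr fun g _ => ?_⟩
  obtain ⟨y, hy⟩ := (powCoprime h1).surjective (H.transferFocal g)
  obtain ⟨x, rfl⟩ := QuotientGroup.mk_surjective y
  have : g * (x : G)⁻¹ ∈ H.transferFocal.ker := by
    rw [MonoidHom.mem_ker, map_mul, map_inv, transferFocal_eq_pow, ← hy]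
    simp
  simpa using mul_mem (mem_sup_left this) (mem_sup_right x.2)

end Cfsg.Agent.S0080
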