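import Cfsg.Statements.S0081
import Cfsg.Agent.H1.Tate

set_option autoImplicit false
open Cfsg

namespace Cfsg.Agent.S0081

open CfsgH1 Subgroup
open scoped commutatorElement
set_option maxHeartbeats 400000

/-- If a normal subgroup meets a Sylow p-subgroup P inside the Frattini subgroup of P, then it has a normal p-complement. -/
theorem result {G : Type*} [Group G] [Finite G] {p : ℕ} [Fact p.Prime] (P : Sylow p G) (N : Subgroup G) [N.Normal] (h : N ⊓ (P : Subgroup G) ≤ (frattini P).map (P : Subgroup G).subtype) : Cfsg.HasNormalPComplement p N := by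
  have hP : IsSylowIn p (P : Subgroup G) ((P : Subgroup G) ⊔ N) := isSylowIn_of_le P le_sup_left
  have h1 : resIn p ((P : Subgroup G) ⊔ N) ≤ N := by
    refine resIn_le_of_pow_mem fun x hx => ?_
    obtain ⟨a, ha, b, hb, rfl⟩ := (CfsgH1.mem_sup_of_le_normalizer
      (by rw [normalizer_eq_top]; exact le_top)).mp hx
    obtain ⟨k, hk⟩ := isPGroup_iff_forall.mp P.isPGroup' a ha
    refine ⟨k, ?_⟩
    rw [← QuotientGroup.eq_one_iff, QuotientGroup.mk_pow, QuotientGroup.mk_mul,
      (QuotientGroup.eq_one_iff b).mpr hb, mul_one, ← QuotientGroup.mk_pow, hk, QuotientGroup.mk_one]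
  refine hasNormalPComplement_iff.mpr ((hP.pNil_of_le_frattini ?_).mono le_sup_right)
  exact le_trans (le_inf (inf_le_right.trans h1) inf_le_left) h

end Cfsg.Agent.S0081
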