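import Cfsg.Statements.S0082
import Cfsg.Agent.H1.Transfer

set_option autoImplicit false
open Cfsg

namespace Cfsg.Agent.S0082

open CfsgH1 Subgroup
open scoped commutatorElement

/-- With a cyclic Sylow p-subgroup, either there is a normal p-complement or the elements of order prime to p generate the whole group. -/
theorem result {G : Type*} [Group G] [Finite G] {p : ℕ} [Fact p.Prime] (P : Sylow p G) (hP : IsCyclic P) : Cfsg.HasNormalPComplement p G ∨ Cfsg.pResidual p G = ⊤ := by
  have hS := isSylowIn_top P
  have hc : (P : Subgroup G) ≤ centralizer ((P : Subgroup G) : Set G) :=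
    le_centralizer_self_of_comm hP.isMulCommutative
  rcases P.normalizer_le_centralizer_or_le_commutator with h | h
  · exact Or.inl (hasNormalPComplement_iff_top.mpr (hS.pNil_of_normalizer_le (inf_le_right.trans h)))
  · right
    have h2 := h.trans (commutator_le_resIn_sup hS)
    rw [commutator_eq_bot_iff_le_centralizer.mpr hc, bot_sup_eq] at h2
    have h3 := hS.sup_resIn
    rwa [sup_eq_right.mpr h2, resIn_top] at h3

end Cfsg.Agent.S0082
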