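import Cfsg.Statements.S0083
import Cfsg.Agent.H1.Transfer

set_option autoImplicit false
open Cfsg

namespace Cfsg.Agent.S0083

open CfsgH1 Subgroup
open scoped commutatorElement

/-- For an abelian Sylow p-subgroup P, a normal p-complement exists exactly when the normalizer of P is an internal direct product of P with some subgroup. -/
theorem result {G : Type*} [Group G] [Finite G] {p : ℕ} [Fact p.Prime] (P : Sylow p G) (hP : IsMulCommutative P) : Cfsg.HasNormalPComplement p G ↔ ∃ Q : Subgroup G, Q ≤ Subgroup.centralizer (P : Set G) ∧ Q ⊓ (P : Subgroup G) = ⊥ ∧ Q ⊔ (P : Subgroup G) = Subgroup.normalizer (P : Set G) := by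
  have hS := isSylowIn_top P
  have hc : (P : Subgroup G) ≤ centralizer ((P : Subgroup G) : Set G) :=
    le_centralizer_self_of_comm hP
  rw [hasNormalPComplement_iff_top]
  constructor
  · intro h
    have h1 : PNil p (normalizer ((P : Subgroup G) : Set G)) := h.mono le_top
    refine ⟨resIn p (normalizer ((P : Subgroup G) : Set G)),
      fun x hx => h1.mem_centralizer hS.pgroup le_normalizer hx (resIn_le _ hx), ?_, ?_⟩
    · rw [inf_comm]; exact h1.inf_eq_bot hS.pgroup
    · rw [sup_comm]; exact (isSylowIn_of_le P le_normalizer).sup_resIn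
  · rintro ⟨Q, h1, -, h2⟩
    exact hS.pNil_of_normalizer_le (inf_le_right.trans (h2.ge.trans (sup_le h1 hc)))

end Cfsg.Agent.S0083
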