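import Cfsg.Statements.S0084
import Cfsg.Agent.H1.Transfer

set_option autoImplicit false
open Cfsg

namespace Cfsg.Agent.S0084

open CfsgH1 Subgroup
open scoped commutatorElement

/-- A group whose Sylow 2-subgroups are Klein four-groups and whose order is prime to 3 has a normal 2-complement. -/
theorem result {G : Type*} [Group G] [Finite G] (T : Sylow 2 G) (hT : IsKleinFour T) (h3 : ¬ 3 ∣ Nat.card G) : Cfsg.HasNormalPComplement 2 G := by
  haveI : Fact (Nat.Prime 2) := Nat.fact_prime_two
  have hS := isSylowIn_top T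
  have h4 : Nat.card (T : Subgroup G) = 4 := hT.card_four
  refine hasNormalPComplement_iff_top.mpr (hS.pNil_of_card
    (le_centralizer_self_of_comm hT.isMulCommutative) fun r hr hr2 hd C hC h => ?_)
  rw [card_top] at hd
  have h1 := card_lt_of_lt hC
  have h2 := card_dvd_of_le hC.le
  rw [h4] at h h1 h2
  have h5 := (Nat.modEq_iff_dvd' h1.le).mp h.symm
  have hr3 : r ≠ 3 := fun e => h3 (e ▸ hd)
  generalize Nat.card C = c at h1 h2 h5
  have h6 := hr.two_le
  have h7 : r ≤ 4 - c := Nat.le_of_dvd (by omega) h5
  interval_cases c <;> omega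

end Cfsg.Agent.S0084
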