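import Cfsg.Statements.S0085
import Cfsg.Agent.H1.Transfer

set_option autoImplicit false
open Cfsg

namespace Cfsg.Agent.S0085

open CfsgH1 Subgroup
open scoped commutatorElement

/-- A group whose Sylow 2-subgroups are elementary abelian of order 8 and whose order is prime to 3 and to 7 has a normal 2-complement. -/
theorem result {G : Type*} [Group G] [Finite G] (T : Sylow 2 G) (h8 : Nat.card T = 8) (he : ∀ x : T, x * x = 1) (h3 : ¬ 3 ∣ Nat.card G) (h7 : ¬ 7 ∣ Nat.card G) : Cfsg.HasNormalPComplement 2 G := by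
  haveI : Fact (Nat.Prime 2) := Nat.fact_prime_two
  have hS := isSylowIn_top T
  have h4 : Nat.card (T : Subgroup G) = 8 := h8
  have hc : IsMulCommutative (T : Subgroup G) := ⟨⟨fun a b => by
    have h1 : ∀ x : (T : Subgroup G), x⁻¹ = x := fun x => inv_eq_of_mul_eq_one_right (he x)
    rw [← h1 (a * b), mul_inv_rev, h1, h1]⟩⟩
  refine hasNormalPComplement_iff_top.mpr (hS.pNil_of_card
    (le_centralizer_self_of_comm hc) fun r hr hr2 hd C hC h => ?_)
  rw [card_top] at hd
  have h1 := card_lt_of_lt hC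
  have h2 := card_dvd_of_le hC.le
  rw [h4] at h h1 h2
  have h5 := (Nat.modEq_iff_dvd' h1.le).mp h.symm
  have hr3 : r ≠ 3 := fun e => h3 (e ▸ hd)
  have hr7 : r ≠ 7 := fun e => h7 (e ▸ hd)
  generalize Nat.card C = c at h1 h2 h5
  have h6 := hr.two_le
  have h9 : r ≤ 8 - c := Nat.le_of_dvd (by omega) h5
  have h10 : r ≤ 8 := by omega
  interval_cases c <;> interval_cases r <;> first | omega | exact absurd hr (by decide)

end Cfsg.Agent.S0085
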