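import Cfsg.Statements.S0087
import Cfsg.Agent.H1.Transfer

set_option autoImplicit false
open Cfsg

namespace Cfsg.Agent.S0087

open CfsgH1 Subgroup
open scoped commutatorElement

/-- A Hall subgroup that is central in its normalizer has a normal complement. -/
theorem result {G : Type*} [Group G] [Finite G] (H : Subgroup G) (hHall : Nat.Coprime (Nat.card H) H.index) (h : Subgroup.normalizer (H : Set G) ≤ Subgroup.centralizer (H : Set G)) : ∃ N : Subgroup G, N.Normal ∧ N.IsComplement' H := by
  have hc : H ≤ centralizer (H : Set G) := le_normalizer.trans h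
  refine exists_complement_of_forall_pNil hHall fun p hp hd => ?_
  obtain ⟨P, hP⟩ := exists_isSylowIn p H
  have hP' : IsSylowIn p P ⊤ := hP.trans_of_not_dvd le_top (by
    rw [relIndex_top_right]
    intro h2
    exact hp.out.one_lt.ne' (Nat.eq_one_of_dvd_coprimes hHall hd h2))
  refine hP'.pNil_of_normalizer_le fun g hg => ?_
  have h1 : H ≤ centralizer (P : Set G) := hc.trans (centralizer_le hP.le)
  obtain ⟨c, hc', e⟩ := exists_cj_eq_of_abelian_hall (K := centralizer (P : Set G)) (H' := cj g H) h1
    (cj_le_of_mem_normalizer (normalizer_le_normalizer_centralizer P hg.2) h1) hc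
    (by rw [← cj_centralizer]; exact cj_mono g hc) (card_cj g H)
    (hHall.coprime_dvd_right (relIndex_dvd_index_of_le h1))
  rw [cj_cj] at e
  exact ((centralizer (P : Set G)).mul_mem_cancel_left hc').mp
    (centralizer_le hP.le (h (mem_normalizer_iff_cj.mpr e)))

end Cfsg.Agent.S0087
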