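import Cfsg.Statements.S0089
import Cfsg.Agent.H1.Transfer

set_option autoImplicit false
open Cfsg

namespace Cfsg.Agent.S0089

open CfsgH1 Subgroup
open scoped commutatorElement

/-- When all Sylow subgroups are abelian, the derived subgroup meets the centre trivially. -/
theorem result {G : Type*} [Group G] [Finite G] (h : ∀ p : ℕ, p.Prime → ∀ P : Sylow p G, IsMulCommutative P) : commutator G ⊓ Subgroup.center G = ⊥ := by
  rw [← card_eq_one]
  by_contra hne
  obtain ⟨r, hr, hd⟩ := Nat.exists_prime_and_dvd hne
  haveI := Fact.mk hr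
  obtain ⟨R, hR⟩ := exists_isSylowIn r (_root_.commutator G ⊓ center G)
  obtain ⟨P, hP⟩ := hR.pgroup.exists_le_sylow
  have := inf_commutator_inf_center_eq_bot (h r hr P) P.card_coprime_index
  rw [inf_assoc] at this
  exact hR.eq_bot_iff.mp (le_bot_iff.mp (this ▸ le_inf hP hR.le)) hd

end Cfsg.Agent.S0089
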