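import Cfsg.Statements.S0091
import Cfsg.Agent.H1.PNil

set_option autoImplicit false
open Cfsg

namespace Cfsg.Agent.S0091

open CfsgH1 Subgroup

/-- If a nontrivial Sylow p-subgroup controls its own fusion then it is not contained in the derived subgroup. -/
theorem result {G : Type*} [Group G] [Finite G] {p : ℕ} [Fact p.Prime] (P : Sylow p G) (hp : p ∣ Nat.card G) (h : ∀ x ∈ P, ∀ y ∈ P, (∃ g : G, g * x * g⁻¹ = y) → ∃ z ∈ P, z * x * z⁻¹ = y) : ¬ (P : Subgroup G) ≤ commutator G := by
  intro hle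
  have h1 := (isSylowIn_top P).inf_commutator_le_of_fusion (M := P)
    fun x hx g _ hxg => h x hx _ hxg ⟨g, rfl⟩
  refine commutator_lt_of_isNilpotent P.2.isNilpotent le_rfl (P.ne_bot_of_dvd_card hp) ?_
  exact le_trans (le_inf le_rfl hle) h1

end Cfsg.Agent.S0091
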