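import Cfsg.Statements.S0092
import Cfsg.Agent.H1.Tate

set_option autoImplicit false
open Cfsg

namespace Cfsg.Agent.S0092

open CfsgH1 Subgroup
open scoped commutatorElement
set_option maxHeartbeats 400000

open scoped IsMulCommutative

/-- If the Sylow p-subgroups of O^p(G) are abelian then G splits over O^p(G). -/
theorem result {G : Type*} [Group G] [Finite G] {p : ℕ} [Fact p.Prime] (h : ∀ Q : Sylow p (Cfsg.pResidual p G), IsMulCommutative Q) : ∃ K : Subgroup G, K.IsComplement' (Cfsg.pResidual p G) := by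
  classical
  obtain ⟨P⟩ : Nonempty (Sylow p G) := inferInstance
  have hP := isSylowIn_top P
  set K := Cfsg.pResidual p G with hK
  have hT : IsSylowIn p ((P : Subgroup G) ⊓ K) K := isSylowIn_inf_normal P K
  set T := (P : Subgroup G) ⊓ K with hTd
  haveI : IsMulCommutative T := by
    have := h hT.toSylow
    rw [← hT.map_toSylow]
    infer_instance
  have hn : (P : Subgroup G) ≤ normalizer (T : Set G) := fun m hm => by
    rw [mem_normalizer_iff_cj, cj_inf, cj_eq_of_mem hm, cj_normal]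
  let θ : G → T := fun g => if h : g ∈ T then ⟨g, h⟩ else 1
  have hθ : ∀ g (h : g ∈ T), θ g = ⟨g, h⟩ := fun g h => dif_pos h
  have hKP : K ⊔ P = ⊤ := by rw [sup_comm, hK, ← resIn_top]; exact hP.sup_resIn
  obtain ⟨w, hw1, hw2⟩ := exists_crossed_transfer (K := K) (P := P) hKP θ
    (fun x => (CfsgH2.conjAut hn x).toMonoidHom)
    (fun a ha b hb => by rw [hθ a ha, hθ b hb, hθ _ (mul_mem ha hb)]; rfl)
    (fun x t ht => by
      rw [hθ t ht, hθ _ (CfsgH2.conj_mem_of_le_normalizer hn x.2 ht)]; rfl)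
    (fun v hv k hk => eq_one_of_mul_on_resIn hT.pgroup v hv k
      (by rwa [hK, ← resIn_top, resIn_resIn, resIn_top]))
  have hw0 : w 1 = 1 := by
    have := hw1 1 1 (one_mem _)
    simpa using this
  let C : Subgroup G :=
    { carrier := {x | x ∈ (P : Subgroup G) ∧ w x = 1}
      one_mem' := ⟨one_mem _, hw0⟩
      mul_mem' := fun {a b} ha hb => ⟨mul_mem ha.1 hb.1, by
        have := hw1 ⟨a, ha.1⟩ b hb.1
        rw [hb.2, map_one, mul_one] at this
        exact this.trans ha.2⟩
      inv_mem' := fun {a} ⟨ha1, ha2⟩ => ⟨inv_mem ha1, by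
        have := hw1 ⟨a, ha1⟩ a⁻¹ (inv_mem ha1)
        rw [mul_inv_cancel, hw0, ha2, one_mul] at this
        exact (map_eq_one_iff _ (CfsgH2.conjAut hn _).injective).mp this.symm⟩ }
  have hc : (Nat.card T).Coprime (P : Subgroup G).index :=
    by obtain ⟨k, hk⟩ := IsPGroup.iff_card.mp hT.pgroup
       rw [hk]
       exact Nat.Coprime.pow_left _ ((Nat.Prime.coprime_iff_not_dvd Fact.out).mpr P.not_dvd_index)
  refine ⟨C, (isComplement'_of_inf_sup ?_ ?_).symm⟩
  · rw [_root_.eq_bot_iff]
    rintro x ⟨h1, h2, h3⟩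
    have := hw2 x ⟨h2, h1⟩
    rw [h3, one_mul, hθ x ⟨h2, h1⟩] at this
    have h4 := (powCoprime hc).injective (this.trans (one_pow _).symm)
    exact congrArg Subtype.val h4
  · rw [eq_top_iff, ← hKP]
    refine sup_le le_sup_left fun x hx => ?_
    obtain ⟨t, ht⟩ := (powCoprime hc).surjective (w x)
    have h1 : (t : G) * x ∈ C := ⟨mul_mem t.2.1 hx, by
      have h2 := hw1 ⟨t, t.2.1⟩ x hx
      have h3 := hw2 t t.2
      rw [hθ t t.2] at h3
      have h4 : (CfsgH2.conjAut hn ⟨t, t.2.1⟩).toMonoidHom (w x) = w x :=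
        Subtype.ext (congrArg Subtype.val (show t * w x * t⁻¹ = w x by
          rw [mul_comm t, mul_inv_cancel_right]))
      rw [h4, ← ht] at h2
      exact h2.trans h3⟩
    rw [← inv_mul_cancel_left (t : G) x]
    exact mul_mem (mem_sup_left (inv_mem t.2.2)) (mem_sup_right h1)

end Cfsg.Agent.S0092
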