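import Cfsg.Statements.S0093
import Cfsg.Agent.H2.Critical

set_option autoImplicit false
open Cfsg

namespace Cfsg.Agent.S0093
open Subgroup CfsgH2 CfsgL0
open scoped commutatorElement



/-- Every finite p-group has a critical subgroup: a characteristic subgroup H whose Frattini subgroup and whose commutator with the whole group lie in the centre of H, and whose centralizer is contained in H. -/
theorem result {P : Type*} [Group P] [Finite P] {p : ℕ} [Fact p.Prime] (hP : IsPGroup p P) : ∃ H : Subgroup P, H.Characteristic ∧ (frattini H).map H.subtype ≤ Subgroup.centralizer (H : Set P) ∧ ⁅H, (⊤ : Subgroup P)⁆ ≤ H ⊓ Subgroup.centralizer (H : Set P) ∧ Subgroup.centralizer (H : Set P) ≤ H := by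
  obtain ⟨H, hH⟩ := exists_isCritical hP
  refine ⟨H, hH.char, ?_, ?_, hH.centralizer_le⟩
  · exact frattiniOf_le_of (p := p) (fun x hx y _ => (hH.comm_mem x hx y).2) hH.pow_mem
  · rw [commutator_le]
    exact fun x hx g _ => hH.comm_mem x hx g

end Cfsg.Agent.S0093
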