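import Cfsg.Statements.S0094
import Cfsg.Agent.H2.Critical

set_option autoImplicit false
open Cfsg

namespace Cfsg.Agent.S0094
open Subgroup CfsgH2 CfsgL0
open scoped commutatorElement



/-- In a special p-group every central element has order dividing p. -/
theorem result {P : Type*} [Group P] [Finite P] {p : ℕ} [Fact p.Prime] (h : Cfsg.IsSpecial p P) (z : P) (hz : z ∈ Subgroup.center P) : z ^ p = 1 := by
  obtain ⟨hP, h1, h2⟩ := h
  rw [← h2, commutator_eq_closure] at hz
  have hc : ∀ x y : P, ⁅x, y⁆ ∈ center P := fun x y => h2 ▸ comm_mem_commutator x y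
  have key : ∀ z ∈ Subgroup.closure (commutatorSet P), z ∈ center P ∧ z ^ p = 1 := by
    intro z hz
    induction hz using Subgroup.closure_induction with
    | mem x hx =>
      obtain ⟨a, b, rfl⟩ := hx
      refine ⟨hc a b, ?_⟩
      rw [← comm_pow_left (mem_center_iff.mp (hc a b) a), comm_eq_one_iff]
      exact (show Commute b (a ^ p) from mem_center_iff.mp (h1 ▸ pow_mem_frattini hP a) b).symm
    | one => simp
    | mul x y _ _ hx hy =>
      refine ⟨mul_mem hx.1 hy.1, ?_⟩
      rw [Commute.mul_pow (mem_center_iff.mp hy.1 x), hx.2, hy.2, one_mul]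
    | inv x _ hx => exact ⟨inv_mem hx.1, by rw [inv_pow, hx.2, inv_one]⟩
  exact (key z hz).2

end Cfsg.Agent.S0094
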