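import Cfsg.Statements.S0097
import Cfsg.Agent.H2.Omega

set_option autoImplicit false
open Cfsg

namespace Cfsg.Agent.S0097
open Subgroup CfsgH2 CfsgL0
open scoped commutatorElement



/-- For odd p and E extraspecial, the subgroup generated by the elements of order dividing p has exponent dividing p and index at most p. -/
theorem result {E : Type*} [Group E] [Finite E] {p : ℕ} [Fact p.Prime] (hp : p ≠ 2) (h : Cfsg.IsExtraspecial p E) : (Subgroup.closure {x : E | x ^ p = 1}).index ≤ p ∧ ∀ g ∈ Subgroup.closure {x : E | x ^ p = 1}, g ^ p = 1 := by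
  obtain ⟨⟨hP, h1, h2⟩, h3⟩ := h
  have hcl : ⁅commutator E, (⊤ : Subgroup E)⁆ = ⊥ :=
    commutator_top_right_eq_bot_iff_le_center.mpr h2.le
  refine ⟨?_, omega_exp_class_two hp hcl⟩
  have hz : ∀ x y : E, ⁅x, y⁆ ∈ center E := comm_mem_center_of_class_two hcl
  let f : E →* center E := MonoidHom.mk' (fun x => ⟨x ^ p, h1 ▸ pow_mem_frattini hP x⟩)
    (fun x y => Subtype.ext (mul_pow_of_class_two hp (commute_of_mem_center (hz _ _) _)
      (commute_of_mem_center (hz _ _) _) (by
        have := pow_card_eq_one' (x := (⟨_, hz y x⟩ : center E))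
        rw [h3] at this
        exact congrArg Subtype.val this)))
  have hle : f.ker ≤ Subgroup.closure {x : E | x ^ p = 1} := fun x hx =>
    subset_closure (congrArg Subtype.val (show f x = 1 from hx))
  refine (index_antitone hle).trans ?_
  rw [index_ker, ← h3]
  exact Nat.card_le_card_of_injective _ f.range.subtype_injective

end Cfsg.Agent.S0097
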