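import Cfsg.Statements.S0099
import Cfsg.Agent.H2.Extra2

set_option autoImplicit false
open Cfsg

namespace Cfsg.Agent.S0099
open Subgroup CfsgH2 CfsgL0
open scoped commutatorElement



/-- Among three extraspecial 2-groups of equal order, some two are isomorphic. -/
theorem result {E₁ : Type*} {E₂ : Type*} {E₃ : Type*} [Group E₁] [Group E₂] [Group E₃] [Finite E₁] [Finite E₂] [Finite E₃] (h₁ : Cfsg.IsExtraspecial 2 E₁) (h₂ : Cfsg.IsExtraspecial 2 E₂) (h₃ : Cfsg.IsExtraspecial 2 E₃) (h12 : Nat.card E₁ = Nat.card E₂) (h23 : Nat.card E₂ = Nat.card E₃) : Nonempty (E₁ ≃* E₂) ∨ Nonempty (E₂ ≃* E₃) ∨ Nonempty (E₁ ≃* E₃) := by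
  obtain ⟨m₁, -, c₁, s₁⟩ := extraspecial_two_count h₁
  obtain ⟨m₂, -, c₂, s₂⟩ := extraspecial_two_count h₂
  obtain ⟨m₃, -, c₃, s₃⟩ := extraspecial_two_count h₃
  obtain rfl : m₁ = m₂ := by
    have := Nat.pow_right_injective le_rfl (c₁.symm.trans (h12.trans c₂)); omega
  obtain rfl : m₁ = m₃ := by
    have := Nat.pow_right_injective le_rfl (c₂.symm.trans (h23.trans c₃)); omega
  by_cases e12 : Nat.card {x : E₁ // x ^ 2 = 1} = Nat.card {x : E₂ // x ^ 2 = 1}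
  · exact Or.inl (extraspecial_two_iso h₁ h₂ h12 e12)
  by_cases e23 : Nat.card {x : E₂ // x ^ 2 = 1} = Nat.card {x : E₃ // x ^ 2 = 1}
  · exact Or.inr (Or.inl (extraspecial_two_iso h₂ h₃ h23 e23))
  exact Or.inr (Or.inr (extraspecial_two_iso h₁ h₃ (h12.trans h23) (by omega)))

end Cfsg.Agent.S0099
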