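import Cfsg.Statements.S0102
import Cfsg.Agent.H1.Transfer

set_option autoImplicit false
open Cfsg

namespace Cfsg.Agent.S0102

open CfsgH1 Subgroup
open scoped commutatorElement

/-- A finite perfect group with cyclic Sylow p-subgroups has no perfect central extension whose kernel has order divisible by p. -/
theorem result {G : Type*} {H : Type*} [Group G] [Group H] [Finite G] [Finite H] (hG : commutator G = ⊤) {p : ℕ} [Fact p.Prime] (hcyc : ∀ P : Sylow p G, IsCyclic P) (σ : H →* G) (hσ : Function.Surjective σ) (hz : σ.ker ≤ Subgroup.center H) (hH : commutator H = ⊤) : ¬ p ∣ Nat.card σ.ker := by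
  intro hd
  obtain ⟨R, hR⟩ := exists_isSylowIn p σ.ker
  obtain ⟨P, hP⟩ := hR.pgroup.exists_le_sylow
  have h1 := (isSylowIn_top P).map_top hσ
  haveI : IsCyclic ((P : Subgroup H).map σ) := hcyc h1.sylow
  have hc : IsMulCommutative (P : Subgroup H) :=
    MonoidHom.isMulCommutative_of_isCyclic_of_ker_le_center (σ.subgroupMap P) fun x hx =>
      mem_center_iff.mpr fun y => Subtype.ext (mem_center_iff.mp
        (hz (congrArg Subtype.val hx : σ x = 1)) y)
  have := inf_commutator_inf_center_eq_bot hc P.card_coprime_index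
  rw [hH, inf_top_eq] at this
  exact hR.eq_bot_iff.mp (le_bot_iff.mp (this ▸ le_inf hP (hR.le.trans hz))) hd

end Cfsg.Agent.S0102
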