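import Cfsg.Statements.S0104
import Cfsg.Agent.H1.Transfer

set_option autoImplicit false
open Cfsg

namespace Cfsg.Agent.S0104

open CfsgH1 Subgroup
open scoped commutatorElement

/-- A subgroup Z of a Sylow p-subgroup P that is normalized by N_G(P) is weakly closed in P exactly when it is normal in every Sylow p-subgroup containing it. -/
theorem result {G : Type*} [Group G] [Finite G] {p : ℕ} [Fact p.Prime] (P : Sylow p G) (Z : Subgroup G) (hZP : Z ≤ (P : Subgroup G)) (hZN : Subgroup.normalizer (P : Set G) ≤ Subgroup.normalizer (Z : Set G)) : Cfsg.IsWeaklyClosed Z P ↔ ∀ R : Sylow p G, Z ≤ (R : Subgroup G) → (R : Subgroup G) ≤ Subgroup.normalizer (Z : Set G) := by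
  have hS := isSylowIn_top P
  constructor
  · intro h R hR x hx
    obtain ⟨g, -, e⟩ := (isSylowIn_top R).exists_cj_eq hS
    have h1 : cj g Z = Z := h.2 g (e ▸ cj_mono g hR)
    have h2 := (le_normalizer.trans hZN) (e ▸ conj_mem_cj g hx)
    change g * x * g⁻¹ ∈ normalizer (Z : Set G) at h2
    rwa [← h1, ← cj_normalizer, conj_mem_cj_iff] at h2
  · intro h
    refine ⟨hZP, fun g hg => ?_⟩
    obtain ⟨m, hm, e⟩ := hS.exists_mul_mem_normalizer (M := normalizer (Z : Set G)) (mem_top g)
      (le_normalizer.trans hZN) (by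
        rw [← cj_sylow]
        exact h _ (by rw [cj_sylow]; exact cj_le_iff_le_cj_inv.mp hg))
    exact cj_eq_of_mem_normalizer (((normalizer (Z : Set G)).mul_mem_cancel_right hm.2).mp (hZN e))

end Cfsg.Agent.S0104
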