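import Cfsg.Statements.S0105
import Cfsg.Agent.H1.Transfer

set_option autoImplicit false
open Cfsg

namespace Cfsg.Agent.S0105

open CfsgH1 Subgroup
open scoped commutatorElement
set_option maxHeartbeats 400000

/-- With an abelian Sylow p-subgroup P, some quotient of G is isomorphic to the part of P central in N_G(P). -/
theorem result {G : Type*} [Group G] [Finite G] {p : ℕ} [Fact p.Prime] (P : Sylow p G) (hP : IsMulCommutative P) : ∃ (N : Subgroup G) (hN : N.Normal), Nonempty (G ⧸ N ≃* ((P : Subgroup G) ⊓ Subgroup.centralizer (Subgroup.normalizer (P : Set G) : Set G) : Subgroup G)) := by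
  have hS := isSylowIn_top P
  have hc := le_centralizer_self_of_comm hP
  have h1 := hS.inf_resIn_of_comm hc
  rw [top_inf_eq] at h1
  obtain ⟨h2, h3⟩ := (isSylowIn_of_le P le_normalizer).commutator_sup_centralizer le_rfl hc
  have h4 : (resIn p ⊤).IsComplement' ((P : Subgroup G) ⊓
      centralizer (normalizer ((P : Subgroup G) : Set G) : Set G)) := by
    refine isComplement'_of_inf_sup ?_ ?_
    · rw [← inf_assoc, inf_comm (resIn p ⊤), h1, h3]
    · refine eq_top_iff.mpr (hS.sup_resIn.ge.trans (sup_le ?_ le_sup_left))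
      exact h2.ge.trans (sup_le_sup_right (h1.ge.trans inf_le_right) _)
  exact ⟨resIn p ⊤, resIn_normal ⊤, ⟨h4.symm.QuotientMulEquiv⟩⟩

end Cfsg.Agent.S0105
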