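import Cfsg.Statements.S0107
import Cfsg.Agent.H1.Invol
import Cfsg.Agent.S0111

set_option autoImplicit false
open Cfsg

namespace Cfsg.Agent.S0107

open CfsgH1 Subgroup
open scoped commutatorElement
set_option maxHeartbeats 400000

/-- A finite group with no nontrivial 2-group quotient and dihedral Sylow 2-subgroups of order at least 8 has a single class of involutions. -/
theorem result {G : Type*} [Group G] [Finite G] (T : Sylow 2 G) (n : ℕ) (hn : 2 ≤ n) (hT : Nonempty ((T : Subgroup G) ≃* DihedralGroup (2 ^ n))) (hO : Cfsg.pResidual 2 G = ⊤) (x y : G) (hx : orderOf x = 2) (hy : orderOf y = 2) : ∃ g : G, g * x * g⁻¹ = y := by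
  obtain ⟨e⟩ := hT
  haveI : NeZero (2 ^ n) := ⟨by positivity⟩
  let Q₀ : Subgroup (T : Subgroup G) := (zpowers (DihedralGroup.r 1)).comap e.toMonoidHom
  let Q := Q₀.map (T : Subgroup G).subtype
  have hQ₀ : Q₀.index = 2 := by
    rw [index_comap_of_surjective _ e.surjective]
    have h1 := (zpowers (DihedralGroup.r (1 : ZMod (2 ^ n)))).card_mul_index
    rw [Nat.card_zpowers, DihedralGroup.orderOf_r_one, DihedralGroup.nat_card, mul_comm] at h1
    exact Nat.eq_of_mul_eq_mul_right (NeZero.pos _) h1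
  have hc : IsCyclic Q := by
    have : Q = zpowers ((e.symm (DihedralGroup.r 1) : (T : Subgroup G)) : G) := by
      change Subgroup.map _ (Subgroup.comap e.symm.symm.toMonoidHom _) = _
      rw [← map_equiv_eq_comap_symm' e.symm, MonoidHom.map_zpowers, MonoidHom.map_zpowers]
      rfl
    rw [this]
    infer_instance
  have key : ∀ x : G, orderOf x = 2 → ∃ g : G, g * x * g⁻¹ ∈ Q := by
    intro x hx
    obtain ⟨g, -, hg⟩ := (isSylowIn_top T).exists_cj_le (isPGroup_zpowers (x := x) (k := 1)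
      (by rw [pow_one, ← hx, pow_orderOf_eq_one])) le_top
    have h1 := hg (conj_mem_cj g (mem_zpowers x))
    by_cases h2 : g * x * g⁻¹ ∈ Q
    · exact ⟨g, h2⟩
    rcases Cfsg.Agent.S0111.result T Q (map_subtype_le _)
      (by rw [relIndex, subgroupOf, comap_map_eq_self_of_injective (T : Subgroup G).subtype_injective, hQ₀])
      _ ((MulAut.conj g).orderOf_eq x ▸ hx) h1 h2 with ⟨M, _, h3, h4⟩ | ⟨h, h3⟩
    · refine absurd (pResidual_le_of_isPGroup_quotient (p := 2) M
        (IsPGroup.of_card (n := 1) (by rw [← index_eq_card, h3, pow_one])) ?_) h4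
      rw [hO]; exact mem_top _
    · exact ⟨h * g, by simpa [mul_assoc] using h3⟩
  have h2 : ∀ x g : G, orderOf x = 2 → g * x * g⁻¹ * (g * x * g⁻¹) = 1 ∧ g * x * g⁻¹ ≠ 1 := by
    intro x g hx
    have : orderOf (g * x * g⁻¹) = 2 := (MulAut.conj g).orderOf_eq x ▸ hx
    exact ⟨by rw [← pow_two, ← this, pow_orderOf_eq_one], fun e => by simp [e] at this⟩
  obtain ⟨g, hg⟩ := key x hx
  obtain ⟨h, hh⟩ := key y hy
  have := eq_of_mul_self_of_mem_isCyclic hc hg hh (h2 x g hx).1 (h2 y h hy).1 (h2 x g hx).2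
    (h2 y h hy).2
  exact ⟨h⁻¹ * g, by
    calc _ = h⁻¹ * (g * x * g⁻¹) * h := by group
      _ = y := by rw [this]; group⟩

end Cfsg.Agent.S0107
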