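import Cfsg.Statements.S0109
import Cfsg.Agent.H3.ZJApp

set_option autoImplicit false
open Cfsg

namespace Cfsg.Agent.S0109

/-- The Thompson factorization Theorem for solvable groups states that, with p odd (and abelian Sylow 2-subgroups when p = 3) and no nontrivial normal subgroup of order prime to p, every element of G is a product of an element normalizing J(P) and an element centralizing the elements of order dividing p in the centre of P. -/
theorem result {G : Type*} [Group G] [Finite G] {p : ℕ} [Fact p.Prime] (hp : p ≠ 2) (hs : Group.IsSolvable G) (h3 : p = 3 → ∀ T : Sylow 2 G, IsMulCommutative T) (hF : ∀ N : Subgroup G, N.Normal → Nat.Coprime (Nat.card N) p → N = ⊥) (P : Sylow p G) (g : G) : ∃ a ∈ Subgroup.normalizer (Cfsg.thompsonSubgroupOf p (P : Subgroup G) : Set G), ∃ c ∈ Subgroup.centralizer {x : G | x ∈ (P : Subgroup G) ∧ (∀ y ∈ (P : Subgroup G), x * y = y * x) ∧ x ^ p = 1}, g = a * c := by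
  have h1 : ¬ CfsgH3.IsSec (CfsgH3.QD p) G := by
    by_cases h : p = 3
    · exact CfsgH3.not_isSec_QD_of_abSyl hp (CfsgH3.abSyl_of_sylow (h3 h))
    · refine CfsgH3.not_isSec_QD_of_isSolvable ?_
      have := (Fact.out : p.Prime).two_le
      omega
  have h0 : Cfsg.pPrimeCore p G = ⊥ := hF _ inferInstance
    ((Nat.Prime.coprime_iff_not_dvd Fact.out).mpr (CfsgL0.not_dvd_card_pPrimeCore G p)).symm
  obtain ⟨a, ha, c, hc, e⟩ := CfsgH3.thompson_factorization' (CfsgH1.isSylowIn_top P)
    ((CfsgH3.pStab_of_not_isSec hp h1).nStab _)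
    (CfsgL0.centralizer_pCore_le (CfsgL0.isPSolvable_of_isSolvable hs) h0) g
  rw [CfsgH3.thompsonSubgroupOf_eq]
  exact ⟨a, ha, c, fun x hx => hc x ⟨hx.1, fun y hy => (hx.2.1 y hy).symm⟩, e⟩

end Cfsg.Agent.S0109
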