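import Cfsg.Statements.S0110
import Cfsg.Agent.H2.Extraspecial

set_option autoImplicit false
open Cfsg

namespace Cfsg.Agent.S0110
open Subgroup CfsgH2 CfsgL0
open scoped commutatorElement



/-- In a p-group G, an extraspecial subgroup E with [G, E] ≤ Z(E) satisfies G = E C_G(E). -/
theorem result {G : Type*} [Group G] [Finite G] {p : ℕ} [Fact p.Prime] (hG : IsPGroup p G) (E : Subgroup G) (hE : Cfsg.IsExtraspecial p E) (h : ⁅(⊤ : Subgroup G), E⁆ ≤ E ⊓ Subgroup.centralizer (E : Set G)) : E ⊔ Subgroup.centralizer (E : Set G) = ⊤ := by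
  have hc : ∀ g : G, ∀ x ∈ E, ⁅g, x⁆ ∈ E ⊓ centralizer (E : Set G) := fun g x hx =>
    h (commutator_mem_commutator (mem_top g) hx)
  have : E.Normal := ⟨fun x hx g => by
    have := mul_mem (hc g x hx).1 hx
    rwa [commutatorElement_def, inv_mul_cancel_right] at this⟩
  have hcard := CfsgH2.IsExtraspecial.card_inf_centralizer hE
  obtain ⟨z, hzE, hz1, hzp, hz⟩ := exists_central_order_p hG (N := E ⊓ centralizer (E : Set G))
    (by rw [← one_lt_card_iff_ne_bot, hcard]; exact (Fact.out : p.Prime).one_lt)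
  have e : zpowers z = E ⊓ centralizer (E : Set G) := eq_of_le_of_card_ge (zpowers_le.mpr hzE)
    (by rw [hcard, card_zpowers_of_pow_eq_one hz1 hzp])
  obtain ⟨w, hw, hs⟩ := CfsgH2.IsExtraspecial.exists_sympl_subgroup hE (e ▸ zpowers_le.mpr hz)
  rw [eq_top_iff]
  intro g _
  obtain ⟨k, hk, hgk⟩ := hs.exists_mul_mem_centralizer (g := g) (fun k hk => hw ▸ hc g k hk)
  have := mul_mem (mem_sup_right (S := E) hgk) (mem_sup_left (inv_mem hk))
  rwa [mul_inv_cancel_right] at this

end Cfsg.Agent.S0110
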