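import Cfsg.Statements.S0113
import Cfsg.Agent.H2.MaxClass

set_option autoImplicit false
open Cfsg

namespace Cfsg.Agent.S0113
open Subgroup CfsgH2 CfsgL0
open scoped commutatorElement



/-- A 2-group of maximal class contains a cyclic subgroup of index 2. -/
theorem result {X : Type*} [Group X] [Finite X] (n : ℕ) (hn : 3 ≤ n) (hX : Nat.card X = 2 ^ n) (hc : Group.nilpotencyClass X = n - 1) : ∃ C : Subgroup X, IsCyclic C ∧ C.index = 2 := by
  obtain ⟨n, rfl⟩ := Nat.exists_eq_add_of_le' hn
  obtain ⟨a, ha⟩ := exists_zpowers_index_two n X hX (index_commutator_of_maxClass hX hc).1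
  exact ⟨zpowers a, inferInstance, ha⟩

end Cfsg.Agent.S0113
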