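import Cfsg.Statements.S0115
import Cfsg.Agent.H2.MaxClass

set_option autoImplicit false
open Cfsg

namespace Cfsg.Agent.S0115
open Subgroup CfsgH2 CfsgL0
open scoped commutatorElement



/-- A 2-group of order 2^n, n ≥ 3, is of maximal class exactly when its commutator quotient is a Klein four-group. -/
theorem result {X : Type*} [Group X] [Finite X] (n : ℕ) (hn : 3 ≤ n) (hX : Nat.card X = 2 ^ n) : Group.nilpotencyClass X = n - 1 ↔ IsKleinFour (X ⧸ commutator X) := by
  obtain ⟨n, rfl⟩ := Nat.exists_eq_add_of_le' hn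
  constructor
  · intro hc
    obtain ⟨h1, h2⟩ := index_commutator_of_maxClass hX hc
    exact ⟨h1, (not_isCyclic_iff_exponent_eq_prime Nat.prime_two h1).mp h2⟩
  · intro h
    obtain ⟨a, b, h⟩ := exists_maxTwo hX h.card_four
    exact h.nilpotencyClass

end Cfsg.Agent.S0115
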