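import Cfsg.Statements.S0122
import Cfsg.Agent.H2.Card

set_option autoImplicit false
open Cfsg

namespace Cfsg.Agent.S0122
open Subgroup CfsgH2 CfsgL0
open scoped commutatorElement

theorem claimA {G : Type*} [Group G] [Finite G] {p : ℕ} [hp : Fact p.Prime] (hG : IsPGroup p G)
    {Z Z₂ Z₁ : Subgroup G} [Z.Normal] [Z₂.Normal] (hZ : Cfsg.IsElementaryAbelian p Z)
    (hZc : Nat.card Z = p ^ 3) (hZ₂c : Nat.card Z₂ = p ^ 2) (hZ₁c : Nat.card Z₁ = p)
    (hO : ∀ x ∈ centralizer (Z : Set G), x ^ p = 1 → x ∈ Z) {s t : G}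
    (ht : Z₂ ⊔ zpowers t = Z) (ht' : ∀ g : G, ⁅t, g⁆ ∈ Z₂)
    (hs : Z₁ ⊔ zpowers s = Z₂) (hs' : ∀ g : G, ⁅s, g⁆ ∈ Z₁) (h1 : Z₁ ≤ center G)
    (F : Subgroup G) (hF : Cfsg.IsElementaryAbelian p F) (hFc : Nat.card F = p ^ 4) :
    Nat.card (F ⊓ centralizer (Z : Set G) : Subgroup G) = p ^ 2 ∧
      F ⊔ centralizer (Z : Set G) = centralizer (Z₂ : Set G) := by
  have hpp := hp.out.pos
  have hZ₂Z : Z₂ ≤ Z := ht ▸ le_sup_left
  have hFF : F ≤ centralizer (F : Set G) := le_centralizer_iff_isMulCommutative.mpr hF.1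
  set W := F ⊓ centralizer (Z : Set G) with hW
  have hWZ : W ≤ Z := fun x hx => hO x hx.2 (hF.2 x hx.1)
  have hWne : W ≠ Z := fun h => by
    have h2 : F ≤ centralizer (Z : Set G) := hFF.trans (centralizer_le (h ▸ fun x hx => hx.1))
    rw [inf_eq_left.mpr h2] at hW
    rw [← hW, h, hZc] at hFc
    have := Nat.pow_right_injective hp.out.two_le hFc
    omega
  have hWc : Nat.card W ≤ p ^ 2 := by
    have := card_mul_le_of_lt (hG.to_subgroup Z) (lt_of_le_of_ne hWZ hWne)
    rw [hZc, pow_succ] at this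
    exact Nat.le_of_mul_le_mul_right this hpp
  have hC2 : centralizer (Z₂ : Set G) = centralizer {s} := by
    rw [← hs, centralizer_sup, centralizer_zpowers, centralizer_eq_top_iff_subset.mpr h1, top_inf_eq]
  have hC : centralizer (Z : Set G) = centralizer (Z₂ : Set G) ⊓ centralizer {t} := by
    rw [← ht, centralizer_sup, centralizer_zpowers]
  have hFC : F ≤ centralizer (Z₂ : Set G) := by
    by_contra hne
    set F₂ := F ⊓ centralizer (Z₂ : Set G) with hF₂
    have e1 : Nat.card F ≤ Nat.card F₂ * p := by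
      rw [← card_inf_mul_relIndex F (centralizer (Z₂ : Set G)), hC2, ← hZ₁c]
      rw [hF₂, hC2]
      exact Nat.mul_le_mul_left _ (relIndex_centralizer_le fun c _ => comm_mem_symm (hs' c))
    have e2 : Nat.card F₂ ≤ Nat.card W * Nat.card (Z₂ ⊓ centralizer (F : Set G) : Subgroup G) := by
      rw [← card_inf_mul_relIndex F₂ (centralizer {t}), hW, hC, ← inf_assoc]
      refine Nat.mul_le_mul_left _ (relIndex_centralizer_le fun c hc =>
        ⟨comm_mem_symm (ht' c), fun f hf => ?_⟩)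
      have hu : ⁅f, t⁆ ∈ Z₂ := comm_mem_symm (ht' f)
      have a1 : f * c * f⁻¹ = c := by rw [hFF hc.1 f hf, mul_inv_cancel_right]
      have a2 : f * t * f⁻¹ = ⁅f, t⁆ * t := by simp [commutatorElement_def]
      have a3 : ⁅c, ⁅f, t⁆⁆ = 1 := comm_eq_one_iff.mpr (show Commute ⁅f, t⁆ c from hc.2 _ hu).symm
      have a4 : Commute ⁅f, t⁆ ⁅c, t⁆ :=
        isMulCommutative_iff.mp hZ.1 _ (hZ₂Z hu) _ (hZ₂Z (comm_mem_symm (ht' c)))
      have : f * ⁅c, t⁆ * f⁻¹ = ⁅c, t⁆ := by
        rw [conjugate_commutatorElement, a1, a2, comm_mul_right_of_commute a4, a3, one_mul]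
      exact mul_inv_eq_iff_eq_mul.mp this
    have e3 : Nat.card (Z₂ ⊓ centralizer (F : Set G) : Subgroup G) ≤ p := by
      have := card_mul_le_of_lt (hG.to_subgroup Z₂) (H := Z₂ ⊓ centralizer (F : Set G))
        (lt_of_le_not_ge inf_le_left fun h => hne (le_centralizer_iff.mp (h.trans inf_le_right)))
      rw [hZ₂c, sq] at this
      exact Nat.le_of_mul_le_mul_right this hpp
    have e4 : p ^ 2 ≤ Nat.card W := by
      have : p ^ 2 * (p * p) ≤ Nat.card W * (p * p) := by
        calc p ^ 2 * (p * p) = Nat.card F := by rw [hFc]; ring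
          _ ≤ Nat.card W * p * p :=
            e1.trans (Nat.mul_le_mul_right _ (e2.trans (Nat.mul_le_mul_left _ e3)))
          _ = _ := by ring
      exact Nat.le_of_mul_le_mul_right this (Nat.mul_pos hpp hpp)
    have e5 : ¬ W ≤ Z₂ := fun h => by
      have := eq_of_le_of_card_ge h (hZ₂c ▸ e4)
      exact hne (hFF.trans (centralizer_le (this ▸ fun x hx => hx.1)))
    have e6 : Z₂ ⊔ W = Z := eq_of_lt_of_card_eq_mul (hG.to_subgroup Z)
      (lt_of_le_not_ge le_sup_left fun h => e5 (le_sup_right.trans h)) (sup_le hZ₂Z hWZ)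
      (by rw [hZc, hZ₂c, pow_succ p 2])
    have e7 : F₂ ≤ W := by
      refine le_inf inf_le_left ?_
      conv_rhs => rw [← e6, centralizer_sup]
      exact le_inf inf_le_right (inf_le_left.trans (hFF.trans (centralizer_le fun x hx => hx.1)))
    have e8 := e1.trans (Nat.mul_le_mul_right p ((card_le_of_le e7).trans hWc))
    rw [hFc, ← pow_succ, pow_le_pow_iff] at e8
    omega
  have b1 : (centralizer (Z : Set G)).relIndex (centralizer (Z₂ : Set G)) ≤ p ^ 2 := by
    rw [hC, inf_relIndex_left, ← hZ₂c]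
    exact relIndex_centralizer_le fun c _ => comm_mem_symm (ht' c)
  have b2 := card_inf_mul_relIndex F (centralizer (Z : Set G))
  refine ⟨le_antisymm hWc ?_, eq_of_le_of_card_ge (sup_le hFC (centralizer_le hZ₂Z)) ?_⟩
  · have b3 := (relIndex_le_of_le_right hFC index_ne_zero_of_finite).trans b1
    by_contra hlt
    have := Nat.mul_lt_mul_of_lt_of_le (not_le.mp hlt) b3 (pow_pos hpp 2)
    rw [b2, hFc, ← pow_add] at this
    exact lt_irrefl _ this
  rw [← card_mul_relIndex (le_sup_right : centralizer (Z : Set G) ≤ _), relIndex_sup_right,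
    ← card_mul_relIndex (centralizer_le hZ₂Z : centralizer (Z : Set G) ≤ _)]
  refine Nat.mul_le_mul_left _ ?_
  refine b1.trans ?_
  by_contra hlt
  have := Nat.mul_lt_mul_of_le_of_lt hWc (not_le.mp hlt) (pow_pos hpp 2)
  rw [b2, hFc, ← pow_add] at this
  exact lt_irrefl _ this

theorem aux {p : ℕ} [hp : Fact p.Prime] (hp2 : p ≠ 2) (n : ℕ) :
    ∀ (G : Type*) [Group G] [Finite G], IsPGroup p G → Nat.card G = n →
      ∀ E : Subgroup G, Cfsg.IsElementaryAbelian p E → Nat.card E = p ^ 4 →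
      ∃ A : Subgroup G, A.Normal ∧ Cfsg.IsElementaryAbelian p A ∧ Nat.card A = p ^ 4 := by
  induction n using Nat.strong_induction_on with
  | _ n ih =>
  intro G _ _ hG hn E₀ hE₀ hE₀c
  have hpp := hp.out.pos
  by_cases htop : E₀ = ⊤
  · exact ⟨E₀, htop ▸ inferInstance, hE₀, hE₀c⟩
  obtain ⟨M, hM, hEM⟩ := exists_isCoatom_ge htop
  have hMn := normal_of_isCoatom hG hM
  obtain ⟨E₁, hE₁n, hE₁, hE₁c⟩ := ih _ (hn ▸ card_lt_of_ne_top hM.1) M (hG.to_subgroup M) rfl
    (E₀.subgroupOf M) (isElementaryAbelian_subgroupOf hE₀ M) (by rwa [card_subgroupOf_of_le hEM])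
  set E := E₁.map M.subtype with hEdef
  have hE : Cfsg.IsElementaryAbelian p E := isElementaryAbelian_map hE₁ _
  have hEc : Nat.card E = p ^ 4 := by rwa [card_map_of_injective M.subtype_injective]
  have hME : M ≤ normalizer (E : Set G) := le_normalizer_map_subtype E₁
  have hEM' : E ≤ M := map_subtype_le _
  by_contra hcon
  obtain ⟨B, hBn, hB, hBc⟩ := exists_normal_elementary_three hp2 hG hE
    (by rw [hEc, pow_lt_pow_iff]; omega)
  obtain ⟨Z, hZn, hZ, hBZ, hmax⟩ := exists_maximal_normal_elementary B hB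
  have hZc : Nat.card Z = p ^ 3 := by
    by_contra hne
    have h1 := card_mul_le_of_lt (hG.to_subgroup Z) (lt_of_le_of_ne hBZ fun h => hne (h ▸ hBc))
    rw [hBc, ← pow_succ] at h1
    obtain ⟨L, h2, h3, h4⟩ := exists_normal_card hG 4 h1
    exact hcon ⟨L, h2, isElementaryAbelian_of_le h3 hZ, h4⟩
  obtain ⟨Z₂, hZ₂n, hZ₂Z, hZ₂c⟩ := exists_normal_card hG (N := Z) 2
    (by rw [hZc, pow_le_pow_iff]; omega)
  obtain ⟨z, hz2, hz1, hzp, hz⟩ := exists_central_order_p hG (N := Z₂) (by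
    rw [← one_lt_card_iff_ne_bot, hZ₂c]; exact Nat.one_lt_pow (by norm_num) hp.out.one_lt)
  have hZ₁n := normal_zpowers_of_mem_center hz
  have hZ₁c := card_zpowers_of_pow_eq_one hz1 hzp
  obtain ⟨t, -, -, -, ht', -, ht1, ht2⟩ := exists_normal_step hG hZ₂Z (fun h => by
    have := card_le_of_le h
    rw [hZc, hZ₂c, pow_le_pow_iff] at this; omega)
  have ht : Z₂ ⊔ zpowers t = Z := eq_of_le_of_card_ge ht1 (by rw [ht2, hZc, hZ₂c, pow_succ p 2])
  obtain ⟨s, -, -, -, hs', -, hs1, hs2⟩ := exists_normal_step hG (zpowers_le.mpr hz2) (fun h => by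
    have := card_le_of_le h
    rw [hZ₁c, hZ₂c] at this
    nlinarith [hp.out.two_le])
  have hs : zpowers z ⊔ zpowers s = Z₂ := eq_of_le_of_card_ge hs1 (by rw [hs2, hZ₁c, hZ₂c, sq])
  have hO : ∀ x ∈ centralizer (Z : Set G), x ^ p = 1 → x ∈ Z :=
    fun x hx hxp => mem_of_maximal_elementary hp2 hG hZ hmax hx hxp
  have A := claimA hG hZ hZc hZ₂c hZ₁c hO ht ht' hs hs' (zpowers_le.mpr hz)
  refine hcon ⟨E, normal_of_forall_cj fun g => ?_, hE, hEc⟩
  by_contra hne
  set F := cj g E with hFdef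
  have hF : Cfsg.IsElementaryAbelian p F := isElementaryAbelian_map hE _
  have hFc : Nat.card F = p ^ 4 := by rw [card_cj, hEc]
  have hMF : M ≤ normalizer (F : Set G) := cj_normal g M ▸ le_normalizer_cj hME g
  have hFM : F ≤ M := cj_normal g M ▸ cj_mono g hEM'
  have h1 : F ≤ E ⊔ Z := by
    intro f hf
    have : f ∈ E ⊔ centralizer (Z : Set G) := by
      rw [(A E hE hEc).2, ← (A F hF hFc).2]; exact mem_sup_left hf
    obtain ⟨e, he, c, hc, hec⟩ := (mem_sup_of_le_normalizer' le_normalizer_of_normal).mp this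
    have h2 : c = e⁻¹ * f := by rw [← hec]; group
    have h3 : ⁅f, e⁻¹⁆ ∈ F ⊓ E :=
      comm_mem_inf_of_normalizer hf (inv_mem he) (hME (hFM hf)) (hMF (hEM' (inv_mem he)))
    have h4 : c ^ p = 1 := by
      rw [h2]
      exact mul_pow_eq_one_of_class_two hp2 (isMulCommutative_iff.mp hE.1 _ (inv_mem he) _ h3.2)
        (isMulCommutative_iff.mp hF.1 _ hf _ h3.1) (hE.2 _ (inv_mem he)) (hF.2 _ hf)
    rw [← hec]
    exact mul_mem (mem_sup_left he) (mem_sup_right (hO c hc h4))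
  have h2 : Nat.card (E ⊔ Z : Subgroup G) ≤ p ^ 4 * p := by
    have b1 : E ⊓ centralizer (Z : Set G) ≤ E ⊓ Z :=
      fun x hx => ⟨hx.1, hO x hx.2 (hE.2 x hx.1)⟩
    have b2 := card_le_of_le b1
    have b3 := card_sup_mul_card_inf (H := E) (K := Z) le_normalizer_of_normal
    rw [(A E hE hEc).1] at b2
    rw [hEc, hZc] at b3
    by_contra hlt
    have := Nat.mul_lt_mul_of_lt_of_le (not_le.mp hlt) b2 Nat.card_pos
    rw [b3] at this
    exact absurd this (by rw [not_lt]; apply le_of_eq; ring)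
  have h3 : E ⊔ F = E ⊔ Z := eq_of_lt_of_card_eq_mul (hG.to_subgroup _)
    (lt_of_le_not_ge le_sup_left fun h => hne (eq_of_le_of_card_ge (le_sup_right.trans h)
      (by rw [hEc, hFc]))) (sup_le le_sup_left h1) (hEc ▸ h2)
  have h4 : E ⊓ F ≤ E ⊓ centralizer (Z : Set G) := by
    refine le_inf inf_le_left (le_trans ?_ (centralizer_le (show (Z : Set G) ⊆ (E ⊔ F : Subgroup G)
      from h3 ▸ fun x hx => mem_sup_right hx)))
    rw [centralizer_sup]
    exact inf_le_inf (le_centralizer_iff_isMulCommutative.mpr hE.1)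
      (le_centralizer_iff_isMulCommutative.mpr hF.1)
  have h5 := card_le_of_le h4
  rw [(A E hE hEc).1] at h5
  have h6 := card_sup_mul_card_inf (hEM'.trans hMF)
  have h7 := Nat.mul_le_mul h2 h5
  rw [← h3, h6, hEc, hFc, ← pow_succ, ← pow_add, ← pow_add, pow_le_pow_iff] at h7
  omega

/-- For odd p, a p-group containing an elementary abelian subgroup of order p^4 has a normal elementary abelian subgroup of order p^4. -/
theorem result {G : Type*} [Group G] [Finite G] {p : ℕ} [Fact p.Prime] (hp : p ≠ 2) (hG : IsPGroup p G) (E : Subgroup G) (hE : Cfsg.IsElementaryAbelian p E) (hE4 : Nat.card E = p ^ 4) : ∃ A : Subgroup G, A.Normal ∧ Cfsg.IsElementaryAbelian p A ∧ Nat.card A = p ^ 4 := by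
  exact aux hp _ G hG rfl E hE hE4

end Cfsg.Agent.S0122
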