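import Cfsg.Statements.S0125
import Cfsg.Agent.H1.Centric

set_option autoImplicit false
open Cfsg

namespace Cfsg.Agent.S0125

open CfsgH1 Subgroup
open scoped commutatorElement

/-- The centralizer of a self-centralizing normal subgroup A of a Sylow p-subgroup is the direct product of A with a normal p'-subgroup. -/
theorem result {G : Type*} [Group G] [Finite G] {p : ℕ} [Fact p.Prime] (R : Sylow p G) (A : Subgroup G) (hAR : A ≤ (R : Subgroup G)) (hAn : (R : Subgroup G) ≤ Subgroup.normalizer (A : Set G)) (hC : (R : Subgroup G) ⊓ Subgroup.centralizer (A : Set G) = A) : ∃ H : Subgroup G, H ≤ Subgroup.centralizer (A : Set G) ∧ Nat.Coprime (Nat.card H) p ∧ Subgroup.centralizer (A : Set G) ≤ Subgroup.normalizer (H : Set G) ∧ H ⊓ A = ⊥ ∧ H ⊔ A = Subgroup.centralizer (A : Set G) := by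
  have hS : IsSylowIn p (R : Subgroup G) ⊤ := isSylowIn_top R
  have h := isInternalDirectProduct_centralizer
    (isSylowIn_center_of_centric hS hAR (hS.fn_of_le_normalizer hAn) hC.le)
  have e : A ⊓ centralizer (A : Set G) = A := inf_of_le_left (hC.ge.trans inf_le_right)
  rw [e] at h
  exact ⟨_, h.2.1, CfsgL0.coprime_card_pPrimeCoreOf, CfsgL0.le_normalizer_pPrimeCoreOf,
    by rw [inf_comm, h.2.2.2.1], by rw [sup_comm, h.2.2.2.2]⟩

end Cfsg.Agent.S0125
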