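import Cfsg.Statements.S0131
import Cfsg.Agent.H1.Transfer
import Cfsg.Agent.S0080

set_option autoImplicit false
open Cfsg

namespace Cfsg.Agent.S0131

open CfsgH1 Subgroup
open scoped commutatorElement

/-- P/P' has a normal complement in G exactly when the focal subgroup G' ∩ P is as small as possible, namely P'. -/
theorem result {G : Type*} [Group G] [Finite G] {p : ℕ} [Fact p.Prime] (P : Sylow p G) : (∃ N : Subgroup G, N.Normal ∧ N ⊓ (P : Subgroup G) = ⁅(P : Subgroup G), (P : Subgroup G)⁆ ∧ N ⊔ (P : Subgroup G) = ⊤) ↔ commutator G ⊓ (P : Subgroup G) = ⁅(P : Subgroup G), (P : Subgroup G)⁆ := by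
  have hS := isSylowIn_top P
  constructor
  · rintro ⟨N, _, h1, h2⟩
    refine le_antisymm ?_ (le_inf (commutator_mono le_top le_top)
      ((commutator_le_sup _ _).trans_eq (sup_idem _)))
    rw [← h1]
    refine inf_le_inf_right _ ?_
    let π := QuotientGroup.mk' N
    have h3 : (P : Subgroup G).map π = ⊤ := by
      rw [← map_top_of_surjective π (QuotientGroup.mk'_surjective N), ← h2, Subgroup.map_sup,
        (Subgroup.map_eq_bot_iff N).mpr (QuotientGroup.ker_mk' N).ge, bot_sup_eq]
    rw [← QuotientGroup.ker_mk' N, ← Subgroup.map_eq_bot_iff, commutator_def, map_commutator,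
      map_top_of_surjective _ (QuotientGroup.mk'_surjective N), ← h3, ← map_commutator,
      Subgroup.map_eq_bot_iff, QuotientGroup.ker_mk', ← h1]
    exact inf_le_left
  · intro h
    obtain ⟨-, N, h1, h2, h3⟩ := Cfsg.Agent.S0080.result (P : Subgroup G)
      (P.card_coprime_index.symm.coprime_dvd_right (relIndex_dvd_card _ _))
    exact ⟨N, h1, h2.trans h, h3⟩

end Cfsg.Agent.S0131
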