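import Cfsg.Statements.S0132
import Cfsg.Agent.H1.Misc

set_option autoImplicit false
open Cfsg

namespace Cfsg.Agent.S0132

open CfsgH1 Subgroup
open scoped commutatorElement
set_option maxHeartbeats 400000

theorem exists_pair {G : Type*} [Group G] [Finite G] {p : ℕ} [Fact p.Prime] {H : Subgroup G}
    (h : ¬ PNil p H) : ∃ (U R : Subgroup G) (r : ℕ) (_ : Fact r.Prime), r ≠ p ∧ U ≤ H ∧ R ≤ H ∧
      IsPGroup p U ∧ IsPGroup r R ∧ R ≤ normalizer (U : Set G) ∧ ¬ R ≤ centralizer (U : Set G) := by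
  obtain ⟨S, hS⟩ := exists_isSylowIn p H
  obtain ⟨U, hU, g, hg, h1, h2, h3⟩ := hS.exists_automizer_of_not_pNil h
  by_contra hcon
  refine h3 (le_of_forall_isSylowIn (H := zpowers g) (fun r _ hr => ?_) (mem_zpowers g))
  obtain ⟨R, hR⟩ := exists_isSylowIn r (zpowers g)
  refine ⟨R, hR, by_contra fun hn => hcon ⟨U, R, r, inferInstance, ?_, hU.trans hS.le,
    hR.le.trans (zpowers_le.mpr hg), hS.pgroup.to_le hU, hR.pgroup,
    hR.le.trans (zpowers_le.mpr h1), hn⟩⟩
  rintro rfl
  rw [Nat.card_zpowers] at hr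
  exact (Nat.Prime.coprime_iff_not_dvd Fact.out).mp h2.symm hr

/-- A minimal non-p-nilpotent finite group is a minimal non-nilpotent group with a normal Sylow p-subgroup. -/
theorem result {G : Type*} [Group G] [Finite G] {p : ℕ} [Fact p.Prime] (h1 : ¬ Cfsg.HasNormalPComplement p G) (h2 : ∀ H : Subgroup G, H ≠ ⊤ → Cfsg.HasNormalPComplement p H) : (∀ H : Subgroup G, H ≠ ⊤ → Group.IsNilpotent H) ∧ ¬ Group.IsNilpotent G ∧ ∀ P : Sylow p G, (P : Subgroup G).Normal := by
  rw [hasNormalPComplement_iff_top] at h1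
  simp only [hasNormalPComplement_iff] at h2
  obtain ⟨U, R, r, _, hr, -, -, hU, hR, h3, h4⟩ := exists_pair h1
  have hRp : ¬ p ∣ Nat.card R := fun h => by
    obtain ⟨k, hk⟩ := IsPGroup.iff_card.mp hR
    rw [hk] at h
    exact hr ((Nat.prime_dvd_prime_iff_eq Fact.out Fact.out).mp
      ((Fact.out : p.Prime).dvd_of_dvd_pow h)).symm
  have htop : U ⊔ R = ⊤ := by
    by_contra hne
    exact h4 fun x hx => (h2 _ hne).mem_centralizer hU le_sup_left
      (mem_resIn (mem_sup_right hx) (coprime_orderOf_of_mem hRp hx)) (h3 hx)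
  haveI : U.Normal := normalizer_eq_top_iff.mp (eq_top_iff.mpr (htop.ge.trans
    (sup_le le_normalizer h3)))
  have hUs : IsSylowIn p U ⊤ := by
    refine ⟨le_top, hU, fun h => hRp (h.trans ?_)⟩
    rw [← htop, sup_comm, CfsgH1.relIndex_sup_of_le_normalizer h3]
    exact relIndex_dvd_card U R
  refine ⟨fun H hH => ?_, fun hN => h1 ?_, fun P => ?_⟩
  · have hT : IsSylowIn p (U ⊓ H) H := ⟨inf_le_right, hU.to_le inf_le_left, fun h => hUs.not_dvd (by
      rw [inf_relIndex_right] at h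
      exact h.trans (CfsgL0.relIndex_dvd_of_le_of_normal U le_top))⟩
    have hK : IsPGroup r (resIn p H) := isPGroup_iff_forall.mpr fun x hx => by
      obtain ⟨a, ha, b, hb, rfl⟩ := (mem_sup_of_le_normalizer' h3).mp (htop.ge (mem_top x))
      obtain ⟨k, hk⟩ := isPGroup_iff_forall.mp hR b hb
      refine ⟨k, mem_bot.mp (((h2 H hH).inf_eq_bot hU).le ⟨?_, pow_mem hx _⟩)⟩
      change _ ∈ U
      rw [← QuotientGroup.eq_one_iff, QuotientGroup.mk_pow, QuotientGroup.mk_mul,
        (QuotientGroup.eq_one_iff a).mpr ha, one_mul, ← QuotientGroup.mk_pow, hk,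
        QuotientGroup.mk_one]
    haveI := CfsgL0.normal_subgroupOf_of_le_normalizer (le_normalizer_resIn (p := p) H)
    have := CfsgL0.isNilpotent_sup_of_normal (U.subgroupOf H) ((resIn p H).subgroupOf H)
      (hU.comap_subtype (K := H)).isNilpotent (hK.comap_subtype (K := H)).isNilpotent
    rw [← inf_subgroupOf_right, ← subgroupOf_sup inf_le_right (resIn_le H), hT.sup_resIn,
      subgroupOf_self] at this
    exact Group.isNilpotent_top.mp this
  · refine pNil_of_pow_mem (not_dvd_card_pPrimeCore (p := p)) fun x _ => ?_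
    obtain ⟨a, ha, b, hb, rfl⟩ := (CfsgH1.mem_sup_of_le_normalizer le_normalizer_of_normal).mp
      ((CfsgL0.pCore_sup_pPrimeCore p).ge (mem_top x))
    obtain ⟨k, hk⟩ := isPGroup_iff_forall.mp (CfsgL0.isPGroup_pCore G p) a ha
    refine ⟨k, ?_⟩
    rw [← QuotientGroup.eq_one_iff, QuotientGroup.mk_pow, QuotientGroup.mk_mul,
      (QuotientGroup.eq_one_iff b).mpr hb, mul_one, ← QuotientGroup.mk_pow, hk,
      QuotientGroup.mk_one]
  · obtain ⟨g, -, hg⟩ := hUs.exists_cj_eq (isSylowIn_top P)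
    rw [← hg, cj_normal]
    infer_instance

end Cfsg.Agent.S0132
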