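import Cfsg.Statements.S0218
import Cfsg.Agent.H4.Isolated

set_option autoImplicit false
open Cfsg

namespace Cfsg.Agent.S0218

open CfsgH4

/-- The generalized quaternion group of order 2^(n+3) contains exactly one element of order 2. -/
theorem result (n : ℕ) : Nat.card {x : QuaternionGroup (2 ^ (n + 1)) // orderOf x = 2} = 1 := by
  have : NeZero (2 ^ (n + 1)) := ⟨by positivity⟩
  rw [Nat.card_eq_one_iff_exists]
  have h1 : orderOf (QuaternionGroup.a ((2 ^ (n + 1) : ℕ) : ZMod (2 * 2 ^ (n + 1)))) = 2 := by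
    rw [← QuaternionGroup.xa_sq 0, orderOf_pow' _ (by decide), QuaternionGroup.orderOf_xa]
    decide
  refine ⟨⟨_, h1⟩, ?_⟩
  rintro ⟨i | i, hi⟩
  · apply Subtype.ext
    have hm : ∀ j : ZMod (2 * 2 ^ (n + 1)), QuaternionGroup.a j ∈
        Subgroup.zpowers (QuaternionGroup.a 1 : QuaternionGroup (2 ^ (n + 1))) := by
      intro j
      rw [← ZMod.natCast_zmod_val j, ← QuaternionGroup.a_one_pow]
      exact Subgroup.npow_mem_zpowers _ _
    exact involution_unique_zpowers (hm _) (hm _) hi h1
  · rw [QuaternionGroup.orderOf_xa] at hi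
    omega

end Cfsg.Agent.S0218
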