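import Cfsg.Statements.S0201
import Cfsg.Agent.H4.ZStar
import Cfsg.Agent.S0218

set_option autoImplicit false
open Cfsg

namespace Cfsg.Agent.S0201

open CfsgH4 Subgroup

/-- Brauer–Suzuki Theorem: if a Sylow 2-subgroup of a finite group is generalized quaternion (of order at least 8) and the group has no nontrivial normal subgroup of odd order, then its centre has order 2. -/
theorem result {G : Type*} [Group G] [Finite G] (S : Sylow 2 G) (n : ℕ) (e : (S : Subgroup G) ≃* QuaternionGroup (2 ^ (n + 1))) (hO : ∀ N : Subgroup G, N.Normal → Odd (Nat.card N) → N = ⊥) : Nat.card (Subgroup.center G) = 2 := by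
  obtain ⟨⟨q, hq⟩, hu⟩ := Nat.card_eq_one_iff_exists.1 (Cfsg.Agent.S0218.result n)
  have huniq : ∀ s ∈ S, orderOf s = 2 → s = (e.symm q).1 := by
    intro s hs h
    have := congrArg Subtype.val (hu ⟨e ⟨s, hs⟩, by rw [MulEquiv.orderOf_eq, ← orderOf_coe, h]⟩)
    simp only at this
    rw [← this, MulEquiv.symm_apply_apply]
  set z : G := (e.symm q).1 with hz
  have hz2 : orderOf z = 2 := by rw [hz, orderOf_coe, MulEquiv.orderOf_eq, hq]
  have h1 : ∀ g, z * g * z⁻¹ * g⁻¹ ∈ pPrimeCore 2 G :=
    zstar (mul_self_of_orderOf hz2) (isol_of_commute hz2 fun w h hc =>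
      isolated_of_commute S hz2 (fun g hg => huniq _ hg (by rw [orderOf_conj', hz2])) h hc)
  rw [hO _ inferInstance odd_card_pPrimeCore] at h1
  have hzc : z ∈ center G := mem_center_iff.2 fun g => by
    have := mem_bot.1 (h1 g)
    rw [mul_inv_eq_one, mul_inv_eq_iff_eq_mul] at this
    exact this.symm
  have h2 : center G = zpowers z := by
    refine le_antisymm ?_ (zpowers_le.2 hzc)
    intro c hc
    have hnorm : ∀ d ∈ center G, (zpowers d).Normal := fun d hd => normal_zpowers_iff.2 fun g => by
      rw [mem_center_iff.1 hd g]; simp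
    obtain ⟨k, m, hm, hkm⟩ := Nat.exists_eq_two_pow_mul_odd (orderOf_pos c).ne'
    have h3 : c ^ 2 ^ k = 1 := by
      have h4 := hO _ (hnorm _ (pow_mem hc (2 ^ k))) (by
        rw [Nat.card_zpowers]
        refine hm.of_dvd_nat (orderOf_dvd_of_pow_eq_one ?_)
        rw [← pow_mul, ← hkm, pow_orderOf_eq_one])
      exact zpowers_eq_bot.1 h4
    have := hnorm c hc
    have hcS : c ∈ S := (isPGroup_zpowers_of_pow h3).le_sylow_of_normal S (mem_zpowers c)
    have h5 : c * c = 1 := by
      have : NeZero (2 ^ (n + 1)) := ⟨by positivity⟩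
      have h6 : ∀ y, y * e ⟨c, hcS⟩ = e ⟨c, hcS⟩ * y := by
        intro y
        obtain ⟨y, rfl⟩ := e.surjective y
        rw [← map_mul, ← map_mul]
        exact congrArg e (Subtype.ext (mem_center_iff.1 hc y))
      have h7 : e ⟨c, hcS⟩ * e ⟨c, hcS⟩ = 1 := by
        generalize e ⟨c, hcS⟩ = y at h6
        rcases y with i | i
        · have := h6 (.xa 0)
          simp only [QuaternionGroup.xa_mul_a, QuaternionGroup.a_mul_xa, zero_add, zero_sub,
            QuaternionGroup.xa.injEq] at this
          rw [QuaternionGroup.a_mul_a]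
          nth_rewrite 1 [this]
          rw [neg_add_cancel]; rfl
        · exfalso
          have := h6 (.a 1)
          simp only [QuaternionGroup.xa_mul_a, QuaternionGroup.a_mul_xa,
            QuaternionGroup.xa.injEq] at this
          have h8 : ((2 : ℕ) : ZMod (2 * 2 ^ (n + 1))) = 0 := by
            push_cast; linear_combination -this
          rw [ZMod.natCast_eq_zero_iff] at h8
          have h9 := Nat.le_of_dvd two_pos h8
          have : 0 < 2 ^ n := by positivity
          rw [pow_succ] at h9
          omega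
      rw [← map_mul, map_eq_one_iff _ e.injective] at h7
      exact congrArg Subtype.val h7
    by_cases h8 : c = 1
    · rw [h8]; exact one_mem _
    · rw [huniq c hcS (CfsgH4.orderOf_eq_two_iff.2 ⟨h5, h8⟩)]; exact mem_zpowers _
  rw [h2, Nat.card_zpowers, hz2]

end Cfsg.Agent.S0201
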