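import Cfsg.Statements.S0203
import Cfsg.Agent.H4.StrEmb

set_option autoImplicit false
open Cfsg

namespace Cfsg.Agent.S0203

open CfsgH4

/-- If a Sylow 2-subgroup P of a finite group G is a Klein four-group, then G has three classes of involutions if and only if P has a normal complement in G. -/
theorem result {G : Type*} [Group G] [Finite G] (P : Sylow 2 G) (hP : IsKleinFour (P : Subgroup G)) : Nat.card {C : ConjClasses G // ∃ t : G, orderOf t = 2 ∧ ConjClasses.mk t = C} = 3 ↔ ∃ N : Subgroup G, N.Normal ∧ Subgroup.IsComplement' N (P : Subgroup G) := by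
  have := IsKleinFour.isMulCommutative (G := (P : Subgroup G))
  constructor
  · intro h3
    have h : ∀ a ∈ P, ∀ b ∈ P, IsConj a b → a = b := by
      by_contra h
      push Not at h
      obtain ⟨a, ha, b, hb, h1, h2⟩ := h
      rw [kleinFour_classes_one P hP ha hb h2 h1] at h3
      omega
    have h4 : Subgroup.normalizer (P : Set G) ≤ Subgroup.centralizer (P : Set G) := by
      intro n hn a ha
      have := h a ha _ ((Subgroup.mem_set_normalizer_iff.1 hn a).1 ha) (isConj_iff.2 ⟨n, rfl⟩)
      nth_rewrite 1 [this]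
      simp
    exact ⟨_, inferInstance, MonoidHom.ker_transferSylow_isComplement' P h4⟩
  · rintro ⟨N, hN, hc⟩
    apply kleinFour_classes_three P hP
    intro a ha b hb hab
    obtain ⟨g, rfl⟩ := isConj_iff.1 hab
    obtain ⟨⟨n, x⟩, rfl⟩ := hc.2 g
    simp only at hb ⊢
    have h1 : (x : G) * a * (x : G)⁻¹ = a := by
      rw [setLike_mul_comm (s := (P : Subgroup G)) x.2 ha]; simp
    have h2 : (n : G) * x * a * ((n : G) * x)⁻¹ = n * a * (n : G)⁻¹ := by
      nth_rewrite 2 [← h1]; group
    rw [h2] at hb ⊢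
    have h3 : (n : G) * a * (n : G)⁻¹ * a⁻¹ ∈ N ⊓ (P : Subgroup G) := by
      refine Subgroup.mem_inf.2 ⟨?_, (P : Subgroup G).mul_mem hb ((P : Subgroup G).inv_mem ha)⟩
      rw [mul_assoc, mul_assoc, ← mul_assoc a]
      exact mul_mem n.2 (hN.conj_mem _ (inv_mem n.2) a)
    rw [disjoint_iff.1 hc.disjoint, Subgroup.mem_bot] at h3
    exact (mul_inv_eq_one.1 h3).symm

end Cfsg.Agent.S0203
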