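import Cfsg.Statements.S0204
import Cfsg.Agent.L0.OddOrder
import Cfsg.Agent.S0225

set_option autoImplicit false
open Cfsg

namespace Cfsg.Agent.S0204

/-- A non-cyclic finite simple group contains a subgroup which is a Klein four-group; this combines the Odd Order Theorem, Burnside's transfer argument for cyclic Sylow 2-subgroups and the Brauer–Suzuki Theorem. -/
theorem result {G : Type*} [Group G] [Finite G] [IsSimpleGroup G] (hG : ¬ IsCyclic G) : ∃ E : Subgroup G, IsKleinFour E := by
  by_contra hE
  push_neg at hE
  have hcomm : (∀ a b : G, a * b = b * a) → False := fun h => by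
    letI : CommGroup G := { mul_comm := h }
    exact hG inferInstance
  rcases Nat.even_or_odd (Nat.card G) with he | ho
  · obtain ⟨z, hz, N, hN, hodd, h⟩ := Cfsg.Agent.S0225.result he hE
    rcases hN.eq_bot_or_eq_top with rfl | rfl
    · have hc : z ∈ Subgroup.center G := Subgroup.mem_center_iff.2 fun g => by
        have := Subgroup.mem_bot.1 (h g)
        calc g * z = (z * g * z⁻¹ * g⁻¹) * (g * z) := by rw [this, one_mul]
          _ = z * g := by group
      rcases (Subgroup.center G).normal_of_characteristic.eq_bot_or_eq_top with h0 | h0
      · rw [h0, Subgroup.mem_bot] at hc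
        simp [hc] at hz
      · exact hcomm fun a b => Subgroup.mem_center_iff.1 (h0 ▸ Subgroup.mem_top b) a
    · rw [Subgroup.card_top] at hodd
      exact Nat.not_even_iff_odd.2 hodd he
  · exact hcomm (IsSimpleGroup.comm_iff_isSolvable.2 (CfsgL0.odd_solvable ho))

end Cfsg.Agent.S0204
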