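import Cfsg.Statements.S0208
import Cfsg.Agent.H4.Dihedral

set_option autoImplicit false
open Cfsg

namespace Cfsg.Agent.S0208

open CfsgH4

/-- If x, y are involutions and xy has odd order, then some element of the subgroup generated by x and y conjugates x to y. -/
theorem result {G : Type*} [Group G] [Finite G] (x y : G) (hx : orderOf x = 2) (hy : orderOf y = 2) (hodd : Odd (orderOf (x * y))) : ∃ d ∈ Subgroup.closure ({x, y} : Set G), d * x * d⁻¹ = y := by
  have h1 := mul_self_of_orderOf hx
  have h2 := mul_self_of_orderOf hy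
  obtain ⟨n, hn⟩ := dih_conj_of_odd h1 h2 hodd
  refine ⟨((x * y) ^ n)⁻¹, Subgroup.inv_mem _ ((dih_mem_closure h1 h2 _).2
    ⟨n, Or.inl (zpow_natCast _ _).symm⟩), ?_⟩
  generalize (x * y) ^ n = w at hn
  rw [← hn]; simp [mul_assoc]

end Cfsg.Agent.S0208
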