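import Cfsg.Statements.S0210
import Cfsg.Agent.H4.Dihedral

set_option autoImplicit false
open Cfsg

namespace Cfsg.Agent.S0210

open CfsgH4

/-- If x, y are involutions whose product has even order, no element of the subgroup generated by x and y conjugates x to y. -/
theorem result {G : Type*} [Group G] [Finite G] (x y : G) (hx : orderOf x = 2) (hy : orderOf y = 2) (heven : Even (orderOf (x * y))) (d : G) (hd : d ∈ Subgroup.closure ({x, y} : Set G)) : d * x * d⁻¹ ≠ y := by
  have h1 := mul_self_of_orderOf hx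
  have h2 := mul_self_of_orderOf hy
  intro h
  obtain ⟨n, hn⟩ := (dih_conj_iff h1 h2 y).1 ⟨d, hd, h⟩
  have h3 := dih_right_eq h1 h2
  have h4 : (x * y) ^ (2 * n) = (x * y) ^ (-1 : ℤ) := mul_right_cancel (hn.symm.trans h3)
  rw [zpow_eq_zpow_iff_modEq] at h4
  obtain ⟨m, hm⟩ := heven
  rw [hm] at h4
  have := (Int.ModEq.of_dvd (m := 2) ⟨m, by push_cast; ring⟩ h4).dvd
  omega

end Cfsg.Agent.S0210
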