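import Cfsg.Statements.S0211
import Cfsg.Agent.H4.Dihedral

set_option autoImplicit false
open Cfsg

namespace Cfsg.Agent.S0211

open CfsgH4

/-- Let x, y be involutions with xy of even order n and z = (xy)^(n/2). Then xz is conjugate to x by an element of the subgroup generated by x, y if and only if 4 divides n. -/
theorem result {G : Type*} [Group G] [Finite G] (x y : G) (hx : orderOf x = 2) (hy : orderOf y = 2) (heven : Even (orderOf (x * y))) : (∃ d ∈ Subgroup.closure ({x, y} : Set G), d * x * d⁻¹ = x * (x * y) ^ (orderOf (x * y) / 2)) ↔ 4 ∣ orderOf (x * y) := by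
  have h1 := mul_self_of_orderOf hx
  have h2 := mul_self_of_orderOf hy
  have h3 := orderOf_pow_half heven (orderOf_pos _).ne'
  have h4 := dih_commute_left h1 h2 (Subgroup.npow_mem_zpowers _ _) (mul_self_of_orderOf h3)
  rw [dih_conj_iff h1 h2, ← h4.eq]
  simp only [mul_left_inj]
  obtain ⟨m, hm⟩ := heven
  have h5 : orderOf (x * y) / 2 = m := by omega
  rw [h5]
  simp only [← zpow_natCast, zpow_eq_zpow_iff_modEq]
  rw [hm]
  constructor
  · rintro ⟨n, hn⟩
    have := (Int.ModEq.of_dvd (m := 2) ⟨m, by push_cast; ring⟩ hn).dvd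
    omega
  · rintro ⟨k, hk⟩
    exact ⟨k, by rw [show (m : ℤ) = 2 * k by omega]⟩

end Cfsg.Agent.S0211
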