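import Cfsg.Statements.S0212
import Cfsg.Agent.H4.SimpleIdx

set_option autoImplicit false
open Cfsg

namespace Cfsg.Agent.S0212

open CfsgH4

/-- The Brauer–Fowler bound: if G is a finite simple group and t an involution of G whose centralizer has order n, then |G| ≤ (2n^2)!. -/
theorem result {G : Type*} [Group G] [Finite G] [IsSimpleGroup G] (t : G) (ht : orderOf t = 2) : Nat.card G ≤ Nat.factorial (2 * (Nat.card (Subgroup.centralizer ({t} : Set G))) ^ 2) := by
  have hc : 2 ≤ Nat.card (Subgroup.centralizer ({t} : Set G)) := by
    have := card_involutions_commute_lt t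
    have h1 := invPairs_add_one ht
    omega
  by_cases hgt : 2 < Nat.card G
  · obtain ⟨H, hH, hmax⟩ := exists_max_proper_subgroup (G := G)
    have h3 := brauer_fowler_ineq _ hmax (simple_involution_not_central hgt)
      (simple_no_index_two hgt)
    refine (Nat.le_of_dvd (Nat.factorial_pos _) (card_dvd_factorial_of_simple hH)).trans
      (Nat.factorial_le ?_)
    have h5 := H.index_mul_card
    have h6 := card_isConj_mul_card_centralizer t
    have h8 : Nat.card {y : G // IsConj t y} ≤ Nat.card {t : G // orderOf t = 2} :=
      card_subtype_mono fun y hy => (orderOf_eq_of_isConj hy).symm.trans ht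
    have h9 : 0 < Nat.card H := Nat.card_pos
    have h10 : Nat.card G ≤ Nat.card {t : G // orderOf t = 2} *
        Nat.card (Subgroup.centralizer ({t} : Set G)) := by
      rw [← h6]; exact Nat.mul_le_mul_right _ h8
    have h11 := Nat.mul_le_mul_left H.index h3
    rw [← mul_assoc H.index (Nat.card H), h5] at h11
    generalize H.index = j at *
    generalize Nat.card (Subgroup.centralizer ({t} : Set G)) = c at *
    generalize Nat.card {t : G // orderOf t = 2} = m at *
    generalize Nat.card G = g at *
    have hm : 0 < m := by
      rcases Nat.eq_zero_or_pos m with rfl | h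
      · omega
      · exact h
    have h12 : j * (2 * m ^ 2) ≤ (m * c) * (m * c + m * c) := by
      calc j * (2 * m ^ 2) ≤ j * (2 * m ^ 2 + 2 * m + Nat.card H) := by gcongr; omega
        _ ≤ g * (g + m) := h11
        _ ≤ _ := by gcongr; nlinarith
    have h13 : j * (2 * m ^ 2) ≤ c ^ 2 * (2 * m ^ 2) := by nlinarith
    have := Nat.le_of_mul_le_mul_right h13 (by positivity)
    omega
  · refine le_trans ?_ (Nat.self_le_factorial _)
    nlinarith

end Cfsg.Agent.S0212
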