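import Cfsg.Statements.S0216
import Cfsg.Agent.H4.Isolated

set_option autoImplicit false
open Cfsg

namespace Cfsg.Agent.S0216

open CfsgH4

/-- For an involution u in a Sylow 2-subgroup P of a finite group G, the following are equivalent: no G-conjugate of u other than u lies in P; every commutator of u with an element of G has odd order. -/
theorem result {G : Type*} [Group G] [Finite G] (P : Sylow 2 G) (u : G) (hu : orderOf u = 2) (huP : u ∈ P) : (∀ g : G, g * u * g⁻¹ ∈ P → g * u * g⁻¹ = u) ↔ (∀ g : G, Odd (orderOf (u * g * u⁻¹ * g⁻¹))) := by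
  have h0 := inv_eq_of_orderOf hu
  constructor
  · intro hiso g
    rw [h0, mul_assoc, mul_assoc, ← mul_assoc g]
    exact odd_orderOf_mul_of_isolated hu (fun w h1 h2 => isolated_of_commute P hu hiso h1 h2)
      (isConj_iff.2 ⟨g, rfl⟩)
  · intro h g hg
    have h1 := h g
    rw [h0, mul_assoc, mul_assoc, ← mul_assoc g] at h1
    obtain ⟨k, hk⟩ := IsPGroup.iff_orderOf.1 P.2 ⟨_, mul_mem huP hg⟩
    rw [← Subgroup.orderOf_coe] at hk
    simp only at hk
    rw [hk] at h1
    rcases k with _ | k
    · rw [pow_zero, orderOf_eq_one_iff] at hk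
      rw [← h0]
      nth_rewrite 1 [h0]
      exact (eq_inv_of_mul_eq_one_right hk)
    · exact absurd h1 (by simp [pow_succ])

end Cfsg.Agent.S0216
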