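import Cfsg.Statements.S0217
import Cfsg.Agent.H2.Sig7

set_option autoImplicit false
open Cfsg

namespace Cfsg.Agent.S0217
open Subgroup CfsgH2 CfsgL0
open scoped commutatorElement



/-- The solvable signalizer functor Theorem. Let A be an elementary abelian p-subgroup of rank at least 3 of a finite group G, and for each nontrivial a in A let θ a be an A-invariant solvable subgroup of C(a) of order prime to p, such that θ a ∩ C(b) ≤ θ b for all nontrivial a, b in A (balance). Then the subgroup generated by all the θ a has order prime to p and meets C(a) in exactly θ a for each nontrivial a in A. -/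
theorem result {G : Type*} [Group G] [Finite G] {p : ℕ} [Fact p.Prime] (A : Subgroup G) (hAcomm : ∀ a ∈ A, ∀ b ∈ A, a * b = b * a) (hAexp : ∀ a ∈ A, a ^ p = 1) (hArank : p ^ 3 ≤ Nat.card A) (θ : G → Subgroup G) (hθC : ∀ a ∈ A, a ≠ 1 → θ a ≤ Subgroup.centralizer {a}) (hθp : ∀ a ∈ A, a ≠ 1 → ¬ p ∣ Nat.card (θ a)) (hθinv : ∀ a ∈ A, a ≠ 1 → ∀ b ∈ A, ∀ x ∈ θ a, b * x * b⁻¹ ∈ θ a) (hθsolv : ∀ a ∈ A, a ≠ 1 → Group.IsSolvable (θ a)) (hbal : ∀ a ∈ A, a ≠ 1 → ∀ b ∈ A, b ≠ 1 → θ a ⊓ Subgroup.centralizer {b} ≤ θ b) : ¬ p ∣ Nat.card ↥(⨆ a : {a : G // a ∈ A ∧ a ≠ 1}, θ a) ∧ ∀ a ∈ A, a ≠ 1 → (⨆ b : {a : G // a ∈ A ∧ a ≠ 1}, θ b) ⊓ Subgroup.centralizer {a} = θ a := by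
  obtain ⟨n, hn⟩ := CfsgFT.exists_EA_of_isElementaryAbelian (p := p) (A := A)
    ⟨CfsgH2.isMulCommutative_iff.2 hAcomm, hAexp⟩
  obtain ⟨B, hBA, hB⟩ := hn.exists_le (m := 3) ((Nat.pow_le_pow_iff_right
    (Fact.out : p.Prime).one_lt).1 (hn.card ▸ hArank))
  obtain ⟨W, -, h1, -, e, h2⟩ := CfsgSig.solv_sft hn.comm hBA hB hθC hθp
    (fun a ha a1 b hb => mem_normalizer_of_conj_mem (hθinv a ha a1 b hb)) hθsolv hbal
  exact e ▸ ⟨h1, h2⟩

end Cfsg.Agent.S0217
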