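import Cfsg.Statements.S0220
import Cfsg.Agent.H4.Isolated

set_option autoImplicit false
open Cfsg

namespace Cfsg.Agent.S0220

open CfsgH4

/-- If x is an involution of a finite group G and a Sylow 2-subgroup of the centralizer of x is cyclic, then G has a subgroup of index 2; in particular G is not simple unless it has order 2. -/
theorem result {G : Type*} [Group G] [Finite G] (x : G) (hx : orderOf x = 2) (S : Sylow 2 ↥(Subgroup.centralizer ({x} : Set G))) (hS : IsCyclic (S : Subgroup ↥(Subgroup.centralizer ({x} : Set G)))) : ∃ H : Subgroup G, H.index = 2 := by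
  set S' := (S : Subgroup (Subgroup.centralizer ({x} : Set G))).map
    (Subgroup.centralizer ({x} : Set G)).subtype with hS'
  have hc : IsCyclic S' := isCyclic_of_surjective _
    (Subgroup.equivMapOfInjective _ _ (Subgroup.subtype_injective _)).surjective
  have hx' : x ∈ S' := mem_sylow_of_central S (Subgroup.mem_centralizer_singleton_iff.2 rfl)
    (k := 1) (by rw [pow_one, sq, mul_self_of_orderOf hx])
    (fun h hh => Subgroup.mem_centralizer_singleton_iff.1 hh)
  obtain ⟨T, hT⟩ := exists_sylow_eq_map S (fun g hg _ => by
    rw [Subgroup.mem_centralizer_singleton_iff, ← mul_inv_eq_iff_eq_mul]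
    exact involution_unique_of_isCyclic ((Subgroup.mem_normalizer_iff.1 hg x).1 hx') hx'
      (by rw [orderOf_conj', hx]) hx)
  apply exists_index_two_of_cyclic _ T (hT ▸ hc)
  have := orderOf_dvd_natCard x
  rw [hx] at this
  exact even_iff_two_dvd.2 this

end Cfsg.Agent.S0220
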