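import Cfsg.Statements.S0221
import Cfsg.Agent.H4.Four2
import Cfsg.Agent.H4.BSLocal

set_option autoImplicit false
open Cfsg

namespace Cfsg.Agent.S0221

open CfsgH4 Subgroup

theorem comm_of_sq {G : Type*} [Group G] {E : Subgroup G} (h : ∀ e ∈ E, e ^ 2 = 1) {a b : G}
    (ha : a ∈ E) (hb : b ∈ E) : a * b = b * a := by
  have h1 : ∀ e ∈ E, e⁻¹ = e := fun e he => inv_eq_of_mul_eq_one_right (by rw [← sq, h e he])
  rw [← h1 _ (mul_mem ha hb), mul_inv_rev, h1 a ha, h1 b hb]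

theorem ext8 {G : Type*} [Group G] [Finite G] {U : Subgroup G} (h4 : Nat.card U = 4)
    (h : ∀ e ∈ U, e ^ 2 = 1) {y : G} (hy : y ∈ centralizer (U : Set G)) (hy2 : y ^ 2 = 1)
    (hyU : y ∉ U) : Nat.card (U ⊔ zpowers y : Subgroup G) = 8 ∧ ∀ e ∈ U ⊔ zpowers y, e ^ 2 = 1 := by
  have hn : y ∈ normalizer (U : Set G) := centralizer_le_normalizer _ hy
  refine ⟨by rw [CfsgH2.card_sup_zpowers hn Nat.prime_two (hy2 ▸ one_mem _) hyU, h4], ?_⟩
  intro e he
  obtain ⟨k, hk, i, rfl⟩ := (CfsgH2.mem_sup_zpowers_iff hn).1 he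
  rw [Commute.mul_pow (Commute.zpow_right (hy k hk) i), h k hk, one_mul, ← zpow_natCast,
    ← zpow_mul, mul_comm, zpow_mul, zpow_natCast, hy2, one_zpow]

/-- Let G be a finite group with no subgroup of index 2 whose 2-rank is at least 3 (it contains an elementary abelian subgroup of order 8). Then the centralizer of every involution of G also contains an elementary abelian subgroup of order 8. -/
theorem result {G : Type*} [Group G] [Finite G] (hno : ∀ H : Subgroup G, H.index ≠ 2) (hrank : ∃ E : Subgroup G, Nat.card E = 8 ∧ ∀ e ∈ E, e ^ 2 = 1) (x : G) (hx : orderOf x = 2) : ∃ E : Subgroup G, E ≤ Subgroup.centralizer ({x} : Set G) ∧ Nat.card E = 8 ∧ ∀ e ∈ E, e ^ 2 = 1 := by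
  obtain ⟨E, hE8, hE⟩ := hrank
  obtain ⟨S, hS⟩ := (IsPGroup.of_card (p := 2) (n := 3) hE8).exists_le_sylow
  set E' := E.subgroupOf S with hE'
  have hE8' : Nat.card E' = 8 := by
    rw [Nat.card_congr (subgroupOfEquivOfLe hS).toEquiv, hE8]
  have hE2 : ∀ e ∈ E', e ^ 2 = 1 := fun e he => Subtype.ext (hE _ he)
  obtain ⟨U, hUn, hU4, hU⟩ := exists_normal_four S.isPGroup' hE2 (by omega)
  set T := centralizer (U : Set (S : Subgroup G)) with hT
  have hTi : T.index ≤ 2 := CfsgH2.index_centralizer_le S.isPGroup' 2 U hU4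
  have hUT : U ≤ T := fun u hu v hv => comm_of_sq hU hv hu
  have hA : ∃ F : Subgroup (S : Subgroup G), F ≤ T ∧ Nat.card F = 8 ∧ ∀ e ∈ F, e ^ 2 = 1 := by
    by_cases h1 : E' ⊓ T ≤ U
    · have h2 := CfsgH2.card_le_card_inf_mul_index E' T
      have h3 : E' ⊓ T = U := eq_of_le_of_card_ge h1 (by rw [hU4]; nlinarith)
      exact ⟨E', fun e he v hv => comm_of_sq hE2 (h3.ge hv).1 he, hE8', hE2⟩
    · obtain ⟨y, hy, hyU⟩ := SetLike.not_le_iff_exists.1 h1
      exact ⟨_, sup_le hUT (zpowers_le.2 hy.2), ext8 hU4 hU hy.2 (hE2 y hy.1) hyU⟩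
  obtain ⟨g, y, hy, hgy⟩ : ∃ g : G, g * x * g⁻¹ ∈ T.map (S : Subgroup G).subtype := by
    have h0 : T.index ≠ 0 := index_ne_zero_of_finite
    by_cases h1 : T.index = 1
    · obtain ⟨g, hg⟩ := exists_conj_mem_sylow_of_involution S hx
      exact ⟨g, ⟨_, hg⟩, by rw [index_eq_one.1 h1]; trivial, rfl⟩
    · by_contra h
      push Not at h
      obtain ⟨M, -, hM, -⟩ := thompson_transfer S (Q := T.map (S : Subgroup G).subtype) (by
        rw [relIndex, subgroupOf, comap_map_eq_self_of_injective (subtype_injective _)]; omega)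
        (mul_self_of_orderOf hx) h
      exact hno M hM
  have hy2 : y ^ 2 = 1 := Subtype.ext (by
    change ((S : Subgroup G).subtype y) ^ 2 = 1
    rw [hgy, conj_pow, sq, mul_self_of_orderOf hx]; simp)
  obtain ⟨F, hF, hF8, hF2⟩ : ∃ F : Subgroup (S : Subgroup G), F ≤ centralizer {y} ∧
      Nat.card F = 8 ∧ ∀ e ∈ F, e ^ 2 = 1 := by
    by_cases hyU : y ∈ U
    · obtain ⟨F, h1, h2⟩ := hA
      exact ⟨F, fun f hf => mem_centralizer_singleton_iff.2 (h1 hf y hyU).symm, h2⟩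
    · exact ⟨_, sup_le (fun u hu => mem_centralizer_singleton_iff.2 (hy u hu))
        (zpowers_le.2 (mem_centralizer_singleton_iff.2 rfl)), ext8 hU4 hU hy hy2 hyU⟩
  refine ⟨(F.map (S : Subgroup G).subtype).map (MulAut.conj g⁻¹).toMonoidHom, ?_, ?_, ?_⟩
  · rintro _ ⟨_, ⟨f, hf, rfl⟩, rfl⟩
    have h1 := congrArg (S : Subgroup G).subtype (mem_centralizer_singleton_iff.1 (hF hf))
    rw [map_mul, map_mul, hgy] at h1
    rw [mem_centralizer_singleton_iff]
    change g⁻¹ * _ * g⁻¹⁻¹ * x = x * (g⁻¹ * _ * g⁻¹⁻¹)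
    generalize (S : Subgroup G).subtype f = f' at h1
    calc _ = g⁻¹ * (f' * (g * x * g⁻¹)) * g := by group
      _ = _ := by rw [h1]; group
  · rw [card_map_of_injective (MulAut.conj g⁻¹).injective,
      card_map_of_injective (subtype_injective _), hF8]
  · rintro _ ⟨_, ⟨f, hf, rfl⟩, rfl⟩
    rw [← map_pow, ← map_pow, hF2 f hf, map_one, map_one]

end Cfsg.Agent.S0221
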