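import Cfsg.Statements.S0226
import Cfsg.Agent.H4.Count

set_option autoImplicit false
open Cfsg

namespace Cfsg.Agent.S0226

open CfsgH4

/-- A finite group of even order has an odd number of involutions. -/
theorem result {G : Type*} [Group G] [Finite G] (heven : Even (Nat.card G)) : Odd (Nat.card {t : G // orderOf t = 2}) := by
  classical
  have := Fintype.ofFinite G
  have h := Equiv.Perm.card_fixedPoints_modEq (α := G) (f := fun x : G => x⁻¹) (p := 2) (n := 1)
    (by funext x; exact inv_inv x)
  have h2 : Fintype.card (Function.fixedPoints (fun x : G => x⁻¹)) =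
      Nat.card {t : G // orderOf t = 2} + 1 := by
    rw [card_subtype_eq_card_filter, ← Finset.card_insert_of_notMem (a := 1) (by simp),
      Fintype.card_subtype]
    congr 1
    ext x
    simp only [Finset.mem_filter, Finset.mem_univ, true_and, Finset.mem_insert,
      CfsgH4.orderOf_eq_two_iff, Function.mem_fixedPoints_iff, inv_eq_iff_mul_eq_one]
    by_cases hx : x = 1 <;> simp [hx]
  rw [← Nat.card_eq_fintype_card] at h
  erw [h2] at h
  rw [Nat.even_iff] at heven
  rw [Nat.odd_iff]
  unfold Nat.ModEq at h
  omega

end Cfsg.Agent.S0226
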