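import Cfsg.Statements.S0228
import Cfsg.Agent.H4.StrEmb

set_option autoImplicit false
open Cfsg

namespace Cfsg.Agent.S0228

open CfsgH4

/-- A group of order 12 in which no involution is central is isomorphic to the alternating group on four letters. -/
theorem result {G : Type*} [Group G] [Finite G] (hG : Nat.card G = 12) (hz : ∀ z : G, orderOf z = 2 → z ∉ Subgroup.center G) : Nonempty (G ≃* alternatingGroup (Fin 4)) := by
  classical
  have : Fact (Nat.Prime 3) := ⟨by decide⟩
  obtain ⟨P⟩ : Nonempty (Sylow 3 G) := inferInstance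
  obtain ⟨S⟩ : Nonempty (Sylow 2 G) := inferInstance
  have hP : Nat.card (P : Subgroup G) = 3 := by
    rw [P.card_eq_multiplicity, hG]; decide +kernel
  have hS : Nat.card (S : Subgroup G) = 2 ^ 2 := by
    rw [S.card_eq_multiplicity, hG]; decide +kernel
  have hPi : (P : Subgroup G).index = 4 := by
    have := (P : Subgroup G).index_mul_card
    rw [hP, hG] at this
    omega
  have hcore : (P : Subgroup G).normalCore = ⊥ := by
    by_contra hne
    have h1 : (P : Subgroup G).normalCore = P := by
      apply Subgroup.eq_of_le_of_card_ge (Subgroup.normalCore_le _)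
      have h2 := Subgroup.card_dvd_of_le (Subgroup.normalCore_le (P : Subgroup G))
      rw [hP] at h2 ⊢
      rcases (Nat.dvd_prime (by decide)).1 h2 with h3 | h3
      · exact absurd (Subgroup.card_eq_one.1 h3) hne
      · omega
    have hn : (P : Subgroup G).Normal := h1 ▸ Subgroup.normalCore_normal _
    have hc : IsCyclic (P : Subgroup G) := isCyclic_of_prime_card hP
    let φ : (S : Subgroup G) →* MulAut (P : Subgroup G) := MulAut.conjNormal.comp (S : Subgroup G).subtype
    have h2 : Nat.card (MulAut (P : Subgroup G)) = 2 := by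
      rw [IsCyclic.card_mulAut, hP]; decide +kernel
    have h3 : Even (Nat.card φ.ker) := by
      have h4 := φ.ker.index_mul_card
      have h5 : φ.ker.index ∣ 2 := by
        rw [Subgroup.index_ker]; exact (Subgroup.card_subgroup_dvd_card _).trans h2.dvd
      rw [hS] at h4
      rcases (Nat.dvd_prime (by decide)).1 h5 with h6 | h6 <;> rw [h6] at h4 <;>
        rw [Nat.even_iff] <;> omega
    obtain ⟨z, hzk, hz2⟩ := exists_involution_mem_of_even h3
    apply hz z (by rw [Subgroup.orderOf_coe, hz2])
    have hcomm := IsPGroup.isMulCommutative_of_card_eq_prime_sq hS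
    have h6 : (P : Subgroup G) ⊔ S = ⊤ := by
      have h7 : 3 ∣ Nat.card ↥((P : Subgroup G) ⊔ S) :=
        hP.symm.dvd.trans (Subgroup.card_dvd_of_le le_sup_left)
      have h8 : 2 ^ 2 ∣ Nat.card ↥((P : Subgroup G) ⊔ S) :=
        hS.symm.dvd.trans (Subgroup.card_dvd_of_le le_sup_right)
      apply Subgroup.eq_top_of_le_card
      rw [hG]
      exact Nat.le_of_dvd Nat.card_pos (Nat.Coprime.mul_dvd_of_dvd_of_dvd (by decide) h7 h8)
    rw [← Subgroup.centralizer_univ, ← Subgroup.coe_top, ← h6]
    have : (P : Subgroup G) ⊔ S ≤ Subgroup.centralizer {(z : G)} := by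
      apply sup_le
      · intro x hx
        rw [Subgroup.mem_centralizer_singleton_iff]
        have h9 : φ z ⟨x, hx⟩ = ⟨x, hx⟩ := by rw [MonoidHom.mem_ker.1 hzk]; rfl
        have h10 := congrArg Subtype.val h9
        simp only [φ, MonoidHom.comp_apply, MulAut.conjNormal_apply] at h10
        exact (mul_inv_eq_iff_eq_mul.1 h10).symm
      · intro x hx
        rw [Subgroup.mem_centralizer_singleton_iff]
        exact setLike_mul_comm (s := (S : Subgroup G)) hx z.2
    intro x hx
    exact Subgroup.mem_centralizer_singleton_iff.1 (this hx)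
  have e : (G ⧸ (P : Subgroup G)) ≃ Fin 4 :=
    Finite.equivFinOfCardEq (by rw [← Subgroup.index_eq_card, hPi])
  let φ : G →* Equiv.Perm (Fin 4) :=
    (e.permCongrHom : _ →* _).comp (MulAction.toPermHom G (G ⧸ (P : Subgroup G)))
  have hφ : Function.Injective φ := by
    apply e.permCongrHom.injective.comp
    rw [← MonoidHom.ker_eq_bot_iff, ← Subgroup.normalCore_eq_ker, hcore]
  have h1 : φ.range.index = 2 := by
    have h2 := φ.range.index_mul_card
    rw [← Nat.card_congr (MonoidHom.ofInjective hφ).toEquiv, hG, Nat.card_perm] at h2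
    simp [Nat.factorial] at h2
    omega
  rw [← Equiv.Perm.eq_alternatingGroup_of_index_eq_two h1]
  exact ⟨MonoidHom.ofInjective hφ⟩

end Cfsg.Agent.S0228
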