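import Cfsg.Statements.S0229
import Cfsg.Agent.H4.Isolated

set_option autoImplicit false
open Cfsg

namespace Cfsg.Agent.S0229

open CfsgH4

/-- Let t be an involution of a Sylow 2-subgroup S of a finite group G, conjugate in G to no other element of S, and let s be an involution of G not conjugate to t. Then the order of st is twice an odd number. -/
theorem result {G : Type*} [Group G] [Finite G] (S : Sylow 2 G) (t : G) (ht : orderOf t = 2) (htS : t ∈ S) (hiso : ∀ g : G, g * t * g⁻¹ ∈ S → g * t * g⁻¹ = t) (s : G) (hs : orderOf s = 2) (hns : ¬ IsConj s t) : orderOf (s * t) % 4 = 2 := by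
  have h1 := mul_self_of_orderOf ht
  have h2 := mul_self_of_orderOf hs
  have h0 : orderOf (s * t) = orderOf (t * s) := by
    rw [← orderOf_conj' s (t * s)]; congr 1; group
  rw [h0]
  have he : Even (orderOf (t * s)) := by
    rw [← Nat.not_odd_iff_even]
    exact fun h => hns (dih_isConj_of_odd h1 h2 h).symm
  have h3 := orderOf_pow_half he (orderOf_pos _).ne'
  have h4 := dih_commute_left h1 h2 (Subgroup.npow_mem_zpowers _ _) (mul_self_of_orderOf h3)
  by_contra hcon
  have h5 : IsConj t ((t * s) ^ (orderOf (t * s) / 2) * t) := by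
    rw [← zpow_natCast]
    apply (dih_zpow_mul_isConj h1 h2 _).1
    rw [Int.even_coe_nat, Nat.even_iff]
    rw [Nat.even_iff] at he
    omega
  have := isolated_of_commute S ht hiso h5 (h4.symm.mul_right (Commute.refl t))
  exact ne_one_of_orderOf h3 (by simpa using this)

end Cfsg.Agent.S0229
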