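import Cfsg.Statements.S0230
import Cfsg.Agent.H4.Count

set_option autoImplicit false
open Cfsg

namespace Cfsg.Agent.S0230

open CfsgH4

/-- Let G be a finite group with two non-conjugate involutions, and let t be an involution whose centralizer has maximal order among centralizers of involutions. Then |G| < |C_G(t)|^3. -/
theorem result {G : Type*} [Group G] [Finite G] (s t : G) (hs : orderOf s = 2) (ht : orderOf t = 2) (hnc : ¬ IsConj s t) (hmax : ∀ u : G, orderOf u = 2 → Nat.card (Subgroup.centralizer ({u} : Set G)) ≤ Nat.card (Subgroup.centralizer ({t} : Set G))) : Nat.card G < Nat.card (Subgroup.centralizer ({t} : Set G)) ^ 3 := by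
  classical
  have := Fintype.ofFinite G
  set c := Nat.card (Subgroup.centralizer ({t} : Set G)) with hc
  have h1 : (Finset.univ.filter (fun u : G => IsConj s u)) ⊆
      (Finset.univ.filter (fun z : G => orderOf z = 2 ∧ Commute z t)).biUnion
        (fun z => Finset.univ.filter (fun u => u ∈ Subgroup.centralizer ({z} : Set G))) := by
    intro u hu
    simp only [Finset.mem_filter, Finset.mem_univ, true_and, Finset.mem_biUnion,
      Subgroup.mem_centralizer_singleton_iff] at hu ⊢
    obtain ⟨z, _, hz, h1, h2⟩ := exists_involution_commute_of_not_isConj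
      (mul_self_of_orderOf ((orderOf_eq_of_isConj hu).symm.trans hs)) (mul_self_of_orderOf ht)
      (fun h => hnc (hu.trans h))
    exact ⟨z, ⟨hz, h2⟩, h1.symm⟩
  have h2 := (Finset.card_le_card h1).trans (Finset.card_biUnion_le_card_mul _ _ c (by
    intro z hz
    simp only [Finset.mem_filter, Finset.mem_univ, true_and] at hz
    rw [← card_subtype_eq_card_filter]
    exact hmax z hz.1))
  rw [← card_subtype_eq_card_filter, ← card_subtype_eq_card_filter] at h2
  have h3 := card_involutions_commute_lt t
  have h4 := card_isConj_mul_card_centralizer s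
  have h5 := hmax s hs
  have h6 : 0 < c := Nat.card_pos
  rw [← hc] at h3
  rw [← h4]
  calc _ ≤ (Nat.card {z : G // orderOf z = 2 ∧ Commute z t} * c) * c := Nat.mul_le_mul h2 h5
    _ < (c * c) * c := by gcongr; omega
    _ = c ^ 3 := by ring

end Cfsg.Agent.S0230
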