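import Cfsg.Statements.S0231
import Cfsg.Agent.H4.Isolated

set_option autoImplicit false
open scoped Pointwise
open Cfsg

namespace Cfsg.Agent.S0231

open CfsgH4

/-- Let T be a Sylow 2-subgroup of the finite group G which is not normal and which intersects every other Sylow 2-subgroup trivially. Then G has a single conjugacy class of involutions. -/
theorem result {G : Type*} [Group G] [Finite G] (T : Sylow 2 G) (hnn : ¬ (T : Subgroup G).Normal) (hTI : ∀ g : G, MulAut.conj g • (T : Subgroup G) ≠ T → MulAut.conj g • (T : Subgroup G) ⊓ T = ⊥) (s t : G) (hs : orderOf s = 2) (ht : orderOf t = 2) : IsConj s t := by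
  have hTI' : ∀ (R R' : Sylow 2 G) (x : G), x ≠ 1 → x ∈ R → x ∈ R' → R = R' := by
    intro R R' x hx h1 h2
    obtain ⟨a, rfl⟩ := MulAction.exists_smul_eq G T R
    obtain ⟨b, rfl⟩ := MulAction.exists_smul_eq G T R'
    by_contra hne
    have h3 := hTI (a⁻¹ * b) (by
      intro h
      apply hne
      rw [← Sylow.coe_subgroup_smul] at h
      have := Sylow.ext h
      rw [mul_smul, inv_smul_eq_iff] at this
      exact this.symm)
    rw [mem_smul_sylow] at h1 h2
    have : a⁻¹ * x * a ∈ MulAut.conj (a⁻¹ * b) • (T : Subgroup G) ⊓ T := by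
      refine ⟨(mem_conj_smul _ _ _).2 ?_, h1⟩
      rw [show (a⁻¹ * b)⁻¹ * (a⁻¹ * x * a) * (a⁻¹ * b) = b⁻¹ * x * b by group]
      exact h2
    rw [h3, Subgroup.mem_bot] at this
    apply hx
    simpa [mul_assoc, inv_mul_eq_one] using this
  have : ∃ T' : Sylow 2 G, T' ≠ T := by
    by_contra h
    push Not at h
    have : Subsingleton (Sylow 2 G) := ⟨fun a b => (h a).trans (h b).symm⟩
    exact hnn (Sylow.normal_of_subsingleton T)
  obtain ⟨T', hT'⟩ := this
  obtain ⟨a, ha⟩ := exists_conj_mem_sylow_of_involution T hs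
  obtain ⟨b, hb⟩ := exists_conj_mem_sylow_of_involution T' ht
  have ha2 : orderOf (a * s * a⁻¹) = 2 := by rw [orderOf_conj', hs]
  have hb2 : orderOf (b * t * b⁻¹) = 2 := by rw [orderOf_conj', ht]
  by_contra hcon
  obtain ⟨z, _, hz, h1, h2⟩ := exists_involution_commute_of_not_isConj (mul_self_of_orderOf ha2)
    (mul_self_of_orderOf hb2) (fun h => hcon
      (((isConj_iff.2 ⟨a, rfl⟩).trans h).trans (isConj_iff.2 ⟨b, rfl⟩).symm))
  obtain ⟨R, hR⟩ := (isPGroup_closure_pair_of_commute (mul_self_of_orderOf hz)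
    (mul_self_of_orderOf ha2) h1).exists_le_sylow
  obtain ⟨R', hR'⟩ := (isPGroup_closure_pair_of_commute (mul_self_of_orderOf hz)
    (mul_self_of_orderOf hb2) h2).exists_le_sylow
  have e1 := hTI' R T _ (ne_one_of_orderOf ha2) (hR (Subgroup.subset_closure (by simp))) ha
  have e2 := hTI' R' T' _ (ne_one_of_orderOf hb2) (hR' (Subgroup.subset_closure (by simp))) hb
  apply hT'
  rw [← e1, ← e2]
  exact hTI' _ _ z (ne_one_of_orderOf hz) (hR' (Subgroup.subset_closure (by simp)))
    (hR (Subgroup.subset_closure (by simp)))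

end Cfsg.Agent.S0231
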