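import Cfsg.Statements.S0232
import Cfsg.Agent.H4.Count

set_option autoImplicit false
open Cfsg

namespace Cfsg.Agent.S0232

open CfsgH4

theorem of_index_two {G : Type*} [Group G] [Finite G] (hgt : 2 < Nat.card G) (H : Subgroup G)
    (hH : H.index = 2) : H ≠ ⊤ ∧ Nat.card G < (Nat.card H) ^ 3 := by
  refine ⟨fun h => by simp [h] at hH, ?_⟩
  have h4 := H.index_mul_card
  rw [hH] at h4
  have : 2 ≤ Nat.card H := by omega
  rw [← h4]
  calc 2 * Nat.card H < (2 * 2) * Nat.card H := by omega
    _ ≤ (Nat.card H * Nat.card H) * Nat.card H := by gcongr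
    _ = _ := by ring

universe u

theorem aux (n : ℕ) : ∀ (G : Type u) [Group G] [Finite G], Nat.card G = n → Even (Nat.card G) →
    2 < Nat.card G → ∃ H : Subgroup G, H ≠ ⊤ ∧ Nat.card G < (Nat.card H) ^ 3 := by
  induction n using Nat.strong_induction_on with
  | _ n ih =>
  intro G _ _ hn heven hgt
  by_cases h2 : ∃ H : Subgroup G, H.index = 2
  · obtain ⟨H, hH⟩ := h2
    exact ⟨H, of_index_two hgt H hH⟩
  push Not at h2
  have h4 : 4 ∣ Nat.card G := by
    by_contra h4
    obtain ⟨H, hH⟩ := exists_index_two_of_not_four_dvd heven h4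
    exact h2 H hH
  by_cases hZ : ∃ t : G, orderOf t = 2 ∧ t ∈ Subgroup.center G
  · obtain ⟨t, ht, htZ⟩ := hZ
    have hn : (Subgroup.zpowers t).Normal := by
      constructor
      intro x hx g
      have : x ∈ Subgroup.center G := (Subgroup.zpowers_le.2 htZ) hx
      rw [Subgroup.mem_center_iff.1 this g]
      simpa using hx
    have hc : Nat.card (Subgroup.zpowers t) = 2 := by rw [Nat.card_zpowers, ht]
    have h5 := (Subgroup.zpowers t).index_mul_card
    rw [hc] at h5
    have h6 := h2 (Subgroup.zpowers t)
    rw [Subgroup.index_eq_card] at h5 h6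
    obtain ⟨K, hK, hK2⟩ := ih (Nat.card (G ⧸ Subgroup.zpowers t)) (by omega)
      (G ⧸ Subgroup.zpowers t) rfl (by rw [Nat.even_iff]; omega) (by omega)
    refine ⟨K.comap (QuotientGroup.mk' _), ?_, ?_⟩
    · intro h
      apply hK
      rw [← Subgroup.index_eq_one, ← Subgroup.index_comap_of_surjective _
        (QuotientGroup.mk'_surjective (Subgroup.zpowers t)), h, Subgroup.index_top]
    · have h7 := (K.comap (QuotientGroup.mk' (Subgroup.zpowers t))).index_mul_card
      rw [Subgroup.index_comap_of_surjective _
        (QuotientGroup.mk'_surjective (Subgroup.zpowers t)), ← h5, ← K.index_mul_card,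
        mul_assoc] at h7
      have h8 := Nat.eq_of_mul_eq_mul_left
        (Nat.pos_of_ne_zero Subgroup.index_ne_zero_of_finite) h7
      rw [h8, ← h5, mul_pow]
      omega
  · push Not at hZ
    obtain ⟨t, ht⟩ := exists_involution_of_even heven
    have : Nontrivial G := ⟨t, 1, ne_one_of_orderOf ht⟩
    obtain ⟨H, hH, hmax⟩ := exists_max_proper_subgroup (G := G)
    refine ⟨H, hH, ?_⟩
    have h3 := brauer_fowler_ineq _ hmax hZ h2
    have h5 := H.index_mul_card
    have h6 := card_isConj_mul_card_centralizer t
    have h7 := hmax (Subgroup.centralizer {t}) (fun h => hZ t ht (by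
        rw [Subgroup.centralizer_eq_top_iff_subset] at h; simpa using h))
    have h8 : Nat.card {y : G // IsConj t y} ≤ Nat.card {t : G // orderOf t = 2} :=
      card_subtype_mono fun y hy => (orderOf_eq_of_isConj hy).symm.trans ht
    have h9 : 0 < Nat.card H := Nat.card_pos
    have h10 : H.index ≤ Nat.card {t : G // orderOf t = 2} := by
      apply Nat.le_of_mul_le_mul_right _ h9
      rw [h5, ← h6]
      exact Nat.mul_le_mul h8 h7
    by_contra hcon
    push Not at hcon
    rw [← h5] at hcon h3
    generalize H.index = j at *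
    generalize Nat.card H = h at *
    generalize Nat.card {t : G // orderOf t = 2} = m at *
    have h11 : h ^ 2 ≤ j := by
      apply Nat.le_of_mul_le_mul_right _ h9
      calc h ^ 2 * h = h ^ 3 := by ring
        _ ≤ _ := hcon
    have h12 : h ≤ m := by nlinarith
    have h13 : h * m ≤ m ^ 2 := by nlinarith
    have h14 : h * (j * h) ≤ m ^ 2 := by
      calc h * (j * h) = j * h ^ 2 := by ring
        _ ≤ m * m := Nat.mul_le_mul h10 (h11.trans h10)
        _ = _ := by ring
    nlinarith

/-- A finite group G of even order greater than 2 has a proper subgroup H with |G| < |H|^3. -/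
theorem result {G : Type*} [Group G] [Finite G] (heven : Even (Nat.card G)) (hgt : 2 < Nat.card G) : ∃ H : Subgroup G, H ≠ ⊤ ∧ Nat.card G < (Nat.card H) ^ 3 := by
  exact aux _ G rfl heven hgt

end Cfsg.Agent.S0232
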