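import Cfsg.Statements.S0233
import Cfsg.Agent.H4.Count

set_option autoImplicit false
open Cfsg

namespace Cfsg.Agent.S0233

open CfsgH4

/-- Let G be a finite group of even order with exactly n involutions whose centre has odd order, and put a = |G|/n. Then G has a proper subgroup H with |G : H| = 2 or |G : H| < a(a+1)/2; over ℕ the latter reads 2·|G:H|·n² < |G|·(|G| + n). -/
theorem result {G : Type*} [Group G] [Finite G] (heven : Even (Nat.card G)) (hZ : Odd (Nat.card (Subgroup.center G))) : ∃ H : Subgroup G, H ≠ ⊤ ∧ (H.index = 2 ∨ 2 * H.index * (Nat.card {t : G // orderOf t = 2}) ^ 2 < Nat.card G * (Nat.card G + Nat.card {t : G // orderOf t = 2})) := by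
  obtain ⟨t, ht⟩ := exists_involution_of_even heven
  have : Nontrivial G := ⟨t, 1, ne_one_of_orderOf ht⟩
  by_cases h2 : ∃ H : Subgroup G, H.index = 2
  · obtain ⟨H, hH⟩ := h2
    exact ⟨H, fun h => by simp [h] at hH, Or.inl hH⟩
  push Not at h2
  obtain ⟨H, hH, hmax⟩ := exists_max_proper_subgroup (G := G)
  refine ⟨H, hH, Or.inr ?_⟩
  have h3 := brauer_fowler_ineq _ hmax
    (fun t ht hz => odd_card_iff_no_involution.1 hZ t hz ht) h2
  have h4 := H.index_mul_card
  have h5 : 0 < Nat.card H := Nat.card_pos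
  have h6 : 0 < H.index := Nat.pos_of_ne_zero Subgroup.index_ne_zero_of_finite
  nth_rewrite 1 [← h4]
  have := Nat.mul_le_mul_left H.index h3
  nlinarith

end Cfsg.Agent.S0233
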