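import Cfsg.Statements.S0234
import Cfsg.Agent.H4.SimpleIdx

set_option autoImplicit false
open Cfsg

namespace Cfsg.Agent.S0234

open CfsgH4

theorem card_inv_A5 : (Finset.univ.filter (fun σ : Equiv.Perm (Fin 5) =>
    σ * σ = 1 ∧ σ ≠ 1 ∧ Equiv.Perm.sign σ = 1)).card = 15 := by
  decide +kernel

/-- In a finite simple group G of even order greater than 2, the number n of involutions satisfies 3n < |G|. -/
theorem result {G : Type*} [Group G] [Finite G] [IsSimpleGroup G] (heven : Even (Nat.card G)) (hgt : 2 < Nat.card G) : 3 * Nat.card {t : G // orderOf t = 2} < Nat.card G := by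
  classical
  by_contra hcon
  push Not at hcon
  obtain ⟨H, hH, hmax⟩ := exists_max_proper_subgroup (G := G)
  have h2 := simple_no_index_two hgt
  have h3 := brauer_fowler_ineq _ hmax (simple_involution_not_central hgt) h2
  have h4 : 4 ∣ Nat.card G := by
    by_contra h4
    obtain ⟨H, hH⟩ := exists_index_two_of_not_four_dvd heven h4
    exact h2 H hH
  have h5 := H.index_mul_card
  have h9 : 0 < Nat.card H := Nat.card_pos
  have h11 := Nat.mul_le_mul_left H.index h3
  rw [← mul_assoc H.index (Nat.card H), h5] at h11
  have hd := card_dvd_factorial_of_simple hH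
  have hj : H.index ≤ 5 := by
    by_contra hj
    push Not at hj
    generalize H.index = j at *
    generalize Nat.card {t : G // orderOf t = 2} = m at *
    generalize Nat.card G = g at *
    have : 6 * (2 * m ^ 2 + 1) ≤ (3 * m) * (3 * m + m) := by
      calc 6 * (2 * m ^ 2 + 1) ≤ j * (2 * m ^ 2 + 2 * m + Nat.card H) :=
          Nat.mul_le_mul hj (by omega)
        _ ≤ g * (g + m) := h11
        _ ≤ _ := by gcongr
    nlinarith
  have hj1 := Subgroup.one_lt_index_of_ne_top hH
  have hj2 := h2 H
  have hsyl : ∀ p k : ℕ, p.Prime → p ^ k ∣ Nat.card G → p ^ k ≠ Nat.card G →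
      p ^ k ≤ Nat.card H := by
    intro p k hp hd hne
    have : Fact p.Prime := ⟨hp⟩
    obtain ⟨K, hK⟩ := Sylow.exists_subgroup_card_pow_prime p hd
    rw [← hK]
    apply hmax
    rintro rfl
    rw [Subgroup.card_top] at hK
    exact hne hK.symm
  have hidx : ∀ k : ℕ, Nat.card G ≠ 2 ^ (k + 1) := by
    intro k hk
    obtain ⟨K, _, hK⟩ := exists_index_two_of_normal (N := (⊥ : Subgroup G)) (k := k)
      (by rw [Subgroup.index_bot, hk])
    exact h2 K hK
  have hj3 : H.index = 5 := by
    by_contra hj5
    have : H.index = 3 ∨ H.index = 4 := by omega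
    rcases this with h | h <;> rw [h] at hd h5
    · have := Nat.le_of_dvd (by decide) hd
      simp only [Nat.factorial] at hd this
      omega
    · have := Nat.le_of_dvd (by decide) hd
      simp only [Nat.factorial] at hd this
      have h6 : Nat.card H = 1 ∨ Nat.card H = 2 ∨ Nat.card H = 3 ∨ Nat.card H = 6 := by
        rw [← h5] at hd
        have : Nat.card H ≤ 6 := by omega
        interval_cases (Nat.card H) <;> simp at hd ⊢
      rcases h6 with h6 | h6 | h6 | h6 <;> rw [h6] at h5
      · exact hidx 1 h5.symm
      · exact hidx 2 h5.symm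
      · have := hsyl 2 2 (by decide) (by rw [← h5]; decide) (by rw [← h5]; decide)
        omega
      · have := hsyl 2 3 (by decide) (by rw [← h5]; decide) (by rw [← h5]; decide)
        omega
  have e : (G ⧸ H) ≃ Fin 5 := Finite.equivFinOfCardEq (by rw [← Subgroup.index_eq_card, hj3])
  let φ : G →* Equiv.Perm (Fin 5) :=
    (e.permCongrHom : _ →* _).comp (MulAction.toPermHom G (G ⧸ H))
  have hφ : Function.Injective φ :=
    e.permCongrHom.injective.comp (toPermHom_injective_of_simple hH)
  have hsign : ∀ g, Equiv.Perm.sign (φ g) = 1 := by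
    intro g
    by_contra hg
    apply h2 (Equiv.Perm.sign.comp φ).ker
    rw [Subgroup.index_ker]
    have : (Equiv.Perm.sign.comp φ).range = ⊤ := by
      rw [eq_top_iff]
      intro u _
      rcases Int.units_eq_one_or u with rfl | rfl
      · exact Subgroup.one_mem _
      · exact ⟨g, (Int.units_eq_one_or _).resolve_left hg⟩
    rw [this, Subgroup.card_top]
    simp
  have h15 : Nat.card {t : G // orderOf t = 2} ≤ 15 := by
    rw [← card_inv_A5, ← card_subtype_eq_card_filter]
    refine Nat.card_le_card_of_injective (fun t => ⟨φ t, ?_, ?_, hsign t⟩) ?_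
    · rw [← map_mul, mul_self_of_orderOf t.2, map_one]
    · intro h
      exact ne_one_of_orderOf t.2 (hφ (by rw [h, map_one]))
    · intro a b hab
      apply Subtype.ext
      apply hφ
      simpa using hab
  have h60 : Nat.card G ∣ 60 := by
    have : Function.Injective (φ.codRestrict (alternatingGroup (Fin 5)) (fun g => hsign g)) :=
      (MonoidHom.injective_codRestrict _ _ _).2 hφ
    have := Subgroup.card_dvd_of_injective _ this
    rw [nat_card_alternatingGroup] at this
    simpa [Nat.factorial] using this
  rw [hj3] at h5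
  have h6 : Nat.card H = 4 := by
    rw [← h5] at h60 h4 hcon
    have : Nat.card H ≤ 9 := by omega
    interval_cases (Nat.card H) <;> simp at h60 h4 ⊢
  rw [h6] at h5
  have := hsyl 5 1 (by decide) (by rw [← h5]; decide) (by rw [← h5]; decide)
  omega

end Cfsg.Agent.S0234
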