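import Cfsg.Statements.S0239
import Cfsg.Agent.H4.Count

set_option autoImplicit false
open Cfsg

namespace Cfsg.Agent.S0239

open CfsgH4

/-- If some nontrivial element x of a finite group G is conjugate to x⁻¹, then |G| is even. -/
theorem result {G : Type*} [Group G] [Finite G] (x : G) (hx : x ≠ 1) (hreal : IsConj x x⁻¹) : Even (Nat.card G) := by
  by_cases h : x = x⁻¹
  · have h2 : orderOf x = 2 := orderOf_eq_two_iff.2 ⟨by nth_rewrite 1 [h]; simp, hx⟩
    have := orderOf_dvd_natCard x
    rw [h2] at this
    exact even_iff_two_dvd.2 this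
  · have := (extCentralizer x).card_subgroup_dvd_card
    rw [card_extCentralizer hreal h] at this
    exact even_iff_two_dvd.2 (dvd_trans ⟨_, rfl⟩ this)

end Cfsg.Agent.S0239
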