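import Cfsg.Statements.S0240
import Cfsg.Agent.H4.Count

set_option autoImplicit false
open Cfsg

namespace Cfsg.Agent.S0240

open CfsgH4

/-- Let G be a finite group with n involutions and H a subgroup with |H|·(n+1) > |G|. Then some nontrivial h ∈ H is strongly real in G: an involution t of G satisfies t h t⁻¹ = h⁻¹. -/
theorem result {G : Type*} [Group G] [Finite G] (H : Subgroup G) (hH : Nat.card G < Nat.card H * (Nat.card {t : G // orderOf t = 2} + 1)) : ∃ h : G, h ∈ H ∧ h ≠ 1 ∧ ∃ t : G, orderOf t = 2 ∧ t * h * t⁻¹ = h⁻¹ := by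
  have h1 : Nat.card (G ⧸ H) < Nat.card (Option {t : G // orderOf t = 2}) := by
    rw [Finite.card_option, ← H.index_eq_card]
    rw [← H.card_mul_index] at hH
    exact Nat.lt_of_mul_lt_mul_left hH
  have := Fintype.ofFinite (G ⧸ H)
  have := Fintype.ofFinite (Option {t : G // orderOf t = 2})
  rw [Nat.card_eq_fintype_card, Nat.card_eq_fintype_card] at h1
  obtain ⟨a, b, hab, h⟩ := Fintype.exists_ne_map_eq_of_card_lt
    (fun a : Option {t : G // orderOf t = 2} => ((a.elim 1 Subtype.val : G) : G ⧸ H)) h1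
  rw [QuotientGroup.eq] at h
  rcases a with _ | ⟨a, ha⟩ <;> rcases b with _ | ⟨b, hb⟩
  · exact absurd rfl hab
  · exact ⟨b, by simpa using h, ne_one_of_orderOf hb, b, hb, by simp [inv_eq_of_orderOf hb,
      mul_self_of_orderOf hb]⟩
  · exact ⟨a, by simpa using h, ne_one_of_orderOf ha, a, ha, by simp [inv_eq_of_orderOf ha,
      mul_self_of_orderOf ha]⟩
  · simp only [Option.elim_some, inv_eq_of_orderOf ha] at h
    refine ⟨a * b, h, fun h1 => hab ?_, a, ha,
      dih_inv_left (mul_self_of_orderOf ha) (mul_self_of_orderOf hb)⟩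
    have : a = b := by rw [← inv_eq_of_orderOf ha]; exact inv_eq_of_mul_eq_one_right h1
    subst this; rfl

end Cfsg.Agent.S0240
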