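import Cfsg.Statements.S0241
import Cfsg.Agent.H4.Count

set_option autoImplicit false
open Cfsg

namespace Cfsg.Agent.S0241

open CfsgH4

/-- If x ≠ 1 is conjugate to x⁻¹ in a finite group G and |C_G(x)| is odd, then some involution t satisfies t x t⁻¹ = x⁻¹. -/
theorem result {G : Type*} [Group G] [Finite G] (x : G) (hx : x ≠ 1) (hreal : IsConj x x⁻¹) (hodd : Odd (Nat.card (Subgroup.centralizer ({x} : Set G)))) : ∃ t : G, orderOf t = 2 ∧ t * x * t⁻¹ = x⁻¹ := by
  have hc := odd_card_iff_no_involution.1 hodd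
  have h : x ≠ x⁻¹ := fun h => hc x (Subgroup.mem_centralizer_singleton_iff.2 rfl)
    (orderOf_eq_two_iff.2 ⟨by nth_rewrite 1 [h]; simp, hx⟩)
  obtain ⟨t, ht, h2⟩ := exists_involution_mem_of_even (H := extCentralizer x)
    (by rw [card_extCentralizer hreal h]; exact even_two_mul _)
  rcases ht with ht | ht
  · exact absurd h2 (hc t (Subgroup.mem_centralizer_singleton_iff.2
      (mul_inv_eq_iff_eq_mul.1 ht)))
  · exact ⟨t, h2, ht⟩

end Cfsg.Agent.S0241
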