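import Cfsg.Statements.S0439
import Cfsg.Agent.H4.ThreeT

set_option autoImplicit false
open Cfsg

namespace Cfsg.Agent.S0439

open CfsgH4 Equiv Equiv.Perm

theorem aux {n : ℕ} {a b c : Fin n} (hab : a ≠ b) (hac : a ≠ c) :
    (swap a b * swap a c) ^ 2 = 1 ∨ (swap a b * swap a c) ^ 3 = 1 := by
  by_cases h : b = c
  · subst h; left; simp
  · right
    rw [← (isThreeCycle_swap_mul_swap_same hab hac h).orderOf, pow_orderOf_eq_one]

/-- In the symmetric group of degree n ≥ 2, the set of transpositions is a conjugacy class of 3-transpositions which generates the group. -/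
theorem result (n : ℕ) (hn : 2 ≤ n) : Cfsg.IsThreeTranspositionClass {σ : Equiv.Perm (Fin n) | σ.IsSwap} := by
  refine ⟨⟨fun d hd => IsSwap.orderOf hd, ?_⟩, ?_, closure_isSwap⟩
  · rintro _ ⟨a, b, hab, rfl⟩ _ ⟨c, d, hcd, rfl⟩
    by_cases h1 : c = a
    · subst h1; exact aux hab hcd
    by_cases h2 : d = a
    · subst h2; rw [swap_comm c]; exact aux hab hcd.symm
    by_cases h3 : c = b
    · subst h3; rw [swap_comm a]; exact aux hab.symm hcd
    by_cases h4 : d = b
    · subst h4; rw [swap_comm a, swap_comm c]; exact aux hab.symm hcd.symm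
    left
    have : Commute (swap a b) (swap c d) := by
      have := swap_apply_apply (swap a b) c d
      rw [swap_apply_of_ne_of_ne h1 h3, swap_apply_of_ne_of_ne h2 h4, eq_mul_inv_iff_mul_eq] at this
      exact this.symm
    rw [this.mul_pow]; simp [sq]
  · have h : (⟨0, by omega⟩ : Fin n) ≠ ⟨1, by omega⟩ := by simp
    refine ⟨swap ⟨0, by omega⟩ ⟨1, by omega⟩, ⟨_, _, h, rfl⟩, ?_⟩
    ext σ
    constructor
    · rintro ⟨a, b, hab, rfl⟩
      exact isConj_swap h hab
    · intro hσ
      obtain ⟨g, rfl⟩ := isConj_iff.1 hσ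
      exact ⟨_, _, g.injective.ne h, (swap_apply_apply g _ _).symm⟩

end Cfsg.Agent.S0439
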