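import Cfsg.Statements.S0442
import Cfsg.Agent.H4.ThreeT

set_option autoImplicit false
open Cfsg

namespace Cfsg.Agent.S0442

open CfsgH4

/-- A standard trick for producing elements of an involution centraliser: for an involution a and an element g, let b be the conjugate g⁻¹ * a * g. If a * b has odd order 2m + 1 then g * (a * b) ^ m commutes with a; if a * b has even order 2m then (a * b) ^ m and (a * (g * a * g⁻¹)) ^ m commute with a. -/
theorem result {G : Type*} [Group G] (a g : G) (ha : orderOf a = 2) : (∀ m : ℕ, orderOf (a * (g⁻¹ * a * g)) = 2 * m + 1 → Commute (g * (a * (g⁻¹ * a * g)) ^ m) a) ∧ (∀ m : ℕ, orderOf (a * (g⁻¹ * a * g)) = 2 * m → Commute ((a * (g⁻¹ * a * g)) ^ m) a ∧ Commute ((a * (g * a * g⁻¹)) ^ m) a) := by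
  have h1 := mul_self_of_orderOf ha
  have h2 : (g⁻¹ * a * g) * (g⁻¹ * a * g) = 1 := by
    calc _ = g⁻¹ * (a * a) * g := by group
      _ = 1 := by rw [h1]; group
  have h3 : (g * a * g⁻¹) * (g * a * g⁻¹) = 1 := by
    calc _ = g * (a * a) * g⁻¹ := by group
      _ = 1 := by rw [h1]; group
  constructor
  · intro m hm
    have h4 : (a * (g⁻¹ * a * g)) ^ (2 * m + 1) = 1 := by rw [← hm, pow_orderOf_eq_one]
    have h5 := dih_conj_of_pow_odd h1 h2 h4
    have h6 : (a * (g⁻¹ * a * g)) ^ (m + 1) = ((a * (g⁻¹ * a * g)) ^ m)⁻¹ := by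
      apply eq_inv_of_mul_eq_one_left
      rw [← pow_add, ← h4]; congr 1; ring
    rw [h6] at h5
    generalize (a * (g⁻¹ * a * g)) ^ m = w at h5
    change g * w * a = a * (g * w)
    nth_rewrite 1 [← h5]
    group
  · intro m hm
    have h4 : (a * (g⁻¹ * a * g)) ^ (2 * m) = 1 := by rw [← hm, pow_orderOf_eq_one]
    have h5 : (a * (g * a * g⁻¹)) ^ (2 * m) = 1 := by
      rw [show a * (g * a * g⁻¹) = (a * g) * (a * (g⁻¹ * a * g)) * (a * g)⁻¹ by group, conj_pow,
        h4]
      group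
    exact ⟨dih_commute_left h1 h2 (Subgroup.npow_mem_zpowers _ _) (by rw [← pow_add, ← two_mul, h4]),
      dih_commute_left h1 h3 (Subgroup.npow_mem_zpowers _ _) (by rw [← pow_add, ← two_mul, h5])⟩

end Cfsg.Agent.S0442
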