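import Cfsg.Statements.S0444
import Cfsg.Agent.H4.ThreeT

set_option autoImplicit false
open Cfsg

namespace Cfsg.Agent.S0444

open CfsgH4

/-- Two members of a set of 3-transpositions which do not commute generate a subgroup isomorphic to the symmetric group on three letters. -/
theorem result {G : Type*} [Group G] {E : Set G} (hE : Cfsg.IsThreeTranspositionSet E) {d e : G} (hd : d ∈ E) (he : e ∈ E) (h : ¬ Commute d e) : Nonempty (Subgroup.closure ({d, e} : Set G) ≃* Equiv.Perm (Fin 3)) := by
  obtain ⟨e1⟩ := closure_pair_dihedral (hE.1 d hd) (hE.1 e he) (fun h1 => h (h1 ▸ Commute.refl _))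
  rw [tt_orderOf hE hd he h] at e1
  have : Fact (Nat.Prime 3) := ⟨by decide⟩
  obtain ⟨e2⟩ := closure_pair_dihedral (x := Equiv.swap (0 : Fin 3) 1) (y := Equiv.swap 1 2)
    (orderOf_eq_prime (by decide) (by decide)) (orderOf_eq_prime (by decide) (by decide))
    (by decide)
  rw [show orderOf (Equiv.swap (0 : Fin 3) 1 * Equiv.swap 1 2) = 3 from
    orderOf_eq_prime (by decide) (by decide)] at e2
  have h3 : Subgroup.closure ({Equiv.swap (0 : Fin 3) 1, Equiv.swap 1 2} : Set _) = ⊤ := by
    apply Subgroup.eq_top_of_card_eq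
    rw [Nat.card_congr e2.toEquiv, DihedralGroup.nat_card, Nat.card_perm]
    simp [Nat.factorial]
  rw [h3] at e2
  exact ⟨(e1.trans e2.symm).trans Subgroup.topEquiv⟩

end Cfsg.Agent.S0444
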