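import Cfsg.Statements.S0445
import Cfsg.Agent.H1.TvCent

set_option autoImplicit false
open Cfsg

namespace Cfsg.Agent.S0445

open CfsgH1 Subgroup
open scoped commutatorElement
set_option maxHeartbeats 400000

open Matrix

/-- In the special linear group of dimension 5 over the field with two elements, the centraliser of a transvection has order 21504 = 2 ^ 7 · 168 (it is an extension of an extraspecial group of order 2 ^ 7 by the simple group of order 168). -/
theorem result (s : Matrix.SpecialLinearGroup (Fin 5) (ZMod 2)) (hs : (s : Matrix (Fin 5) (Fin 5) (ZMod 2)) = Matrix.transvection 0 1 1) : Nat.card (Subgroup.centralizer ({s} : Set (Matrix.SpecialLinearGroup (Fin 5) (ZMod 2)))) = 21504 := by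
  have h := card_centralizer_transvection (F := ZMod 2) (n := 5) (by norm_num)
    (Matrix.SpecialLinearGroup.toGL s) (by
      change ((s : Matrix (Fin 5) (Fin 5) (ZMod 2)) - 1).rank = 1
      rw [hs, Matrix.transvection, add_sub_cancel_left, CfsgH7.single_eq_vecMulVec]
      exact CfsgH7.rank_vecMulVec_eq_one (by simp) (by simp)) (by
      change ((s : Matrix (Fin 5) (Fin 5) (ZMod 2)) - 1) *
        ((s : Matrix (Fin 5) (Fin 5) (ZMod 2)) - 1) = 0
      rw [hs, Matrix.transvection, add_sub_cancel_left]
      simp)
  have hb : Function.Bijective (Matrix.SpecialLinearGroup.toGL :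
      Matrix.SpecialLinearGroup (Fin 5) (ZMod 2) →* _) := by
    refine ⟨Matrix.SpecialLinearGroup.toGL_injective, fun g => ?_⟩
    suffices h : (g : Matrix (Fin 5) (Fin 5) (ZMod 2)).det = 1 from
      ⟨⟨g, h⟩, Units.ext (Matrix.SpecialLinearGroup.coe_GL_coe_matrix _)⟩
    have : (g : Matrix (Fin 5) (Fin 5) (ZMod 2)).det ≠ 0 :=
      (Matrix.isUnit_det_of_invertible _).ne_zero
    revert this
    generalize (g : Matrix (Fin 5) (Fin 5) (ZMod 2)).det = x
    revert x
    decide
  have h2 : Nat.card (Subgroup.centralizer ({s} : Set (Matrix.SpecialLinearGroup (Fin 5) (ZMod 2))))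
      = Nat.card (Subgroup.centralizer ({Matrix.SpecialLinearGroup.toGL s} :
        Set (GL (Fin 5) (ZMod 2)))) := by
    refine Nat.card_congr (Equiv.subtypeEquiv (Equiv.ofBijective _ hb) fun g => ?_)
    rw [mem_centralizer_singleton_iff, mem_centralizer_singleton_iff, Equiv.ofBijective_apply,
      ← map_mul, ← map_mul, hb.1.eq_iff]
  rw [h2, h]
  simp [Fin.prod_univ_succ]

end Cfsg.Agent.S0445
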