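import Cfsg.Statements.S0455
import Cfsg.Agent.H9.J3Top

set_option autoImplicit false
open Cfsg

namespace Cfsg.Agent.S0455

/-- Janko's second and third groups: let G be finite simple with a 2-central involution t whose centraliser C contains a normal extraspecial subgroup E of order 32 with C/E isomorphic to the alternating group of degree 5. Then G has order 604800 or 50232960. -/
theorem result {G : Type*} [Group G] [Finite G] [IsSimpleGroup G] (t : G) (ht : Cfsg.IsTwoCentralInvolution t) (E : Subgroup (Subgroup.centralizer ({t} : Set G))) [E.Normal] (hE : Nat.card E = 32) (hX : Cfsg.IsExtraspecial 2 E) (e : (Subgroup.centralizer ({t} : Set G)) ⧸ E ≃* alternatingGroup (Fin 5)) : Cfsg.IsJ2 G ∨ Cfsg.IsJ3 G := by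
  obtain ⟨φ, h, -⟩ := CfsgH9.J3.exists_loc ht E hE hX e
  by_cases hg : ∃ g, g⁻¹ * φ CfsgH9.J3.mT * g = φ CfsgH9.J3.mS
  · exact Or.inr ⟨inferInstance, let ⟨_, hg⟩ := hg; h.card_three hg⟩
  · exact Or.inl ⟨inferInstance, h.card_two fun g e => hg ⟨g, e⟩⟩

end Cfsg.Agent.S0455
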