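import Cfsg.Statements.S0456
import Cfsg.Agent.H9.J3Top

set_option autoImplicit false
open Cfsg

namespace Cfsg.Agent.S0456

/-- Janko's third group: let G be finite simple with all involutions conjugate, and let t be an involution whose centraliser C has a normal extraspecial subgroup E of order 32 with C/E isomorphic to the alternating group of degree 5. Then G has order 50232960. -/
theorem result {G : Type*} [Group G] [Finite G] [IsSimpleGroup G] (hone : ∀ x y : G, orderOf x = 2 → orderOf y = 2 → IsConj x y) (t : G) (ht : orderOf t = 2) (E : Subgroup (Subgroup.centralizer ({t} : Set G))) [E.Normal] (hE : Nat.card E = 32) (hX : Cfsg.IsExtraspecial 2 E) (e : (Subgroup.centralizer ({t} : Set G)) ⧸ E ≃* alternatingGroup (Fin 5)) : Cfsg.IsJ3 G := by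
  have := Fact.mk Nat.prime_two
  obtain ⟨P, hP⟩ := (CfsgH1.isPGroup_zpowers (p := 2) (x := t) (k := 1) (by
    rw [pow_one, ← ht, pow_orderOf_eq_one])).exists_le_sylow
  have : Nontrivial P := ⟨⟨t, hP (Subgroup.mem_zpowers t)⟩, 1, fun e =>
    CfsgH4.ne_one_of_orderOf ht (congrArg Subtype.val e)⟩
  have := P.isPGroup'.center_nontrivial
  obtain ⟨y, hy⟩ := exists_prime_orderOf_dvd_card' (G := Subgroup.center P) 2
    ((P.isPGroup'.to_subgroup _).card_eq_or_dvd.resolve_left Finite.one_lt_card.ne')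
  rw [← Subgroup.orderOf_coe, ← Subgroup.orderOf_coe] at hy
  obtain ⟨g, hg⟩ := isConj_iff.1 (hone _ _ hy ht)
  obtain ⟨φ, h, -⟩ := CfsgH9.J3.exists_loc (t := t) ⟨ht, g • P, ⟨_, y.1.2, hg⟩, by
    rintro _ ⟨x, hx, rfl⟩
    rw [← hg]
    exact (Commute.conj (congrArg Subtype.val (Subgroup.mem_center_iff.1 y.2 ⟨x, hx⟩)) g).eq⟩ E hE hX e
  obtain ⟨c, hc⟩ := isConj_iff.1 (hone (φ CfsgH9.J3.mT) (φ CfsgH9.J3.mS)
    (CfsgH4.orderOf_eq_two_iff.2 ⟨CfsgH9.J3.el_sq 1, h.el_ne (k := 1) (by decide)⟩)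
    (CfsgH4.orderOf_eq_two_iff.2 ⟨CfsgH9.J3.el_sq 4, h.el_ne (k := 4) (by decide)⟩))
  exact ⟨inferInstance, h.card_three (g := c⁻¹) (by rwa [inv_inv])⟩

end Cfsg.Agent.S0456
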