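import Cfsg.Statements.S0458
import Cfsg.Agent.H6.J3Main

set_option autoImplicit false
open Cfsg

namespace Cfsg.Agent.S0458

open CfsgH6 CfsgH6.J3 CfsgH5 Subgroup

/-- Janko's third group exists as a transitive permutation group of degree 6156 with point stabiliser of order 8160: a simple group of order 50232960. -/
theorem result : ∃ H : Subgroup (Equiv.Perm (Fin 6156)), Cfsg.IsJ3 H ∧ MulAction.IsPretransitive H (Fin 6156) ∧ Nat.card (MulAction.stabilizer H (0 : Fin 6156)) = 8160 := by
  obtain ⟨L, hL, hZ, hc⟩ := sub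
  have := cen.2
  have h1 := card_map_mk (N := center G) (L := L.subgroupOf G) (by
    rw [cen.1]; exact fun x hx => hZ hx)
  rw [Nat.card_congr (subgroupOfEquivOfLe hL).toEquiv, hc, cards.1] at h1
  have h2 : Nat.card ((L.subgroupOf G).map (QuotientGroup.mk' (center G))) = 8160 := by omega
  obtain ⟨P, ⟨E⟩, hP, ⟨E'⟩⟩ := exists_perm_rep ((L.subgroupOf G).map (QuotientGroup.mk' (center G)))
    (n := 6156) (by norm_num) (by rw [h2, cards.2])
  exact ⟨P, ⟨E.symm.isSimpleGroup, (Nat.card_congr E.toEquiv).symm.trans cards.2⟩, hP,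
    (Nat.card_congr E'.toEquiv).symm.trans h2⟩

end Cfsg.Agent.S0458
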