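import Cfsg.Statements.S0459
import Cfsg.Agent.H6.Ru

set_option autoImplicit false
open Cfsg

namespace Cfsg.Agent.S0459

open CfsgH6 Subgroup

theorem pack {Γ : Type} [Group Γ] [Finite Γ] {n a b c : ℕ} [NeZero n] (hn : 1 < n) (ha : a = n * b)
    (h : ∃ G H T : Subgroup Γ, H ≤ G ∧ T ≤ H ∧ IsSimpleGroup G ∧ Nat.card G = a ∧ Nat.card H = b ∧
      IsSimpleGroup T ∧ Nat.card T = c) :
    ∃ H : Subgroup (Equiv.Perm (Fin n)), (IsSimpleGroup H ∧ Nat.card H = a) ∧
      MulAction.IsPretransitive H (Fin n) ∧ Nat.card (MulAction.stabilizer H (0 : Fin n)) = b ∧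
      ∃ T : Subgroup (MulAction.stabilizer H (0 : Fin n)), IsSimpleGroup T ∧ Nat.card T = c := by
  obtain ⟨G, H, T, hH, hT, h1, h2, h3, h4, h5⟩ := h
  have e0 := subgroupOfEquivOfLe hH
  obtain ⟨P, ⟨E⟩, hP, ⟨E'⟩⟩ := exists_perm_rep (H.subgroupOf G) hn
    (by rw [Nat.card_congr e0.toEquiv, h2, h3, ha])
  have E2 := e0.symm.trans E'
  have E3 := (equivMapOfInjective (T.subgroupOf H) E2.toMonoidHom E2.injective).symm.trans
    (subgroupOfEquivOfLe hT)
  exact ⟨P, ⟨E.symm.isSimpleGroup, (Nat.card_congr E.toEquiv).symm.trans h2⟩, hP,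
    (Nat.card_congr E2.toEquiv).symm.trans h3, _, E3.isSimpleGroup, (Nat.card_congr E3.toEquiv).trans h5⟩

/-- The Rudvalis group exists as a transitive permutation group of degree 4060: simple of order 145926144000, with point stabiliser of order 35942400 containing a simple subgroup of order 17971200 (the order of the Tits group). -/
theorem result : ∃ H : Subgroup (Equiv.Perm (Fin 4060)), Cfsg.IsRu H ∧ MulAction.IsPretransitive H (Fin 4060) ∧ Nat.card (MulAction.stabilizer H (0 : Fin 4060)) = 35942400 ∧ ∃ T : Subgroup (MulAction.stabilizer H (0 : Fin 4060)), Cfsg.IsTits T := by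
  exact pack (by norm_num) (by norm_num) CfsgH6.Ru.main

end Cfsg.Agent.S0459
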