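import Cfsg.Statements.S0460
import Cfsg.Agent.H6.ON

set_option autoImplicit false
open Cfsg

namespace Cfsg.Agent.S0460

open CfsgH6 Subgroup

theorem pack {Γ : Type} [Group Γ] [Finite Γ] {n b j m : ℕ} [NeZero n] (hn : 1 < n) (hj : 3 < j) (hm : 3 < m)
    {a c : ℕ} (ha : a = b * 3) (hc : c = n * b * 3) {P : Subgroup Γ → Subgroup Γ → Prop}
    (h : ∃ G H Z J M : Subgroup Γ, H ≤ G ∧ Z ≤ H ∧ J ≤ G ∧ M ≤ G ∧
      (center G = Z.subgroupOf G ∧ IsSimpleGroup (G ⧸ center G)) ∧ P G Z ∧ Nat.card Z = 3 ∧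
      Nat.card H = a ∧ Nat.card G = c ∧ (IsSimpleGroup J ∧ Nat.card J = j) ∧ (IsSimpleGroup M ∧ Nat.card M = m)) :
    ∃ H : Subgroup (Equiv.Perm (Fin n)), (IsSimpleGroup H ∧ Nat.card H = n * b) ∧
      MulAction.IsPretransitive H (Fin n) ∧ Nat.card (MulAction.stabilizer H (0 : Fin n)) = b ∧
      (∃ K : Subgroup H, IsSimpleGroup K ∧ Nat.card K = j) ∧ ∃ K : Subgroup H, IsSimpleGroup K ∧ Nat.card K = m := by
  obtain ⟨G, H, Z, J, M, h1, h2, h3, h4, h5, -, h6, h7, h8, h9, h10⟩ := h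
  obtain ⟨Q, ⟨E⟩, hQ, hs⟩ := perm_rep_quot h1 h2 h5 hn h6 (h7.trans ha) (h8.trans hc)
  obtain ⟨k1, k2⟩ := card_center_quot (h2.trans h1) h5.1 h6 (h8.trans hc)
  have := h5.2
  exact ⟨Q, ⟨E.symm.isSimpleGroup, (Nat.card_congr E.toEquiv).symm.trans k2⟩, hQ, hs,
    h9.2 ▸ sub_transport E h9.1 (simple_in_quot h3 h9.1 (by omega)),
    h10.2 ▸ sub_transport E h10.1 (simple_in_quot h4 h10.1 (by omega))⟩

/-- The O'Nan group exists as a transitive permutation group of degree 122760: simple of order 460815505920, point stabiliser of order 3753792, and containing simple subgroups of orders 175560 and 7920. -/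
theorem result : ∃ H : Subgroup (Equiv.Perm (Fin 122760)), Cfsg.IsON H ∧ MulAction.IsPretransitive H (Fin 122760) ∧ Nat.card (MulAction.stabilizer H (0 : Fin 122760)) = 3753792 ∧ (∃ K : Subgroup H, Cfsg.IsJ1 K) ∧ (∃ K : Subgroup H, Cfsg.IsM11 K) := by
  exact pack (b := 3753792) (by norm_num) (by norm_num) (by norm_num) (by norm_num) (by norm_num)
    (P := fun G Z => ∀ N, N ≤ G → NormBy G N → N ≤ Z ∨ N = G) CfsgH6.ON.main

end Cfsg.Agent.S0460
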