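import Cfsg.Statements.S0462
import Cfsg.Agent.H6.He
import Cfsg.Agent.H6.DCe
import Cfsg.Agent.H1.Sp2

set_option autoImplicit false
open Cfsg

namespace Cfsg.Agent.S0462

open CfsgH6 CfsgH6.He CfsgH5 Subgroup Matrix

/-- the symplectic group inside the general linear group -/
noncomputable def spHom : symplecticGroup (Fin 2) F4 →* (Matrix (Fin 2 ⊕ Fin 2) (Fin 2 ⊕ Fin 2) F4)ˣ :=
  (symplecticGroup (Fin 2) F4).subtype.toHomUnits

theorem spHom_inj : Function.Injective spHom := fun _ _ h => Subtype.ext (congrArg Units.val h)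

theorem N2_eq : C2.gen R2 8190 = spHom.range := by
  refine eq_of_le_of_card_ge (gen_le_dec4 e8 N2_v (fun A => A * J (Fin 2) F4 * Aᵀ = J (Fin 2) F4)
    (fun g hg => ⟨⟨g, hg⟩, Units.ext rfl⟩) [1, 2, 3, 4, 5, 6, 7, 8, 9, 10, 11, 12] (by decide +kernel)
    (by decide +kernel)) ?_
  rw [← Nat.card_congr (MonoidHom.ofInjective spHom_inj).toEquiv, CfsgH1.card_Sp]
  exact le_trans (by decide +kernel) N2_lb

/-- The Held group exists as a transitive permutation group of degree 2058: simple of order 4030387200, with point stabiliser containing, with index 2, a copy of the 4-dimensional symplectic group over the field with four elements. -/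
theorem result : ∃ H : Subgroup (Equiv.Perm (Fin 2058)), Cfsg.IsHe H ∧ MulAction.IsPretransitive H (Fin 2058) ∧ ∃ (F : Type) (_ : Field F) (_ : Fintype F), Fintype.card F = 4 ∧ ∃ N : Subgroup (MulAction.stabilizer H (0 : Fin 2058)), N.index = 2 ∧ Nonempty (N ≃* Matrix.symplecticGroup (Fin 2) F) := by
  have := simple
  obtain ⟨P, ⟨E⟩, hP, ⟨E'⟩⟩ := exists_perm_rep ((C1.gen R1 151115727451828646846462).subgroupOf
    (C1.gen R1 453347182355485940523006)) (n := 2058) (by norm_num)
    (by rw [Nat.card_congr (subgroupOfEquivOfLe H_le).toEquiv, cardG, cardH])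
  obtain ⟨e⟩ := iso
  exact ⟨P, ⟨E.symm.isSimpleGroup, (Nat.card_congr E.toEquiv).symm.trans cardG⟩, hP, F4, inferInstance,
    inferInstance, rfl, exists_index_two H_le N_le E' (by rw [cardH, cardN])
      ((e.trans (MulEquiv.subgroupCongr N2_eq)).trans (MonoidHom.ofInjective spHom_inj).symm)⟩

end Cfsg.Agent.S0462
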