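import Cfsg.Statements.S0463
import Cfsg.Agent.H6.HN

set_option autoImplicit false
open Cfsg

namespace Cfsg.Agent.S0463

open CfsgH6 Subgroup

theorem pack {Γ K : Type} [Group Γ] [Finite Γ] [Group K] {n a b : ℕ} [NeZero n] (hn : 1 < n) (ha : a = n * b)
    (h : ∃ G H : Subgroup Γ, H ≤ G ∧ IsSimpleGroup G ∧ Nat.card G = a ∧ Nat.card H = b ∧ Nonempty (H ≃* K)) :
    ∃ H : Subgroup (Equiv.Perm (Fin n)), (IsSimpleGroup H ∧ Nat.card H = a) ∧
      MulAction.IsPretransitive H (Fin n) ∧ Nonempty (MulAction.stabilizer H (0 : Fin n) ≃* K) := by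
  obtain ⟨G, H, hH, h1, h2, h3, ⟨e⟩⟩ := h
  have e0 := subgroupOfEquivOfLe hH
  obtain ⟨P, ⟨E⟩, hP, ⟨E'⟩⟩ := exists_perm_rep (H.subgroupOf G) hn
    (by rw [Nat.card_congr e0.toEquiv, h2, h3, ha])
  exact ⟨P, ⟨E.symm.isSimpleGroup, (Nat.card_congr E.toEquiv).symm.trans h2⟩, hP,
    ⟨(E'.symm.trans e0).trans e⟩⟩

/-- The Harada–Norton group exists as a transitive permutation group of degree 1140000: simple of order 273030912000000 with point stabiliser isomorphic to the alternating group of degree 12. -/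
theorem result : ∃ H : Subgroup (Equiv.Perm (Fin 1140000)), Cfsg.IsHN H ∧ MulAction.IsPretransitive H (Fin 1140000) ∧ Nonempty (MulAction.stabilizer H (0 : Fin 1140000) ≃* alternatingGroup (Fin 12)) := by
  exact pack (by norm_num) (by norm_num) CfsgH6.HN.main

end Cfsg.Agent.S0463
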