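import Cfsg.Statements.S0465
import Cfsg.Agent.H5.BV
import Cfsg.Agent.H6.Char2

set_option autoImplicit false
open Cfsg

namespace Cfsg.Agent.S0465

theorem aux {G H : Type} [Group G] [Group H] (e : G ≃* H) (h : Cfsg.IsB G) : Cfsg.IsB H := by
  have := h.1
  exact ⟨e.symm.isSimpleGroup, by rw [← Nat.card_congr e.toEquiv, h.2]⟩

/-- The Baby Monster as matrices in characteristic 2: for some finite field F of characteristic 2, GL(4370, F) has a simple subgroup of order 4154781481226426191177580544000000. -/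
theorem result : ∃ (F : Type) (_ : Field F) (_ : Fintype F), CharP F 2 ∧ ∃ H : Subgroup (GL (Fin 4370) F), Cfsg.IsB H := by
  have := CfsgH5.BE.simpleG
  obtain ⟨H, ⟨e⟩⟩ := CfsgH6.exists_char2 (G := CfsgH5.BE.Gg) (W := CfsgH5.BE.V)
    (by rw [CfsgH5.BE.card_G]; norm_num) 4370 ⟨2185, by norm_num⟩ (Module.finrank_fin_fun ℚ)
    ((Units.coeHom _).comp CfsgH5.BE.Gg.subtype)
    ⟨⟨_, CfsgH5.BE.gen_mem (k := 0) (by norm_num)⟩, fun h => CfsgH5.BE.z_ne (Units.val_eq_one.1 (by
      simpa only [MonoidHom.comp_apply, Subgroup.subtype_apply, Units.coeHom_apply] using h))⟩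
  exact ⟨ZMod 2, inferInstance, inferInstance, inferInstance, H, aux e ⟨this, CfsgH5.BE.card_G⟩⟩

end Cfsg.Agent.S0465
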