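import Cfsg.Statements.S0467
import Cfsg.Agent.MO.Fin

set_option autoImplicit false
open Cfsg

namespace Cfsg.Agent.S0467

/-- The Monster exists as a group of real 196883 × 196883 matrices: GL(196883, ℝ) has a simple subgroup of order 808017424794512875886459904961710757005754368000000000. -/
theorem result : ∃ H : Subgroup (GL (Fin 196883) ℝ), Cfsg.IsM H := by
  exact CfsgMO.Dat.s0467_of CfsgMO.hypL CfsgMO.hypT CfsgMO.hypA

end Cfsg.Agent.S0467
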