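import Cfsg.Statements.S0470
import Cfsg.Agent.MO.SbT
import Cfsg.Agent.MO.SbH
import Cfsg.Agent.MO.Sb5

set_option autoImplicit false
open Cfsg

namespace Cfsg.Agent.S0470

/-- In some simple group of the Monster's order there are elements of orders 3, 5 and 7 whose centralisers contain simple subgroups of the Thompson, Harada–Norton and Held orders respectively; the centraliser of the element of order 3 has order 3 · 90745943887872000. -/
theorem result : ∃ (G : Type) (_ : Group G) (_ : Finite G), Cfsg.IsM G ∧ (∃ x : G, orderOf x = 3 ∧ Nat.card (Subgroup.centralizer ({x} : Set G)) = 272237831663616000 ∧ ∃ K : Subgroup G, K ≤ Subgroup.centralizer ({x} : Set G) ∧ Cfsg.IsTh K) ∧ (∃ x : G, orderOf x = 5 ∧ ∃ K : Subgroup G, K ≤ Subgroup.centralizer ({x} : Set G) ∧ Cfsg.IsHN K) ∧ (∃ x : G, orderOf x = 7 ∧ ∃ K : Subgroup G, K ≤ Subgroup.centralizer ({x} : Set G) ∧ Cfsg.IsHe K) := by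
  open CfsgMO CfsgMO.Dat CfsgMO.Sb in
  exact s0470_of hypL hypT hypA (x3 := ⟨wd gel xTh, alph.wd_G (by decide)⟩)
    (x5 := ⟨wd gel xHN, alph.wd_G (by decide)⟩) (x7 := ⟨wd gel xHe, alph.wd_G (by decide)⟩)
    ((congrArg orderOf (wd_append _ _)).trans ordTh) ((congrArg orderOf (wd_append _ _)).trans ordHN) ordHe
    (fun _ h => (mem_S2.1 h).1) (fun _ h => (mem_S2.1 h).1) (fun _ h => (KH_le h).1)
    (simpleTh Sf.mTh Sf.FX_leTh).2 (simpleHN Sf.mHN Sf.FX_leHN).2 (fun _ => KH_comm)
    simple_KTh simple_KHN simple_KH card_KTh card_KHN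
    (card_KH (he_card hs_C qF_C) he_fr he_sh_iff) (cent_Th (wd_append _ _))

end Cfsg.Agent.S0470
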