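import Cfsg.Statements.S0471
import Cfsg.Agent.H6.Fi22
import Cfsg.Agent.H6.SU4

set_option autoImplicit false
open Cfsg

namespace Cfsg.Agent.S0471

set_option maxRecDepth 100000
open CfsgH6 CfsgH6.Fi22 CfsgH5 Subgroup Matrix

theorem su : Nonempty (C2.gen R2 16382 ≃* SU 6 F4 2) :=
  eq_SU H2_dich (by rw [H2_cz, cardH2]; norm_num)
    (gen_le_dec4 e12 H2_v (fun A => Aᵀ * A.map frob4 = 1) (fun _ hg => herm_of' hg)
      [1, 2, 3, 4, 5, 6, 7, 8, 9, 10, 11, 12, 13] (by decide +kernel) (by decide +kernel))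
    (by rw [cardH2]; decide +kernel)

theorem pack {Γ H₂ : Type} [Group Γ] [Finite Γ] {G H : Subgroup Γ} [Group H₂] (hG : IsFi22 G) {d : G}
    (h : let D := conjugatesOf d
      (∀ x ∈ D, orderOf x = 2) ∧ (∀ x ∈ D, ∀ y ∈ D, (x * y) ^ 2 = 1 ∨ (x * y) ^ 3 = 1) ∧
      Subgroup.closure D = ⊤ ∧ Nat.card D = 3510 ∧ ∀ x ∈ D, Nonempty (centralizer {x} ≃* H))
    (h1 : Nat.card (center H) = 2) (h2 : Nonempty ((H ⧸ center H) ≃* (H₂ ⧸ center H₂)))
    (h3 : Nonempty (H₂ ≃* SU 6 F4 2)) (h4 : ∀ L : Subgroup H, L.index ≠ 2) :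
    ∃ (G : Type) (_ : Group G) (_ : Finite G), Cfsg.IsFi22 G ∧ ∃ D : Set G, Cfsg.IsThreeTranspositionClass D ∧ Nat.card D = 3510 ∧ ∀ d ∈ D, ∃ (F : Type) (_ : Field F) (_ : Fintype F), Fintype.card F = 4 ∧ Cfsg.IsNonsplitDoubleCover (Subgroup.centralizer ({d} : Set G)) (Cfsg.PSU 6 F 2) := by
  obtain ⟨k1, k2, k3, k4, k5⟩ := h
  obtain ⟨e1⟩ := h3
  obtain ⟨e2⟩ := h2
  refine ⟨G, inferInstance, inferInstance, hG, _, ⟨⟨k1, k2⟩, ⟨_, IsConj.refl _, rfl⟩, k3⟩, k4, fun x hx => ?_⟩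
  obtain ⟨e⟩ := k5 x hx
  exact ⟨F4, _, inferInstance, rfl, nonsplit_of e h1 ⟨e2.trans (quotCenterEquiv e1)⟩ h4⟩

/-- The Fischer group of order 64561751654400 exists as a 3-transposition group: a simple group of that order generated by a conjugacy class of 3510 3-transpositions, the centraliser of each being a non-split double cover of PSU(6, 2). -/
theorem result : ∃ (G : Type) (_ : Group G) (_ : Finite G), Cfsg.IsFi22 G ∧ ∃ D : Set G, Cfsg.IsThreeTranspositionClass D ∧ Nat.card D = 3510 ∧ ∀ d ∈ D, ∃ (F : Type) (_ : Field F) (_ : Fintype F), Fintype.card F = 4 ∧ Cfsg.IsNonsplitDoubleCover (Subgroup.centralizer ({d} : Set G)) (Cfsg.PSU 6 F 2) := by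
  exact pack ⟨simple, cardG⟩ cls qH.1 iso su noidx

end Cfsg.Agent.S0471
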