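import Cfsg.Statements.S0474
import Cfsg.Agent.H5.XM3
import Cfsg.Agent.MO.SbT

set_option autoImplicit false
open Cfsg

namespace Cfsg.Agent.S0474

/-- Some simple group of order 4154781481226426191177580544000000 contains simple subgroups of the orders of the Thompson group, the Harada–Norton group and the Fischer group of order 4089470473293004800. -/
theorem result : ∃ (G : Type) (_ : Group G) (_ : Finite G), Cfsg.IsB G ∧ (∃ K : Subgroup G, Cfsg.IsTh K) ∧ (∃ K : Subgroup G, Cfsg.IsHN K) ∧ (∃ K : Subgroup G, Cfsg.IsFi23 K) := by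
  open CfsgMO CfsgMO.Dat CfsgMO.Sb in
  exact CfsgH5.XM.s0474_of
    ⟨_, axW_Dd, KTh, fun _ hk => (mem_S2.1 hk).1, fun _ hk => (mem_S2.1 hk).2.1, simple_KTh, card_KTh⟩
    ⟨_, axW_Dd, KHN, fun _ hk => (mem_S2.1 hk).1, fun _ hk => (mem_S2.1 hk).2.1, simple_KHN, card_KHN⟩

end Cfsg.Agent.S0474
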