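import Cfsg.Statements.S0476
import Cfsg.Agent.H6.J4

set_option autoImplicit false
open Cfsg

namespace Cfsg.Agent.S0476

open CfsgH6 Subgroup

theorem pack {Γ : Type} [Group Γ] [Finite Γ] {n q a b m : ℕ} (ha : q = a) {c : ℕ} (hb : c = b)
    (h : ∃ G : Subgroup Γ, (IsSimpleGroup G ∧ Nat.card G = n) ∧
    ∃ z : G, orderOf z = 2 ∧ ∃ (Q N M : Subgroup (centralizer ({z} : Set G))), Q.Normal ∧ N.Normal ∧
      Q ≤ N ∧ N ≤ M ∧ Nat.card Q = q ∧ Cfsg.IsExtraspecial 2 Q ∧ Nat.card N = c ∧ M.index = 2 ∧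
      ∃ (_ : (N.subgroupOf M).Normal), IsSimpleGroup (M ⧸ N.subgroupOf M) ∧
        Nat.card (M ⧸ N.subgroupOf M) = m) :
    ∃ (G : Type) (_ : Group G) (_ : Finite G), (IsSimpleGroup G ∧ Nat.card G = n) ∧
    ∃ z : G, orderOf z = 2 ∧ ∃ (Q N M : Subgroup (centralizer ({z} : Set G))), Q.Normal ∧ N.Normal ∧
      Q ≤ N ∧ N ≤ M ∧ Nat.card Q = a ∧ Cfsg.IsExtraspecial 2 Q ∧ Nat.card N = b ∧ M.index = 2 ∧
      ∃ (_ : (N.subgroupOf M).Normal), IsSimpleGroup (M ⧸ N.subgroupOf M) ∧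
        Nat.card (M ⧸ N.subgroupOf M) = m := by
  subst ha hb
  obtain ⟨G, h⟩ := h
  exact ⟨G, inferInstance, inferInstance, h⟩

/-- In some simple group of the order of Janko's fourth group there is an involution whose centraliser C has a normal extraspecial subgroup Q of order 2 ^ 13, a normal subgroup N of order 3 · 2 ^ 13 containing Q, and a subgroup M of index 2 containing N as a normal subgroup with M / N simple of order 443520. -/
theorem result : ∃ (G : Type) (_ : Group G) (_ : Finite G), Cfsg.IsJ4 G ∧ ∃ z : G, orderOf z = 2 ∧ ∃ (Q N M : Subgroup (Subgroup.centralizer ({z} : Set G))), Q.Normal ∧ N.Normal ∧ Q ≤ N ∧ N ≤ M ∧ Nat.card Q = 2 ^ 13 ∧ Cfsg.IsExtraspecial 2 Q ∧ Nat.card N = 3 * 2 ^ 13 ∧ M.index = 2 ∧ ∃ (_ : (N.subgroupOf M).Normal), Cfsg.IsM22 (M ⧸ N.subgroupOf M) := by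
  exact pack (by norm_num) (by norm_num) CfsgH6.J4.main

end Cfsg.Agent.S0476
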