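import Cfsg.Statements.S0477
import Cfsg.Agent.H6.Ly

set_option autoImplicit false
open Cfsg

namespace Cfsg.Agent.S0477

open CfsgH6 Subgroup

theorem pack {Γ : Type} [Group Γ] [Finite Γ] {a b c : ℕ} (hc : c = b * 3)
    {G Y Z : Subgroup Γ} {x : Γ} (hG : IsSimpleGroup G ∧ Nat.card G = a)
    (hx : x ∈ G ∧ (x ^ 3 = 1 ∧ x ≠ 1) ∧ G ⊓ centralizer {x} = Y ∧ Z ≤ Y ∧
      (center Y = Z.subgroupOf Y ∧ IsSimpleGroup (Y ⧸ center Y)) ∧ Nat.card Z = 3 ∧ Nat.card Y = c) :
    ∃ (G : Type) (_ : Group G) (_ : Finite G), (IsSimpleGroup G ∧ Nat.card G = a) ∧ ∃ x : G, orderOf x = 3 ∧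
      Nat.card (center (centralizer ({x} : Set G))) = 3 ∧
      (IsSimpleGroup (centralizer ({x} : Set G) ⧸ center (centralizer ({x} : Set G))) ∧
      Nat.card (centralizer ({x} : Set G) ⧸ center (centralizer ({x} : Set G))) = b) := by
  obtain ⟨hx, ⟨x3, x1⟩, hY, hZ, ⟨h1, h2⟩, h3, h4⟩ := hx
  obtain ⟨E⟩ := cent_equiv hx hY (MulEquiv.refl G)
  obtain ⟨k1, k2⟩ := card_center_quot hZ h1 h3 (h4.trans hc)
  have : Fact (Nat.Prime 3) := ⟨Nat.prime_three⟩
  exact ⟨G, inferInstance, inferInstance, hG, ⟨x, hx⟩,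
    orderOf_eq_prime (Subtype.ext x3) fun h => x1 (congrArg Subtype.val h),
    (card_center_congr E).trans k1, (CfsgH5.quotCenterEquiv E).isSimpleGroup,
    (Nat.card_congr (CfsgH5.quotCenterEquiv E).toEquiv).trans k2⟩

/-- In some simple group of the Lyons group's order there is an element of order 3 whose centraliser has centre of order 3 with quotient by the centre simple of order 898128000 (a triple cover of a group of McLaughlin's order). -/
theorem result : ∃ (G : Type) (_ : Group G) (_ : Finite G), Cfsg.IsLy G ∧ ∃ x : G, orderOf x = 3 ∧ Nat.card (Subgroup.center (Subgroup.centralizer ({x} : Set G))) = 3 ∧ Cfsg.IsMcL ((Subgroup.centralizer ({x} : Set G)) ⧸ Subgroup.center (Subgroup.centralizer ({x} : Set G))) := by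
  obtain ⟨G, H, A, Y, Z, z, x, -, hG, -, -, hx⟩ := CfsgH6.Ly.main
  exact pack (b := 898128000) (by norm_num) hG hx

end Cfsg.Agent.S0477
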