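import Cfsg.Statements.S0478
import Cfsg.Agent.H6.J3Main

set_option autoImplicit false
open Cfsg

namespace Cfsg.Agent.S0478

open CfsgH6 CfsgH6.J3 CfsgH5 Subgroup Cfsg.Spor Matrix

/-- numbering of the coordinates -/
def e9 : F9 ≃ Fin 9 := finProdFinEquiv (m := 3) (n := 3)

/-- the embedding in the special unitary group -/
noncomputable def emb : G →* SU 9 F4 2 where
  toFun g := ⟨⟨reindex e9 e9 g.1.1, by rw [det_reindex_self, det_one g.2]⟩, fun u v => by
    have := herm g.2 (u ∘ e9) (v ∘ e9)
    show ∑ i, (reindex e9 e9 g.1.1 *ᵥ u) i * (reindex e9 e9 g.1.1 *ᵥ v) i ^ 2 = ∑ i, u i * v i ^ 2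
    rw [← Equiv.sum_comp e9, ← Equiv.sum_comp e9 fun i => u i * v i ^ 2]
    simpa [reindex_apply, submatrix_mulVec_equiv] using this⟩
  map_one' := Subtype.ext (Subtype.ext (submatrix_one_equiv _))
  map_mul' a b := Subtype.ext (Subtype.ext (submatrix_mul_equiv a.1.1 b.1.1 e9.symm e9.symm e9.symm).symm)

theorem emb_inj : Function.Injective emb := fun _ _ h =>
  Subtype.ext (Units.ext ((reindex e9 e9).injective (congrArg (fun x => x.1.1) h)))

/-- A triple cover of Janko's third group inside a unitary group: for a field F with four elements, the special unitary group of dimension 9 (with respect to the form with q = 2) has a subgroup whose centre has order 3 and whose quotient by its centre is simple of order 50232960. -/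
theorem result : ∃ (F : Type) (_ : Field F) (_ : Fintype F), Fintype.card F = 4 ∧ ∃ H : Subgroup (Cfsg.SU 9 F 2), Nat.card (Subgroup.center H) = 3 ∧ Cfsg.IsJ3 (H ⧸ Subgroup.center H) := by
  have E := (MonoidHom.ofInjective emb_inj).symm
  have := cen.2
  exact ⟨F4, inferInstance, inferInstance, rfl, emb.range, (card_center_congr E).trans cards.1,
    (quotCenterEquiv E).isSimpleGroup, (Nat.card_congr (quotCenterEquiv E).toEquiv).trans cards.2⟩

end Cfsg.Agent.S0478
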