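import Cfsg.Statements.S0479
import Cfsg.Agent.H6.ON

set_option autoImplicit false
open Cfsg

namespace Cfsg.Agent.S0479

open CfsgH6 Subgroup

theorem pack {n F : Type} [Fintype n] [DecidableEq n] [CommRing F] [Finite F] {a c : ℕ} (hc : c = a * 3)
    (hF : 3 * Nat.card Fˣ < c) {G Z : Subgroup (Matrix n n F)ˣ} (h1 : Z ≤ G)
    (h5 : center G = Z.subgroupOf G ∧ IsSimpleGroup (G ⧸ center G))
    (hd : ∀ N, N ≤ G → NormBy G N → N ≤ Z ∨ N = G) (h6 : Nat.card Z = 3) (h8 : Nat.card G = c) :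
    ∃ H : Subgroup (Matrix.SpecialLinearGroup n F), Nat.card (center H) = 3 ∧
      IsSimpleGroup (H ⧸ center H) ∧ Nat.card (H ⧸ center H) = a := by
  obtain ⟨k1, k2⟩ := card_center_quot h1 h5.1 h6 (h8.trans hc)
  obtain ⟨L, ⟨E⟩⟩ := exists_SL (le_ker_of_dich hd Matrix.GeneralLinearGroup.det (by rwa [h6, h8]))
  have := h5.2
  exact ⟨L, (card_center_congr E).trans k1, (CfsgH5.quotCenterEquiv E).isSimpleGroup,
    (Nat.card_congr (CfsgH5.quotCenterEquiv E).toEquiv).trans k2⟩

/-- A triple cover of the O'Nan group as 45 × 45 matrices over the field with seven elements: SL(45, 7) has a subgroup whose centre has order 3 and whose quotient by its centre is simple of order 460815505920. -/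
theorem result : ∃ H : Subgroup (Matrix.SpecialLinearGroup (Fin 45) (ZMod 7)), Nat.card (Subgroup.center H) = 3 ∧ Cfsg.IsON (H ⧸ Subgroup.center H) := by
  obtain ⟨G, H, Z, J, M, h1, h2, -, -, h5, hd, h6, -, h8, -, -⟩ := CfsgH6.ON.main
  have : Fact (Nat.Prime 7) := ⟨by norm_num⟩
  exact pack (by norm_num) (by rw [Nat.card_units, Nat.card_zmod]; norm_num) (h2.trans h1) h5 hd h6 h8

end Cfsg.Agent.S0479
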