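import Cfsg.Statements.S0480
import Cfsg.Agent.FI.Main
import Cfsg.Agent.FI.C
import Cfsg.Agent.FI.End
import Cfsg.Agent.FI.K
import Cfsg.Agent.FI.O8
import Cfsg.Agent.FI.OX
import Cfsg.Agent.FI.Ort
import Cfsg.Agent.FI.S6
import Cfsg.Agent.FI.SO
import Cfsg.Agent.FI.Sym
import Cfsg.Agent.FI.T
import Cfsg.Agent.FI.U
import Cfsg.Agent.FI.U0
import Cfsg.Agent.FI.U6

set_option autoImplicit false
open Cfsg

namespace Cfsg.Agent.S0480

/-- The simple 3-transposition groups: if a finite non-abelian simple group G is generated by a conjugacy class of 3-transpositions, then G is isomorphic to a symplectic group Sp(2n, 2), or to a projective special unitary group PSU(n, 2) (defined over the field with four elements), or to the projective commutator subgroup of an orthogonal group in odd dimension over the field with three elements, or G has order 64561751654400, or G has order 4089470473293004800. -/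
theorem result {G : Type*} [Group G] [Finite G] [IsSimpleGroup G] (hna : ∃ x y : G, x * y ≠ y * x) {D : Set G} (hD : Cfsg.IsThreeTranspositionClass D) : (∃ n : ℕ, Nonempty (G ≃* Matrix.symplecticGroup (Fin n) (ZMod 2))) ∨ (∃ (F : Type) (_ : Field F) (_ : Fintype F) (n : ℕ), Fintype.card F = 4 ∧ Nonempty (G ≃* Cfsg.PSU n F 2)) ∨ (∃ m : ℕ, Nonempty (G ≃* Cfsg.POmega (ZMod 3) (Cfsg.quadFormOdd m (ZMod 3)))) ∨ Cfsg.IsFi22 G ∨ Cfsg.IsFi23 G := by
  exact CfsgFI.main ⟨CfsgFI.specSym, CfsgFI.specSO, CfsgFI.specOrt CfsgFI.specOX, CfsgFI.specU0,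
    CfsgFI.specU CfsgFI.specU0, CfsgFI.specC (CfsgFI.specOrt CfsgFI.specOX) CfsgFI.specU0,
    CfsgFI.specEnd, CfsgFI.specT, CfsgFI.specK, CfsgFI.specU6, CfsgFI.specS6 CfsgFI.specU6,
    CfsgFI.specO⟩ hna hD

end Cfsg.Agent.S0480
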