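import Cfsg.Statements.S0481
import Cfsg.Agent.H4.ThreeT

set_option autoImplicit false
open Cfsg

namespace Cfsg.Agent.S0481

open CfsgH4

/-- Large extraspecial subgroups: let z be an involution of a finite group G whose centraliser C contains a normal 2-subgroup Q with centre of order 2 and all squares central, such that every element of G centralising Q lies in Q. Then C contains a Sylow 2-subgroup of G, and any involution of G whose centraliser contains a Sylow 2-subgroup of G is conjugate to z. -/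
theorem result {G : Type*} [Group G] [Finite G] (z : G) (hz : orderOf z = 2) (Q : Subgroup G) (hQC : Q ≤ Subgroup.centralizer ({z} : Set G)) (hQn : ∀ g ∈ Subgroup.centralizer ({z} : Set G), ∀ q ∈ Q, g * q * g⁻¹ ∈ Q) (hQ2 : IsPGroup 2 Q) (hZ : Nat.card (Subgroup.center Q) = 2) (hsq : ∀ x : Q, x ^ 2 ∈ Subgroup.center Q) (hlarge : Subgroup.centralizer (Q : Set G) ≤ Q) : (∃ P : Sylow 2 G, (P : Subgroup G) ≤ Subgroup.centralizer ({z} : Set G)) ∧ ∀ u : G, orderOf u = 2 → (∃ P : Sylow 2 G, (P : Subgroup G) ≤ Subgroup.centralizer ({u} : Set G)) → IsConj z u := by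
  have hzC : z ∈ Subgroup.centralizer (Q : Set G) := fun q hq =>
    Subgroup.mem_centralizer_singleton_iff.1 (hQC hq)
  have key : ∀ u ∈ Subgroup.centralizer (Q : Set G), u ≠ 1 → u = z := by
    intro u hu hu1
    have hc : IsCyclic (Subgroup.center Q) := isCyclic_of_prime_card hZ
    obtain ⟨y, hy, hy2⟩ := (Nat.card_eq_two_iff' (1 : Subgroup.center Q)).1 hZ
    have h1 : ∀ v (hv : v ∈ Subgroup.centralizer (Q : Set G)), v ≠ 1 → v = y := by
      intro v hv hv1
      have := hy2 ⟨⟨v, hlarge hv⟩, Subgroup.mem_center_iff.2 fun q => Subtype.ext (hv q q.2)⟩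
        (fun h => hv1 (congrArg (fun x : Subgroup.center Q => ((x : Q) : G)) h))
      rw [← this]
    rw [h1 u hu hu1, h1 z hzC (ne_one_of_orderOf hz)]
  obtain ⟨T, hT⟩ := hQ2.exists_le_sylow
  have hT1 : (T : Subgroup G) ≠ ⊥ := fun h => ne_one_of_orderOf hz (by
    have := hT (hlarge hzC)
    rwa [h, Subgroup.mem_bot] at this)
  obtain ⟨w, h1, h2, h3⟩ := exists_central_ne_one T.2 hT1
  have hw : w = z := key w (fun q hq => h3 q (hT hq)) h2
  subst hw
  refine ⟨⟨T, fun x hx => Subgroup.mem_centralizer_singleton_iff.2 (h3 x hx)⟩, ?_⟩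
  rintro u hu ⟨P, hP⟩
  obtain ⟨g, rfl⟩ := MulAction.exists_smul_eq G T P
  have := key (g⁻¹ * u * g) (fun q hq => by
    have h4 : g * q * g⁻¹ ∈ g • T := (mem_smul_sylow _ _ _).2 (by
      rw [show g⁻¹ * (g * q * g⁻¹) * g = q by group]; exact hT hq)
    have h5 := Subgroup.mem_centralizer_singleton_iff.1 (hP h4)
    calc q * (g⁻¹ * u * g) = g⁻¹ * (g * q * g⁻¹ * u) * g := by group
      _ = _ := by rw [h5]; group)
    (fun h => ne_one_of_orderOf hu (by simpa [mul_assoc, inv_mul_eq_one] using h))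
  exact isConj_iff.2 ⟨g, by rw [← this]; group⟩

end Cfsg.Agent.S0481
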