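import Cfsg.Statements.S1553
import Cfsg.Agent.H5.Str

set_option autoImplicit false
open scoped Pointwise
open Cfsg

namespace Cfsg.Agent.S1553

open CfsgH5 MulAction

theorem card_A {o : Finset GolayPt} (ho : o ∈ octads) :
    Nat.card (fixingSubgroup M24 (o : Set GolayPt)) = 16 := by
  obtain ⟨g, rfl⟩ := trans_octads oct0_mem ho
  rw [card_fixing_smul, CM.card_eq_cntC (chM_valid_drop 5) (chM_check_drop 5)
    (fun p => allL [5, 14, 17] fun i => Nat.beq (app24 p i) i)]
  · decide +kernel
  · intro x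
    have : ∀ a : GolayPt, a ∈ ts oct0 ↔ a = pt 23 ∨ a = pt 0 ∨ a = pt 1 ∨ a = pt 2 ∨ a = pt 3 ∨
      a = pt 5 ∨ a = pt 14 ∨ a = pt 17 := by decide +kernel
    simp only [mem_fixingSubgroup_iff, Finset.mem_coe, this, forall_eq_or_imp, forall_eq, mem_drop5,
      allL_iff, List.forall_mem_cons, beq_true_iff, and_assoc,
      smul_pt_iff x (i := 5) (j := 5) (by norm_num) (by norm_num),
      smul_pt_iff x (i := 14) (j := 14) (by norm_num) (by norm_num),
      smul_pt_iff x (i := 17) (j := 17) (by norm_num) (by norm_num)]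
    simp

theorem range_eq {o : Finset GolayPt} (ho : o ∈ octads) :
    (stabHom M24 o).range = alternatingGroup o := by
  apply Equiv.Perm.eq_alternatingGroup_of_index_eq_two
  have h1 := card_range_mul (stabHom M24 o)
  rw [card_ker_stabHom, card_A ho, card_stab_octad ho] at h1
  have h2 := (stabHom M24 o).range.card_mul_index
  rw [Nat.card_perm, Nat.card_eq_fintype_card (α := o), Fintype.card_coe, ho.2,
    show Nat.card (stabHom M24 o).range = 20160 by omega] at h2
  norm_num [Nat.factorial] at h2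
  omega

/-- The stabiliser of an octad in the group of the length-24 code induces on the octad exactly its alternating group. -/
theorem result (o : Finset Cfsg.GolayPt) (ho : o ∈ Cfsg.octads) : {e : Equiv.Perm ↥o | ∃ g : Equiv.Perm Cfsg.GolayPt, g ∈ Cfsg.M24 ∧ ∃ h : (∀ x, g x ∈ o ↔ x ∈ o), g.subtypePerm h = e} = (alternatingGroup ↥o : Set (Equiv.Perm ↥o)) := by
  rw [← range_eq ho]
  ext e
  constructor
  · rintro ⟨g, hg, h, rfl⟩
    refine ⟨⟨⟨g, hg⟩, ?_⟩, rfl⟩
    rw [mem_stabilizer_iff]
    apply Finset.eq_of_subset_of_card_le _ (card_smulM _ _).ge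
    intro x hx
    obtain ⟨y, hy, rfl⟩ := Finset.mem_smul_finset.1 hx
    exact (h y).2 hy
  · rintro ⟨g, rfl⟩
    exact ⟨g.1, g.1.2, fun x => stab_mem_iff g x, rfl⟩

end Cfsg.Agent.S1553
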