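import Cfsg.Statements.S1555
import Cfsg.Agent.H5.Orb

set_option autoImplicit false
open scoped Pointwise
open Cfsg

namespace Cfsg.Agent.S1555

open CfsgH5 MulAction

theorem tr {o s : Finset GolayPt} (g : M24) :
    {o' : Finset GolayPt | o' ∈ octads ∧ o ∩ o' = s}.ncard =
    {o' : Finset GolayPt | o' ∈ octads ∧ g • o ∩ o' = g • s}.ncard :=
  ncard_transport g fun x => by
    simp only [Set.mem_ofPred_eq, smul_mem_octads_iff, ← Finset.smul_finset_inter,
      smul_left_cancel_iff]

theorem cnt (o s : Finset GolayPt) :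
    {o' : Finset GolayPt | o' ∈ octads ∧ o ∩ o' = s}.ncard =
    countLt 4096 fun k => force (cw k) fun m =>
      band (Nat.beq (Nat.land (mk o) m) (mk s)) (Nat.beq (pop24 m) 8) :=
  ncard_Sup' _ _ fun x => by
    simp only [Set.mem_ofPred_eq, mem_octads, band_eq, Bool.and_eq_true, beq_true_iff,
      ← card_eq_pop, ← mk_inter, E24.mask_inj.eq_iff]
    tauto

theorem chk4 : (allLt 4096 fun k => force (cw k) fun o =>
    bimp (band (Nat.beq (Nat.land 0x800007 o) 0x800007) (Nat.beq (pop24 o) 8))
    (Nat.beq (countLt 4096 fun k => force (cw k) fun m =>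
      band (Nat.beq (Nat.land o m) 0x800007) (Nat.beq (pop24 m) 8)) 4)) = true := by
  decide +kernel

/-- Bottom row of the Leech triangle: an octad is met in a prescribed pair of its points by exactly 16 octads and in a prescribed 4-subset by exactly 4 octads. -/
theorem result (o : Finset Cfsg.GolayPt) (ho : o ∈ Cfsg.octads) (s : Finset Cfsg.GolayPt) (hs : s ⊆ o) : (s.card = 2 → {o' : Finset Cfsg.GolayPt | o' ∈ Cfsg.octads ∧ o ∩ o' = s}.ncard = 16) ∧ (s.card = 4 → {o' : Finset Cfsg.GolayPt | o' ∈ Cfsg.octads ∧ o ∩ o' = s}.ncard = 4) := by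
  refine ⟨fun h2 => ?_, fun h4 => ?_⟩
  · obtain ⟨p, q, hpq, rfl⟩ := Finset.card_eq_two.1 h2
    obtain ⟨g, e1, e2, e⟩ := trans2_Sup hpq (p' := pt 23) (q' := pt 0) (by decide) ho.1 oct0_mem.1
      (ho.2.trans oct0_mem.2.symm) (iff_of_true (hs (by simp)) (by decide +kernel))
      (iff_of_true (hs (by simp)) (by decide +kernel))
    have : g • ({p, q} : Finset GolayPt) = ts 0x800001 := by
      rw [Finset.smul_finset_insert, Finset.smul_finset_singleton, e1, e2]; decide +kernel
    rw [tr g, e, this, cnt, mk_ts (by norm_num [oct0] : oct0 < 16777216), mk_ts (by norm_num)]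
    decide +kernel
  · obtain ⟨g, e⟩ := trans_set4 h4
    have h1 := forall_Sup chk4 ((smul_mem_Sup_iff g).2 ho.1)
    have h2 : g • s ⊆ g • o := Finset.smul_finset_subset_smul_finset hs
    rw [E24.subset_iff_mask, e, E24.mask_toSet (by norm_num)] at h2
    rw [← card_eq_pop, card_smulM, ho.2, h2] at h1
    rw [tr g, e, cnt, mk_ts (by norm_num)]
    exact (beq_true_iff _ _).1 h1

end Cfsg.Agent.S1555
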