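import Cfsg.Statements.S1560
import Cfsg.Agent.H5.Flags

set_option autoImplicit false
open scoped Pointwise
open Cfsg

namespace Cfsg.Agent.S1560

open CfsgH5 MulAction

theorem cnt (j : ℕ) : {d' : Finset GolayPt | d' ∈ dodecads ∧ (ts dod0 ∩ d').card = j}.ncard =
    countLt 4096 fun k => force (cw k) fun m =>
      band (Nat.beq (pop24 m) 12) (Nat.beq (pop24 (Nat.land dod0 m)) j) :=
  ncard_Sup' _ _ fun s => by
    simp only [Set.mem_ofPred_eq, mem_dodecads, card_inter_ts (by norm_num [dod0] : dod0 < 16777216), band_eq, Bool.and_eq_true,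
      beq_true_iff, ← card_eq_pop, and_assoc]

theorem tr {d : Finset GolayPt} (g : M24) (j : ℕ) :
    {d' : Finset GolayPt | d' ∈ dodecads ∧ (d ∩ d').card = j}.ncard =
    {d' : Finset GolayPt | d' ∈ dodecads ∧ (g • d ∩ d').card = j}.ncard :=
  ncard_transport g fun x => by
    simp only [Set.mem_ofPred_eq, smul_mem_dodecads_iff, card_smul_inter]

/-- Intersection numbers of dodecads: a dodecad meets every other dodecad in 0, 4, 6 or 8 points, meeting 495 of them in 4 points, 1584 in 6 points and 495 in 8 points. -/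
theorem result (d : Finset Cfsg.GolayPt) (hd : d ∈ Cfsg.dodecads) : (∀ d' ∈ Cfsg.dodecads, d' ≠ d → (d ∩ d').card = 0 ∨ (d ∩ d').card = 4 ∨ (d ∩ d').card = 6 ∨ (d ∩ d').card = 8) ∧ {d' : Finset Cfsg.GolayPt | d' ∈ Cfsg.dodecads ∧ (d ∩ d').card = 4}.ncard = 495 ∧ {d' : Finset Cfsg.GolayPt | d' ∈ Cfsg.dodecads ∧ (d ∩ d').card = 6}.ncard = 1584 ∧ {d' : Finset Cfsg.GolayPt | d' ∈ Cfsg.dodecads ∧ (d ∩ d').card = 8}.ncard = 495 := by
  obtain ⟨g, e⟩ := trans_dodecads hd dod0_mem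
  refine ⟨fun d' hd' hne => ?_, ?_, ?_, ?_⟩
  · have h1 := card_symmDiff_add d d'
    rw [hd.2, hd'.2] at h1
    rcases card_of_mem_Sup (symmDiff_mem_Sup hd.1 hd'.1) with h | h | h | h | h
    · rw [Finset.card_eq_zero] at h; exact absurd (symmDiff_eq_bot.1 h).symm hne
    all_goals omega
  all_goals rw [tr g, e, cnt]; decide +kernel

end Cfsg.Agent.S1560
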