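import Cfsg.Statements.S1565
import Cfsg.Agent.H5.Orb
import Cfsg.Agent.S1556

set_option autoImplicit false
open scoped Pointwise
open Cfsg

namespace Cfsg.Agent.S1565

open CfsgH5 MulAction



/-- The stabiliser of an octad is a maximal proper subgroup of the group of the length-24 code. -/
theorem result (o : Finset Cfsg.GolayPt) (ho : o ∈ Cfsg.octads) : IsCoatom (MulAction.stabilizer Cfsg.M24 o) := by
  obtain ⟨g, e⟩ := trans_octads ho oct0_mem
  rw [← isCoatom_stabilizer_smul g, e]
  refine isCoatom_of_suborbits _ {0, 2, 4, 8} (fun U => (ts oct0 ∩ U).card)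
    (nthD [30, 0, 448, 0, 280, 0, 0, 0, 1] 0) ?_ ?_ ?_ ?_ (by decide)
  · intro y hy
    rw [orbit_octad oct0_mem] at hy
    rcases octad_inter_card oct0_mem hy with rfl | h | h | h
    · rw [Finset.inter_self, hy.2]; decide
    all_goals rw [h]; decide
  · intro y hy y' hy' h
    rw [orbit_octad oct0_mem] at hy hy'
    obtain ⟨k, hk, e⟩ := S1556.std hy hy' h
    exact ⟨k, hk.2 _ (by simp), e⟩
  · intro i hi
    rw [orbit_octad oct0_mem, ncard_Sup' _ (fun m => band (Nat.beq (pop24 m) 8)
      (Nat.beq (pop24 (Nat.land oct0 m)) i)) (fun s => by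
      simp only [Set.mem_ofPred_eq, mem_octads, card_inter_ts (by norm_num [oct0] : oct0 < 16777216), band_eq, Bool.and_eq_true,
        beq_true_iff, ← card_eq_pop, and_assoc])]
    revert i; decide +kernel
  · rw [Finset.inter_self, oct0_mem.2]; decide +kernel

end Cfsg.Agent.S1565
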