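import Cfsg.Statements.S1566
import Cfsg.Agent.H5.Fam2
import Cfsg.Agent.S1561
import Cfsg.Agent.S1560

set_option autoImplicit false
open scoped Pointwise
open Cfsg

namespace Cfsg.Agent.S1566

open CfsgH5 MulAction

/-- a dodecad with its complement -/
def pr (d : Finset GolayPt) : Finset (Finset GolayPt) := {d, dᶜ}

theorem smul_compl (g : M24) (d : Finset GolayPt) : g • dᶜ = (g • d)ᶜ := by
  ext x
  rw [← Finset.inv_smul_mem_iff, Finset.mem_compl, Finset.mem_compl, Finset.inv_smul_mem_iff]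

theorem smul_pr (g : M24) (d : Finset GolayPt) : g • pr d = pr (g • d) := by
  simp only [pr, Finset.smul_finset_insert, Finset.smul_finset_singleton, smul_compl]

theorem pr_compl (d : Finset GolayPt) : pr dᶜ = pr d := by
  simp only [pr, compl_compl, Finset.pair_comm]

theorem compl_mem {d : Finset GolayPt} (hd : d ∈ dodecads) : dᶜ ∈ dodecads :=
  ⟨compl_mem_Sup hd.1, by rw [Finset.card_compl, hd.2]; rfl⟩

theorem card_inter_compl {d e : Finset GolayPt} (hd : d ∈ dodecads) :
    (d ∩ eᶜ).card + (d ∩ e).card = 12 := by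
  rw [← hd.2, ← Finset.card_sdiff_add_card_inter d e, Finset.sdiff_eq_inter_compl]

theorem orb {d : Finset GolayPt} (hd : d ∈ dodecads) (x : Finset (Finset GolayPt)) :
    x ∈ orbit M24 (pr d) ↔ ∃ e ∈ dodecads, pr e = x := by
  constructor
  · rintro ⟨g, rfl⟩
    exact ⟨g • d, (smul_mem_dodecads_iff g).2 hd, (smul_pr g d).symm⟩
  · rintro ⟨e, he, rfl⟩
    obtain ⟨g, rfl⟩ := trans_dodecads hd he
    exact ⟨g, smul_pr g d⟩

/-- the largest intersection with `d` -/
def lab (d : Finset GolayPt) (x : Finset (Finset GolayPt)) : ℕ := x.sup fun e => (d ∩ e).card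

theorem lab_pr (d e : Finset GolayPt) : lab d (pr e) = max (d ∩ e).card (d ∩ eᶜ).card := by
  simp [lab, pr]

theorem exists_big {d : Finset GolayPt} (hd : d ∈ dodecads) {x : Finset (Finset GolayPt)}
    (hx : x ∈ orbit M24 (pr d)) : ∃ e ∈ dodecads, pr e = x ∧ lab d x = (d ∩ e).card ∧
      6 ≤ (d ∩ e).card := by
  obtain ⟨e, he, rfl⟩ := (orb hd x).1 hx
  have := card_inter_compl (e := e) hd
  by_cases h : 6 ≤ (d ∩ e).card
  · exact ⟨e, he, rfl, by rw [lab_pr]; omega, h⟩
  · exact ⟨eᶜ, compl_mem he, pr_compl e, by rw [lab_pr]; omega, by omega⟩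

theorem pr_eq {d e : Finset GolayPt} (h : pr d = pr e) : d = e ∨ d = eᶜ := by
  have : d ∈ pr e := h ▸ (by simp [pr])
  simpa [pr] using this

theorem ncard_lab {d : Finset GolayPt} (hd : d ∈ dodecads) (i : ℕ) (hi : 6 < i) :
    {y | y ∈ orbit M24 (pr d) ∧ lab d y = i}.ncard =
      {e | e ∈ dodecads ∧ (d ∩ e).card = i}.ncard := by
  symm
  apply Set.ncard_congr (fun e _ => pr e)
  · rintro e ⟨he, h⟩
    have := card_inter_compl (e := e) hd
    exact ⟨(orb hd _).2 ⟨e, he, rfl⟩, by rw [lab_pr]; omega⟩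
  · rintro a b ⟨-, ha⟩ ⟨-, hb⟩ h
    rcases pr_eq h with h | rfl
    · exact h
    · have := card_inter_compl (e := b) hd; omega
  · rintro y ⟨hy, h⟩
    obtain ⟨e, he, rfl, h1, -⟩ := exists_big hd hy
    exact ⟨e, ⟨he, by omega⟩, rfl⟩

theorem ncard_lab6 {d : Finset GolayPt} (hd : d ∈ dodecads) :
    {y | y ∈ orbit M24 (pr d) ∧ lab d y = 6}.ncard =
      {e | e ∈ dodecads ∧ pt 0 ∈ e ∧ (d ∩ e).card = 6}.ncard := by
  symm
  apply Set.ncard_congr (fun e _ => pr e)
  · rintro e ⟨he, -, h⟩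
    have := card_inter_compl (e := e) hd
    exact ⟨(orb hd _).2 ⟨e, he, rfl⟩, by rw [lab_pr]; omega⟩
  · rintro a b ⟨-, ha, -⟩ ⟨-, hb, -⟩ h
    rcases pr_eq h with h | rfl
    · exact h
    · exact absurd hb (Finset.mem_compl.1 ha)
  · rintro y ⟨hy, h⟩
    obtain ⟨e, he, rfl, h1, -⟩ := exists_big hd hy
    have := card_inter_compl (e := e) hd
    by_cases h0 : pt 0 ∈ e
    · exact ⟨e, ⟨he, h0, by omega⟩, rfl⟩
    · exact ⟨eᶜ, ⟨compl_mem he, Finset.mem_compl.2 h0, by omega⟩, pr_compl e⟩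

/-- The setwise stabiliser of a dodecad together with its complement is a maximal proper subgroup of the group of the length-24 code. -/
theorem result (d : Finset Cfsg.GolayPt) (hd : d ∈ Cfsg.dodecads) : IsCoatom (MulAction.stabilizer Cfsg.M24 ({d, dᶜ} : Finset (Finset Cfsg.GolayPt))) := by
  obtain ⟨g, e⟩ := trans_dodecads hd dod0_mem
  change IsCoatom (stabilizer M24 (pr d))
  rw [← isCoatom_stabilizer_smul g, smul_pr, e]
  have hlt : dod0 < 16777216 := by norm_num [dod0]
  refine isCoatom_of_suborbits _ {6, 8, 12} (lab (ts dod0))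
    (nthD [0, 0, 0, 0, 0, 0, 792, 0, 495, 0, 0, 0, 1] 0) ?_ ?_ ?_ ?_ (by decide)
  · intro y hy
    obtain ⟨e, he, rfl, h1, h2⟩ := exists_big dod0_mem hy
    rw [h1]
    by_cases hne : e = ts dod0
    · rw [hne, Finset.inter_self, dod0_mem.2]; decide
    · rcases (S1560.result _ dod0_mem).1 e he hne with h | h | h | h
      · omega
      · omega
      all_goals rw [h]; decide
  · intro y hy y' hy' h
    obtain ⟨e, he, rfl, h1, -⟩ := exists_big dod0_mem hy
    obtain ⟨e', he', rfl, h1', -⟩ := exists_big dod0_mem hy'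
    obtain ⟨k, hk, e⟩ := S1561.std he he' (by omega)
    exact ⟨k, by rw [mem_stabilizer_iff, smul_pr, hk.2 _ (by simp)], by rw [smul_pr, e]⟩
  · intro i hi
    simp only [Finset.mem_insert, Finset.mem_singleton] at hi
    rcases hi with rfl | rfl | rfl
    · rw [ncard_lab6 dod0_mem, ncard_Sup' _ (fun m => band (Nat.beq (pop24 m) 12) (band (tb m 0)
        (Nat.beq (pop24 (Nat.land dod0 m)) 6))) fun s => by
        simp only [Set.mem_ofPred_eq, mem_dodecads, card_inter_ts hlt, band_eq, Bool.and_eq_true,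
          beq_true_iff, ← card_eq_pop, and_assoc, tb_mk_pt _ (by norm_num : 0 < 24)]]
      decide +kernel
    all_goals rw [ncard_lab dod0_mem _ (by norm_num), S1560.cnt]; decide +kernel
  · rw [lab_pr, Finset.inter_self, dod0_mem.2, Finset.inter_compl, Finset.card_empty]
    decide +kernel

end Cfsg.Agent.S1566
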