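import Cfsg.Statements.S1568
import Cfsg.Agent.H6.Leech
import Cfsg.Agent.H5.Trans

set_option autoImplicit false
open Cfsg

namespace Cfsg.Agent.S1568

open CfsgH5 CfsgH6 Finset

set_option linter.unusedSimpArgs false

noncomputable section

theorem ncard_fib {β : Type} (A : Set V) (C : Set (Finset GolayPt)) (F : Finset GolayPt → Finset β)
    (f : Finset GolayPt → β → V) (n : ℕ) (hF : ∀ c ∈ C, (F c).card = n)
    (hinj : ∀ c d p q, p ∈ F c → q ∈ F d → f c p = f d q → c = d ∧ p = q)
    (h : ∀ x, x ∈ A ↔ ∃ c ∈ C, ∃ p ∈ F c, x = f c p) : A.ncard = C.ncard * n := by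
  classical
  have e : A = ↑(((Set.toFinite C).toFinset.sigma F).image fun z => f z.1 z.2) := by
    ext x
    simp only [h, coe_image, Set.mem_image, mem_coe, mem_sigma, Set.Finite.mem_toFinset]
    exact ⟨fun ⟨c, hc, p, hp, e⟩ => ⟨⟨c, p⟩, ⟨hc, hp⟩, e.symm⟩,
      fun ⟨z, hz, e⟩ => ⟨z.1, hz.1, z.2, hz.2, e.symm⟩⟩
  rw [e, Set.ncard_coe_finset, card_image_of_injOn, card_sigma,
    sum_congr rfl fun c hc => hF c ((Set.Finite.mem_toFinset _).1 hc), sum_const, smul_eq_mul,
    Set.ncard_eq_toFinset_card C]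
  rintro ⟨c, p⟩ hp ⟨d, q⟩ hq e
  obtain ⟨rfl, rfl⟩ := hinj c d p q (mem_sigma.1 hp).2 (mem_sigma.1 hq).2 e
  rfl

theorem ncard_all : Sup.ncard = 4096 := by
  rw [ncard_Sup' Sup (fun _ => true) (by simp)]; decide +kernel

theorem card_par (c : Finset GolayPt) (r : ℕ) : (c.powerset.filter fun S => S.card % 2 = r).card =
    ∑ m ∈ range (c.card + 1), c.card.choose m * if m % 2 = r then 1 else 0 := by
  rw [card_filter, sum_powerset_apply_card fun m => if m % 2 = r then 1 else 0]; rfl

theorem eq_vb' {x : V} {c : Finset GolayPt} (h1 : ∀ i, x i % 4 = if i ∈ c then 2 else 0)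
    (h : sqNorm x ≤ 4 * c.card) : x = vb c (c.filter fun i => x i = -2) := by
  have h3 := all_zero (s := univ) (even_excess_nonneg h1) (by rw [even_excess (c := c)] at h; omega)
  funext i
  have h4 := h3 i (mem_univ i); have h5 := h1 i
  unfold vb
  by_cases hi : i ∈ c
  · simp only [hi, if_true, mem_filter, true_and] at *
    rcases sq_two h5 with h | h | h
    · simp [h]
    · simp [h]
    · omega
  · simp only [hi, if_false] at *
    simpa using h4

theorem vb_inj' {O O' S S' : Finset GolayPt} (hS : S ⊆ O) (hS' : S' ⊆ O') (h : vb O S = vb O' S') :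
    O = O' ∧ S = S' := by
  constructor <;> ext k <;> have := congrFun h k <;> have := @hS k <;> have := @hS' k <;>
    unfold vb at * <;> split_ifs at * <;> simp_all

theorem fam1 : {x : V | x ∈ leechLattice ∧ sqNorm x = 48 ∧ ∀ i, x i = 0 ∨ x i = 2 ∨ x i = -2}.ncard =
    5275648 := by
  rw [ncard_fib _ dodecads (fun c => c.powerset.filter fun S => S.card % 2 = 0) vb 2048
    (fun c hc => by rw [card_par, hc.2]; decide +kernel) (fun c d p q hp hq h => by
      simp only [mem_filter, mem_powerset] at hp hq; exact vb_inj' hp.1 hq.1 h), ncard_dodecads]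
  intro x
  simp only [mem_filter, mem_powerset, Set.mem_ofPred_eq]
  constructor
  · rintro ⟨hx, h1, h2⟩
    rcases (mem_leech_iff.1 hx).cases with ⟨c, hc, h3, h4⟩ | ⟨c, -, h3, -⟩
    · have h5 : sqNorm x = 4 * c.card := by
        rw [even_excess (c := c), sum_eq_zero, add_zero]
        intro i _
        have := h3 i
        rcases h2 i with h | h | h <;> rw [h] at this ⊢ <;> split_ifs at * <;> omega
      obtain ⟨S, k1, k2, k3⟩ := eq_vb hc h3 h4 h5.le
      exact ⟨c, (mem_dodecads c).2 ⟨hc, by omega⟩, S, ⟨k1, k2⟩, k3⟩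
    · have := h3 none
      have := h2 none
      split_ifs at * <;> omega
  · rintro ⟨c, hc, S, ⟨h1, h2⟩, rfl⟩
    refine ⟨vb_mem hc.1 h1 h2, by rw [sqNorm_vb, hc.2]; norm_num, fun i => ?_⟩
    unfold vb; split_ifs <;> simp

/-- odd vectors -/
def vo (a : ℤ) (c T : Finset GolayPt) : V :=
  fun j => if j ∈ c then (if j ∈ T then -a else -1) else (if j ∈ T then a else 1)

theorem famo {a b : ℤ} {t : ℕ} (ha : a = -3 ∧ b = 3 ∧ t = 3 ∨ a = 5 ∧ b = 5 ∧ t = 1) :
    {x : V | x ∈ leechLattice ∧ sqNorm x = 48 ∧ ∃ T : Finset GolayPt, T.card = t ∧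
      ∀ i ∈ T, |x i| = b}.ncard = 4096 * (24).choose t := by
  rw [ncard_fib _ Sup (fun _ => powersetCard t univ) (vo a) ((24).choose t)
    (fun c _ => by rw [card_powersetCard]; rfl) (fun c d p q _ _ h => ?_), ncard_all]
  · intro x
    simp only [mem_powersetCard, subset_univ, true_and, Set.mem_ofPred_eq]
    constructor
    · rintro ⟨hx, h1, T, h2, h3⟩
      have h4 : ∀ i ∈ T, x i = b ∨ x i = -b := fun i hi => eq_or_eq_neg_of_abs_eq (h3 i hi)
      rcases (mem_leech_iff.1 hx).cases with ⟨c, -, h5, -⟩ | ⟨c, hc, h5, -⟩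
      · obtain ⟨i, hi⟩ := card_pos.1 (show 0 < T.card by omega)
        have := h5 i
        have := h4 i hi
        split_ifs at * <;> omega
      · refine ⟨c, hc, T, h2, ?_⟩
        rw [odd_excess, ← sum_add_sum_compl T, sum_congr rfl (g := fun _ => b ^ 2 - 1) fun i hi => by
          rw [← h3 i hi, sq_abs], sum_const, h2, nsmul_eq_mul] at h1
        have h6 := all_zero (s := Tᶜ) (odd_excess_nonneg h5) (by
          rcases ha with ⟨-, rfl, rfl⟩ | ⟨-, rfl, rfl⟩ <;> norm_num at h1 ⊢ <;> omega)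
        funext j
        have h7 := h5 j
        unfold vo
        by_cases hj : j ∈ T
        · have := h4 j hj
          simp only [hj, if_true]
          split_ifs at * <;> omega
        · have h8 : (x j - 1) * (x j + 1) = 0 := by have := h6 j (mem_compl.2 hj); linarith
          simp only [hj, if_false]
          rcases mul_eq_zero.1 h8 with h | h <;> split_ifs at * <;> omega
    · rintro ⟨c, hc, T, h1, rfl⟩
      refine ⟨mem_of_odd hc (fun i => ?_) ?_, ?_, T, h1, fun i hi => ?_⟩
      · unfold vo; split_ifs <;> omega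
      · have h2 : (8 : ℤ) ∣ ∑ j, (vo a c T j - (if j ∈ c then -1 else 1) - if j ∈ T then 4 else 0) :=
          dvd_sum fun j _ => by unfold vo; split_ifs <;> omega
        rw [sum_sub_distrib, sum_sub_distrib, sum_ite_mem', sum_ite_mem'] at h2
        have := card_mod_four hc
        omega
      · have : ∀ j, vo a c T j ^ 2 = if j ∈ T then a ^ 2 else 1 := fun j => by
          unfold vo; split_ifs <;> simp
        simp only [sqNorm, this, sum_ite_mem', h1]
        rcases ha with ⟨rfl, -, rfl⟩ | ⟨rfl, -, rfl⟩ <;> rfl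
      · unfold vo
        rcases ha with ⟨rfl, rfl, -⟩ | ⟨rfl, rfl, -⟩ <;> split_ifs <;> rfl
  · constructor <;> ext k <;> have := congrFun h k <;> unfold vo at this <;> split_ifs at this <;>
      first | omega | simp [*]

/-- even vectors with one coordinate `±4` -/
def ve (c : Finset GolayPt) (p : GolayPt × Bool × Finset GolayPt) : V :=
  vb c p.2.2 + Pi.single p.1 (if p.2.1 then -4 else 4)

theorem fam3 : {x : V | x ∈ leechLattice ∧ sqNorm x = 48 ∧ ∃ i, |x i| = 4}.ncard = 3108864 := by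
  have e0 : ∀ {c : Finset GolayPt} {i} (S : Finset GolayPt), i ∉ c → vb c S i = 0 := fun _ h => if_neg h
  have e1 : ∀ (c S : Finset GolayPt) i, vb c S i % 4 = if i ∈ c then 2 else 0 := fun c S i => by
    unfold vb; split_ifs <;> rfl
  have e2 : ∀ (y : V) i a, y i = 0 → sqNorm (y + Pi.single i a) = sqNorm y + a ^ 2 := fun y i a h => by
    rw [sqNorm_add, dot_single_right, h, sqNorm_eq_dot (Pi.single i a), dot_single_right]; simp [sq]
  have e3 : ∀ (y : V) i a, ∑ j, (y + Pi.single i a : V) j = ∑ j, y j + a := fun y i a => by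
    simp [sum_add_distrib]
  rw [ncard_fib _ octads (fun c => cᶜ ×ˢ univ ×ˢ c.powerset.filter fun S => S.card % 2 = 1) ve 4096
    (fun c hc => by rw [card_product, card_product, card_par, card_compl, hc.2]; decide) ?_,
    ncard_octads]
  · intro x
    simp only [mem_filter, mem_powerset, Set.mem_ofPred_eq, mem_product, mem_compl, mem_univ, true_and]
    constructor
    · rintro ⟨hx, h1, i, h2⟩
      have h2 := eq_or_eq_neg_of_abs_eq h2
      rcases (mem_leech_iff.1 hx).cases with ⟨c, hc, h3, h4⟩ | ⟨c, -, h3, -⟩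
      · have hi : i ∉ c := fun hi => by have := h3 i; rw [if_pos hi] at this; omega
        obtain ⟨y, hy, h5⟩ : ∃ y : V, y i = 0 ∧ x = y + Pi.single i (x i) :=
          ⟨x - Pi.single i (x i), by simp, by simp⟩
        have h6 : ∀ j, y j % 4 = if j ∈ c then 2 else 0 := fun j => by
          by_cases hj : j = i
          · rw [hj, hy, if_neg hi]; rfl
          · rw [← h3 j, h5]; simp [hj]
        have h7 : sqNorm y = 32 := by
          rw [h5, e2 y i _ hy] at h1
          rcases h2 with h | h <;> rw [h] at h1 <;> omega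
        have h8 : (∑ j, y j) % 8 = 4 := by rw [h5, e3] at h4; omega
        have h9 : c.card = 8 := by
          have k1 := sum_nonneg (s := univ) fun j _ => even_excess_nonneg h6 j
          have k2 := even_excess (x := y) (c := c)
          rcases card_of_mem_Sup hc with h | h
          · have k3 : (32 : ℤ) ∣ ∑ j, (y j ^ 2 - 4 * y j) := dvd_sum fun j _ => by
              have := h6 j
              rw [card_eq_zero.1 h, if_neg (notMem_empty j)] at this
              obtain ⟨k, hk⟩ := Int.dvd_of_emod_eq_zero this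
              obtain ⟨m, hm⟩ := Int.even_mul_pred_self k
              exact ⟨m, by rw [hk]; linarith⟩
            rw [sum_sub_distrib, ← mul_sum, show ∑ j, y j ^ 2 = 32 from h7] at k3
            omega
          · omega
        have k1 := eq_vb' h6 (by omega)
        refine ⟨c, ⟨hc, h9⟩, (i, decide (x i = -4), c.filter fun j => y j = -2),
          ⟨hi, filter_subset _ _, ?_⟩, ?_⟩
        · rw [k1, sum_vb (filter_subset _ _)] at h8
          simp only; omega
        · rw [ve, ← k1]
          rcases h2 with h | h <;> simpa [h] using h5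
      · have := h3 i
        split_ifs at * <;> omega
    · rintro ⟨c, hc, ⟨i, s, S⟩, ⟨h1, h2, h3⟩, rfl⟩
      simp only at h1 h2 h3
      refine ⟨mem_of_even hc.1 (fun j => ?_) ?_, ?_, i, ?_⟩
      · rw [← e1 c S j, ve, Pi.add_apply, Pi.single_apply]; dsimp only; split_ifs <;> omega
      · rw [ve, e3, sum_vb h2, hc.2]; split_ifs <;> omega
      · rw [ve, e2 _ _ _ (e0 _ h1), sqNorm_vb, hc.2]; split_ifs <;> rfl
      · rw [ve, Pi.add_apply, e0 _ h1, Pi.single_eq_same]; split_ifs <;> rfl
  · rintro c d ⟨i, s, S⟩ ⟨j, t, T⟩ hp hq h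
    simp only [mem_filter, mem_powerset, mem_product, mem_compl] at hp hq
    have h1 := congrFun h i
    simp only [ve, Pi.add_apply, e0 _ hp.1, Pi.single_eq_same] at h1
    obtain rfl : i = j := by
      by_contra hn
      rw [Pi.single_eq_of_ne hn] at h1
      unfold vb at h1; split_ifs at h1 <;> omega
    rw [e0 _ hq.1, Pi.single_eq_same] at h1
    obtain rfl : s = t := by revert h1; cases s <;> cases t <;> simp
    obtain ⟨rfl, rfl⟩ := vb_inj' hp.2.2.1 hq.2.2.1 (add_right_cancel h)
    exact ⟨rfl, rfl⟩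

end

/-- Shape census of the lattice vectors of sum of squares 48 (customary norm 6): the four families (2^12, 0^12), (±3^3, ±1^21), (±4, ±2^8, 0^15) and (±5, ±1^23) have 5275648, 8290304, 3108864 and 98304 members. -/
theorem result : {x : Cfsg.GolayPt → ℤ | x ∈ Cfsg.leechLattice ∧ Cfsg.sqNorm x = 48 ∧ ∀ i, x i = 0 ∨ x i = 2 ∨ x i = -2}.ncard = 5275648 ∧ {x : Cfsg.GolayPt → ℤ | x ∈ Cfsg.leechLattice ∧ Cfsg.sqNorm x = 48 ∧ ∃ i j k, i ≠ j ∧ j ≠ k ∧ i ≠ k ∧ |x i| = 3 ∧ |x j| = 3 ∧ |x k| = 3}.ncard = 8290304 ∧ {x : Cfsg.GolayPt → ℤ | x ∈ Cfsg.leechLattice ∧ Cfsg.sqNorm x = 48 ∧ ∃ i, |x i| = 4}.ncard = 3108864 ∧ {x : Cfsg.GolayPt → ℤ | x ∈ Cfsg.leechLattice ∧ Cfsg.sqNorm x = 48 ∧ ∃ i, |x i| = 5}.ncard = 98304 := by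
  refine ⟨fam1, ?_, fam3, ?_⟩
  · refine (congrArg _ ?_).trans (famo (Or.inl ⟨rfl, rfl, rfl⟩))
    ext x
    refine and_congr_right fun _ => and_congr_right fun _ => ⟨?_, ?_⟩
    · rintro ⟨i, j, k, h1, h2, h3, h⟩
      exact ⟨{i, j, k}, card_eq_three.2 ⟨i, j, k, h1, h3, h2, rfl⟩, by simpa using h⟩
    · rintro ⟨T, h1, h⟩
      obtain ⟨i, j, k, k1, k2, k3, rfl⟩ := card_eq_three.1 h1
      exact ⟨i, j, k, k1, k3, k2, by simpa using h⟩
  · refine (congrArg _ ?_).trans (famo (Or.inr ⟨rfl, rfl, rfl⟩))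
    ext x
    refine and_congr_right fun _ => and_congr_right fun _ => ⟨?_, ?_⟩
    · rintro ⟨i, h⟩
      exact ⟨{i}, card_singleton i, by simpa using h⟩
    · rintro ⟨T, h1, h⟩
      obtain ⟨i, rfl⟩ := card_eq_one.1 h1
      exact ⟨i, by simpa using h⟩

end Cfsg.Agent.S1568
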