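import Cfsg.Statements.S1581
import Cfsg.Agent.H6.Co3

set_option autoImplicit false
open Cfsg

namespace Cfsg.Agent.S1581

/-- The McLaughlin group acts with rank 3 and subdegrees 1, 112, 162 on its 275 points: the point stabiliser has two orbits on the remaining points, distinguished by customary inner product 1 or 2 with the fixed point. -/
theorem result (u v x : ↥Cfsg.leechLattice) (hu : Cfsg.sqNorm (u : Cfsg.GolayPt → ℤ) = 48) (hv : Cfsg.sqNorm (v : Cfsg.GolayPt → ℤ) = 32 ∧ Cfsg.sqNorm ((u - v) : Cfsg.GolayPt → ℤ) = 32) (hx : x ∈ {x : ↥Cfsg.leechLattice | Cfsg.sqNorm (x : Cfsg.GolayPt → ℤ) = 32 ∧ Cfsg.sqNorm ((u - x) : Cfsg.GolayPt → ℤ) = 32 ∧ Cfsg.dotInt (v : Cfsg.GolayPt → ℤ) (x : Cfsg.GolayPt → ℤ) = 16}) : {y : ↥Cfsg.leechLattice | y ∈ {x : ↥Cfsg.leechLattice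 | Cfsg.sqNorm (x : Cfsg.GolayPt → ℤ) = 32 ∧ Cfsg.sqNorm ((u - x) : Cfsg.GolayPt → ℤ) = 32 ∧ Cfsg.dotInt (v : Cfsg.GolayPt → ℤ) (x : Cfsg.GolayPt → ℤ) = 16} ∧ Cfsg.dotInt (x : Cfsg.GolayPt → ℤ) (y : Cfsg.GolayPt → ℤ) = 8}.ncard = 112 ∧ {y : ↥Cfsg.leechLattice | y ∈ {x : ↥Cfsg.leechLattice | Cfsg.sqNorm (x : Cfsg.GolayPt → ℤ) = 32 ∧ Cfsg.sqNorm ((u - x) : Cfsg.GolayPt → ℤ) = 32 ∧ Cfsg.dotInt (v : Cfsg.GolayPt → ℤ) (x : Cfsg.GolayPt → ℤ) = 16} ∧ y ≠ x ∧ Cfsg.dotInt (x : Cfsg.GolayPt → ℤ) (y : Cfsg.GolayPt → ℤ) = 16}.ncard = 162 ∧ ∀ y ∈ {x : ↥Cfsg.leechLattice | Cfsg.sqNorm (x : Cfsg.GolayPt → ℤ) = 32 ∧ Cfsg.sqNorm ((u - x) : Cfsg.GolayPt → ℤ) = 32 ∧ Cfsg.dotInt (v : Cfsg.GolayPt → ℤ) (x : Cfsg.GolayPt → ℤ) = 16}, ∀ y' ∈ {x : ↥Cfsg.leechLattice | Cfsg.sqNorm (x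 : Cfsg.GolayPt → ℤ) = 32 ∧ Cfsg.sqNorm ((u - x) : Cfsg.GolayPt → ℤ) = 32 ∧ Cfsg.dotInt (v : Cfsg.GolayPt → ℤ) (x : Cfsg.GolayPt → ℤ) = 16}, y ≠ x → y' ≠ x → Cfsg.dotInt (x : Cfsg.GolayPt → ℤ) (y : Cfsg.GolayPt → ℤ) = Cfsg.dotInt (x : Cfsg.GolayPt → ℤ) (y' : Cfsg.GolayPt → ℤ) → ∃ g : ↥Cfsg.Co0, g • u = u ∧ g • v = v ∧ g • x = x ∧ g • y = y' := by
  have h1 := (CfsgH6.norm_sub_iff hu hv.1).1 hv.2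
  have e : {x : ↥Cfsg.leechLattice | Cfsg.sqNorm (x : Cfsg.GolayPt → ℤ) = 32 ∧ Cfsg.sqNorm ((u - x) : Cfsg.GolayPt → ℤ) = 32 ∧ Cfsg.dotInt (v : Cfsg.GolayPt → ℤ) (x : Cfsg.GolayPt → ℤ) = 16} = CfsgH6.Y3 u v v 24 16 16 := by
    ext x
    exact ⟨fun h => ⟨h.1, (CfsgH6.norm_sub_iff hu h.1).1 h.2.1, h.2.2, h.2.2⟩,
      fun h => ⟨h.1, (CfsgH6.norm_sub_iff hu h.1).2 h.2.1, h.2.2.1⟩⟩
  rw [e] at hx ⊢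
  have h2 := CfsgH6.good_tr CfsgH6.cfgC3_0 (CfsgH6.trUVX hu hv.1 h1 hx)
  have h3 := CfsgH6.good_tr CfsgH6.cfgC3_1 (CfsgH6.trUVX hu hv.1 h1 hx)
  refine ⟨?_, ?_, fun y hy z hz hyx hzx hd => ?_⟩
  · rw [← h2.1]; congr 1; ext y
    exact ⟨fun h => ⟨h.1.1, h.1.2.1, h.1.2.2.1, h.2⟩, fun h => ⟨⟨h.1, h.2.1, h.2.2.1, h.2.2.1⟩, h.2.2.2⟩⟩
  · rw [← h3.1]; congr 1; ext y
    refine ⟨fun h => ⟨h.1.1, h.1.2.1, h.1.2.2.1, h.2.2⟩,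
      fun h => ⟨⟨h.1, h.2.1, h.2.2.1, h.2.2.1⟩, ?_, h.2.2.2⟩⟩
    rintro rfl
    have := h.2.2.2
    rw [← CfsgH6.sqNorm_eq_dot, h.1] at this; omega
  · have h4 : y ≠ u - x := by
      rintro rfl
      have := hy.2.2.1
      rw [AddSubgroup.coe_sub, CfsgH6.dot_sub_right, CfsgH6.dot_comm, h1, hx.2.2.1] at this; omega
    rcases CfsgH6.dot_552 hu hx.1 hy.1 hx.2.1 hy.2.1 hyx h4 with h | h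
    · exact h2.2 y ⟨hy.1, hy.2.1, hy.2.2.1, h⟩ z ⟨hz.1, hz.2.1, hz.2.2.1, hd ▸ h⟩
    · exact h3.2 y ⟨hy.1, hy.2.1, hy.2.2.1, h⟩ z ⟨hz.1, hz.2.1, hz.2.2.1, hd ▸ h⟩

end Cfsg.Agent.S1581
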