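import Cfsg.Statements.S1584
import Cfsg.Agent.H6.Co3

set_option autoImplicit false
open Cfsg

namespace Cfsg.Agent.S1584

/-- The Higman–Sims group acts with rank 3 and subdegrees 1, 22, 77 on its 100 points, the orbits of a point stabiliser being distinguished by customary inner product 1 with the fixed point. -/
theorem result (v w x : ↥Cfsg.leechLattice) (hv : Cfsg.sqNorm (v : Cfsg.GolayPt → ℤ) = 48) (hw : Cfsg.sqNorm (w : Cfsg.GolayPt → ℤ) = 48) (hvw : Cfsg.dotInt (v : Cfsg.GolayPt → ℤ) (w : Cfsg.GolayPt → ℤ) = -32) (hx : x ∈ {x : ↥Cfsg.leechLattice | Cfsg.sqNorm (x : Cfsg.GolayPt → ℤ) = 32 ∧ Cfsg.dotInt (v : Cfsg.GolayPt → ℤ) (x : Cfsg.GolayPt → ℤ) = 24 ∧ Cfsg.dotInt (w : Cfsg.GolayPt → ℤ) (x : Cfsg.GolayPt → ℤ) = -24}) : {y : ↥Cfsg.leechLattice | y ∈ {x :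 ↥Cfsg.leechLattice | Cfsg.sqNorm (x : Cfsg.GolayPt → ℤ) = 32 ∧ Cfsg.dotInt (v : Cfsg.GolayPt → ℤ) (x : Cfsg.GolayPt → ℤ) = 24 ∧ Cfsg.dotInt (w : Cfsg.GolayPt → ℤ) (x : Cfsg.GolayPt → ℤ) = -24} ∧ Cfsg.dotInt (x : Cfsg.GolayPt → ℤ) (y : Cfsg.GolayPt → ℤ) = 8}.ncard = 22 ∧ {y : ↥Cfsg.leechLattice | y ∈ {x : ↥Cfsg.leechLattice | Cfsg.sqNorm (x : Cfsg.GolayPt → ℤ) = 32 ∧ Cfsg.dotInt (v : Cfsg.GolayPt → ℤ) (x : Cfsg.GolayPt → ℤ) = 24 ∧ Cfsg.dotInt (w : Cfsg.GolayPt → ℤ) (x : Cfsg.GolayPt → ℤ) = -24} ∧ y ≠ x ∧ Cfsg.dotInt (x : Cfsg.GolayPt → ℤ) (y : Cfsg.GolayPt → ℤ) ≠ 8}.ncard = 77 ∧ ∀ y ∈ {x : ↥Cfsg.leechLattice | Cfsg.sqNorm (x : Cfsg.GolayPt → ℤ) = 32 ∧ Cfsg.dotInt (v : Cfsg.GolayPt → ℤ) (x : Cfsg.GolayPt → ℤ) = 24 ∧ Cfsg.dotInt (w : Cfsg.GolayPt → ℤ) (x : Cfsg.GolayPt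 → ℤ) = -24}, ∀ y' ∈ {x : ↥Cfsg.leechLattice | Cfsg.sqNorm (x : Cfsg.GolayPt → ℤ) = 32 ∧ Cfsg.dotInt (v : Cfsg.GolayPt → ℤ) (x : Cfsg.GolayPt → ℤ) = 24 ∧ Cfsg.dotInt (w : Cfsg.GolayPt → ℤ) (x : Cfsg.GolayPt → ℤ) = -24}, y ≠ x → y' ≠ x → (Cfsg.dotInt (x : Cfsg.GolayPt → ℤ) (y : Cfsg.GolayPt → ℤ) = 8 ↔ Cfsg.dotInt (x : Cfsg.GolayPt → ℤ) (y' : Cfsg.GolayPt → ℤ) = 8) → ∃ g : ↥Cfsg.Co0, g • v = v ∧ g • w = w ∧ g • x = x ∧ g • y = y' := by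
  obtain ⟨t1, t2⟩ := CfsgH6.tri hv hw hvw
  have e : {x : ↥Cfsg.leechLattice | Cfsg.sqNorm (x : Cfsg.GolayPt → ℤ) = 32 ∧ Cfsg.dotInt (v : Cfsg.GolayPt → ℤ) (x : Cfsg.GolayPt → ℤ) = 24 ∧ Cfsg.dotInt (w : Cfsg.GolayPt → ℤ) (x : Cfsg.GolayPt → ℤ) = -24} = CfsgH6.Y3 v (-(v + w)) (-(v + w)) 24 0 0 := by
    ext x
    simp only [CfsgH6.Y3, Set.mem_ofPred_eq, AddSubgroup.coe_neg, AddSubgroup.coe_add,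
      CfsgH6.dot_neg_left, CfsgH6.dot_add_left]
    omega
  rw [e] at hx ⊢
  have h2 := CfsgH6.good_tr CfsgH6.cfgC7_0 (CfsgH6.trUTX hv t1 t2 hx)
  have h3 := CfsgH6.good_tr CfsgH6.cfgC7_1 (CfsgH6.trUTX hv t1 t2 hx)
  have h4 : ∀ y ∈ CfsgH6.Y3 v (-(v + w)) (-(v + w)) 24 0 0, y ≠ x →
      dotInt (x : GolayPt → ℤ) y = 8 ∨ dotInt (x : GolayPt → ℤ) y = 16 := fun y hy hyx => by
    refine CfsgH6.dot_552 hv hx.1 hy.1 hx.2.1 hy.2.1 hyx ?_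
    rintro rfl
    have := hy.2.2.1
    rw [AddSubgroup.coe_sub, CfsgH6.dot_sub_right, CfsgH6.dot_comm, t2, hx.2.2.1] at this; omega
  refine ⟨?_, ?_, fun y hy z hz hyx hzx hd => ?_⟩
  · refine Eq.trans ?_ h2.1; congr 1; ext y
    exact ⟨fun h => ⟨h.1.1, h.1.2.1, h.1.2.2.1, h.2⟩, fun h => ⟨⟨h.1, h.2.1, h.2.2.1, h.2.2.1⟩, h.2.2.2⟩⟩
  · rw [← h3.1]; congr 1; ext y
    refine ⟨fun h => ⟨h.1.1, h.1.2.1, h.1.2.2.1, (h4 y h.1 h.2.1).resolve_left h.2.2⟩,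
      fun h => ⟨⟨h.1, h.2.1, h.2.2.1, h.2.2.1⟩, ?_, by rw [h.2.2.2]; norm_num⟩⟩
    rintro rfl
    have := h.2.2.2
    rw [← CfsgH6.sqNorm_eq_dot, h.1] at this; omega
  · by_cases h : dotInt (x : GolayPt → ℤ) y = 8
    · obtain ⟨g, k1, k2, k3, k4⟩ := h2.2 y ⟨hy.1, hy.2.1, hy.2.2.1, h⟩ z
        ⟨hz.1, hz.2.1, hz.2.2.1, hd.1 h⟩
      exact ⟨g, k1, (CfsgH6.fix_third k1).1 k2, k3, k4⟩
    · obtain ⟨g, k1, k2, k3, k4⟩ := h3.2 y ⟨hy.1, hy.2.1, hy.2.2.1, (h4 y hy hyx).resolve_left h⟩ z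
        ⟨hz.1, hz.2.1, hz.2.2.1, (h4 z hz hzx).resolve_left (mt hd.2 h)⟩
      exact ⟨g, k1, (CfsgH6.fix_third k1).1 k2, k3, k4⟩

end Cfsg.Agent.S1584
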