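import Cfsg.Statements.S1589
import Cfsg.Agent.H5.OvP24
import Cfsg.Agent.H5.OvQ
import Cfsg.Agent.S1558

set_option autoImplicit false
open scoped Pointwise
open Cfsg

namespace Cfsg.Agent.S1589

open CfsgH5 MulAction

theorem stab_single (m : ℕ) : stabilizer M24 (fam [m]) = stabilizer M24 (ts m) := by
  ext g
  simp [fam, mem_stabilizer_iff]

theorem eq_of_conj {X : Type*} [MulAction M24 X] {H : Subgroup M24} {g : M24} {x : X}
    (h : MulAut.conj g • H = stabilizer M24 x) : H = stabilizer M24 (g⁻¹ • x) := by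
  rw [← conj_smul_stabilizer, ← h, conj_smul_conj_smul, inv_mul_cancel, map_one, one_smul]

theorem main (H : Subgroup M24) (h2 : 2 ^ 10 ∣ Nat.card H) (h11 : ¬ 11 ∣ Nat.card H)
    (h23 : ¬ 23 ∣ Nat.card H) : ∃ g : M24, MulAut.conj g • H ≤ stabilizer M24 (ts oct0) ∨
      Nat.card H ≤ 64512 ∨ MulAut.conj g • H ≤ stabilizer M24 (fam P24F2) := by
  obtain ⟨g, hg⟩ := exists_conj_le P24 (p := 2) (k := 10) card_P24 (by rw [card_M24]; norm_num) h2
  refine ⟨g, ?_⟩
  rw [← card_conj_smul g] at h11 h23 ⊢
  rcases over_P24 hg (by rw [Fix_nil]; exact le_top) h11 h23 with h | h | h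
  · exact Or.inl (stab_single oct0 ▸ h)
  · exact Or.inr (Or.inl ((Subgroup.card_le_of_le h).trans
      (S1558.card_H (fam_mem_trios P24F1_ok (by decide +kernel))).le))
  · exact Or.inr (Or.inr h)

theorem sx_mem : fam P24F2 ∈ sextets := fam_mem_sextets P24F2_ok (by decide +kernel)

/-- Subgroups of the group of the length-24 code of index 759, 276 and 1771 are exactly the octad, duad and sextet stabilisers, and no subgroup has index 253. -/
theorem result : (∀ H : Subgroup ↥Cfsg.M24, H.index = 759 → ∃ o ∈ Cfsg.octads, H = MulAction.stabilizer Cfsg.M24 o) ∧ (∀ H : Subgroup ↥Cfsg.M24, H.index = 276 → ∃ s : Finset Cfsg.GolayPt, s.card = 2 ∧ H = MulAction.stabilizer Cfsg.M24 s) ∧ (∀ H : Subgroup ↥Cfsg.M24, H.index = 1771 → ∃ S ∈ Cfsg.sextets, H = MulAction.stabilizer Cfsg.M24 S) ∧ ∀ H : Subgroup ↥Cfsg.M24, H.index ≠ 253 := by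
  refine ⟨fun H h => ?_, fun H h => ?_, fun H h => ?_, fun H h => ?_⟩ <;>
    have hc := H.card_mul_index <;> rw [h, card_M24] at hc
  · have hc : Nat.card H = 322560 := by omega
    obtain ⟨g, h1 | h1 | h1⟩ := main H (by rw [hc]; norm_num) (by rw [hc]; norm_num) (by rw [hc]; norm_num)
    · exact ⟨_, (smul_mem_octads_iff g⁻¹).2 oct0_mem, eq_of_conj (Subgroup.eq_of_le_of_card_ge h1
        (by rw [card_conj_smul, hc, card_stab_octad oct0_mem]))⟩
    · omega
    · have := Subgroup.card_le_of_le h1
      rw [card_conj_smul, hc, card_stab_sextet sx_mem] at this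
      omega
  · have hc : Nat.card H = 887040 := by omega
    have : Fact (Nat.Prime 11) := ⟨by norm_num⟩
    obtain ⟨g, hg⟩ := exists_conj_le Q11 (p := 11) (k := 1) card_Q11 (by rw [card_M24]; norm_num)
      (H := H) (by rw [hc]; norm_num)
    rw [← card_conj_smul g] at hc
    have hs : (ts 0x800001).card = 2 := by decide +kernel
    refine ⟨g⁻¹ • ts 0x800001, by rw [card_smulM, hs], eq_of_conj ?_⟩
    generalize MulAut.conj g • H = K at hc hg
    have orb : ∀ (X : Subgroup M24) (a : GolayPt), (orbit X a).ncard ≤ 24 := fun X a =>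
      (Set.ncard_le_card _).trans (by rw [Nat.card_eq_fintype_card]; decide)
    have h1 : Fix [23, 0] [] ≤ K := by
      by_contra hn
      have h2 := card_inf_stabilizer_mul K (pt 23)
      have h3 := card_inf_stabilizer_mul (K ⊓ stabilizer M24 (pt 23)) (pt 0)
      have h4 : K ⊓ stabilizer M24 (pt 23) ⊓ stabilizer M24 (pt 0) ≤ Fix [23, 0] [dod0] := fun x hx =>
        (over_Q11 hg hx.1.1 ⟨by simpa using ⟨hx.1.2, hx.2⟩, by simp⟩).resolve_right hn
      have h5 := (Subgroup.card_le_of_le h4).trans card_L660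
      have h6 := Nat.mul_le_mul h5 (orb (K ⊓ stabilizer M24 (pt 23)) (pt 0))
      have h7 := Nat.mul_le_mul (h3 ▸ h6) (orb K (pt 23))
      omega
    have h2 : ∀ a : GolayPt, (∀ x ∈ Fix [23, 0] [], x • a = a) → ∀ k ∈ K, k • a ∈ ts 0x800001 := by
      intro a ha k hk
      by_contra hn
      have h3 := card_inf_stabilizer_mul K a
      have h4 := Subgroup.card_le_of_le (le_inf h1 ha : Fix [23, 0] [] ≤ K ⊓ stabilizer M24 a)
      have h5 : (ts 0x7ffffe : Set GolayPt) ⊆ orbit K a := fun b hb => by
        have hv : ∀ s ∈ gens (chM.drop 2), CM.In K s := fun s hs =>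
          (CM.in_grp (chM_valid_drop 2) hs).mono (grp_drop2 ▸ h1)
        obtain ⟨x, hx, e⟩ := move_of_chain hv (chM_check_drop 2) (b := 1) (B := 0x7ffffe) (by norm_num) rfl hb
        obtain ⟨y, hy, e'⟩ := move_of_chain hv (chM_check_drop 2) (b := 1) (B := 0x7ffffe) (by norm_num) rfl
          (a := k • a) (by revert hn; generalize k • a = c; revert c; decide +kernel)
        refine ⟨⟨x⁻¹ * y * k, K.mul_mem (K.mul_mem (K.inv_mem hx) hy) hk⟩, ?_⟩
        show (x⁻¹ * y * k) • a = b
        rw [mul_smul, mul_smul, e', ← e, inv_smul_smul]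
      have h6 := Set.ncard_le_ncard h5 (Set.toFinite _)
      rw [Set.ncard_coe_finset, show (ts 0x7ffffe).card = 22 by decide +kernel] at h6
      rw [card_Fix2] at h4
      have := Nat.mul_le_mul h4 h6
      omega
    apply Subgroup.eq_of_le_of_card_ge
    · intro k hk
      rw [mem_stabilizer_iff]
      apply Finset.eq_of_subset_of_card_le _ (card_smulM _ _).ge
      intro b hb
      obtain ⟨a, ha, rfl⟩ := Finset.mem_smul_finset.1 hb
      refine h2 a (fun x hx => ?_) k hk
      have : a = pt 23 ∨ a = pt 0 := by clear hb; revert a; decide +kernel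
      rcases this with rfl | rfl
      exacts [hx.1 23 (by simp), hx.1 0 (by simp)]
    · have h3 := card_inf_stabilizer_le ⊤ (ts 0x800001) ↑(Finset.powersetCard 2 (Finset.univ : Finset GolayPt))
        fun s hs' => by
          obtain ⟨x, e⟩ := trans_set2 (Finset.mem_powersetCard.1 hs').2
          exact ⟨x⁻¹, trivial, by rw [← e, inv_smul_smul]⟩
      rw [top_inf_eq, Subgroup.card_top, card_M24, Set.ncard_coe_finset, Finset.card_powersetCard,
        Finset.card_univ, show (Fintype.card GolayPt).choose 2 = 276 by decide] at h3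
      rw [hc]
      exact Nat.le_of_mul_le_mul_right (c := 276) h3 (by norm_num)
  · have hc : Nat.card H = 138240 := by omega
    obtain ⟨g, h1 | h1 | h1⟩ := main H (by rw [hc]; norm_num) (by rw [hc]; norm_num) (by rw [hc]; norm_num)
    · have := Subgroup.card_dvd_of_le h1
      rw [card_conj_smul, hc, card_stab_octad oct0_mem] at this
      omega
    · omega
    · exact ⟨_, smul_mem_sextets g⁻¹ sx_mem, eq_of_conj (Subgroup.eq_of_le_of_card_ge h1
        (by rw [card_conj_smul, hc, card_stab_sextet sx_mem]))⟩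
  · have hc : Nat.card H = 967680 := by omega
    obtain ⟨g, h1 | h1 | h1⟩ := main H (by rw [hc]; norm_num) (by rw [hc]; norm_num) (by rw [hc]; norm_num)
    · have := Subgroup.card_le_of_le h1
      rw [card_conj_smul, hc, card_stab_octad oct0_mem] at this
      omega
    · omega
    · have := Subgroup.card_le_of_le h1
      rw [card_conj_smul, hc, card_stab_sextet sx_mem] at this
      omega

end Cfsg.Agent.S1589
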