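import Cfsg.Statements.S1590
import Cfsg.Agent.H5.Tern

set_option autoImplicit false
open Cfsg

namespace Cfsg.Agent.S1590

open CfsgH5 MulAction



/-- The length-12 ternary code has 729 words with weight distribution 0^1 6^264 9^440 12^24. -/
theorem result : Nat.card ↥Cfsg.ternaryGolayCode = 729 ∧ (∀ x ∈ Cfsg.ternaryGolayCode, x ≠ 0 → (Cfsg.ternarySupport x).card = 6 ∨ (Cfsg.ternarySupport x).card = 9 ∨ (Cfsg.ternarySupport x).card = 12) ∧ {x : Cfsg.ArrayPt → ZMod 3 | x ∈ Cfsg.ternaryGolayCode ∧ (Cfsg.ternarySupport x).card = 6}.ncard = 264 ∧ {x : Cfsg.ArrayPt → ZMod 3 | x ∈ Cfsg.ternaryGolayCode ∧ (Cfsg.ternarySupport x).card = 9}.ncard = 440 ∧ {x : Cfsg.ArrayPt → ZMod 3 | x ∈ Cfsg.ternaryGolayCode ∧ (Cfsg.ternarySupport x).card = 12}.ncard = 24 := by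
  refine ⟨?_, fun x hx h0 => ?_, ?_, ?_, ?_⟩
  · have := ncard_TG (TG : Set (ArrayPt → ZMod 3)) (fun _ => true) (by simp)
    rw [← Nat.card_coe_set_eq] at this
    exact this.trans (by decide +kernel)
  · obtain ⟨k, hk, rfl⟩ := (mem_TG_iff x).1 hx
    have := (allLt_iff 729 fun k => bor (Nat.beq k 0) (force (popc 12 (tS k)) fun c =>
      bor (Nat.beq c 6) (bor (Nat.beq c 9) (Nat.beq c 12)))).1 (by decide +kernel) k hk
    simp only [bor_eq, force_eq, Bool.or_eq_true, beq_true_iff] at this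
    rw [card_supp_tW hk]
    refine this.resolve_left ?_
    rintro rfl
    exact h0 (by decide +kernel)
  · rw [ncard_TG _ (fun m => Nat.beq (popc 12 m) 6) fun x => by simp [← E12.card_eq_popc]]
    decide +kernel
  · rw [ncard_TG _ (fun m => Nat.beq (popc 12 m) 9) fun x => by simp [← E12.card_eq_popc]]
    decide +kernel
  · rw [ncard_TG _ (fun m => Nat.beq (popc 12 m) 12) fun x => by simp [← E12.card_eq_popc]]
    decide +kernel

end Cfsg.Agent.S1590
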