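import Cfsg.Statements.S1591
import Cfsg.Agent.H5.Tern

set_option autoImplicit false
open Cfsg

namespace Cfsg.Agent.S1591

open CfsgH5 MulAction



/-- Any two words of the length-12 ternary code have dot product zero. -/
theorem result (x y : Cfsg.ArrayPt → ZMod 3) (hx : x ∈ Cfsg.ternaryGolayCode) (hy : y ∈ Cfsg.ternaryGolayCode) : ∑ p, x p * y p = 0 := by
  have key : ∀ i j, tB i ⬝ᵥ tB j = 0 := by decide +kernel
  show x ⬝ᵥ y = 0
  refine Submodule.span_induction (p := fun x _ => x ⬝ᵥ y = 0) ?_ (by simp)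
    (fun a b _ _ ha hb => by rw [add_dotProduct, ha, hb, add_zero])
    (fun a b _ hb => by rw [smul_dotProduct, hb, smul_zero]) (TG_le_span hx)
  rintro _ ⟨i, rfl⟩
  refine Submodule.span_induction (p := fun y _ => tB i ⬝ᵥ y = 0) ?_ (by simp)
    (fun a b _ _ ha hb => by rw [dotProduct_add, ha, hb, add_zero])
    (fun a b _ hb => by rw [dotProduct_smul, hb, smul_zero]) (TG_le_span hy)
  rintro _ ⟨j, rfl⟩
  exact key i j

end Cfsg.Agent.S1591
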