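import Cfsg.Statements.S1592
import Cfsg.Agent.H5.Tern

set_option autoImplicit false
open Cfsg

namespace Cfsg.Agent.S1592

open CfsgH5 MulAction



/-- The supports of the weight-6 words of the length-12 ternary code form a Steiner system S(5, 6, 12) with 132 blocks. -/
theorem result : Cfsg.IsSteinerSystem 5 6 {h : Finset Cfsg.ArrayPt | ∃ x ∈ Cfsg.ternaryGolayCode, Cfsg.ternarySupport x = h ∧ h.card = 6} ∧ {h : Finset Cfsg.ArrayPt | ∃ x ∈ Cfsg.ternaryGolayCode, Cfsg.ternarySupport x = h ∧ h.card = 6}.ncard = 132 := by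
  refine ⟨⟨fun b hb => hb.choose_spec.2.2, fun s hs => ?_⟩, ?_⟩
  · have := (allLt_iff 4096 fun m => bimp (Nat.beq (popc 12 m) 5)
      (Nat.beq (countLt 132 fun i => Nat.beq (Nat.land m (tH i)) m) 1)).1 (by decide +kernel) _
      (E12.mask_lt s)
    rw [← E12.card_eq_popc, hs, ← ncard_eq_countLt 132 _ (fun i => E12.toSet (tH i))
      {b | b ∈ THex ∧ s ⊆ b} (fun i j hi hj _ _ e => tH_inj hi hj (E12.toSet_inj (tH_lt hi) (tH_lt hj) e))
      fun b => ?_] at this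
    · obtain ⟨b, hb⟩ := Set.ncard_eq_one.1 ((beq_true_iff _ _).1 this)
      exact ⟨b, (hb.symm ▸ Set.mem_singleton b : b ∈ {b | b ∈ THex ∧ s ⊆ b}),
        fun y hy => (hb ▸ hy : y ∈ ({b} : Set _))⟩
    · simp only [Set.mem_setOf_eq, beq_true_iff, E12.subset_iff_mask]
      constructor
      · rintro ⟨h1, h2⟩
        obtain ⟨i, hi, e⟩ := (mem_THex b).1 h1
        exact ⟨i, hi, by rwa [e], by rw [e, E12.toSet_mask]⟩
      · rintro ⟨i, hi, h2, rfl⟩
        rw [E12.mask_toSet (tH_lt hi)]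
        exact ⟨(mem_THex _).2 ⟨i, hi, (E12.mask_toSet (tH_lt hi)).symm⟩, h2⟩
  · rw [ncard_eq_countLt 132 (fun _ => true) (fun i => E12.toSet (tH i)) _
      (fun i j hi hj _ _ e => tH_inj hi hj (E12.toSet_inj (tH_lt hi) (tH_lt hj) e)) fun b => ?_]
    · decide +kernel
    · rw [mem_THex]
      exact ⟨fun ⟨i, hi, e⟩ => ⟨i, hi, rfl, by rw [e, E12.toSet_mask]⟩,
        fun ⟨i, hi, _, e⟩ => ⟨i, hi, by rw [← e, E12.mask_toSet (tH_lt hi)]⟩⟩

end Cfsg.Agent.S1592
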