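import Cfsg.Statements.S1595
import Cfsg.Agent.H5.Steiner

set_option autoImplicit false
open Cfsg

namespace Cfsg.Agent.S1595

open CfsgH5



/-- Leech triangle of S(5, 6, 12): blocks meet in 0, 2, 3 or 4 points, and a block is met exactly in a given 2-, 3- or 4-subset by 3, 2, 3 blocks respectively. -/
theorem result {α : Type*} [Fintype α] [DecidableEq α] (hα : Fintype.card α = 12) {B : Set (Finset α)} (hB : Cfsg.IsSteinerSystem 5 6 B) (b : Finset α) (hb : b ∈ B) : (∀ c ∈ B, c ≠ b → (b ∩ c).card = 0 ∨ (b ∩ c).card = 2 ∨ (b ∩ c).card = 3 ∨ (b ∩ c).card = 4) ∧ ∀ s ⊆ b, (s.card = 2 → {c : Finset α | c ∈ B ∧ b ∩ c = s}.ncard = 3) ∧ (s.card = 3 → {c : Finset α | c ∈ B ∧ b ∩ c = s}.ncard = 2) ∧ (s.card = 4 → {c : Finset α | c ∈ B ∧ b ∩ c = s}.ncard = 3) := by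
  have l5 : ∀ s : Finset α, s.card = 5 → lam B s = 1 := fun s hs => lam_top hB hs
  have l4 : ∀ s : Finset α, s.card = 4 → lam B s = 4 := fun s hs => by
    have := lam_step hB.1 s (by rwa [hs]); rw [hs, hα] at this; omega
  have l3 : ∀ s : Finset α, s.card = 3 → lam B s = 12 := fun s hs => by
    have := lam_step hB.1 s (by rwa [hs]); rw [hs, hα] at this; omega
  have l2 : ∀ s : Finset α, s.card = 2 → lam B s = 30 := fun s hs => by
    have := lam_step hB.1 s (by rwa [hs]); rw [hs, hα] at this; omega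
  have l1 : ∀ s : Finset α, s.card = 1 → lam B s = 66 := fun s hs => by
    have := lam_step hB.1 s (by rwa [hs]); rw [hs, hα] at this; omega
  have l0 : ∀ s : Finset α, s.card = 0 → lam B s = 132 := fun s hs => by
    have := lam_step hB.1 s (by rwa [hs]); rw [hs, hα] at this; omega
  have h6 := hB.1 b hb
  have l6 : lam B b = 1 := by
    rw [lam, Finset.card_eq_one]
    refine ⟨b, ?_⟩
    ext c
    simp only [Finset.mem_filter, mem_blocks, Finset.mem_singleton]
    exact ⟨fun h => (Finset.eq_of_subset_of_card_le h.2 (by rw [h6, hB.1 c h.1])).symm,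
      fun h => by rw [h]; exact ⟨hb, Finset.Subset.rfl⟩⟩
  have key := nmeet_eq (B := B) (b := b) (fun i => [132, 66, 30, 12, 4, 1, 1].getD i 0)
    (fun i => [1, 0, 3, 2, 3, 0, 1].getD i 0) (fun s hs => by
      have := Finset.card_le_card hs
      rw [h6] at this
      interval_cases h : s.card
      exacts [l0 s h, l1 s h, l2 s h, l3 s h, l4 s h, l5 s h,
        Finset.eq_of_subset_of_card_le hs (by omega) ▸ l6]) (by rw [h6]; decide)
  refine ⟨fun c hc hne => ?_, fun s hs => ?_⟩
  · have h1 := key (b ∩ c) Finset.inter_subset_left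
    have h2 : 0 < nmeet B b (b ∩ c) := Finset.card_pos.2 ⟨c, by simp [mem_blocks, hc]⟩
    have h3 := Finset.card_le_card (Finset.inter_subset_left : b ∩ c ⊆ b)
    have h4 : (b ∩ c).card ≠ 6 := fun h => hne (Finset.eq_of_subset_of_card_le
      (Finset.inter_eq_left.1 (Finset.eq_of_subset_of_card_le Finset.inter_subset_left (by omega)))
      (by rw [h6, hB.1 c hc])).symm
    rw [h1] at h2
    rw [h6] at h3
    interval_cases (b ∩ c).card <;> simp at h2 h4 ⊢
  · rw [ncard_eq_nmeet, key s hs]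
    refine ⟨fun h => ?_, fun h => ?_, fun h => ?_⟩ <;> rw [h] <;> rfl

end Cfsg.Agent.S1595
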