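import Cfsg.Statements.S1596
import Cfsg.Agent.H5.M12

set_option autoImplicit false
open scoped Pointwise
open Cfsg

namespace Cfsg.Agent.S1596

open CfsgH5 MulAction



/-- A quartet of a dodecad is determined by any two of its triples: two disjoint triples uniting to a hexad extend to exactly one quartet. -/
theorem result (d : Finset Cfsg.GolayPt) (hd : d ∈ Cfsg.dodecads) (t u : Finset Cfsg.GolayPt) (ht : t.card = 3) (hu : u.card = 3) (htu : Disjoint t u) (hh : t ∪ u ∈ Cfsg.hexadsOn d) : ∃! Q : Finset (Finset Cfsg.GolayPt), Q ∈ Cfsg.quartets d ∧ t ∈ Q ∧ u ∈ Q := by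
  obtain ⟨g, e, e1, e2⟩ := trans_triples hd ht hu hh
  refine ⟨g⁻¹ • fam quart0, ⟨?_, ?_, ?_⟩, fun Q hQ => ?_⟩
  · rw [← smul_mem_quartets_iff g, smul_inv_smul, e]; exact quart0_mem
  · rw [Finset.mem_inv_smul_finset_iff, e1]; decide +kernel
  · rw [Finset.mem_inv_smul_finset_iff, e2]; decide +kernel
  · rw [eq_inv_smul_iff]
    exact eq_quart0 (e ▸ smul_mem_quartets g hQ.1) (e1 ▸ Finset.smul_mem_smul_finset hQ.2.1)
      (e2 ▸ Finset.smul_mem_smul_finset hQ.2.2)

end Cfsg.Agent.S1596
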