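import Cfsg.Statements.S1597
import Cfsg.Agent.H5.M12

set_option autoImplicit false
open scoped Pointwise
open Cfsg

namespace Cfsg.Agent.S1597

open CfsgH5 MulAction



/-- A dodecad has 220 quartets and its stabiliser is transitive on them. -/
theorem result (d : Finset Cfsg.GolayPt) (hd : d ∈ Cfsg.dodecads) : (Cfsg.quartets d).ncard = 220 ∧ ∀ Q ∈ Cfsg.quartets d, ∀ Q' ∈ Cfsg.quartets d, ∃ g : Equiv.Perm Cfsg.GolayPt, g ∈ Cfsg.M24 ∧ g • d = d ∧ g • Q = Q' := by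
  obtain ⟨g, e⟩ := trans_dodecads hd dod0_mem
  refine ⟨?_, fun Q hQ Q' hQ' => ?_⟩
  · rw [← card_HQ_ncard.2, ← e, ← smul_quartets, Set.ncard_smul_set]
  · obtain ⟨k, e1, e2⟩ := trans_quart0 hd hQ
    obtain ⟨k', e1', e2'⟩ := trans_quart0 hd hQ'
    refine ⟨(k'⁻¹ * k : M24), (k'⁻¹ * k).2, ?_, ?_⟩
    · show (k'⁻¹ * k) • d = d
      rw [mul_smul, e1, ← e1', inv_smul_smul]
    · show (k'⁻¹ * k) • Q = Q'
      rw [mul_smul, e2, ← e2', inv_smul_smul]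

end Cfsg.Agent.S1597
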