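import Cfsg.Statements.S1606
import Cfsg.Agent.H5.OvQ

set_option autoImplicit false
open scoped Pointwise
open Cfsg

namespace Cfsg.Agent.S1606

open CfsgH5 MulAction



/-- The stabiliser of two points in the group of the length-24 code has no subgroups of index 56 or 210. -/
theorem result (p q : Cfsg.GolayPt) (hpq : p ≠ q) (H : Subgroup ↥(MulAction.stabilizer Cfsg.M24 p ⊓ MulAction.stabilizer Cfsg.M24 q)) : H.index ≠ 56 ∧ H.index ≠ 210 := by
  obtain ⟨g, e1, e2⟩ := trans2 hpq
  have key : ∀ x : M24, x ∈ stabilizer M24 p ⊓ stabilizer M24 q ↔ g * x * g⁻¹ ∈ Fix [23, 0] [] :=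
    fun x => by
    simp only [Subgroup.mem_inf, mem_Fix, List.forall_mem_cons, List.not_mem_nil, ← e1, ← e2,
      ← mem_stabilizer_iff, conj_mem_stabilizer]
    tauto
  let e := conjEquiv g key
  let f := (Fix [23, 0] []).subtype.comp e.toMonoidHom
  have hf : Function.Injective f := Subtype.val_injective.comp e.injective
  have h1 := card_of_le_M22 (H := H.map f) (by rintro _ ⟨x, -, rfl⟩; exact (e x).2)
  have h2 := H.card_mul_index
  rw [Nat.card_congr e.toEquiv, card_Fix2] at h2
  rw [Subgroup.card_map_of_injective hf] at h1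
  constructor <;> intro h <;> rw [h] at h2 <;> omega

end Cfsg.Agent.S1606
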