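import Cfsg.Statements.S1610
import Cfsg.Agent.H5.Hexa

set_option autoImplicit false
open Cfsg

namespace Cfsg.Agent.S1610

open CfsgH5 MulAction



/-- The hexacode has 64 words, minimum weight 4, and weight distribution 0^1 4^45 6^18. -/
theorem result (F : Type*) [Field F] [Fintype F] [DecidableEq F] (hF : Fintype.card F = 4) (ω : F) (hω : ω ^ 2 + ω + 1 = 0) : Nat.card ↥(Cfsg.hexacode F ω) = 64 ∧ (∀ x ∈ Cfsg.hexacode F ω, x ≠ 0 → (Finset.univ.filter fun i => x i ≠ 0).card = 4 ∨ (Finset.univ.filter fun i => x i ≠ 0).card = 6) ∧ {x : Fin 6 → F | x ∈ Cfsg.hexacode F ω ∧ (Finset.univ.filter fun i => x i ≠ 0).card = 4}.ncard = 45 ∧ {x : Fin 6 → F | x ∈ Cfsg.hexacode F ω ∧ (Finset.univ.filter fun i => x i ≠ 0).card = 6}.ncard = 18 := by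
  obtain ⟨e, he⟩ := exists_equiv_F4 hF hω
  refine ⟨?_, fun x hx h0 => ?_, ?_, ?_⟩
  · have := ncard_hexacode e ω fun _ => True
    rw [he, ncard_HX fun _ => True] at this
    simp only [and_true] at this
    exact this.trans (by decide +kernel)
  · have h1 := (map_mem_hexacode_iff e).2 hx
    rw [he, mem_HX_iff] at h1
    obtain ⟨k, hk, e1⟩ := h1
    have h2 : ∀ k, k < 64 → hW k = 0 ∨ (Finset.univ.filter fun i => hW k i ≠ 0).card = 4 ∨
      (Finset.univ.filter fun i => hW k i ≠ 0).card = 6 := by decide +kernel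
    have := h2 k hk
    rw [e1] at this
    simpa using this.resolve_left fun h => h0 (funext fun i => by simpa using congrFun h i)
  · rw [ncard_hexacode e ω fun s => s.card = 4, he, ncard_HX fun s => s.card = 4]
    decide +kernel
  · rw [ncard_hexacode e ω fun s => s.card = 6, he, ncard_HX fun s => s.card = 6]
    decide +kernel

end Cfsg.Agent.S1610
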