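import Cfsg.Statements.S1611
import Cfsg.Agent.H5.Hexa

set_option autoImplicit false
open Cfsg

namespace Cfsg.Agent.S1611

open CfsgH5 MulAction

theorem test {σ : Equiv.Perm (Fin 6)} {c : Fin 6 → F4ˣ} (h : Pres HX σ c) :
    ∀ j : Fin 3, hcond fun i => ![(c 0 : F4), c 1, c 2, c 3, c 4, c 5] i * hW (4 ^ (j : ℕ)) (σ.symm i) := by
  intro j
  have := h _ ((mem_HX_iff _).2 ⟨4 ^ (j : ℕ), by revert j; decide, rfl⟩)
  rw [mem_HX] at this
  convert this using 1
  funext i
  fin_cases i <;> rfl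

theorem diag (c : Fin 6 → F4ˣ) (h : Pres HX 1 c) (i j : Fin 6) : c i = c j := by
  have key : ∀ c0 c1 c2 c3 c4 c5 : F4, (∀ j : Fin 3, hcond fun i => ![c0, c1, c2, c3, c4, c5] i *
      hW (4 ^ (j : ℕ)) i) → ∀ i, ![c0, c1, c2, c3, c4, c5] i = c0 := by decide +kernel
  have k := key _ _ _ _ _ _ (test h)
  have : ∀ i, c i = c 0 := fun i => Units.ext (by rw [← k i]; fin_cases i <;> rfl)
  rw [this, this j]

theorem not_swap (c : Fin 6 → F4ˣ) : ¬ Pres HX (Equiv.swap 0 1) c := fun h => by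
  have key : ∀ c0 c1 c2 c3 c4 c5 : F4, (∀ j : Fin 3, hcond fun i => ![c0, c1, c2, c3, c4, c5] i *
      hW (4 ^ (j : ℕ)) ((Equiv.swap 0 1).symm i)) → c0 = 0 := by decide +kernel
  exact (c 0).ne_zero (key _ _ _ _ _ _ (test h))

/-- chain of the alternating group -/
noncomputable def cG : List Level :=
  [⟨0, [0x3b0a], 0x3f,
    ap 18 0x3ffff 0xec2a054b54331ca0aaa10ec688,
    ap 2 3 0x24, ap 3 7 0xb4a0⟩,
   ⟨1, [0x13a60], 0x3e,
    ap 18 0x3ffff 0x354619aa088ba13a60b1a200000,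
    ap 1 1 0x10, ap 2 3 0xad0⟩,
   ⟨2, [0x22748], 0x3c,
    ap 18 0x3ffff 0x55c222748ad422c688000000000,
    ap 1 1 0x8, ap 2 3 0x9c0⟩,
   ⟨3, [0x23a88], 0x38,
    ap 18 0x3ffff 0x762223a88b1a200000000000000,
    ap 1 1 0x0, ap 2 3 0x900⟩]

/-- coding of permutations -/
noncomputable def C6 := (Enc.fin 6).codes 3 7 (by norm_num) (by norm_num)

/-- scalars for the generators -/
noncomputable def sg (s : ℕ) : ℕ := bif' (Nat.beq s 0x3b0a) 1536 (bif' (Nat.beq s 0x13a60) 144 (bif' (Nat.beq s 0x22748) 2724 (bif' (Nat.beq s 0x23a88) 1368 (0))))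

/-- a generator of the units -/
def u : F4ˣ := ⟨F4.w, F4.w * F4.w, by decide, by decide⟩

theorem hG : ∀ s ∈ gens cG, C6.In (permPart HX) s := by
  intro s hs
  obtain ⟨g, -, rfl⟩ : C6.In ⊤ s := exists_perm (m := 7) (Enc.fin 6) (by norm_num) (by norm_num) s
    (by revert s; decide +kernel)
  refine ⟨g, ⟨fun p => u ^ ap 2 3 (sg (C6.code g)) p, fun x hx => ?_⟩, rfl⟩
  obtain ⟨k, hk, rfl⟩ := (mem_HX_iff x).1 hx
  have e : ∀ p, g.symm p = (Enc.fin 6).dec (ap 3 7 (pinv 3 7 6 (C6.code g)) p) := fun p => by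
    have := C6.enc_smul g⁻¹ p
    rw [C6.code_inv] at this
    rw [← (Enc.fin 6).dec_enc (g.symm p)]
    exact congrArg (Enc.fin 6).dec this
  rw [mem_HX]
  unfold monomialMap
  simp only [e, Units.val_pow_eq_pow_val]
  clear hx
  revert k
  generalize C6.code g = s at hs
  revert s
  decide +kernel

theorem std : permPart HX = alternatingGroup (Fin 6) ∧ Nat.card (permPart HX) = 360 := by
  have h1 := Subgroup.card_le_of_le (C6.grp_le hG)
  rw [C6.card_grp (fun s hs => (hG s hs).mono le_top) (by decide +kernel),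
    show ordC (permOps 3 7 6) cG = 360 by decide +kernel] at h1
  have h2 := (permPart HX).card_mul_index
  rw [Nat.card_perm, Nat.card_eq_fintype_card (α := Fin 6), Fintype.card_fin,
    show Nat.factorial 6 = 720 by decide] at h2
  have h3 : (permPart HX).index ≠ 1 := fun h => by
    rw [Subgroup.index_eq_one] at h
    obtain ⟨c, hc⟩ : Equiv.swap 0 1 ∈ permPart HX := h ▸ Subgroup.mem_top _
    exact not_swap c hc
  have h4 : (permPart HX).index = 2 := by
    have : (permPart HX).index ≤ 2 := by nlinarith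
    have : (permPart HX).index ≠ 0 := Subgroup.index_ne_zero_of_finite
    omega
  rw [h4] at h2
  exact ⟨Equiv.Perm.eq_alternatingGroup_of_index_eq_two h4, by omega⟩

/-- The monomial automorphism group of the hexacode has order 1080: its diagonal part is the scalars and its permutation parts form the alternating group of degree 6. -/
theorem result (F : Type*) [Field F] [Fintype F] [DecidableEq F] (hF : Fintype.card F = 4) (ω : F) (hω : ω ^ 2 + ω + 1 = 0) : Nat.card {f : Equiv.Perm (Fin 6) × (Fin 6 → Fˣ) // (∀ x ∈ Cfsg.hexacode F ω, Cfsg.monomialMap f.1 f.2 x ∈ Cfsg.hexacode F ω)} = 1080 ∧ (∀ c : Fin 6 → Fˣ, (∀ x ∈ Cfsg.hexacode F ω, Cfsg.monomialMap 1 c x ∈ Cfsg.hexacode F ω) → ∀ i j, c i = c j) ∧ {σ : Equiv.Perm (Fin 6) | ∃ c : Fin 6 → Fˣ, (∀ x ∈ Cfsg.hexacode F ω, Cfsg.monomialMap σ c x ∈ Cfsg.hexacode F ω)} = (alternatingGroup (Fin 6) : Set (Equiv.Perm (Fin 6))) := by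
  obtain ⟨e, he⟩ := exists_equiv_F4 hF hω
  have h1 : ∀ c, Pres (hexacode F ω) 1 c → ∀ i j, c i = c j := fun c h i j =>
    Units.map_injective (f := (e : F →* F4)) e.injective (diag _ (he ▸ pres_map e h) i j)
  have h2 : permPart (hexacode F ω) = permPart HX := by
    ext σ
    refine ⟨fun ⟨c, h⟩ => ⟨_, he ▸ pres_map e h⟩, fun ⟨c, h⟩ => ?_⟩
    have := pres_map e.symm h
    rw [← he, e.symm_apply_apply] at this
    exact ⟨_, this⟩
  refine ⟨?_, h1, congrArg SetLike.coe (h2.trans std.1)⟩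
  have := card_pres h1
  rw [h2, std.2, Nat.card_units, Nat.card_eq_fintype_card (α := F), hF] at this
  exact this

end Cfsg.Agent.S1611
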