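import Cfsg.Statements.S1612
import Cfsg.Agent.H4.Fischer3

set_option autoImplicit false
open Cfsg

namespace Cfsg.Agent.S1612

open CfsgH4 Subgroup

/-- In a 3-transposition group (no solvable normal subgroup, perfect derived group), the normaliser of a commuting set of transpositions of maximum size contains a Sylow 2-subgroup and is doubly transitive on the set. -/
theorem result {G : Type*} [Group G] [Finite G] (hsol : ∀ N : Subgroup G, N.Normal → Group.IsSolvable ↥N → N = ⊥) (hperf : ⁅commutator G, commutator G⁆ = commutator G) {D : Set G} (hD : Cfsg.IsThreeTranspositionClass D) {E : Set G} (hE : E ⊆ D) (hc : ∀ a ∈ E, ∀ b ∈ E, Commute a b) (hmax : ∀ E' : Set G, E' ⊆ D → (∀ a ∈ E', ∀ b ∈ E', Commute a b) → E'.ncard ≤ E.ncard) : (∃ P : Sylow 2 G, (P : Subgroup G) ≤ Subgroup.normalizer E) ∧ ∀ a ∈ E, ∀ b ∈ E, ∀ c ∈ E, ∀ d ∈ E, a ≠ b → c ≠ d → ∃ g ∈ Subgroup.normalizer E, g * a * g⁻¹ = c ∧ g * b * g⁻¹ = d := by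
  have F := fis_of_hsol hsol hperf hD
  have : Fact (Nat.Prime 2) := ⟨Nat.prime_two⟩
  have h1 : ∀ E : Set G, E ⊆ D → (∀ a ∈ E, ∀ b ∈ E, Commute a b) → IsPGroup 2 (closure E) := by
    intro E hE hc x
    have := isMulCommutative_closure (k := E) hc
    refine ⟨1, Subtype.ext ?_⟩
    obtain ⟨x, hx⟩ := x
    change x ^ 2 = 1
    induction hx using closure_induction with
    | mem x hx => rw [sq]; exact F.sq (hE hx)
    | one => simp
    | mul x y hx hy h1 h2 =>
      rw [Commute.mul_pow (setLike_mul_comm (s := closure E) hx hy), h1, h2, one_mul]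
    | inv x hx h1 => rw [inv_pow, h1, inv_one]
  have h2 : ∀ P : Subgroup G, IsPGroup 2 P → ∀ a ∈ D ∩ P, ∀ b ∈ D ∩ P, Commute a b := by
    intro P hP a ha b hb
    by_contra h
    obtain ⟨k, hk⟩ := hP ⟨a * b, mul_mem ha.2 hb.2⟩
    have := orderOf_dvd_of_pow_eq_one (congrArg Subtype.val hk : (a * b) ^ 2 ^ k = 1)
    rw [tt_orderOf hD.1 ha.1 hb.1 h] at this
    exact absurd (Nat.prime_three.dvd_of_dvd_pow this) (by decide)
  have h3 : ∀ E' : Set G, E' ⊆ D → E'.ncard = E.ncard → ∀ P : Subgroup G, IsPGroup 2 P →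
      E' ⊆ P → E' = D ∩ P := fun E' h1 h3 P hP h4 =>
    Set.eq_of_subset_of_ncard_le (Set.subset_inter h1 h4)
      (h3 ▸ hmax _ Set.inter_subset_left (h2 P hP)) (Set.toFinite _)
  constructor
  · obtain ⟨P, hP⟩ := (h1 E hE hc).exists_le_sylow
    refine ⟨P, fun g hg => mem_normalizer_fintype fun x hx => ?_⟩
    rw [h3 E hE rfl P P.isPGroup' fun x hx => hP (subset_closure hx)] at hx ⊢
    exact ⟨F.conj g x hx.1, mul_mem (mul_mem hg hx.2) (inv_mem hg)⟩
  · intro a ha b hb c hc' d hd hab hcd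
    obtain ⟨g, rfl, rfl⟩ := F.pair_trans (hE ha) (hE hc') ⟨hE hb, hab.symm, hc a ha b hb⟩
      ⟨hE hd, hcd.symm, hc c hc' d hd⟩
    set C := centralizer ({g * a * g⁻¹, g * b * g⁻¹} : Set G) with hC
    let E' := (fun x => g * x * g⁻¹) '' E
    have hE' : E' ⊆ D := by rintro _ ⟨x, hx, rfl⟩; exact F.conj g x (hE hx)
    have hc'' : ∀ a ∈ E', ∀ b ∈ E', Commute a b := by
      rintro _ ⟨x, hx, rfl⟩ _ ⟨y, hy, rfl⟩; exact (hc x hx y hy).conj g
    obtain ⟨P, hP, hEP⟩ := CfsgH2.exists_isSylowOf_ge (H := C) (h1 E hE hc)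
      ((closure_le _).2 fun x hx => by
        rintro y (rfl | rfl)
        exacts [hc _ hc' x hx, hc _ hd x hx])
    obtain ⟨h, hh, h4⟩ := hP.exists_cj_le (h1 E' hE' hc'') ((closure_le _).2 fun x hx => by
        rintro y (rfl | rfl)
        exacts [hc'' _ ⟨a, ha, rfl⟩ x hx, hc'' _ ⟨b, hb, rfl⟩ x hx])
    refine ⟨h * g, mem_normalizer_fintype fun x hx => ?_, ?_, ?_⟩
    · rw [h3 E hE rfl P hP.2.1 fun x hx => hEP (subset_closure hx)]
      refine ⟨F.conj _ x (hE hx), h4 (CfsgH2.mem_cj.2 (subset_closure ⟨x, hx, ?_⟩))⟩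
      simp only; group
    · rw [← conj_eq_of_commute (show Commute h _ from (hh _ (Or.inl rfl)).symm)]; group
    · rw [← conj_eq_of_commute (show Commute h _ from (hh _ (Or.inr rfl)).symm)]; group

end Cfsg.Agent.S1612
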