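import Cfsg.Statements.S1614
import Cfsg.Agent.H4.Fischer8

set_option autoImplicit false
open Cfsg

namespace Cfsg.Agent.S1614


/-- If the commuting transpositions of one transposition generate a solvable group, a Fischer 3-transposition group is S5, S6, PSU(4, 2) or PSU(5, 2). -/
theorem result {G : Type*} [Group G] [Finite G] (hsol : ∀ N : Subgroup G, N.Normal → Group.IsSolvable ↥N → N = ⊥) (hperf : ⁅commutator G, commutator G⁆ = commutator G) {D : Set G} (hD : Cfsg.IsThreeTranspositionClass D) (x : G) (hx : x ∈ D) (hs : Group.IsSolvable ↥(Subgroup.closure {y : G | y ∈ D ∧ y ≠ x ∧ Commute x y})) : Nonempty (G ≃* Equiv.Perm (Fin 5)) ∨ Nonempty (G ≃* Equiv.Perm (Fin 6)) ∨ ∃ (F : Type) (_ : Field F) (_ : Fintype F), Fintype.card F = 4 ∧ (Nonempty (G ≃* Cfsg.PSU 4 F 2) ∨ Nonempty (G ≃* Cfsg.PSU 5 F 2)) := by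
  refine ((CfsgH4.fis_of_hsol hsol hperf hD).solvable_cases (CfsgH4.Fis.center_eq_bot hsol) hx
    hs).imp_right (Or.imp_right fun h => ⟨CfsgH5.F4, inferInstance, inferInstance, rfl, h⟩)

end Cfsg.Agent.S1614
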