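import Cfsg.Statements.S1626
import Cfsg.Agent.H6.J3Main

set_option autoImplicit false
open scoped MatrixGroups
open Matrix
open Cfsg

namespace Cfsg.Agent.S1626

open CfsgH6 CfsgH6.J3 CfsgH5 Pointwise Cfsg.Spor

/-- Orbits of the triple cover of the third Janko group on lines of its 9-space over the field with 4 elements: the line through the first basis vector has exactly 23256 images, and the isotropic lines (nonzero v with Σ v_z³ = 0) form a single orbit. -/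
theorem result (F : Type) [Field F] [Fintype F] (hF : Fintype.card F = 4) (ω : F) (hω : ω ^ 2 + ω + 1 = 0) : {L : Submodule F (Cfsg.Spor.F9 → F) | ∃ g ∈ Cfsg.Spor.threeJ3 F ω, L = F ∙ ((g : Matrix Cfsg.Spor.F9 Cfsg.Spor.F9 F) *ᵥ (Pi.single (0 : Cfsg.Spor.F9) (1 : F) : Cfsg.Spor.F9 → F))}.ncard = 23256 ∧ ∀ v w : Cfsg.Spor.F9 → F, v ≠ 0 → w ≠ 0 → ∑ z, (v z) ^ 3 = 0 → ∑ z, (w z) ^ 3 = 0 → ∃ g ∈ Cfsg.Spor.threeJ3 F ω, ∃ c : F, c ≠ 0 ∧ (g : Matrix Cfsg.Spor.F9 Cfsg.Spor.F9 F) *ᵥ v = c • w := by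
  obtain ⟨e, he⟩ := exists_equiv_F4 hF hω
  have h1 : ∀ (g : GL F9 F) (v : F9 → F), fm e g • ln4 (e ∘ v) = ln4 (e ∘ (g.1 *ᵥ v)) := fun g v => by
    rw [smul_ln4]
    congr 1
    ext i
    exact (RingHom.map_mulVec e.toRingHom g.1 v i).symm
  have h2 : ∀ v w : F9 → F, ln4 (e ∘ v) = ln4 (e ∘ w) ↔ ∃ c : F, c ≠ 0 ∧ v = c • w := fun v w => by
    rw [ln4_eq]
    constructor
    · rintro ⟨c, hc, h⟩
      refine ⟨e.symm c, by simpa using hc, funext fun i => e.injective ?_⟩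
      simpa using congrFun h i
    · rintro ⟨c, hc, rfl⟩
      exact ⟨e c, by simpa using hc, funext fun i => by simp⟩
  constructor
  · have h3 := ncard_image_congr (S := (threeJ3 F ω : Set (GL F9 F)))
      (f := fun g => (F ∙ (g.1 *ᵥ (Pi.single (0 : F9) (1 : F) : F9 → F)) : Submodule F (F9 → F)))
      (g := fun g => fm e g • ln4 (e ∘ (Pi.single (0 : F9) (1 : F) : F9 → F))) fun a _ b _ => by
        rw [h1, h1, h2, eq_comm, Submodule.span_singleton_eq_span_singleton]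
        exact ⟨fun ⟨c, h⟩ => ⟨c, c.ne_zero, h.symm⟩, fun ⟨c, hc, h⟩ => ⟨Units.mk0 c hc, h.symm⟩⟩
    have h4 : e ∘ (Pi.single (0 : F9) (1 : F) : F9 → F) = Pi.single (0 : F9) (1 : F4) := by
      ext i; by_cases h : i = 0 <;> simp [h]
    rw [← orbA, ← three_map e he]
    convert h3 using 2
    · ext L; simp [eq_comm]
    · ext X
      rw [h4]
      constructor
      · rintro ⟨⟨_, g, hg, rfl⟩, rfl⟩; exact ⟨g, hg, rfl⟩
      · rintro ⟨g, hg, rfl⟩; exact ⟨⟨_, g, hg, rfl⟩, rfl⟩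
  · obtain ⟨x, hx⟩ := orbB
    have h5 : ∀ v : F9 → F, v ≠ 0 → ∑ z, v z ^ 3 = 0 → ∃ g ∈ threeJ3 F ω, ln4 (e ∘ v) = fm e g • ln4 x := by
      intro v hv h
      obtain ⟨g, hg, h'⟩ := hx (e ∘ v) (fun h0 => hv (funext fun i => e.injective (by
        simpa using congrFun h0 i))) (by simpa using congrArg e h)
      rw [← three_map e he] at hg
      obtain ⟨g, hg, rfl⟩ := hg
      exact ⟨g, hg, h'⟩
    intro v w hv hw h h'
    obtain ⟨a, ha, ea⟩ := h5 v hv h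
    obtain ⟨b, hb, eb⟩ := h5 w hw h'
    refine ⟨b * a⁻¹, Subgroup.mul_mem _ hb (Subgroup.inv_mem _ ha), (h2 _ _).1 ?_⟩
    rw [← h1, ea, eb, ← mul_smul, ← map_mul, inv_mul_cancel_right]

end Cfsg.Agent.S1626
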