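import Cfsg.Statements.S1631
import Cfsg.Agent.H4.TvU

set_option autoImplicit false
open scoped MatrixGroups
open Cfsg

namespace Cfsg.Agent.S1631

open CfsgH4

/-- The unitary transvections of SU(n, 2), n ≥ 4, form a generating conjugacy class of 3-transpositions. -/
theorem result (F : Type) [Field F] [Fintype F] [DecidableEq F] (hF : Fintype.card F = 4) (n : ℕ) (hn : 4 ≤ n) : Cfsg.IsThreeTranspositionClass {g : ↥(Cfsg.SU n F 2) | (((g : Matrix.SpecialLinearGroup (Fin n) F) : Matrix (Fin n) (Fin n) F) - 1).rank = 1} := by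
  obtain ⟨p4, w, hw⟩ := f4_of_card hF
  obtain ⟨i, j, hij⟩ : ∃ i j : Fin n, i ≠ j := ⟨⟨0, by omega⟩, ⟨1, by omega⟩, by simp⟩
  have h := (tvU p4 n).isClass (Or.inr ⟨w, hw⟩) (tvU_gen p4 hw hn) ⟨_,
    Pi.single i 1 + Pi.single j 1, fun h => by
      simpa [hij] using congrFun h i, by
      rw [TvG.add_right, tvU_h, herm_single, herm_single]
      simpa [hij, hij.symm] using one_add_one_eq_two.trans (f4_two p4), rfl⟩
  convert h using 1
  exact Set.ext fun g => (tvU p4 n).rank_iff g

end Cfsg.Agent.S1631
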