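import Cfsg.Statements.S1634
import Cfsg.Agent.H6.Co3

set_option autoImplicit false
open Cfsg

namespace Cfsg.Agent.S1634

/-- The McLaughlin group acts on 2025 points (minimal vectors orthogonal to v with customary inner product 2 with w) transitively with rank 4 and subdegrees 1, 330, 462, 1232. -/
theorem result (v w : ↥Cfsg.leechLattice) (hv : Cfsg.sqNorm (v : Cfsg.GolayPt → ℤ) = 32) (hw : Cfsg.sqNorm (w : Cfsg.GolayPt → ℤ) = 32) (hvw : Cfsg.dotInt (v : Cfsg.GolayPt → ℤ) (w : Cfsg.GolayPt → ℤ) = -8) : {x : ↥Cfsg.leechLattice | Cfsg.sqNorm (x : Cfsg.GolayPt → ℤ) = 32 ∧ Cfsg.dotInt (v : Cfsg.GolayPt → ℤ) (x : Cfsg.GolayPt → ℤ) = 0 ∧ Cfsg.dotInt (w : Cfsg.GolayPt → ℤ) (x : Cfsg.GolayPt → ℤ) = 16}.ncard = 2025 ∧ (∀ x ∈ {x : ↥Cfsg.leechLattice | Cfsg.sqNorm (x : Cfsg.GolayPt → ℤ)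 = 32 ∧ Cfsg.dotInt (v : Cfsg.GolayPt → ℤ) (x : Cfsg.GolayPt → ℤ) = 0 ∧ Cfsg.dotInt (w : Cfsg.GolayPt → ℤ) (x : Cfsg.GolayPt → ℤ) = 16}, ∀ x' ∈ {x : ↥Cfsg.leechLattice | Cfsg.sqNorm (x : Cfsg.GolayPt → ℤ) = 32 ∧ Cfsg.dotInt (v : Cfsg.GolayPt → ℤ) (x : Cfsg.GolayPt → ℤ) = 0 ∧ Cfsg.dotInt (w : Cfsg.GolayPt → ℤ) (x : Cfsg.GolayPt → ℤ) = 16}, ∃ g : ↥Cfsg.Co0, g • v = v ∧ g • w = w ∧ g • x = x') ∧ ∀ x ∈ {x : ↥Cfsg.leechLattice | Cfsg.sqNorm (x : Cfsg.GolayPt → ℤ) = 32 ∧ Cfsg.dotInt (v : Cfsg.GolayPt → ℤ) (x : Cfsg.GolayPt → ℤ) = 0 ∧ Cfsg.dotInt (w : Cfsg.GolayPt → ℤ) (x : Cfsg.GolayPt → ℤ) = 16}, ∃ y₁ ∈ {x : ↥Cfsg.leechLattice | Cfsg.sqNorm (x : Cfsg.GolayPt → ℤ) = 32 ∧ Cfsg.dotInt (v : Cfsg.GolayPt → ℤ) (x : Cfsg.GolayPt → ℤ) = 0 ∧ Cfsg.dotInt (w : Cfsg.GolayPt → ℤ) (x : Cfsg.GolayPt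 → ℤ) = 16}, ∃ y₂ ∈ {x : ↥Cfsg.leechLattice | Cfsg.sqNorm (x : Cfsg.GolayPt → ℤ) = 32 ∧ Cfsg.dotInt (v : Cfsg.GolayPt → ℤ) (x : Cfsg.GolayPt → ℤ) = 0 ∧ Cfsg.dotInt (w : Cfsg.GolayPt → ℤ) (x : Cfsg.GolayPt → ℤ) = 16}, ∃ y₃ ∈ {x : ↥Cfsg.leechLattice | Cfsg.sqNorm (x : Cfsg.GolayPt → ℤ) = 32 ∧ Cfsg.dotInt (v : Cfsg.GolayPt → ℤ) (x : Cfsg.GolayPt → ℤ) = 0 ∧ Cfsg.dotInt (w : Cfsg.GolayPt → ℤ) (x : Cfsg.GolayPt → ℤ) = 16}, (MulAction.orbit ↥(MulAction.stabilizer ↥Cfsg.Co0 v ⊓ MulAction.stabilizer ↥Cfsg.Co0 w ⊓ MulAction.stabilizer ↥Cfsg.Co0 x) y₁).ncard = 330 ∧ (MulAction.orbit ↥(MulAction.stabilizer ↥Cfsg.Co0 v ⊓ MulAction.stabilizer ↥Cfsg.Co0 w ⊓ MulAction.stabilizer ↥Cfsg.Co0 x) y₂).ncard = 462 ∧ (MulAction.orbit ↥(MulAction.stabilizer ↥Cfsg.Co0 v ⊓ MulAction.stabilizer ↥Cfsg.Co0 w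 ⊓ MulAction.stabilizer ↥Cfsg.Co0 x) y₃).ncard = 1232 := by
  have hu : sqNorm ((-(v + w) : leechLattice) : GolayPt → ℤ) = 48 := by
    rw [AddSubgroup.coe_neg, AddSubgroup.coe_add, CfsgH6.sqNorm_neg, CfsgH6.sqNorm_add, hv, hw, hvw]
    rfl
  have hv' : sqNorm ((-v : leechLattice) : GolayPt → ℤ) = 32 := by
    rw [AddSubgroup.coe_neg, CfsgH6.sqNorm_neg, hv]
  have hd : dotInt ((-(v + w) : leechLattice) : GolayPt → ℤ) (-v : leechLattice) = 24 := by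
    rw [AddSubgroup.coe_neg, AddSubgroup.coe_neg, AddSubgroup.coe_add, CfsgH6.dot_neg_left,
      CfsgH6.dot_neg_right, CfsgH6.dot_add_left, ← CfsgH6.sqNorm_eq_dot, hv, CfsgH6.dot_comm, hvw]
    rfl
  have e : {x : ↥Cfsg.leechLattice | Cfsg.sqNorm (x : Cfsg.GolayPt → ℤ) = 32 ∧ Cfsg.dotInt (v : Cfsg.GolayPt → ℤ) (x : Cfsg.GolayPt → ℤ) = 0 ∧ Cfsg.dotInt (w : Cfsg.GolayPt → ℤ) (x : Cfsg.GolayPt → ℤ) = 16} = CfsgH6.Y3 (-(v + w)) (-v) (-v) (-16) 0 0 := by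
    ext x
    simp only [CfsgH6.Y3, Set.mem_ofPred_eq, AddSubgroup.coe_neg, AddSubgroup.coe_add,
      CfsgH6.dot_neg_left, CfsgH6.dot_add_left]
    omega
  rw [e]
  have h2 := CfsgH6.good_tr CfsgH6.cfgC8_0 (CfsgH6.trUV hu hv' hd)
  have hf : ∀ g : Co0, g • (-(v + w)) = -(v + w) ∧ g • (-v) = -v ↔ g • v = v ∧ g • w = w := fun g => by
    rw [CfsgH6.co_neg g v, neg_inj, and_comm]
    exact and_congr_right fun h => CfsgH6.fix_third h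
  refine ⟨h2.1, fun x hx y hy => ?_, fun x hx => ?_⟩
  · obtain ⟨g, k1, k2, -, k3⟩ := h2.2 x hx y hy
    exact ⟨g, ((hf g).1 ⟨k1, k2⟩).1, ((hf g).1 ⟨k1, k2⟩).2, k3⟩
  · have ht := CfsgH6.trUVX' hu hv' hd hx
    have h1 := CfsgH6.good_tr CfsgH6.cfgC9_0 ht
    have h2 := CfsgH6.good_tr CfsgH6.cfgC9_1 ht
    have h3 := CfsgH6.good_tr CfsgH6.cfgC9_2 ht
    obtain ⟨y1, k1⟩ := h1.nonempty (by norm_num)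
    obtain ⟨y2, k2⟩ := h2.nonempty (by norm_num)
    obtain ⟨y3, k3⟩ := h3.nonempty (by norm_num)
    have hH : ∀ g, g ∈ MulAction.stabilizer ↥Cfsg.Co0 v ⊓ MulAction.stabilizer ↥Cfsg.Co0 w ⊓
        MulAction.stabilizer ↥Cfsg.Co0 x ↔
        g • (-(v + w)) = -(v + w) ∧ g • (-v) = -v ∧ g • x = x := fun g => by
      rw [← and_assoc, hf]; simp [MulAction.mem_stabilizer_iff]
    refine ⟨y1, ⟨k1.1, k1.2.1, k1.2.2.1, k1.2.2.1⟩, y2, ⟨k2.1, k2.2.1, k2.2.2.1, k2.2.2.1⟩,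
      y3, ⟨k3.1, k3.2.1, k3.2.2.1, k3.2.2.1⟩, ?_⟩
    rw [h1.orbit hH k1, h2.orbit hH k2, h3.orbit hH k3]
    exact ⟨h1.1, h2.1, h3.1⟩

end Cfsg.Agent.S1634
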