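import Cfsg.Statements.S1635
import Cfsg.Agent.H5.Orb

set_option autoImplicit false
open Cfsg

namespace Cfsg.Agent.S1635

open CfsgH5 MulAction

theorem sub_mem_iff (w v : GolayPt → ZMod 2) :
    w - v ∈ golayCode ↔ symmDiff (support₂ v) (support₂ w) ∈ Sup := by
  have : w - v = word (mk (symmDiff (support₂ v) (support₂ w))) := by
    rw [mk_symmDiff, Nat.xor_eq, word_xor, word_mk_support, word_mk_support, add_comm,
      sub_eq_add_neg]
    congr 1; funext a; exact ZMod.neg_eq_self_mod_two _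
  rw [mem_Sup, ← word_mem_iff (mk_lt _), this]

theorem norm_eq (v : GolayPt → ZMod 2) : hammingNorm v = (support₂ v).card := rfl

theorem ncard_eq (w : GolayPt → ZMod 2) :
    {v : GolayPt → ZMod 2 | hammingNorm v ≤ 4 ∧ w - v ∈ golayCode}.ncard =
    {t : Finset GolayPt | t.card ≤ 4 ∧ symmDiff t (support₂ w) ∈ Sup}.ncard := by
  apply Set.ncard_congr (fun v _ => support₂ v)
  · intro v hv; exact ⟨hv.1, (sub_mem_iff w v).1 hv.2⟩
  · intro a b _ _ h; exact support_inj h
  · intro t ht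
    have : support₂ (word (mk t)) = t := by rw [support_word, ts_mk]
    exact ⟨word (mk t), ⟨by rw [norm_eq, this]; exact ht.1, by rw [sub_mem_iff, this]; exact ht.2⟩, this⟩

/-- Coset leaders of the length-24 code: a coset contains a unique word of weight ≤ 3, or else exactly six words of weight 4 and none lighter. -/
theorem result (w : Cfsg.GolayPt → ZMod 2) : ({v : Cfsg.GolayPt → ZMod 2 | hammingNorm v ≤ 4 ∧ w - v ∈ Cfsg.golayCode}.ncard = 1 ∧ ∃ v : Cfsg.GolayPt → ZMod 2, hammingNorm v ≤ 3 ∧ w - v ∈ Cfsg.golayCode) ∨ ({v : Cfsg.GolayPt → ZMod 2 | hammingNorm v ≤ 4 ∧ w - v ∈ Cfsg.golayCode}.ncard = 6 ∧ ∀ v : Cfsg.GolayPt → ZMod 2, w - v ∈ Cfsg.golayCode → hammingNorm v ≤ 4 → hammingNorm v = 4) := by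
  set s := support₂ w with hs
  have h0 := syn_lt (mk_lt s)
  have h1 := symmDiff_ld s
  have h2 := card_ld h0
  set l := ts (ld (syn (mk s))) with hl
  have hw : support₂ (word (mk l)) = l := by rw [support_word, ts_mk]
  rw [ncard_eq, ← hs]
  by_cases h3 : l.card ≤ 3
  · left
    refine ⟨?_, word (mk l), by rw [norm_eq, hw]; exact h3, by
      rw [sub_mem_iff, hw, symmDiff_comm]; exact h1⟩
    rw [Set.ncard_eq_one]
    refine ⟨l, Set.eq_singleton_iff_unique_mem.2 ⟨⟨h2, by rw [symmDiff_comm]; exact h1⟩, ?_⟩⟩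
    intro t ht
    exact eq_of_symmDiff_mem (symmDiff_trans ht.2 h1) (by have := ht.1; omega)
  · right
    have h4 : ∀ t : Finset GolayPt, t.card ≤ 4 → symmDiff t s ∈ Sup → t.card = 4 := by
      intro t ht h
      by_contra hne
      have := eq_of_symmDiff_mem (symmDiff_trans h h1) (by omega)
      rw [this] at hne; omega
    refine ⟨?_, fun v hv hv4 => h4 _ hv4 ((sub_mem_iff w v).1 hv)⟩
    rw [← card_sx (t := l) (by omega), ← Set.ncard_coe_finset]
    congr 1
    ext t
    simp only [Set.mem_ofPred_eq, Finset.mem_coe, mem_sx]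
    exact ⟨fun h => ⟨h4 t h.1 h.2, symmDiff_trans h.2 h1⟩,
      fun h => ⟨h.1.le, symmDiff_trans h.2 (by rw [symmDiff_comm]; exact h1)⟩⟩

end Cfsg.Agent.S1635
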