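import Cfsg.Statements.S1637
import Cfsg.Agent.H5.Punct

set_option autoImplicit false
open Cfsg

namespace Cfsg.Agent.S1637

open CfsgH5 MulAction

theorem exists_near (t : Finset GolayPt) : ∃ c ∈ Sup, ((symmDiff t c).erase none).card ≤ 3 := by
  have key : ∀ s : Finset GolayPt, ∃ l : Finset GolayPt, l.card ≤ 4 ∧ symmDiff s l ∈ Sup ∧
      (s.card + l.card) % 2 = 0 := fun s => by
    refine ⟨_, card_ld (syn_lt (mk_lt s)), symmDiff_ld s, ?_⟩
    have h1 := card_symmDiff_add s (ts (ld (syn (mk s))))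
    have h2 := card_of_mem_Sup (symmDiff_ld s)
    omega
  obtain ⟨l, h1, h2, h3⟩ := key t
  by_cases h : l.card ≤ 3
  · exact ⟨_, h2, by rw [symmDiff_symmDiff_cancel_left]; exact Finset.card_erase_le.trans h⟩
  obtain ⟨l', h1', h2', h3'⟩ := key (symmDiff t {none})
  refine ⟨_, h2', ?_⟩
  have h4 := card_symmDiff_add t {none}
  rw [Finset.card_singleton] at h4
  refine le_trans (Finset.card_le_card (t := l') ?_) (by omega)
  intro a ha
  simp only [Finset.mem_erase, Finset.mem_symmDiff, Finset.mem_singleton] at ha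
  tauto

/-- The punctured length-23 code is a perfect 3-error-correcting code: each word of length 23 is within distance 3 of exactly one codeword. -/
theorem result (u : ZMod 23 → ZMod 2) : ∃! c : ZMod 23 → ZMod 2, c ∈ {u : ZMod 23 → ZMod 2 | ∃ w ∈ Cfsg.golayCode, ∀ x : ZMod 23, u x = w (some x)} ∧ hammingDist u c ≤ 3 := by
  obtain ⟨c, hc, h⟩ := exists_near (unpun u)
  rw [← dist_pun] at h
  refine ⟨pun c, ⟨(mem_pun_iff _).2 ⟨c, hc, rfl⟩, h⟩, ?_⟩
  rintro v ⟨hv, h'⟩
  obtain ⟨c', hc', rfl⟩ := (mem_pun_iff _).1 hv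
  have := hammingDist_triangle_left (pun c') (pun c) u
  rw [eq_of_dist_pun hc' hc (by omega)]

end Cfsg.Agent.S1637
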