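import Cfsg.Statements.S1641
import Cfsg.Agent.H6.Co3

set_option autoImplicit false
open Cfsg

namespace Cfsg.Agent.S1641

/-- The third Conway group acts on the 11178 cosets of the Higman–Sims group with rank 5 and subdegrees 1, 352, 1100, 4125, 5600. -/
theorem result (u x : ↥Cfsg.leechLattice) (hu : Cfsg.sqNorm (u : Cfsg.GolayPt → ℤ) = 48) (hx : x ∈ {x : ↥Cfsg.leechLattice | Cfsg.sqNorm (x : Cfsg.GolayPt → ℤ) = 32 ∧ Cfsg.dotInt (u : Cfsg.GolayPt → ℤ) (x : Cfsg.GolayPt → ℤ) = -16}) : ∃ y₁ ∈ {x : ↥Cfsg.leechLattice | Cfsg.sqNorm (x : Cfsg.GolayPt → ℤ) = 32 ∧ Cfsg.dotInt (u : Cfsg.GolayPt → ℤ) (x : Cfsg.GolayPt → ℤ) = -16}, ∃ y₂ ∈ {x : ↥Cfsg.leechLattice | Cfsg.sqNorm (x : Cfsg.GolayPt → ℤ) = 32 ∧ Cfsg.dotInt (u : Cfsg.GolayPt → ℤ) (x : Cfsg.GolayPt → ℤ) = -16}, ∃ y₃ ∈ {x : ↥Cfsg.leechLattice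 | Cfsg.sqNorm (x : Cfsg.GolayPt → ℤ) = 32 ∧ Cfsg.dotInt (u : Cfsg.GolayPt → ℤ) (x : Cfsg.GolayPt → ℤ) = -16}, ∃ y₄ ∈ {x : ↥Cfsg.leechLattice | Cfsg.sqNorm (x : Cfsg.GolayPt → ℤ) = 32 ∧ Cfsg.dotInt (u : Cfsg.GolayPt → ℤ) (x : Cfsg.GolayPt → ℤ) = -16}, (MulAction.orbit ↥(MulAction.stabilizer ↥Cfsg.Co0 u ⊓ MulAction.stabilizer ↥Cfsg.Co0 x) y₁).ncard = 352 ∧ (MulAction.orbit ↥(MulAction.stabilizer ↥Cfsg.Co0 u ⊓ MulAction.stabilizer ↥Cfsg.Co0 x) y₂).ncard = 1100 ∧ (MulAction.orbit ↥(MulAction.stabilizer ↥Cfsg.Co0 u ⊓ MulAction.stabilizer ↥Cfsg.Co0 x) y₃).ncard = 4125 ∧ (MulAction.orbit ↥(MulAction.stabilizer ↥Cfsg.Co0 u ⊓ MulAction.stabilizer ↥Cfsg.Co0 x) y₄).ncard = 5600 ∧ {x : ↥Cfsg.leechLattice | Cfsg.sqNorm (x : Cfsg.GolayPt → ℤ) = 32 ∧ Cfsg.dotInt (u : Cfsg.GolayPt → ℤ) (x :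 Cfsg.GolayPt → ℤ) = -16} = {x} ∪ MulAction.orbit ↥(MulAction.stabilizer ↥Cfsg.Co0 u ⊓ MulAction.stabilizer ↥Cfsg.Co0 x) y₁ ∪ MulAction.orbit ↥(MulAction.stabilizer ↥Cfsg.Co0 u ⊓ MulAction.stabilizer ↥Cfsg.Co0 x) y₂ ∪ MulAction.orbit ↥(MulAction.stabilizer ↥Cfsg.Co0 u ⊓ MulAction.stabilizer ↥Cfsg.Co0 x) y₃ ∪ MulAction.orbit ↥(MulAction.stabilizer ↥Cfsg.Co0 u ⊓ MulAction.stabilizer ↥Cfsg.Co0 x) y₄ := by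
  have ht := CfsgH6.trUT hu hx.1 hx.2
  have h1 := CfsgH6.good_tr CfsgH6.cfgC5_0 ht
  have h2 := CfsgH6.good_tr CfsgH6.cfgC5_1 ht
  have h3 := CfsgH6.good_tr CfsgH6.cfgC5_2 ht
  have h4 := CfsgH6.good_tr CfsgH6.cfgC5_3 ht
  obtain ⟨y1, k1⟩ := h1.nonempty (by norm_num)
  obtain ⟨y2, k2⟩ := h2.nonempty (by norm_num)
  obtain ⟨y3, k3⟩ := h3.nonempty (by norm_num)
  obtain ⟨y4, k4⟩ := h4.nonempty (by norm_num)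
  have hH : ∀ g, g ∈ MulAction.stabilizer ↥Cfsg.Co0 u ⊓ MulAction.stabilizer ↥Cfsg.Co0 x ↔
      g • u = u ∧ g • x = x ∧ g • x = x := fun g => by
    simp [MulAction.mem_stabilizer_iff]
  refine ⟨y1, ⟨k1.1, k1.2.1⟩, y2, ⟨k2.1, k2.2.1⟩, y3, ⟨k3.1, k3.2.1⟩, y4, ⟨k4.1, k4.2.1⟩, ?_⟩
  rw [h1.orbit hH k1, h2.orbit hH k2, h3.orbit hH k3, h4.orbit hH k4]
  refine ⟨h1.1, h2.1, h3.1, h4.1, Set.ext fun y => ⟨fun hy => ?_, ?_⟩⟩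
  · by_cases h : y = x
    · simp [h]
    · rcases CfsgH6.dot_11178 hu hx.1 hy.1 hx.2 hy.2 h with h | h | h | h
      · exact Or.inl (Or.inl (Or.inl (Or.inr ⟨hy.1, hy.2, h, h⟩)))
      · exact Or.inl (Or.inl (Or.inr ⟨hy.1, hy.2, h, h⟩))
      · exact Or.inl (Or.inr ⟨hy.1, hy.2, h, h⟩)
      · exact Or.inr ⟨hy.1, hy.2, h, h⟩
  · rintro ((((rfl | h) | h) | h) | h)
    · exact hx
    all_goals exact ⟨h.1, h.2.1⟩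

end Cfsg.Agent.S1641
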