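import Cfsg.Statements.S1642
import Cfsg.Agent.H6.Co3

set_option autoImplicit false
open Cfsg

namespace Cfsg.Agent.S1642

/-- Some involution of the Higman–Sims group acts without fixed points on its 100 points. -/
theorem result (v w : ↥Cfsg.leechLattice) (hv : Cfsg.sqNorm (v : Cfsg.GolayPt → ℤ) = 48) (hw : Cfsg.sqNorm (w : Cfsg.GolayPt → ℤ) = 48) (hvw : Cfsg.dotInt (v : Cfsg.GolayPt → ℤ) (w : Cfsg.GolayPt → ℤ) = -32) : ∃ g : ↥Cfsg.Co0, g • v = v ∧ g • w = w ∧ orderOf g = 2 ∧ ∀ x ∈ {x : ↥Cfsg.leechLattice | Cfsg.sqNorm (x : Cfsg.GolayPt → ℤ) = 32 ∧ Cfsg.dotInt (v : Cfsg.GolayPt → ℤ) (x : Cfsg.GolayPt → ℤ) = 24 ∧ Cfsg.dotInt (w : Cfsg.GolayPt → ℤ) (x : Cfsg.GolayPt → ℤ) = -24}, g • x ≠ x := by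
  obtain ⟨t1, t2⟩ := CfsgH6.tri hv hw hvw
  have e : {x : ↥Cfsg.leechLattice | Cfsg.sqNorm (x : Cfsg.GolayPt → ℤ) = 32 ∧ Cfsg.dotInt (v : Cfsg.GolayPt → ℤ) (x : Cfsg.GolayPt → ℤ) = 24 ∧ Cfsg.dotInt (w : Cfsg.GolayPt → ℤ) (x : Cfsg.GolayPt → ℤ) = -24} = CfsgH6.Y3 v (-(v + w)) (-(v + w)) 24 0 0 := by
    ext x
    simp only [CfsgH6.Y3, Set.mem_ofPred_eq, AddSubgroup.coe_neg, AddSubgroup.coe_add,
      CfsgH6.dot_neg_left, CfsgH6.dot_add_left]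
    omega
  rw [e]
  obtain ⟨g, h1, h2, -⟩ := CfsgH6.trUT hv t1 t2
  obtain ⟨s, h3, h4, h5, h6⟩ := CfsgH6.exists_inv
  have k1 : (g⁻¹ * s * g) • v = v := by rw [mul_smul, mul_smul, h1, h3, ← h1, inv_smul_smul]
  refine ⟨g⁻¹ * s * g, k1, (CfsgH6.fix_third k1).1 ?_, ?_, fun x hx h => ?_⟩
  · rw [mul_smul, mul_smul, h2, h4, ← h2, inv_smul_smul]
  · rw [← h5]
    simpa using (MulAut.conj g⁻¹).orderOf_eq s
  · refine h6 (g • x) (by rw [← h1, ← h2]; exact (CfsgH6.smul_mem_Y3 g).2 hx) ?_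
    rwa [mul_smul, mul_smul, inv_smul_eq_iff] at h

end Cfsg.Agent.S1642
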