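import Cfsg.Statements.S1957
import Cfsg.Agent.L0.KBalance
import Cfsg.Agent.H2.Omega

set_option autoImplicit false
open Cfsg

namespace Cfsg.Agent.S1957

open Subgroup CfsgL0
open scoped commutatorElement

theorem aux {G : Type*} [Group G] {U : Subgroup G} (hU4 : IsKleinFour U) {z y w : G} (hz : z ∈ U)
    (hz1 : z ≠ 1) (hy : y ∈ normalizer (U : Set G)) (hyz : y * z = z * y) (hw : w ∈ U) :
    ⁅y, w⁆ ∈ zpowers z := by
  have hw' := (mem_normalizer_iff.1 hy w).1 hw
  by_cases h1 : y * w * y⁻¹ = w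
  · rw [commutatorElement_def, h1, mul_inv_cancel]; exact one_mem _
  have h2 := IsKleinFour.eq_mul_of_ne_all (x := (⟨_, hw'⟩ : U)) (y := ⟨w, hw⟩⁻¹) (z := ⟨z, hz⟩)
    (fun e => h1 (by
      have e' : y * w * y⁻¹ = 1 := congrArg Subtype.val e
      have : w = 1 := by simpa using e'
      simp [this]))
    (fun e => h1 (by rw [show w = 1 from congrArg Subtype.val (inv_eq_one.1 e)]; simp))
    (fun e => h1 (congrArg Subtype.val (e.trans (IsKleinFour.inv_eq_self _))))
    (fun e => hz1 (congrArg Subtype.val e))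
    (fun e => h1 (by
      have e' : z = y * w * y⁻¹ := congrArg Subtype.val e
      have : w = z := by
        rw [eq_mul_inv_iff_mul_eq, ← hyz] at e'; exact (mul_left_cancel e').symm
      rw [← e', this]))
    (fun e => h1 (by
      rw [IsKleinFour.inv_eq_self] at e
      rw [← show z = w from congrArg Subtype.val e, hyz]; simp))
  rw [commutatorElement_def, ← show z = y * w * y⁻¹ * w⁻¹ from congrArg Subtype.val h2]
  exact mem_zpowers z

/-- Let `G` be a finite non-abelian simple group in which every local subgroup is solvable and which is of characteristic 2 type. Let `P` be a Sylow 2-subgroup of `G` and `U` a normal subgroup of `P` that is a four-group, with `U` central in `P` if the centre of `P` is not cyclic. Then `U` centralizes every subgroup of odd order of `G` that it normalizes. -/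
theorem result {G : Type*} [Group G] [Finite G]
    [IsSimpleGroup G] (hna : ¬ IsMulCommutative G) (hN : Cfsg.IsNGroup G) (h2 : Cfsg.IsCharacteristicTwoType G)
    (P : Sylow 2 G) (U : Subgroup G) (hUP : U ≤ (P : Subgroup G)) (hUn : (P : Subgroup G) ≤ Subgroup.normalizer (U : Set G))
    (hU4 : IsKleinFour ↥U)
    (hUZ : ¬ IsCyclic ↥((P : Subgroup G) ⊓ Subgroup.centralizer ((P : Subgroup G) : Set G)) →
      U ≤ Subgroup.centralizer ((P : Subgroup G) : Set G))
    (K : Subgroup G) (hK : Odd (Nat.card K)) (hUK : U ≤ Subgroup.normalizer (K : Set G)) :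
    U ≤ Subgroup.centralizer (K : Set G) := by
  haveI : Fact (Nat.Prime 2) := ⟨Nat.prime_two⟩
  have hUe : IsElementaryAbelian 2 U :=
    ⟨⟨⟨fun a b => (IsKleinFour.isMulCommutative.is_comm.comm a b)⟩⟩, fun a ha =>
      congrArg Subtype.val (hU4.exponent_two ▸ Monoid.pow_exponent_eq_one (⟨a, ha⟩ : U))⟩
  have hU2 := isPGroup_of_elementary hUe
  have hK2 : ¬ 2 ∣ Nat.card K := hK.not_two_dvd_nat
  have hco := CfsgH2.coprime_card_of_isPGroup hU2 hK2
  refine le_centralizer_symm (CfsgH2.le_of_noncyclic hUe.1 (not_isCyclic_of_elementary hUe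
    hU4.card_four.ge) hUK hco fun u hu hu1 => ?_)
  set C := centralizer ({u} : Set G) with hC
  have hu2 : orderOf u = 2 := orderOf_eq_prime (hUe.2 u hu) hu1
  have hmem : ∀ x ∈ zpowers u, x = 1 ∨ x = u := by
    intro x hx
    obtain ⟨k, rfl⟩ := mem_zpowers_iff.1 hx
    rcases Int.even_or_odd' k with ⟨m, rfl | rfl⟩
    · left; rw [zpow_mul, zpow_ofNat, hUe.2 u hu, one_zpow]
    · right; rw [zpow_add, zpow_mul, zpow_ofNat, hUe.2 u hu, one_zpow, one_mul, zpow_one]
  have hCN : normalizer (zpowers u : Set G) = C := by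
    refine le_antisymm (fun g hg => mem_centralizer_singleton_iff.2 ?_)
      (by rw [hC, ← centralizer_zpowers]; exact centralizer_le_normalizer _)
    rcases hmem _ ((mem_normalizer_iff.1 hg u).1 (mem_zpowers u)) with h | h
    · exact absurd (by simpa using h) hu1
    · exact mul_inv_eq_iff_eq_mul.1 h
  have hQ : C ⊓ centralizer (pCoreOf 2 C : Set G) ≤ pCoreOf 2 C := by
    have := h2.2 (zpowers u) (isPGroup_zpowers_of_orderOf hu2) (by simpa using hu1)
    rw [hCN] at this
    exact isPGroup_gfOf_iff'.1 (isPGroup_genFitting_iff.2 this)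
  set Q := pCoreOf 2 C with hQdef
  have hUC : U ≤ C := (elementary_le_centralizer hUe).trans
    (centralizer_le (Set.singleton_subset_iff.2 hu))
  set P₀ := (P : Subgroup G) ⊓ centralizer (U : Set G) with hP₀
  have hP₀C : P₀ ≤ C := inf_le_right.trans (centralizer_le (Set.singleton_subset_iff.2 hu))
  have hUP₀ : U ≤ P₀ := le_inf hUP (elementary_le_centralizer hUe)
  have hP₀2 : IsPGroup 2 P₀ := P.2.to_inf_left
  -- `[Q, U] ≤ ⟨u⟩`
  have key : ⁅Q, U⁆ ≤ zpowers u := by
    by_cases hQP : Q ≤ P₀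
    · exact (commutator_eq_bot_iff_le_centralizer.2 (hQP.trans inf_le_right)).le.trans bot_le
    have hS : IsPGroup 2 (P₀ ⊔ Q : Subgroup G) :=
      hP₀2.to_sup_of_normal_right' isPGroup_pCoreOf (hP₀C.trans le_normalizer_pCoreOf)
    obtain ⟨z, hz, hz1, -, hzP⟩ := CfsgH2.exists_central_mod P.2 hUP hUn (K := ⊥)
      (fun h => hu1 (h hu))
    have hzP' : ∀ g ∈ (P : Subgroup G), g * z = z * g := fun g hg =>
      (commutatorElement_eq_one_iff_mul_comm.1 (hzP g hg)).symm
    have hz2 : orderOf z = 2 := orderOf_eq_prime (hUe.2 z hz) hz1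
    by_cases hPP : (P : Subgroup G) ≤ P₀
    · exact absurd (le_sup_right.trans ((P.3 hS (hPP.trans le_sup_left)).le.trans hPP)) hQP
    have hcyc : IsCyclic ↥((P : Subgroup G) ⊓ centralizer ((P : Subgroup G) : Set G)) := by
      by_contra hc
      exact hPP (le_inf le_rfl (le_centralizer_symm (hUZ hc)))
    obtain ⟨t, ht, htP⟩ := SetLike.not_le_iff_exists.1 hPP
    obtain ⟨v, hv, htv⟩ : ∃ v ∈ U, ¬ v * t = t * v := by
      by_contra hc
      push Not at hc
      exact htP ⟨ht, hc⟩
    have hvz : ∀ w ∈ U, w = 1 ∨ w = z ∨ w = v ∨ w = z * v := by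
      intro w hw
      by_contra hc
      push Not at hc
      refine hc.2.2.2 (congrArg Subtype.val (IsKleinFour.eq_mul_of_ne_all (x := (⟨z, hz⟩ : U))
        (y := ⟨v, hv⟩) (z := ⟨w, hw⟩) ?_ ?_ ?_ ?_ ?_ ?_)) <;> intro e <;>
        have e' := congrArg Subtype.val e
      · exact hz1 e'
      · exact htv (by rw [show v = 1 from e']; simp)
      · exact htv (by rw [← show z = v from e', hzP' t ht])
      · exact hc.1 e'
      · exact hc.2.1 e'
      · exact hc.2.2.1 e'
    have hidx : P₀.relIndex P ≤ 2 := by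
      have h1 := CfsgH2.relIndex_centralizer_le (C := (P : Subgroup G)) (K := zpowers z) (x := v)
        fun c hc => aux hU4 hz hz1 (hUn hc) (hzP' c hc) hv
      rw [Nat.card_zpowers, hz2, ← inf_relIndex_left] at h1
      refine le_trans (relIndex_le_of_le_left ?_ index_ne_zero_of_finite) h1
      rintro x ⟨hx, hxv⟩
      refine ⟨hx, fun w hw => ?_⟩
      have h2 := hxv v rfl
      rcases hvz w hw with rfl | rfl | rfl | rfl
      · simp
      · exact (hzP' x hx).symm
      · exact h2
      · rw [mul_assoc, h2, ← mul_assoc, ← hzP' x hx, mul_assoc]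
    have hnorm : ∀ S : Subgroup G, IsPGroup 2 S → P₀ ≤ S → S ≤ normalizer (P₀ : Set G) ∧
        ∀ s ∈ S, s * s ∈ P₀ := by
      intro S hS h1
      have h3 : Nat.card S ≤ Nat.card (P : Subgroup G) := by
        obtain ⟨g, -, hg⟩ := (CfsgH2.isSylowOf_top P).exists_cj_le hS le_top
        rw [← CfsgH2.card_cj g]; exact card_le_of_le hg
      rw [← CfsgH2.card_mul_relIndex h1, ← CfsgH2.card_mul_relIndex (inf_le_left : P₀ ≤ P)] at h3
      have h4 := (Nat.le_of_mul_le_mul_left h3 Nat.card_pos).trans hidx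
      have h5 : P₀.relIndex S ≠ 0 := index_ne_zero_of_finite
      by_cases h6 : P₀.relIndex S = 1
      · rw [relIndex_eq_one] at h6
        exact ⟨h6.trans le_normalizer, fun s hs => mul_mem (h6 hs) (h6 hs)⟩
      · have h7 : (P₀.subgroupOf S).index = 2 := by change P₀.relIndex S = 2; omega
        exact ⟨(normal_subgroupOf_iff_le_normalizer h1).1 (normal_of_index_eq_two h7),
          fun s hs => mul_self_mem_of_index_two h7 ⟨s, hs⟩⟩
    have hZ : ∀ x ∈ (P : Subgroup G) ⊓ centralizer ((P : Subgroup G) : Set G), x ^ 2 = 1 →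
        x = 1 ∨ x = z := by
      intro x hx hx2
      by_contra hc
      push Not at hc
      classical
      haveI := Fintype.ofFinite ↥((P : Subgroup G) ⊓ centralizer ((P : Subgroup G) : Set G))
      have h1 := IsCyclic.card_pow_eq_one_le
        (α := ↥((P : Subgroup G) ⊓ centralizer ((P : Subgroup G) : Set G))) (n := 2) two_pos
      refine absurd h1 (not_le.2 (Finset.two_lt_card.2 ⟨1, by simp, ⟨x, hx⟩, ?_,
        ⟨z, hUP hz, hzP'⟩, ?_, ?_, ?_, ?_⟩))
      · simpa [Subtype.ext_iff] using hx2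
      · simpa [Subtype.ext_iff] using hUe.2 z hz
      · exact fun e => hc.1 (congrArg Subtype.val e).symm
      · exact fun e => hz1 (congrArg Subtype.val e).symm
      · exact fun e => hc.2 (congrArg Subtype.val e)
    have hgen : ∀ x, x ∈ centralizer (P₀ : Set G) → t * x = x * t →
        x ∈ centralizer ((P : Subgroup G) : Set G) := by
      intro x h1 h3 g hg
      by_cases hg' : g ∈ P₀
      · exact h1 g hg'
      · have h7 : (P₀.subgroupOf P).index = 2 := by
          have h5 : P₀.relIndex P ≠ 0 := index_ne_zero_of_finite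
          have h6 : P₀.relIndex P ≠ 1 := fun e => hPP (relIndex_eq_one.1 e)
          change P₀.relIndex P = 2; omega
        have h8 : g * t ∈ P₀ := (mul_mem_iff_of_index_two h7 (a := ⟨g, hg⟩) (b := ⟨t, ht⟩)).2
          (iff_of_false hg' htP)
        have h9 := h1 _ h8
        rw [mul_assoc, h3, ← mul_assoc, ← mul_assoc] at h9
        exact mul_right_cancel h9
    have hP₀n := hnorm P P.2 inf_le_left
    have hΩ : ∀ x ∈ P₀ ⊓ centralizer (P₀ : Set G), x ^ 2 = 1 → t * x = x * t ∨
        t * x * t⁻¹ = x * z := by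
      intro x hx hx2
      have h1 : t * x * t⁻¹ ∈ P₀ ⊓ centralizer (P₀ : Set G) :=
        CfsgH2.conj_mem_of_le_normalizer (hP₀n.1.trans
          (normalizer_le_normalizer_inf_centralizer _)) ht hx
      have h3 : x * (t * x * t⁻¹) = (t * x * t⁻¹) * x := h1.2 x hx.1
      have h4 : t * t * x = x * (t * t) := hx.2 _ (hP₀n.2 t ht)
      have hxx : x * x = 1 := by rw [← sq, hx2]
      rcases hZ (x * (t * x * t⁻¹)) ⟨mul_mem hx.1.1 h1.1.1, hgen _ (mul_mem hx.2 h1.2) (by
          calc t * (x * (t * x * t⁻¹)) = (t * x * t⁻¹) * (t * t * x) * t⁻¹ := by group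
            _ = (t * x * t⁻¹) * x * t := by rw [h4]; group
            _ = _ := by rw [h3])⟩ (by
          rw [(show Commute x (t * x * t⁻¹) from h3).mul_pow, conj_pow, hx2]; simp) with h | h
      · left
        have : t * x * t⁻¹ = x := by
          rw [← one_mul (t * x * t⁻¹), ← hxx, mul_assoc x x, h, mul_one]
        exact mul_inv_eq_iff_eq_mul.1 this
      · right
        rw [← h, ← mul_assoc, hxx, one_mul]
    have hUZ' : U ≤ P₀ ⊓ centralizer (P₀ : Set G) := le_inf hUP₀ (le_centralizer_symm inf_le_right)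
    have hfix : ∀ x ∈ P₀ ⊓ centralizer (P₀ : Set G), x ^ 2 = 1 → t * x = x * t → x ∈ U := by
      intro x hx hx2 h
      rcases hZ x ⟨hx.1.1, hgen x hx.2 h⟩ hx2 with rfl | rfl
      · exact one_mem _
      · exact hz
    have hΩU : ∀ x ∈ P₀ ⊓ centralizer (P₀ : Set G), x ^ 2 = 1 → x ∈ U := by
      intro x hx hx2
      rcases hΩ x hx hx2 with h | h
      · exact hfix x hx hx2 h
      · have h' := (hΩ v (hUZ' hv) (hUe.2 v hv)).resolve_left fun e => htv e.symm
        have hxv : Commute x v := (hUZ' hv).2 x hx.1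
        have := hfix (x * v) (mul_mem hx (hUZ' hv)) (by rw [hxv.mul_pow, hx2, hUe.2 v hv, one_mul])
          (by
            have hzz : z * z = 1 := by rw [← sq, hUe.2 z hz]
            calc t * (x * v) = (t * x * t⁻¹) * (t * v * t⁻¹) * t := by group
              _ = x * (z * v) * z * t := by rw [h, h']; group
              _ = x * v * (z * z) * t := by rw [← hzP' v (hUP hv)]; group
              _ = _ := by rw [hzz, mul_one])
        simpa using mul_mem this (inv_mem hv)
    rw [commutator_le]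
    intro y hy w hw
    refine aux hU4 hu hu1 (mem_normalizer_of_conj_mem fun x hx => hΩU _ ?_ ?_)
      (pCoreOf_le hy u rfl).symm hw
    · exact CfsgH2.conj_mem_of_le_normalizer ((hnorm _ hS le_sup_left).1.trans
        (normalizer_le_normalizer_inf_centralizer _)) (mem_sup_right hy) (hUZ' hx)
    · rw [conj_pow, hUe.2 x hx]; simp
  have hKC : U ≤ normalizer ((K ⊓ C : Subgroup G) : Set G) :=
    CfsgH2.le_normalizer_inf hUK (hUC.trans le_normalizer)
  have hco' := CfsgH2.coprime_mono hco le_rfl (inf_le_left : K ⊓ C ≤ K)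
  have h3 : ⁅K ⊓ C, U⁆ ≤ K ⊓ C := commutator_le_left_of_le_normalizer hKC
  -- `U` lies in the normal subgroup of `C` of elements centralizing `Q / ⟨u⟩`
  have h4 : ∀ x ∈ ⁅K ⊓ C, U⁆, ∀ y ∈ Q, ⁅y, x⁆ ∈ zpowers u := by
    have hconj : ∀ c ∈ C, ∀ a ∈ zpowers u, c * a * c⁻¹ ∈ zpowers u := fun c hc a ha =>
      CfsgH2.conj_mem_of_le_normalizer hCN.ge hc ha
    let N₀ : Subgroup G :=
      { carrier := {x | x ∈ C ∧ ∀ y ∈ Q, ⁅y, x⁆ ∈ zpowers u}
        one_mem' := ⟨one_mem _, fun y _ => by simp⟩
        mul_mem' := fun {a b} ha hb => ⟨mul_mem ha.1 hb.1, fun y hy => by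
          have e : ⁅y, a * b⁆ = ⁅y, a⁆ * (a * ⁅y, b⁆ * a⁻¹) := by
            simp only [commutatorElement_def]; group
          rw [e]; exact mul_mem (ha.2 y hy) (hconj a ha.1 _ (hb.2 y hy))⟩
        inv_mem' := fun {a} ha => ⟨inv_mem ha.1, fun y hy => by
          have e : ⁅y, a⁻¹⁆ = a⁻¹ * ⁅y, a⁆⁻¹ * a⁻¹⁻¹ := by
            simp only [commutatorElement_def]; group
          rw [e]; exact hconj _ (inv_mem ha.1) _ (inv_mem (ha.2 y hy))⟩ }
    have hUN : U ≤ N₀ := fun w hw => ⟨hUC hw, fun y hy => key (commutator_mem_commutator hy hw)⟩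
    have : ⁅K ⊓ C, U⁆ ≤ N₀ := by
      rw [commutator_le]
      intro k hk w hw
      rw [commutatorElement_def]
      refine mul_mem ⟨mul_mem (mul_mem hk.2 (hUC hw)) (inv_mem hk.2), fun y hy => ?_⟩
        (inv_mem (hUN hw))
      have e : ⁅y, k * w * k⁻¹⁆ = k * ⁅k⁻¹ * y * k, w⁆ * k⁻¹ := by
        simp only [commutatorElement_def]; group
      rw [e]
      exact hconj k hk.2 _ ((hUN hw).2 _
        (CfsgH2.conj_mem_of_le_normalizer' le_normalizer_pCoreOf hk.2 hy))
    exact fun x hx => (this hx).2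
  have h5 : Q ≤ centralizer ((⁅K ⊓ C, U⁆ : Subgroup G) : Set G) :=
    CfsgH2.le_centralizer_of_commutator_le (N := zpowers u)
      (CfsgH2.coprime_mono (CfsgH2.coprime_card_of_isPGroup (isPGroup_zpowers_of_orderOf hu2)
        hK2).symm (h3.trans inf_le_left) le_rfl)
      (Or.inr (CfsgH2.isSolvable_of_isPGroup (isPGroup_zpowers_of_orderOf hu2)))
      (le_centralizer_symm ((h3.trans inf_le_right).trans (centralizer_zpowers u).ge))
      (commutator_le.2 fun y hy x hx => h4 x hx y hy)
  rw [← commutator_eq_bot_iff_le_centralizer, eq_bot_iff,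
    ← pPrime_inf_pGroup_eq_bot (isPGroup_pCoreOf (p := 2) (H := C)) (K := K)
      ((Nat.Prime.coprime_iff_not_dvd Nat.prime_two).2 hK2).symm]
  exact le_inf ((le_inf (h3.trans inf_le_right) (le_centralizer_symm h5)).trans hQ)
    (h3.trans inf_le_left)

end Cfsg.Agent.S1957
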