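import Cfsg.Statements.S1958
import Cfsg.Agent.L0.LBalance

set_option autoImplicit false
open Cfsg

namespace Cfsg.Agent.S1958

open Subgroup CfsgL0
open scoped commutatorElement

theorem aux {G : Type*} [Group G] [Finite G]
    (p : ℕ) [Fact p.Prime] (x y : G) (hx : orderOf x = p) (hxy : x * y = y * x)
    (hCy : Group.IsSolvable ↥(Subgroup.centralizer ({y} : Set G))) :
    Cfsg.centralizerPPrimeCore p x ⊓ Subgroup.centralizer {y} ≤ Cfsg.centralizerPPrimeCore p y := by
  have hxC : x ∈ centralizer ({y} : Set G) := mem_centralizer_singleton_iff.2 hxy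
  have h1 := pPrimeCoreOf_centralizer_le_pPrimeCore
    (isPConstrained_of_isPSolvable (p := p) (isPSolvable_of_isSolvable hCy))
    (R := zpowers (⟨x, hxC⟩ : centralizer ({y} : Set G)))
    (isPGroup_zpowers_of_orderOf (by rw [← hx]; exact (orderOf_coe _).symm))
  have e : (centralizer ({(⟨x, hxC⟩ : centralizer ({y} : Set G))} : Set _)).map
      (centralizer ({y} : Set G)).subtype = centralizer {x} ⊓ centralizer {y} := by
    ext g
    simp only [mem_map, mem_centralizer_singleton_iff, mem_inf, Subtype.ext_iff]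
    constructor
    · rintro ⟨⟨g, hg⟩, h, rfl⟩
      exact ⟨h, mem_centralizer_singleton_iff.1 hg⟩
    · rintro ⟨h1, h2⟩
      exact ⟨⟨g, mem_centralizer_singleton_iff.2 h2⟩, h1, rfl⟩
  have h2 := map_mono (f := (centralizer ({y} : Set G)).subtype) h1
  rw [map_pPrimeCoreOf_of_injective _ (subtype_injective _), centralizer_zpowers, e] at h2
  refine le_trans ?_ h2
  refine le_trans (le_inf inf_le_left (le_inf (inf_le_left.trans pPrimeCoreOf_le) inf_le_right))
    (pPrimeCoreOf_inf_le inf_le_left)

/-- Let `G` be a finite group, `p` a prime, and `x, y` commuting elements of order `p` whose centralizers `C_G(x)` and `C_G(y)` are both solvable. Then `O_{p'}(C_G(x)) ∩ C_G(y) = O_{p'}(C_G(y)) ∩ C_G(x)` (balance). -/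
theorem result {G : Type*} [Group G] [Finite G]
    (p : ℕ) [Fact p.Prime] (x y : G) (hx : orderOf x = p) (hy : orderOf y = p) (hxy : x * y = y * x)
    (hCx : Group.IsSolvable ↥(Subgroup.centralizer ({x} : Set G))) (hCy : Group.IsSolvable ↥(Subgroup.centralizer ({y} : Set G))) :
    Cfsg.centralizerPPrimeCore p x ⊓ Subgroup.centralizer {y} = Cfsg.centralizerPPrimeCore p y ⊓ Subgroup.centralizer {x} := by
  exact le_antisymm (le_inf (aux p x y hx hxy hCy) (inf_le_left.trans pPrimeCoreOf_le))
    (le_inf (aux p y x hy hxy.symm hCx) (inf_le_left.trans pPrimeCoreOf_le))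

end Cfsg.Agent.S1958
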