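import Cfsg.Statements.S1966
import Cfsg.Agent.H1.Functor2
import Cfsg.Agent.L0.Cores

set_option autoImplicit false
open Cfsg

namespace Cfsg.Agent.S1966

open CfsgH1 Subgroup

/-- Let p be a prime, G a finite group with Sylow p-subgroup S and 𝓕 a conjugation family for S in G. Then the members of 𝓕 containing O_p(G) still form a conjugation family for S in G. -/
theorem result {G : Type*} [Group G] [Finite G] {p : ℕ} [Fact p.Prime] (S : Sylow p G) (𝓕 : Set (Subgroup G)) (h : Cfsg.IsConjugationFamily 𝓕 (S : Subgroup G)) : Cfsg.IsConjugationFamily {T : Subgroup G | T ∈ 𝓕 ∧ Cfsg.pCore p G ≤ T} (S : Subgroup G) := by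
  refine ⟨fun T hT => h.1 T hT.1, fun A g hA hAS hAg => ?_⟩
  have hO : Cfsg.pCore p G ≤ (S : Subgroup G) := CfsgL0.pCore_le_sylow S
  haveI : (Cfsg.pCore p G).Normal := inferInstance
  obtain ⟨n, T, x, h1, h2, h3, h4, h5⟩ := h.2 (A ∪ Cfsg.pCore p G) g (hA.mono Set.subset_union_left)
    (Set.union_subset hAS hO) (by
      rw [Set.image_union]
      refine Set.union_subset hAg ?_
      rintro _ ⟨a, ha, rfl⟩
      exact hO (this.conj_mem' a ha g))
  refine ⟨n, T, x, h1, fun i => ⟨h2 i, ?_⟩, h3, fun h0 => Set.subset_union_left.trans (h4 h0),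
    fun i hi => (Set.image_mono Set.subset_union_left).trans (h5 i hi)⟩
  obtain ⟨i, hi⟩ := i
  cases i with
  | zero => exact fun a ha => h4 hi (Or.inr ha)
  | succ i =>
    intro a ha
    refine h5 ⟨i, by omega⟩ hi ⟨_, Or.inr (this.conj_mem a ha ((List.ofFn x).take (i + 1)).prod), ?_⟩
    simp [mul_assoc]

end Cfsg.Agent.S1966
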