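import Cfsg.Statements.S1968
import Cfsg.Agent.H1.WeakClosure

set_option autoImplicit false
open Cfsg

namespace Cfsg.Agent.S1968

open CfsgH1 Subgroup

/-- Let p be a prime, G a finite group with Sylow p-subgroup S and W a conjugacy functor for p on G with Z(P) ≤ W(P) for every p-subgroup P. Let A be a subgroup of Z(S) normalized by N_G(W(S)) that is not weakly closed in S with respect to G. Then there is a subgroup T of S, well placed in S with respect to W, such that: A ≤ T; N_G(W(N_S(T))) normalizes A; N_S(T) is a Sylow p-subgroup of N_G(T); A ≤ Z(N_S(T)); and A is not weakly closed in N_S(T) with respect to N_G(T), that is, some N_G(T)-conjugate of A other than A lies in N_S(T). -/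
theorem result {G : Type*} [Group G] [Finite G] {p : ℕ} [Fact p.Prime] (S : Sylow p G) (W : Subgroup G → Subgroup G) (hW : Cfsg.IsConjugacyFunctor p W) (hWZ : ∀ P : Subgroup G, IsPGroup p ↥P → P ⊓ Subgroup.centralizer (P : Set G) ≤ W P) (A : Subgroup G) (hAZ : A ≤ (S : Subgroup G) ⊓ Subgroup.centralizer ((S : Subgroup G) : Set G)) (hAN : Subgroup.normalizer ((W (S : Subgroup G) : Subgroup G) : Set G) ≤ Subgroup.normalizer ((A : Subgroup G) : Set G)) (hnwc : ¬ Cfsg.IsWeaklyClosed A (S : Subgroup G)) : ∃ T : Subgroup G, Cfsg.IsWellPlaced p W (S : Subgroup G) T ∧ A ≤ T ∧ Subgroup.normalizer ((W ((S : Subgroup G) ⊓ Subgroup.normalizer ((T : Subgroup G) : Set G)) : Subgroup G) : Set G) ≤ Subgroup.normalizer ((A : Subgroup G) : Set G) ∧ ¬ p ∣ ((S : Subgroup G) ⊓ Subgroup.normalizer ((T : Subgroup G) : Set G)).relIndex (Subgroup.normalizer ((T : Subgroup G) : Set G)) ∧ A ≤ Subgroup.centralizer (((S : Subgroup G) ⊓ Subgroup.normalizer ((T : Subgroup G) : Set G) : Subgroup G) : Set G)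 ∧ ∃ g ∈ Subgroup.normalizer ((T : Subgroup G) : Set G), A.map (MulAut.conj g).toMonoidHom ≤ (S : Subgroup G) ⊓ Subgroup.normalizer ((T : Subgroup G) : Set G) ∧ A.map (MulAut.conj g).toMonoidHom ≠ A := by
  have hS : IsSylowIn p (S : Subgroup G) ⊤ := isSylowIn_top S
  by_contra hcon
  refine hnwc ⟨hAZ.trans inf_le_left, fun g hg => cj_eq_of_mem_normalizer ?_⟩
  refine wc_of_wp hW hWZ hS (hAZ.trans inf_le_left) (inf_le_right.trans hAN)
    (fun U hU hZ hN x hx => ?_) (mem_top g) hg
  by_contra hx'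
  refine hcon ⟨U, (wp_top_iff hS.pgroup).mp hU, hAZ.trans hZ, by rwa [top_inf_eq] at hN,
    (fn_top_iff hS.pgroup).mp hU.fn,
    (hAZ.trans inf_le_right).trans (centralizer_le inf_le_left), x, hx.2, ?_, ?_⟩
  · exact (cj_le_of_mem_normalizer hx.2 (hAZ.trans hZ)).trans (le_inf hU.1 le_normalizer)
  · exact fun e => hx' (mem_normalizer_iff_cj.mpr e)

end Cfsg.Agent.S1968
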