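import Cfsg.Statements.S1969
import Cfsg.Agent.H1.SecFusion2

set_option autoImplicit false
universe u
open Cfsg

namespace Cfsg.Agent.S1969

open CfsgH1 Subgroup
open scoped commutatorElement

/-- Let p be a prime, G a finite group and W an isomorphism-invariant p-group functor (W assigns to every group Q a subgroup W(Q), nontrivial whenever Q is a nontrivial finite p-group, and every isomorphism from a finite p-group Q onto a group R carries W(Q) onto W(R)). Suppose that W(S*) is normal in G* whenever G* = K/R is a section of G with C_{G*}(O_p(G*)) ≤ O_p(G*) and S* is a Sylow p-subgroup of G*. Then W controls strong fusion in every section of G: for every section K/R and every Sylow p-subgroup T of K/R, the subgroup W(T) controls strong fusion in K/R. -/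
theorem result {G : Type u} [Group G] [Finite G] {p : ℕ} [Fact p.Prime] (W : ∀ (Q : Type u) [Group Q], Subgroup Q) (hW : Cfsg.IsCharPFunctor.{u} p W) (hloc : ∀ (K R : Subgroup G) [hR : (R.subgroupOf K).Normal], Subgroup.centralizer ((Cfsg.pCore p (↥K ⧸ R.subgroupOf K) : Subgroup (↥K ⧸ R.subgroupOf K)) : Set (↥K ⧸ R.subgroupOf K)) ≤ Cfsg.pCore p (↥K ⧸ R.subgroupOf K) → ∀ T : Sylow p (↥K ⧸ R.subgroupOf K), (Cfsg.inducedFunctor (G := (↥K ⧸ R.subgroupOf K)) W ((T : Subgroup (↥K ⧸ R.subgroupOf K)))).Normal) : ∀ (K R : Subgroup G) [hR : (R.subgroupOf K).Normal], ∀ T : Sylow p (↥K ⧸ R.subgroupOf K), Cfsg.ControlsStrongFusion p (Cfsg.inducedFunctor (G := (↥K ⧸ R.subgroupOf K)) W ((T : Subgroup (↥K ⧸ R.subgroupOf K)))) := by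
  intro K R _ T
  have h𝓦 : ∀ W' ∈ ({W} : Set (∀ (Q : Type u) [Group Q], Subgroup Q)),
      Cfsg.IsCharPFunctor.{u} p W' := by
    rintro W rfl; assumption
  have := fsf_of_sections h𝓦 (fun K R _ hc => by
    obtain ⟨T⟩ : Nonempty (Sylow p (K ⧸ R.subgroupOf K)) := inferInstance
    refine familyControlsStrongFusionIn_iff.mpr ⟨T, isSylowIn_top T,
      fsf_of_sfBy (Set.mem_image_of_mem _ (Set.mem_singleton W)) fun A g _ _ _ => actsVia_of_mem ⟨mem_top _, ?_⟩⟩
    haveI := hloc K R hc T
    simp only [normalizer_eq_top]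
    exact mem_top g) _ (isSec_quotient K R) T (isSylowIn_top T)
  rw [IW, Set.image_singleton] at this
  refine ⟨T, inducedFunctor_le _, fun A hA => ⟨hA, fun g hg => ?_⟩⟩
  obtain ⟨x, hx, e⟩ := sfBy_of_fsf_singleton this (closure A) g (closure_le_of_subset hA)
    (mem_top g) (cj_closure_le hg)
  exact ⟨x, hx.2, fun a ha => (e a (subset_closure ha)).symm⟩

end Cfsg.Agent.S1969
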