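import Cfsg.Statements.S1971
import Cfsg.Agent.H1.SecPNil

set_option autoImplicit false
universe u
open Cfsg

namespace Cfsg.Agent.S1971

open CfsgH1 Subgroup
open scoped commutatorElement

theorem main {G : Type u} [Group G] [Finite G] {p : ℕ} [Fact p.Prime]
    (W : ∀ (Q : Type u) [Group Q], Subgroup Q) (hW : Cfsg.IsCharPFunctor.{u} p W)
    (hctl : ∀ (K R : Subgroup G) [(R.subgroupOf K).Normal],
      Cfsg.ControlsTransferIn p (Cfsg.inducedFunctor (G := (↥K ⧸ R.subgroupOf K)) W) ⊤)
    (X : Type u) [Group X] [Finite X] (hX : IsSec G X) (S : Subgroup X) (hS : IsSylowIn p S ⊤)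
    (hb : S ≠ ⊥) (hN : ∀ g ∈ normalizer (S : Set X), (orderOf g).Coprime p →
      g ∈ centralizer (S : Set X)) : ¬ S ≤ ⁅(⊤ : Subgroup X), ⊤⁆ := by
  induction hn : Nat.card X using Nat.strong_induction_on generalizing X with
  | _ n IH =>
  intro hle
  have hW' := isConjugacyFunctor_induced (X := X) hW
  by_cases hV : normalizer (Cfsg.inducedFunctor W S : Set X) = ⊤
  · haveI := normalizer_eq_top_iff.mp hV
    set V := Cfsg.inducedFunctor W S with hVdef
    have hVS : V ≤ S := inducedFunctor_le S
    rcases hVS.lt_or_eq with hlt | heq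
    · let π := QuotientGroup.mk' V
      have hπ := QuotientGroup.mk'_surjective V
      have hker : π.ker = V := QuotientGroup.ker_mk' _
      refine IH _ (hn ▸ card_quotient_lt (functor_ne_bot hW' hS.pgroup hb)) _ (hX.quot V) _
        (hS.map_top hπ) (fun h => not_le_of_gt hlt (((Subgroup.map_eq_bot_iff _).mp h).trans hker.le))
        (fun y hy hc => ?_) rfl ?_
      · have h1 : y ∈ (resIn p (normalizer (S : Set X))).map π := by
          rw [map_resIn]
          refine mem_resIn ?_ hc
          rw [← comap_map_eq_self (hker.le.trans hVS), map_normalizer_of_ker_le hπ]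
          exact hy
        obtain ⟨x, hx, rfl⟩ := h1
        rintro _ ⟨s, hs, rfl⟩
        rw [← map_mul, ← map_mul, (resIn_le_iff.mpr hN hx) s hs]
      · have := map_mono (f := π) hle
        rwa [map_commutator, map_top_of_surjective _ hπ] at this
    · rw [heq] at hV
      refine commutator_lt_of_isNilpotent hS.pgroup.isNilpotent le_rfl hb
        ((le_inf le_rfl hle).trans (hS.inf_commutator_le_of_fusion fun x hx g hg _ => ?_))
      obtain ⟨a, ha, b, hb, rfl⟩ := hS.exists_mul_resIn hg
      refine ⟨a, ha, ?_⟩
      rw [← hV] at hb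
      conv_lhs => rw [← conj_eq_of_mem_centralizer (resIn_le_iff.mpr hN hb) hx]
      group
  · obtain ⟨K, R, _, ⟨e⟩⟩ := hX.exists_equiv
    have h1 := transfer_of_controls hW' hS (controlsTransferIn_of_equiv hW e (hctl K R))
    rw [top_inf_eq] at h1
    set N := normalizer (Cfsg.inducedFunctor W S : Set X) with hNdef
    have hSN : S ≤ N := le_normalizer_functor hW' hS.pgroup
    refine IH _ (hn ▸ card_lt_of_ne_top hV) N (hX.sub N) _ (hS.of_le hSN le_top).subgroupOf_top
      (fun h => hb (by rw [← map_subgroupOf_eq_of_le hSN, h, Subgroup.map_bot])) (fun g hg hc => ?_) rfl ?_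
    · have h2 : (g : X) ∈ normalizer (S : Set X) := by
        have := map_normalizer_le N.subtype _ (mem_map_of_mem _ hg)
        rwa [map_subgroupOf_eq_of_le hSN] at this
      exact fun s hs => Subtype.ext (hN g h2 (by simpa using hc) s hs)
    · rw [← map_le_map_iff_of_injective N.subtype_injective, map_subgroupOf_eq_of_le hSN,
        map_commutator, ← MonoidHom.range_eq_map, range_subtype]
      exact (le_inf le_rfl hle).trans h1

/-- Let p be a prime, G a finite group with nontrivial Sylow p-subgroup S, and W an isomorphism-invariant p-group functor (W assigns to every group Q a subgroup W(Q), nontrivial whenever Q is a nontrivial finite p-group, and every isomorphism from a finite p-group Q onto a group R carries W(Q) onto W(R)) that controls transfer in every section of G. If N_G(S)/C_G(S) is a p-group (every element of N_G(S) of order prime to p centralizes S), then G has a normal subgroup of index p. -/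
theorem result {G : Type u} [Group G] [Finite G] {p : ℕ} [Fact p.Prime] (W : ∀ (Q : Type u) [Group Q], Subgroup Q) (hW : Cfsg.IsCharPFunctor.{u} p W) (hctl : ∀ (K R : Subgroup G) [hR : (R.subgroupOf K).Normal], Cfsg.ControlsTransferIn p (Cfsg.inducedFunctor (G := (↥K ⧸ R.subgroupOf K)) W) ⊤) (S : Sylow p G) (hS : (S : Subgroup G) ≠ ⊥) (hN : ∀ g ∈ Subgroup.normalizer (((S : Subgroup G) : Subgroup G) : Set G), (orderOf g).Coprime p → g ∈ Subgroup.centralizer ((S : Subgroup G) : Set G)) : ∃ N : Subgroup G, N.Normal ∧ N.index = p := by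
  have h := (isSylowIn_top S).resIn_ne (main W hW hctl G (IsSec.refl G) S (isSylowIn_top S) hS hN)
  rw [resIn_top] at h
  haveI : Nontrivial (G ⧸ Cfsg.pResidual p G) := QuotientGroup.nontrivial_iff.mpr h
  obtain ⟨M, hM, -⟩ := CfsgH2.exists_isCoatom_ge (K := (⊥ : Subgroup (G ⧸ Cfsg.pResidual p G)))
    bot_ne_top
  haveI := CfsgH2.normal_of_isCoatom isPGroup_quotient_pResidual hM
  exact ⟨M.comap (QuotientGroup.mk' _), inferInstance, by
    rw [index_comap_of_surjective _ (QuotientGroup.mk'_surjective _),
      CfsgH2.index_of_isCoatom isPGroup_quotient_pResidual hM]⟩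

end Cfsg.Agent.S1971
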