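import Cfsg.Statements.S2007
import Cfsg.Agent.H1.Chain

set_option autoImplicit false
open Cfsg

namespace Cfsg.Agent.S2007

open CfsgH1 Subgroup
open scoped commutatorElement

/-- Let p be a prime, G a finite group with Sylow p-subgroup S, and T a normal subgroup of S containing C_S(T). If N_G(T)/C_G(T) is a p-group (every element of N_G(T) of order prime to p centralizes T), then N_G(T) has a normal p-complement. -/
theorem result {G : Type*} [Group G] [Finite G] {p : ℕ} [Fact p.Prime] (S : Sylow p G) (T : Subgroup G) (hTS : T ≤ (S : Subgroup G)) (hTn : (S : Subgroup G) ≤ Subgroup.normalizer ((T : Subgroup G) : Set G)) (hC : (S : Subgroup G) ⊓ Subgroup.centralizer ((T : Subgroup G) : Set G) ≤ T) (hN : ∀ g ∈ Subgroup.normalizer ((T : Subgroup G) : Set G), (orderOf g).Coprime p → g ∈ Subgroup.centralizer ((T : Subgroup G) : Set G)) : Cfsg.HasNormalPComplement p ↥(Subgroup.normalizer ((T : Subgroup G) : Set G)) := by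
  have hS : IsSylowIn p (S : Subgroup G) (normalizer (T : Set G)) := isSylowIn_of_le S hTn
  have hV := hS.inf_of_le_normalizer (N := centralizer (T : Set G)) (centralizer_le_normalizer _)
    (fun g hg => by rw [mem_normalizer_iff_cj, cj_centralizer, cj_eq_of_mem_normalizer hg])
  have h1 : PNil p (centralizer (T : Set G)) := hV.pNil_of_central (centralizer_le hC)
  refine hasNormalPComplement_iff.mpr (pNil_iff.mpr fun x hx => pNil_iff.mp h1 x ?_)
  rw [← resIn_resIn] at hx
  exact resIn_mono (resIn_le_iff.mpr hN) hx

end Cfsg.Agent.S2007
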