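import Cfsg.Statements.S1988
import Cfsg.Agent.H3.Sect2
import Cfsg.Agent.S2006
import Cfsg.Agent.S2007

set_option autoImplicit false
universe u
open Cfsg

namespace Cfsg.Agent.S1988

/-- Let p be an odd prime, G a finite group with Sylow p-subgroup S and K the lower K-infinity subgroup of S. If N_G(K) has a normal p-complement, or if N_G(K)/C_G(K) is a p-group (every element of N_G(K) of order prime to p centralizes K), then G has a normal p-complement. -/
theorem result {G : Type u} [Group G] [Finite G] {p : ℕ} [Fact p.Prime] (hp : p ≠ 2) (S : Sylow p G) (h : Cfsg.HasNormalPComplement p ↥(Subgroup.normalizer ((Cfsg.inducedFunctor Cfsg.kInfLower (S : Subgroup G) : Subgroup G) : Set G)) ∨ ∀ g ∈ Subgroup.normalizer ((Cfsg.inducedFunctor Cfsg.kInfLower (S : Subgroup G) : Subgroup G) : Set G), (orderOf g).Coprime p → g ∈ Subgroup.centralizer ((Cfsg.inducedFunctor Cfsg.kInfLower (S : Subgroup G) : Subgroup G) : Set G)) : Cfsg.HasNormalPComplement p G := by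
  have hW := CfsgH3.isCharPFunctor_kInfLower.{u} (p := p)
  refine Cfsg.Agent.S2006.result Cfsg.kInfLower hW S ?_ fun K R _ hc T hn => ?_
  · rcases h with h | h
    · exact h
    · refine Cfsg.Agent.S2007.result S _ (CfsgH3.induced_le _) (CfsgH1.le_normalizer_functor
        (CfsgH3.isConjugacyFunctor_induced hW) S.isPGroup') ?_ h
      rw [CfsgH3.induced_kInfLower]
      exact CfsgH3.inf_centralizer_kLow_le S.isPGroup'
  · rw [CfsgH3.induced_kInfLower] at hn
    obtain ⟨g, h1, h2, -, -, h3⟩ := CfsgH3.kinf_four T (Or.inl hn)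
    obtain ⟨U, V, k1, k2, k3, k4⟩ := h3 hc
    haveI := k1.2.2.1
    have h2' : 2 ≤ p - 1 := by
      have := (Fact.out : p.Prime).two_le
      omega
    exact ⟨g, h1, h2, U, V, k1, k2, CfsgH3.iter_le_of_le_normal h2' k3, k4⟩

end Cfsg.Agent.S1988
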