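import Cfsg.Statements.S1990
import Cfsg.Agent.H3.ZJApp

set_option autoImplicit false
universe u
open Cfsg

namespace Cfsg.Agent.S1990

/-- Let p be an odd prime, G a finite group with Sylow p-subgroup S, and W an isomorphism-invariant p-group functor (W assigns to every group Q a subgroup W(Q), nontrivial whenever Q is a nontrivial finite p-group, and every isomorphism from a finite p-group Q onto a group R carries W(Q) onto W(R)). Suppose N_G(W(S)) has a normal p-complement, and W(T) controls strong fusion in every section G* = K/R of G all of whose sections are p-stable in the normalizer form, for every Sylow p-subgroup T of G*. Then G has a normal p-complement. -/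
theorem result {G : Type u} [Group G] [Finite G] {p : ℕ} [Fact p.Prime] (hp : p ≠ 2) (W : ∀ (Q : Type u) [Group Q], Subgroup Q) (hW : Cfsg.IsCharPFunctor.{u} p W) (S : Sylow p G) (hN : Cfsg.HasNormalPComplement p ↥(Subgroup.normalizer ((Cfsg.inducedFunctor (G := G) W (S : Subgroup G) : Subgroup G) : Set G))) (hctl : ∀ (K R : Subgroup G) [hR : (R.subgroupOf K).Normal], (∀ (K' R' : Subgroup (↥K ⧸ R.subgroupOf K)) [hR' : (R'.subgroupOf K').Normal], Cfsg.IsNormalizerPStable p (↥K' ⧸ R'.subgroupOf K')) → ∀ T : Sylow p (↥K ⧸ R.subgroupOf K), Cfsg.ControlsStrongFusion p (Cfsg.inducedFunctor (G := (↥K ⧸ R.subgroupOf K)) W (T : Subgroup (↥K ⧸ R.subgroupOf K)))) : Cfsg.HasNormalPComplement p G := by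
  rw [CfsgH1.hasNormalPComplement_iff] at hN
  rw [CfsgH1.hasNormalPComplement_iff_top]
  refine CfsgH1.pNil_of_functor hW (fun X _ => CfsgH3.IsSec X G)
    (fun X _ H h => (CfsgH3.isSec_subgroup H).trans h)
    (fun X _ N _ h => (CfsgH3.isSec_quotient N).trans h) (fun X _ _ hX hc hq T hT hm => ?_)
    G (CfsgH3.isSec_refl G) S (CfsgH1.isSylowIn_top S) hN
  have h1 : CfsgH3.SecStab p X := CfsgH3.secStab_of_not_isSec hp
    (CfsgH3.not_isSec_QD_of_abSyl hp (CfsgH3.abSyl_of_isCoatom hT hm hq hp.symm))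
  obtain ⟨K, R, hR, -, ⟨e⟩⟩ := hX.exists_equiv
  refine CfsgH1.normal_induced_of_equiv hW e hT.pgroup ?_
  have hT' := hT.map_top (f := e.symm.toMonoidHom) e.symm.surjective
  have hc' := CfsgH3.Constr.of_equiv hc e.symm
  obtain ⟨T', -, h2⟩ := hctl K R (CfsgH3.secStab_iff.mp (h1.sec (CfsgH3.isSec_of_equiv e.symm)))
    hT'.sylow
  refine CfsgH3.normal_iff_normalizer.mpr fun g => ?_
  have hQ := (CfsgH1.isSylowIn_top T').pCore_le
  obtain ⟨x, hx, h3⟩ := (h2 _ hQ).2 g (by
    rintro _ ⟨a, ha, rfl⟩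
    exact hQ ((inferInstance : (Cfsg.pCore p _).Normal).conj_mem a ha g))
  have h4 : x⁻¹ * g ∈ Cfsg.pCore p _ := hc' (CfsgH1.mem_centralizer_of_conj_eq fun a ha => by
    rw [mul_inv_rev, inv_inv, mul_assoc x⁻¹, mul_assoc x⁻¹, ← mul_assoc _ g⁻¹, h3 a ha]; group)
  have h5 := CfsgH1.le_normalizer_functor (CfsgH3.isConjugacyFunctor_induced hW) hT'.pgroup
    (hT'.pCore_le h4)
  have h6 := mul_mem hx h5
  rwa [mul_inv_cancel_left] at h6

end Cfsg.Agent.S1990
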