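import Cfsg.Statements.S1992
import Cfsg.Agent.H1.Burnside
import Cfsg.Agent.S1991

set_option autoImplicit false
open Cfsg

namespace Cfsg.Agent.S1992

open CfsgH1 Subgroup
open scoped commutatorElement
set_option maxHeartbeats 400000

/-- Let G be a finite group in which, for every prime q dividing the order of G, every Sylow q-subgroup is its own normalizer. Then the order of G is a power of a single prime (G is a q-group for some prime q; for G trivial any prime works). -/
theorem result {G : Type*} [Group G] [Finite G] (h : ∀ q : ℕ, q.Prime → q ∣ Nat.card G → ∀ Q : Sylow q G, Subgroup.normalizer ((Q : Subgroup G) : Set G) = Q) : ∃ q : ℕ, q.Prime ∧ IsPGroup q G := by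
  have key : ∀ (p : ℕ) (N : Subgroup G), p.Prime → N.Normal → N.index = p → IsPGroup p G := by
    intro p N hp _ hN
    haveI := Fact.mk hp
    refine IsPGroup.of_card (Nat.eq_prime_pow_of_unique_prime_dvd Nat.card_pos.ne' fun {q} hq hd => ?_)
    by_contra hne
    haveI := Fact.mk hq
    obtain ⟨Q⟩ : Nonempty (Sylow q G) := inferInstance
    have hQ : (Q : Subgroup G) ≤ N := fun x hx => by
      obtain ⟨k, hk⟩ := isPGroup_iff_forall.mp Q.isPGroup' x hx
      refine mem_of_pow_mem_of_coprime (n := p) ?_ (hN ▸ pow_index_mem N x)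
      exact Nat.Coprime.coprime_dvd_left (orderOf_dvd_of_pow_eq_one hk)
        (Nat.Coprime.pow_left _ ((Nat.coprime_primes hq hp).mpr hne))
    have := Q.normalizer_sup_eq_top' hQ
    rw [show normalizer (Q : Set G) = Q from h q hq hd Q, sup_of_le_right hQ] at this
    rw [this, index_top] at hN
    exact hp.one_lt.ne hN
  by_cases h5 : ∃ p : ℕ, p.Prime ∧ p ∣ Nat.card G ∧ 5 ≤ p
  · obtain ⟨p, hp, hd, h5⟩ := h5
    haveI := Fact.mk hp
    obtain ⟨S⟩ : Nonempty (Sylow p G) := inferInstance
    obtain ⟨N, hN, hi⟩ := Cfsg.Agent.S1991.result h5 S (S.ne_bot_of_dvd_card hd) fun g hg hc => by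
      rw [h p hp hd S] at hg
      rw [eq_one_of_mem_pgroup_of_coprime S.isPGroup' hg hc]
      exact one_mem _
    exact ⟨p, hp, key p N hp hN hi⟩
  haveI := isSolvable_of_two_primes Nat.prime_two Nat.prime_three _ G rfl fun r hr hd => by
    have h1 : r < 5 := not_le.mp fun e => h5 ⟨r, hr, hd, e⟩
    interval_cases r <;> simp_all (config := {decide := true})
  rcases subsingleton_or_nontrivial G with hG | hG
  · exact ⟨2, Nat.prime_two, IsPGroup.of_card (n := 0) (by simp)⟩
  obtain ⟨M, hM, hle⟩ := CfsgH2.exists_isCoatom_ge (IsSolvable.commutator_lt_top_of_nontrivial G).ne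
  haveI : M.Normal := Subgroup.Normal.of_commutator_le G hle
  obtain ⟨x, -, hx⟩ := SetLike.exists_of_lt hM.1.lt_top
  have h1 : ∀ y, y ∉ M → M ⊔ zpowers y = ⊤ := fun y hy =>
    hM.2 _ (left_lt_sup.mpr fun e => hy (e (mem_zpowers y)))
  obtain ⟨p, hp, hd⟩ := Nat.exists_prime_and_dvd (n := M.index) (by simpa using hM.1)
  haveI := Fact.mk hp
  obtain ⟨y, hy⟩ := exists_prime_orderOf_dvd_card' (G := G ⧸ M) p hd
  obtain ⟨y, rfl⟩ := QuotientGroup.mk_surjective y
  have h2 : y ∉ M := fun e => by
    rw [(QuotientGroup.eq_one_iff y).mpr e, orderOf_one] at hy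
    exact hp.one_lt.ne hy
  refine ⟨p, hp, key p M hp inferInstance ?_⟩
  rw [← relIndex_top_right, ← h1 y h2]
  exact CfsgH2.relIndex_sup_zpowers (le_normalizer_of_normal (mem_top y)) hp
    ((QuotientGroup.eq_one_iff _).mp (by rw [QuotientGroup.mk_pow, ← hy, pow_orderOf_eq_one])) h2

end Cfsg.Agent.S1992
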