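import Cfsg.Statements.S1993
import Cfsg.Agent.H3.StableSec

set_option autoImplicit false
universe u
open Cfsg

namespace Cfsg.Agent.S1993

/-- Let p be a prime, G a finite group with Sylow p-subgroup S, and K the upper K-infinity subgroup of S. If p ≥ 5 then S ∩ G' = S ∩ (N_G(K))'; and if p is odd and every section of G is p-stable in the normalizer form, then K controls strong fusion in G. -/
theorem result {G : Type u} [Group G] [Finite G] {p : ℕ} [Fact p.Prime] (S : Sylow p G) : (5 ≤ p → (S : Subgroup G) ⊓ commutator G = (S : Subgroup G) ⊓ ⁅Subgroup.normalizer ((Cfsg.inducedFunctor Cfsg.kInfUpper (S : Subgroup G) : Subgroup G) : Set G), Subgroup.normalizer ((Cfsg.inducedFunctor Cfsg.kInfUpper (S : Subgroup G) : Subgroup G) : Set G)⁆) ∧ (p ≠ 2 → (∀ (K R : Subgroup G) [hR : (R.subgroupOf K).Normal], Cfsg.IsNormalizerPStable p (↥K ⧸ R.subgroupOf K)) → Cfsg.ControlsStrongFusion p (Cfsg.inducedFunctor Cfsg.kInfUpper (S : Subgroup G))) := by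
  refine ⟨fun h5 => ?_, fun _ hst =>
    CfsgH3.kinf_controls (CfsgH3.secStab_iff.mpr hst) S (Or.inr rfl)⟩
  have h := CfsgH1.transfer_of_controls
    (CfsgH3.isConjugacyFunctor_induced CfsgH3.isCharPFunctor_kInfUpper) (CfsgH1.isSylowIn_top S)
    (CfsgH3.kinf_transfer (G := G) h5 (Or.inr rfl))
  rw [top_inf_eq] at h
  exact le_antisymm (le_inf inf_le_left h)
    (inf_le_inf_left _ (Subgroup.commutator_mono le_top le_top))

end Cfsg.Agent.S1993
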