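import Cfsg.Statements.S1995
import Cfsg.Agent.H3.Sect2

set_option autoImplicit false
universe u
open Cfsg

namespace Cfsg.Agent.S1995

/-- Let p be a prime, G a finite group and 𝓦 a set of isomorphism-invariant p-group functors (W assigns to every group Q a subgroup W(Q), nontrivial whenever Q is a nontrivial finite p-group, and every isomorphism from a finite p-group Q onto a group R carries W(Q) onto W(R)). If the conjugacy functors induced by 𝓦 control transfer in every section G* = K/R of G with C_{G*}(O_p(G*)) ≤ O_p(G*), then they control transfer in G: S ∩ G' is generated by the subgroups S ∩ (N_G(W(S)))', W ∈ 𝓦, for a Sylow p-subgroup S. -/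
theorem result {G : Type u} [Group G] [Finite G] {p : ℕ} [Fact p.Prime] (𝓦 : Set (∀ (Q : Type u) [Group Q], Subgroup Q)) (h𝓦 : ∀ W ∈ 𝓦, Cfsg.IsCharPFunctor.{u} p W) (hloc : ∀ (K R : Subgroup G) [hR : (R.subgroupOf K).Normal], Subgroup.centralizer ((Cfsg.pCore p (↥K ⧸ R.subgroupOf K) : Subgroup (↥K ⧸ R.subgroupOf K)) : Set (↥K ⧸ R.subgroupOf K)) ≤ Cfsg.pCore p (↥K ⧸ R.subgroupOf K) → Cfsg.FamilyControlsTransferIn p ((fun W => Cfsg.inducedFunctor (G := (↥K ⧸ R.subgroupOf K)) W) '' 𝓦) ⊤) : Cfsg.FamilyControlsTransferIn p ((fun W => Cfsg.inducedFunctor (G := G) W) '' 𝓦) ⊤ := by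
  rcases 𝓦.eq_empty_or_nonempty with he | hne
  swap
  · exact CfsgH3.tc_of_sections h𝓦 hne (fun K R _ S h0 _ _ h3 _ => h0 (hloc K R h3)) _
      (CfsgH3.isSec_refl G)
  have hb : ∀ (X : Type u) [Group X] (H T : Subgroup X),
      CfsgH1.focF (CfsgH3.fam 𝓦 X) H T ≤ ⊥ := fun X _ H T =>
    CfsgH3.focF_fam_le.mpr fun W hW => by rw [he] at hW; exact hW.elim
  have h𝓦' : ∀ W' ∈ ({fun (Q : Type u) [Group Q] => (⊤ : Subgroup Q)} : Set (∀ (Q : Type u) [Group Q], Subgroup Q)),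
      Cfsg.IsCharPFunctor.{u} p W' := by
    rintro _ rfl; exact CfsgH3.isCharPFunctor_top
  have h1 := CfsgH3.tc_of_sections h𝓦' (Set.singleton_nonempty _) (fun K R _ S h0 _ _ h3 _ => h0
    (CfsgH1.familyControlsTransferIn_iff.mpr ⟨S, CfsgH1.isSylowIn_top S,
      (CfsgH3.TC.le_focF h𝓦 (hloc K R h3) (CfsgH1.isSylowIn_top S)).trans
        ((hb _ _ _).trans bot_le)⟩)) _ (CfsgH3.isSec_refl G)
  obtain ⟨S, hS⟩ := CfsgH1.exists_isSylowIn (p := p) (⊤ : Subgroup G)
  have h2 := h1.le_focF h𝓦' hS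
  rw [CfsgH3.focF_singleton, CfsgH3.induced_top] at h2
  have hS' := hS.of_le Subgroup.le_normalizer le_top
  refine CfsgH1.familyControlsTransferIn_iff.mpr ⟨S, hS, h2.trans (le_trans
    (CfsgH3.TC.of_subgroup h𝓦 ?_ hS') ((hb _ _ _).trans bot_le))⟩
  refine CfsgH3.TC.of_quotient h𝓦 (CfsgL0.coprime_card_pPrimeCore _ p) ?_
  obtain ⟨K, R, hR, -, ⟨e⟩⟩ := ((CfsgH3.isSec_quotient (Cfsg.pPrimeCore p
    (Subgroup.normalizer (S : Set G)))).trans (CfsgH3.isSec_subgroup _)).exists_equiv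
  refine CfsgH3.TC.of_equiv h𝓦 (hloc K R ?_) e
  have h3 := hS'.subgroupOf le_rfl
  rw [Subgroup.subgroupOf_self] at h3
  exact (CfsgH3.constr_of_isPSolvable (CfsgH3.isPSolvable_of_normal_sylow h3)).of_equiv e.symm

end Cfsg.Agent.S1995
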