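import Cfsg.Statements.S1997
import Cfsg.Agent.H1.Misc
import Cfsg.Agent.S1996
import Cfsg.Agent.H2.Coprime2

set_option autoImplicit false
universe u
open Cfsg

namespace Cfsg.Agent.S1997

open CfsgH1 Subgroup
open scoped commutatorElement
set_option maxHeartbeats 400000

section
variable {G : Type u} [Group G] [Finite G] {p : ℕ} [Fact p.Prime]

omit [Finite G] [Fact p.Prime] in
theorem mem_omegaOne_iff {A : Subgroup G} (hA : A ≤ centralizer (A : Set G)) {x : G} :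
    x ∈ Cfsg.omegaOne p A ↔ x ∈ A ∧ x ^ p = 1 := by
  refine ⟨fun hx => ?_, fun hx => subset_closure hx⟩
  induction hx using closure_induction with
  | mem x hx => exact hx
  | one => exact ⟨one_mem _, one_pow _⟩
  | mul x y _ _ hx hy =>
    exact ⟨mul_mem hx.1 hy.1, by rw [Commute.mul_pow (hA hy.1 x hx.1), hx.2, hy.2, one_mul]⟩
  | inv x _ hx => exact ⟨inv_mem hx.1, by rw [inv_pow, hx.2, inv_one]⟩

omit [Finite G] in
theorem zc (A : Subgroup G) : A ⊓ centralizer (A : Set G) ≤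
    centralizer ((A ⊓ centralizer (A : Set G) : Subgroup G) : Set G) :=
  inf_le_right.trans (centralizer_le inf_le_left)

theorem pPrimeCore_quot {D : Subgroup G} [D.Normal] (h : D = Cfsg.pPrimeCore p G) :
    Cfsg.pPrimeCore p (G ⧸ D) = ⊥ := by
  subst h
  exact CfsgL0.pPrimeCore_quotient G p

theorem key {S V L : Subgroup G} (hS : IsSylowIn p S ⊤) (hSL : S ≤ L) (hVS : V ≤ S)
    (hV : V ≤ centralizer (V : Set G)) (hL : L ≤ normalizer (V : Set G))
    {W : ∀ (Q : Type u) [Group Q], Subgroup Q} (hW : Cfsg.IsCharPFunctor.{u} p W)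
    (hfac : ∀ (K R : Subgroup G) [(R.subgroupOf K).Normal],
      centralizer (Cfsg.pCore p (K ⧸ R.subgroupOf K) : Set (K ⧸ R.subgroupOf K)) ≤
        Cfsg.pCore p (K ⧸ R.subgroupOf K) → ∀ T : Sylow p (K ⧸ R.subgroupOf K),
      ∀ x : K ⧸ R.subgroupOf K, ∃ a ∈ centralizer ((Cfsg.omegaOne p ((T : Subgroup (K ⧸ R.subgroupOf K)) ⊓
        centralizer ((T : Subgroup (K ⧸ R.subgroupOf K)) : Set (K ⧸ R.subgroupOf K))) :
          Subgroup (K ⧸ R.subgroupOf K)) : Set (K ⧸ R.subgroupOf K)),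
        ∃ b ∈ normalizer ((Cfsg.inducedFunctor W (T : Subgroup (K ⧸ R.subgroupOf K)) :
          Subgroup (K ⧸ R.subgroupOf K)) : Set (K ⧸ R.subgroupOf K)), x = a * b)
    {g : G} (hg : g ∈ L) : ∃ b ∈ normalizer (Cfsg.inducedFunctor W S : Set G),
      ∀ z ∈ V, z ∈ centralizer (S : Set G) → z ^ p = 1 → g * z * g⁻¹ = b * z * b⁻¹ := by
  have hn : L ≤ normalizer ((L ⊓ centralizer (V : Set G) : Subgroup G) : Set G) :=
    CfsgH2.le_normalizer_inf le_normalizer (hL.trans (normalizer_le_normalizer_centralizer V))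
  have hQ := (hS.of_le hSL le_top).inf_of_le_normalizer inf_le_left hn
  set Q := S ⊓ (L ⊓ centralizer (V : Set G)) with hQd
  have hVQ : V ≤ Q := le_inf hVS (le_inf (hVS.trans hSL) hV)
  obtain ⟨m, hm, c, hc, rfl⟩ := hQ.frattini' (hn hg)
  set K := normalizer (Q : Set G) with hK
  have hSK : S ≤ K := CfsgH2.le_normalizer_inf le_normalizer (hSL.trans hn)
  have hD : ((Cfsg.pPrimeCore p K).map K.subtype).subgroupOf K = Cfsg.pPrimeCore p K :=
    comap_map_eq_self_of_injective K.subtype_injective _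
  haveI : (((Cfsg.pPrimeCore p K).map K.subtype).subgroupOf K).Normal := by rw [hD]; infer_instance
  set R := (Cfsg.pPrimeCore p K).map K.subtype
  let f := QuotientGroup.mk' (R.subgroupOf K)
  have hf : Function.Surjective f := QuotientGroup.mk'_surjective _
  have hker : ¬ p ∣ Nat.card f.ker := by
    rw [QuotientGroup.ker_mk', hD]; exact not_dvd_card_pPrimeCore
  have hS' := (hS.of_le hSK le_top).subgroupOf_top
  have hT := hS'.map_top hf
  have hQp : (Q.subgroupOf K).map f ≤ Cfsg.pCore p _ := by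
    haveI : ((Q.subgroupOf K).map f).Normal := Normal.map inferInstance f hf
    exact CfsgL0.le_pCore ((hS'.pgroup.to_le (comap_mono inf_le_left)).map f)
  obtain ⟨a, ha, b, hb, e⟩ := hfac K R (centralizer_pCore_le_of_inf_le hT (pPrimeCore_quot hD) (by
    rintro _ ⟨⟨s, hs, rfl⟩, h2⟩
    refine hQp (mem_map_of_mem f ⟨hs, hSL hs, fun v hv => ?_⟩)
    have hv' : (⟨v, hSK (hVS hv)⟩ : K) ∈ S.subgroupOf K := hVS hv
    refine congrArg Subtype.val (eq_of_map_eq_of_not_dvd hker hS'.pgroup (mul_mem hv' hs)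
      (mul_mem hs hv') ?_)
    rw [map_mul, map_mul]
    exact h2 _ (hQp (mem_map_of_mem f (hVQ hv))))) hT.sylow (f ⟨m, hm⟩⁻¹)
  rw [hT.coe_sylow] at ha hb
  rw [← map_inducedFunctor hW f hS'.pgroup (by
      rw [inf_comm]; exact inf_eq_bot_of_pgroup_of_not_dvd hS'.pgroup hker),
    ← map_normalizer_of_not_dvd hf hker (hS'.pgroup.to_le (inducedFunctor_le _))] at hb
  obtain ⟨n, hn', rfl⟩ := hb
  have h1 := map_normalizer_le K.subtype _ (mem_map_of_mem _ hn')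
  rw [map_inducedFunctor_of_injective hW K.subtype_injective hS'.pgroup,
    map_subgroupOf_eq_of_le hSK] at h1
  refine ⟨_, inv_mem h1, fun z hz hzc hzp => ?_⟩
  have hz' : (⟨z, hSK (hVS hz)⟩ : K) ∈ S.subgroupOf K := hVS hz
  have h2 := ha (f ⟨z, hSK (hVS hz)⟩) (subset_closure ⟨⟨mem_map_of_mem f hz', by
    rintro _ ⟨s, hs, rfl⟩
    rw [← map_mul, ← map_mul]
    exact congrArg f (Subtype.ext (hzc s hs))⟩, by
      rw [← map_pow, show (⟨z, hSK (hVS hz)⟩ : K) ^ p = 1 from Subtype.ext hzp, map_one]⟩)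
  have h3 := eq_of_map_eq_of_not_dvd hker hS'.pgroup
    (a := n * ⟨m, hm⟩ * ⟨z, hSK (hVS hz)⟩ * (n * ⟨m, hm⟩)⁻¹)
    ((mem_normalizer_iff.mp (K.mul_mem n.2 hm) z).mp (hVQ hz)).1 hz' (by
      rw [map_mul, map_mul, show f (n * ⟨m, hm⟩)⁻¹ = a by
        rw [mul_inv_rev, map_mul, e, map_inv, mul_inv_cancel_right], mul_assoc, h2, ← mul_assoc,
        show f (n * ⟨m, hm⟩) * a = 1 by
          rw [map_mul, ← inv_inv (⟨m, hm⟩ : K), map_inv, e]; group, one_mul])
  have h4 : (n : G) * m * z * ((n : G) * m)⁻¹ = z := congrArg Subtype.val h3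
  have h5 := conj_eq_of_mem_centralizer hc.2 hz
  calc m * c * z * (m * c)⁻¹ = (n : G)⁻¹ * (n * m * (c * z * c⁻¹) * (n * m)⁻¹) * n := by group
    _ = _ := by rw [h5, h4]; simp

omit [Finite G] in
theorem nc_le {Z N X : Subgroup G} (h : ∀ g ∈ N, ∀ z ∈ Z, g * z * g⁻¹ ∈ X) :
    (normalClosure ((Z.subgroupOf N : Subgroup N) : Set N)).map N.subtype ≤ X := by
  rw [map_le_iff_le_comap, normalClosure, closure_le]
  intro x hx
  obtain ⟨z, hz, hc⟩ := Group.mem_conjugatesOfSet_iff.mp hx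
  obtain ⟨g, rfl⟩ := isConj_iff.mp hc
  exact h g g.2 z hz

omit [Finite G] in
theorem conj_mem_nc {Z N : Subgroup G} (hZ : Z ≤ N) {g z : G} (hg : g ∈ N) (hz : z ∈ Z) :
    g * z * g⁻¹ ∈ (normalClosure ((Z.subgroupOf N : Subgroup N) : Set N)).map N.subtype :=
  ⟨_, Normal.conj_mem inferInstance ⟨z, hZ hz⟩ (subset_normalClosure hz) ⟨g, hg⟩, rfl⟩

end

/-- Let p be a prime, G a finite group with Sylow p-subgroup S, and W₁, W₂ two isomorphism-invariant p-group functors (W assigns to every group Q a subgroup W(Q), nontrivial whenever Q is a nontrivial finite p-group, and every isomorphism from a finite p-group Q onto a group R carries W(Q) onto W(R)). Suppose that G* = C_{G*}(Ω₁Z(S*)) N_{G*}(W₁(S*)) = C_{G*}(Ω₁Z(S*)) N_{G*}(W₂(S*)) = N_{G*}(W₁(S*)) N_{G*}(W₂(S*)) whenever G* = K/R is a section of G with C_{G*}(O_p(G*)) ≤ O_p(G*) and S* is a Sylow p-subgroup of G*, where Ω₁Z denotes the subgroup generated by the elements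 of order dividing p in the centre. Suppose also Ω₁Z(S) ≤ W₁(S) ∩ W₂(S), and let A be the normal closure of Ω₁Z(S) in N_G(W₁(S)). Then A is an elementary abelian subgroup of S, strongly closed in S with respect to G, and A controls strong fusion in G. -/
theorem result {G : Type u} [Group G] [Finite G] {p : ℕ} [Fact p.Prime] (S : Sylow p G) (W₁ W₂ : ∀ (Q : Type u) [Group Q], Subgroup Q) (hW₁ : Cfsg.IsCharPFunctor.{u} p W₁) (hW₂ : Cfsg.IsCharPFunctor.{u} p W₂) (hfac : ∀ (K R : Subgroup G) [hR : (R.subgroupOf K).Normal], Subgroup.centralizer ((Cfsg.pCore p (↥K ⧸ R.subgroupOf K) : Subgroup (↥K ⧸ R.subgroupOf K)) : Set (↥K ⧸ R.subgroupOf K)) ≤ Cfsg.pCore p (↥K ⧸ R.subgroupOf K) → ∀ T : Sylow p (↥K ⧸ R.subgroupOf K), (∀ x : (↥K ⧸ R.subgroupOf K), ∃ a ∈ Subgroup.centralizer ((Cfsg.omegaOne p ((T : Subgroup (↥K ⧸ R.subgroupOf K)) ⊓ Subgroup.centralizer (((T : Subgroup (↥K ⧸ R.subgroupOf K)) : Subgroup (↥K ⧸ R.subgroupOf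 K)) : Set (↥K ⧸ R.subgroupOf K))) : Subgroup (↥K ⧸ R.subgroupOf K)) : Set (↥K ⧸ R.subgroupOf K)), ∃ b ∈ Subgroup.normalizer ((Cfsg.inducedFunctor (G := (↥K ⧸ R.subgroupOf K)) W₁ (T : Subgroup (↥K ⧸ R.subgroupOf K)) : Subgroup (↥K ⧸ R.subgroupOf K)) : Set (↥K ⧸ R.subgroupOf K)), x = a * b) ∧ (∀ x : (↥K ⧸ R.subgroupOf K), ∃ a ∈ Subgroup.centralizer ((Cfsg.omegaOne p ((T : Subgroup (↥K ⧸ R.subgroupOf K)) ⊓ Subgroup.centralizer (((T : Subgroup (↥K ⧸ R.subgroupOf K)) : Subgroup (↥K ⧸ R.subgroupOf K)) : Set (↥K ⧸ R.subgroupOf K))) : Subgroup (↥K ⧸ R.subgroupOf K)) : Set (↥K ⧸ R.subgroupOf K)), ∃ b ∈ Subgroup.normalizer ((Cfsg.inducedFunctor (G := (↥K ⧸ R.subgroupOf K)) W₂ (T : Subgroup (↥K ⧸ R.subgroupOf K)) : Subgroup (↥K ⧸ R.subgroupOf K)) : Set (↥K ⧸ R.subgroupOf K)), x = a * b) ∧ (∀ x : (↥K ⧸ R.subgroupOf K), ∃ a ∈ Subgroup.normalizer ((Cfsg.inducedFunctor (G := (↥K ⧸ R.subgroupOf K)) W₁ (T : Subgroup (↥K ⧸ R.subgroupOf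 K)) : Subgroup (↥K ⧸ R.subgroupOf K)) : Set (↥K ⧸ R.subgroupOf K)), ∃ b ∈ Subgroup.normalizer ((Cfsg.inducedFunctor (G := (↥K ⧸ R.subgroupOf K)) W₂ (T : Subgroup (↥K ⧸ R.subgroupOf K)) : Subgroup (↥K ⧸ R.subgroupOf K)) : Set (↥K ⧸ R.subgroupOf K)), x = a * b)) (hZ : Cfsg.omegaOne p ((S : Subgroup G) ⊓ Subgroup.centralizer (((S : Subgroup G) : Subgroup G) : Set G)) ≤ Cfsg.inducedFunctor (G := G) W₁ (S : Subgroup G) ⊓ Cfsg.inducedFunctor (G := G) W₂ (S : Subgroup G)) (N₁ : Subgroup G) (hN₁ : N₁ = Subgroup.normalizer ((Cfsg.inducedFunctor (G := G) W₁ (S : Subgroup G) : Subgroup G) : Set G)) (A : Subgroup G) (hA : A = (Subgroup.normalClosure (((Cfsg.omegaOne p ((S : Subgroup G) ⊓ Subgroup.centralizer (((S : Subgroup G) : Subgroup G) : Set G))).subgroupOf N₁ : Subgroup ↥N₁) : Set ↥N₁)).map N₁.subtype) : A ≤ (S : Subgroup G) ∧ Cfsg.IsElementaryAbelian p A ∧ Cfsg.IsStronglyClosed A (S : Subgroup G) ∧ Cfsg.ControlsStrongFusion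 p A := by
  have hS := isSylowIn_top S
  have h1 := isConjugacyFunctor_induced (X := G) hW₁
  have h2 := isConjugacyFunctor_induced (X := G) hW₂
  set Z := Cfsg.omegaOne p ((S : Subgroup G) ⊓ centralizer ((S : Subgroup G) : Set G)) with hZd
  have hZm : ∀ z ∈ Z, z ∈ (S : Subgroup G) ⊓ centralizer ((S : Subgroup G) : Set G) ∧ z ^ p = 1 :=
    fun z hz => (mem_omegaOne_iff (zc _)).mp hz
  set U₁ := Cfsg.inducedFunctor W₁ (S : Subgroup G) with hU₁
  set U₂ := Cfsg.inducedFunctor W₂ (S : Subgroup G) with hU₂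
  have hU₁S : U₁ ≤ S := inducedFunctor_le _
  have hU₂S : U₂ ≤ S := inducedFunctor_le _
  have hS1 : (S : Subgroup G) ≤ normalizer (U₁ : Set G) := le_normalizer_functor h1 S.isPGroup'
  have hS2 : (S : Subgroup G) ≤ normalizer (U₂ : Set G) := le_normalizer_functor h2 S.isPGroup'
  have hZS : Z ≤ S := fun z hz => (hZm z hz).1.1
  have hZV : ∀ {U : Subgroup G}, U ≤ S → Z ≤ U → Z ≤ U ⊓ centralizer (U : Set G) :=
    fun hU h z hz => ⟨h hz, centralizer_le hU (hZm z hz).1.2⟩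
  have hNV : ∀ U : Subgroup G, normalizer (U : Set G) ≤
      normalizer ((U ⊓ centralizer (U : Set G) : Subgroup G) : Set G) := fun U =>
    CfsgH2.le_normalizer_inf le_rfl (normalizer_le_normalizer_centralizer U)
  subst hN₁
  set A₂ := (normalClosure ((Z.subgroupOf (normalizer (U₂ : Set G)) : Subgroup _) :
    Set (normalizer (U₂ : Set G)))).map (normalizer (U₂ : Set G)).subtype with hA₂
  have e : A = A₂ := by
    refine le_antisymm (hA.le.trans (nc_le fun g hg z hz => ?_)) (hA₂.le.trans (nc_le fun g hg z hz => ?_))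
    · obtain ⟨b, hb, h⟩ := key hS hS1 (inf_le_left.trans hU₁S) (zc _) (hNV U₁) hW₂
        (fun K R _ hc T => (hfac K R hc T).2.1) hg
      rw [h z (hZV hU₁S (hZ.trans inf_le_left) hz) (hZm z hz).1.2 (hZm z hz).2]
      exact conj_mem_nc (hZS.trans hS2) hb hz
    · obtain ⟨b, hb, h⟩ := key hS hS2 (inf_le_left.trans hU₂S) (zc _) (hNV U₂) hW₁
        (fun K R _ hc T => (hfac K R hc T).1) hg
      rw [h z (hZV hU₂S (hZ.trans inf_le_right) hz) (hZm z hz).1.2 (hZm z hz).2, hA]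
      exact conj_mem_nc (hZS.trans hS1) hb hz
  have hAV : A ≤ Cfsg.omegaOne p (U₁ ⊓ centralizer (U₁ : Set G)) := hA.le.trans <| nc_le fun g hg z hz =>
    subset_closure ⟨(mem_normalizer_iff.mp (hNV U₁ hg) z).mp (hZV hU₁S (hZ.trans inf_le_left) hz),
      by rw [conj_pow, (hZm z hz).2]; simp⟩
  have hAm : ∀ a ∈ A, a ∈ U₁ ⊓ centralizer (U₁ : Set G) ∧ a ^ p = 1 :=
    fun a ha => (mem_omegaOne_iff (zc _)).mp (hAV ha)
  have hAS : A ≤ S := fun a ha => hU₁S (hAm a ha).1.1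
  have hn1 : normalizer (U₁ : Set G) ≤ normalizer (A : Set G) :=
    by rw [hA]; exact CfsgL0.le_normalizer_map_subtype _
  have hn2 : normalizer (U₂ : Set G) ≤ normalizer (A : Set G) :=
    by rw [e]; exact CfsgL0.le_normalizer_map_subtype _
  have hF := FSF.of_controls (by rintro W (rfl | rfl) <;> assumption) hS
    (Cfsg.Agent.S1996.result W₁ W₂ hW₁ hW₂ fun K R _ hc T => (hfac K R hc T).2.2)
  have hsf : SFBy (normalizer (A : Set G)) ⊤ S := fun B g hB hg hBg =>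
    CChain.good (Good := ActsVia (normalizer (A : Set G)))
      (fun A c g e h => h.imp fun x hx => ⟨hx.1, fun a ha => (hx.2 a ha).trans (e a ha)⟩)
      (fun A => actsVia_of_mem (one_mem _)) (fun _ _ _ => ActsVia.mul) (by
        rintro i y B ⟨_, rfl | rfl, hy⟩ - -
        exacts [actsVia_of_mem (hn1 hy.2), actsVia_of_mem (hn2 hy.2)]) (hF B g hB hg hBg)
  refine ⟨hAS, ⟨CfsgH2.isMulCommutative_iff.mpr fun a ha b hb => (hAm b hb).1.2 a (hAm a ha).1.1,
    fun a ha => (hAm a ha).2⟩, ⟨hAS, fun x hx g hg => ?_⟩, S, hAS, fun B hB => ⟨hB, fun g hg => ?_⟩⟩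
  · obtain ⟨m, hm, e⟩ := hsf.exists_conj_eq (hAS hx) (mem_top g) hg
    rw [← e]
    exact (mem_normalizer_iff.mp hm x).mp hx
  · obtain ⟨m, hm, e⟩ := hsf (closure B) g (closure_le_of_subset hB) (mem_top g) (cj_closure_le hg)
    exact ⟨m, hm, fun a ha => (e a (subset_closure ha)).symm⟩

end Cfsg.Agent.S1997
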