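import Cfsg.Statements.S1999
import Cfsg.Agent.H3.FFApp

set_option autoImplicit false
open Cfsg

namespace Cfsg.Agent.S1999

theorem fam_eq (X : Type*) [Group X] :
    ({fun P : Subgroup X => P ⊓ Subgroup.centralizer (P : Set X),
      fun P : Subgroup X => Cfsg.thompsonSubgroupOf 2 P} : Set (Subgroup X → Subgroup X)) =
      CfsgH1.IW {CfsgH3.zF, CfsgH3.jF 2} X := by
  rw [CfsgH1.IW, Set.image_pair]
  congr 1
  · funext P; exact (CfsgH3.induced_zF P).symm
  · congr 1; funext P; rw [CfsgH3.induced_jF, CfsgH3.thompsonSubgroupOf_eq]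

/-- Let G be a finite group. The symmetric group of degree 4 is not involved in G if and only if, in every section K/R of G, the pair of conjugacy functors {Z, J_e} controls strong fusion (for the prime 2): here Z(P) is the centre and J_e(P) the subgroup generated by the elementary abelian subgroups of P of largest order, and control by the pair means that 2-fusion of tuples inside a Sylow 2-subgroup T of the section is generated, staying inside T, by conjugation inside N(Z(T)) and N(J_e(T)). -/
theorem result {G : Type*} [Group G] [Finite G] : ¬ Cfsg.Involves (Equiv.Perm (Fin 4)) G ↔ ∀ (K R : Subgroup G) [hR : (R.subgroupOf K).Normal], Cfsg.FamilyControlsStrongFusionIn 2 ({fun P : Subgroup (↥K ⧸ R.subgroupOf K) => P ⊓ Subgroup.centralizer ((P : Subgroup (↥K ⧸ R.subgroupOf K)) : Set (↥K ⧸ R.subgroupOf K)), fun P : Subgroup (↥K ⧸ R.subgroupOf K) => Cfsg.thompsonSubgroupOf 2 P} : Set (Subgroup (↥K ⧸ R.subgroupOf K) → Subgroup (↥K ⧸ R.subgroupOf K))) ⊤ := by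
  rw [CfsgH3.involves_S4_iff]
  simp only [fam_eq]
  refine ⟨fun h => CfsgH3.free_iff_controls.1 h, fun h => CfsgH3.free_iff_controls.2 _ ?_ h⟩
  rintro W (rfl | rfl)
  · exact CfsgH3.isCharPFunctor_zF
  · exact CfsgH3.isCharPFunctor_jF (Or.inr rfl)

end Cfsg.Agent.S1999
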