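import Cfsg.Statements.S2004
import Cfsg.Agent.H3.NonStable

set_option autoImplicit false
open Cfsg

namespace Cfsg.Agent.S2004

/-- Let p be an odd prime and G a finite group such that SL₂(p) is not involved in N_G(P) for any nonidentity p-subgroup P of G. Then every section of G is p-stable in the normalizer form: in each section, whenever an element of the normalizer of a p-subgroup Q acts quadratically on Q, its image in N(Q)/C(Q) lies in O_p(N(Q)/C(Q)). -/
theorem result {G : Type*} [Group G] [Finite G] {p : ℕ} [Fact p.Prime] (hp : p ≠ 2) (h : ∀ P : Subgroup G, IsPGroup p ↥P → P ≠ ⊥ → ¬ Cfsg.Involves (Matrix.SpecialLinearGroup (Fin 2) (ZMod p)) ↥(Subgroup.normalizer ((P : Subgroup G) : Set G))) : ∀ (K R : Subgroup G) [hR : (R.subgroupOf K).Normal], Cfsg.IsNormalizerPStable p (↥K ⧸ R.subgroupOf K) := by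
  refine CfsgH3.secStab_iff.mp (CfsgH3.secStab_of_not_isSec hp fun hs => ?_)
  obtain ⟨P, L, f, h1, h2, h3, h4, h5⟩ := CfsgH3.exists_local_of_isSec hs
  refine h P h1 (fun e => ?_) (CfsgH3.involves_iff.mpr (CfsgH3.isSec_SL2_QD.trans
    ((CfsgH3.isSec_of_surjective f h4).trans
      (CfsgH3.isSec_of_injective _ (Subgroup.inclusion_injective h3)))))
  rw [e, Subgroup.bot_subgroupOf, Subgroup.map_bot, eq_comm, MonoidHom.range_eq_bot_iff] at h5
  have := DFunLike.congr_fun h5 (Multiplicative.ofAdd ![1, 0])
  have h6 := congrArg (fun x : CfsgH3.QD p => x.left.toAdd 0) this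
  simp at h6

end Cfsg.Agent.S2004
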