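import Cfsg.Statements.S2005
import Cfsg.Agent.H1.SecPNil

set_option autoImplicit false
universe u
open Cfsg

namespace Cfsg.Agent.S2005

open CfsgH1 Subgroup
open scoped commutatorElement

/-- Thompson's normal p-complement criterion in functor form. Let p be a prime, G a finite group with Sylow p-subgroup S, and W an isomorphism-invariant p-group functor (W assigns to every group Q a subgroup W(Q), nontrivial whenever Q is a nontrivial finite p-group, and every isomorphism from a finite p-group Q onto a group R carries W(Q) onto W(R)). Suppose N_G(W(S)) has a normal p-complement, and that W(S*) is normal in G* whenever G* = K/R is a section of G with C_{G*}(O_p(G*)) ≤ O_p(G*) such that G*/O_p(G*) has a normal p-complement, and S* is a Sylow p-subgroup of G* that is a maximal subgroup of G*. Then G has a normal p-complement. -/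
theorem result {G : Type u} [Group G] [Finite G] {p : ℕ} [Fact p.Prime] (W : ∀ (Q : Type u) [Group Q], Subgroup Q) (hW : Cfsg.IsCharPFunctor.{u} p W) (S : Sylow p G) (hN : Cfsg.HasNormalPComplement p ↥(Subgroup.normalizer ((Cfsg.inducedFunctor (G := G) W (S : Subgroup G) : Subgroup G) : Set G))) (hloc : ∀ (K R : Subgroup G) [hR : (R.subgroupOf K).Normal], Subgroup.centralizer ((Cfsg.pCore p (↥K ⧸ R.subgroupOf K) : Subgroup (↥K ⧸ R.subgroupOf K)) : Set (↥K ⧸ R.subgroupOf K)) ≤ Cfsg.pCore p (↥K ⧸ R.subgroupOf K) → Cfsg.HasNormalPComplement p ((↥K ⧸ R.subgroupOf K) ⧸ Cfsg.pCore p (↥K ⧸ R.subgroupOf K)) → ∀ T : Sylow p (↥K ⧸ R.subgroupOf K), IsCoatom (T : Subgroup (↥K ⧸ R.subgroupOf K)) → (Cfsg.inducedFunctor (G := (↥K ⧸ R.subgroupOf K)) W ((T : Subgroup (↥K ⧸ R.subgroupOf K)))).Normal) : Cfsg.HasNormalPComplement p G := by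
  refine hasNormalPComplement_iff_top.mpr (pNil_of_functor hW (fun X _ => IsSec G X)
    (fun X _ H h => h.sub H) (fun X _ N _ h => h.quot N) (fun X _ _ h hc hq S hS hmax => ?_)
    G (IsSec.refl G) S (isSylowIn_top S) (hasNormalPComplement_iff.mp hN))
  obtain ⟨K, R, _, ⟨e⟩⟩ := h.exists_equiv
  refine normal_induced_of_equiv hW e hS.pgroup (hloc K R (constrained_of_equiv e.symm hc)
    (hasNormalPComplement_iff_top.mpr (pNil_quotient_pCore_of_equiv e.symm hq))
    (hS.map_top (f := e.symm.toMonoidHom) e.symm.surjective).sylow ?_)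
  exact ((MulEquiv.mapSubgroup e.symm).isCoatom_iff S).mpr hmax

end Cfsg.Agent.S2005
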