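import Cfsg.Statements.S2531


set_option autoImplicit false
open Cfsg

namespace Cfsg.Agent.S2531



theorem le_mk {F V : Type*} [Field F] [AddCommGroup V] [Module F V] (W : Submodule F V) (v : V)
    (hv : v ≠ 0) : (Projectivization.mk F v hv).submodule ≤ W ↔ v ∈ W := by
  rw [Projectivization.submodule_mk, Submodule.span_singleton_le_iff_mem]

theorem card_pts {F V : Type*} [Field F] [Finite F] [AddCommGroup V] [Module F V] [Finite V]
    (W : Submodule F V) (hW : W ≠ ⊥) :
    (Nat.card {x : Projectivization F V // x.submodule ≤ W} : F) = 1 := by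
  have := Fintype.ofFinite F
  have e : Nat.card (Projectivization F W) = Nat.card {x : Projectivization F V // x.submodule ≤ W} := by
    refine Nat.card_congr (Equiv.ofBijective
      (fun y => ⟨Projectivization.map W.subtype W.injective_subtype y, ?_⟩) ⟨fun a b h => ?_, ?_⟩)
    · induction y using Projectivization.ind with
      | h v hv => rw [Projectivization.map_mk, le_mk]; exact v.2
    · exact Projectivization.map_injective (τ := RingHom.id F) _ W.injective_subtype (congrArg Subtype.val h)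
    · rintro ⟨x, hx⟩
      induction x using Projectivization.ind with
      | h v hv => exact ⟨Projectivization.mk F ⟨v, (le_mk W v hv).1 hx⟩ fun h => hv (congrArg Subtype.val h), rfl⟩
  have : Nontrivial W := Submodule.nontrivial_iff_ne_bot.2 hW
  obtain ⟨d, hd⟩ : ∃ d, Module.finrank F W = d + 1 :=
    Nat.exists_eq_succ_of_ne_zero Module.finrank_pos.ne'
  rw [← e, Projectivization.card_of_finrank F W hd, Finset.sum_range_succ', Nat.card_eq_fintype_card]
  simp

theorem count {Ω : Type*} [Finite Ω] (S : Set (Equiv.Perm Ω))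
    (h : ∀ a b c d : Ω, a ≠ b → c ≠ d → ∃! s, s ∈ S ∧ s a = c ∧ s b = d) {α : Ω} (B : Ω → Prop)
    (hα : ¬ B α) : Nat.card (Σ s : {s // s ∈ S ∧ s α = α}, {x // B x ∧ B (s.1 x)}) =
      Nat.card {x // B x} * Nat.card {x // B x} := by
  rw [← Nat.card_prod]
  refine Nat.card_congr (Equiv.ofBijective (fun p => (⟨p.2.1, p.2.2.1⟩, ⟨p.1.1 p.2.1, p.2.2.2⟩))
    ⟨?_, fun ⟨x, y⟩ => ?_⟩)
  · rintro ⟨⟨s, hs⟩, x, hx⟩ ⟨⟨t, ht⟩, y, hy⟩ e
    obtain rfl : x = y := congrArg (fun p => p.1.1) e
    have e2 : s x = t x := congrArg (fun p => p.2.1) e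
    obtain rfl : s = t := (h α x α (t x) (fun e => hα (e ▸ hx.1)) (fun e => hα (e ▸ hy.2))).unique
      ⟨hs.1, hs.2, e2⟩ ⟨ht.1, ht.2, rfl⟩
    rfl
  · obtain ⟨s, ⟨a, b, c⟩, -⟩ := h α x α y (fun e => hα (e ▸ x.2)) (fun e => hα (e ▸ y.2))
    exact ⟨⟨⟨s, a, b⟩, x, x.2, c ▸ y.2⟩, Prod.ext rfl (Subtype.ext c)⟩

theorem count2 {Ω : Type*} [Finite Ω] (S : Set (Equiv.Perm Ω))
    (h : ∀ a b c d : Ω, a ≠ b → c ≠ d → ∃! s, s ∈ S ∧ s a = c ∧ s b = d) {α β : Ω} (hβ : α ≠ β) :
    Nat.card {s // s ∈ S ∧ s α = α} + 1 = Nat.card Ω := by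
  classical
  have := Fintype.ofFinite Ω
  have : Nat.card {s // s ∈ S ∧ s α = α} = Nat.card {y // ¬ y = α} :=
    Nat.card_congr (Equiv.ofBijective (fun s => ⟨s.1 β, fun e => hβ (s.1.injective (s.2.2.trans e.symm))⟩)
      ⟨fun s t e => Subtype.ext ((h α β α (t.1 β) hβ fun e => hβ (t.1.injective (t.2.2.trans e))).unique
        ⟨s.2.1, s.2.2, congrArg Subtype.val e⟩ ⟨t.2.1, t.2.2, rfl⟩), fun y => by
          obtain ⟨s, ⟨a, b, c⟩, -⟩ := h α β α y hβ (Ne.symm y.2)
          exact ⟨⟨s, a, b⟩, Subtype.ext c⟩⟩)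
  rw [this, Nat.card_eq_fintype_card, Nat.card_eq_fintype_card, Fintype.card_subtype_compl,
    Fintype.card_subtype_eq]
  exact Nat.sub_add_cancel (Fintype.card_pos_iff.2 ⟨α⟩)

/-- Let `F` be a finite field and `n ≥ 3`. No set of permutations of the points of the projective space of `Fⁿ`, each induced by an invertible semilinear transformation of `Fⁿ` (so a subset of the full projective semilinear group), is sharply 2-transitive on the points: it is impossible that for all pairs of distinct points `(a, b)` and `(c, d)` exactly one member of the set sends `a` to `c` and `b` to `d`. -/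
theorem result {F : Type*} [Field F] [Finite F]
    (n : ℕ) (hn : 3 ≤ n) (S : Set (Equiv.Perm (Projectivization F (Fin n → F))))
    (hS : ∀ s ∈ S, ∃ (σ : F ≃+* F) (f : (Fin n → F) →ₛₗ[(σ : F →+* F)] (Fin n → F)) (hf : Function.Injective f),
      ∀ x, s x = Projectivization.map f hf x) :
    ¬ (∀ a b c d : Projectivization F (Fin n → F), a ≠ b → c ≠ d →
        ∃! s, s ∈ S ∧ s a = c ∧ s b = d) := by
  intro h
  obtain ⟨n, rfl⟩ : ∃ m, n = m + 3 := ⟨n - 3, by omega⟩
  let B : Submodule F (Fin (n + 3) → F) := LinearMap.ker (LinearMap.proj 0)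
  have h0 : (Pi.single 0 1 : Fin (n + 3) → F) ≠ 0 := fun e => by simpa using congrFun e 0
  have h1 : (Pi.single 1 1 : Fin (n + 3) → F) ≠ 0 := fun e => by simpa using congrFun e 1
  have hα : ¬ (Projectivization.mk F _ h0).submodule ≤ B := by rw [le_mk]; simp [B]
  have hβ : (Projectivization.mk F _ h1).submodule ≤ B := by rw [le_mk]; simp [B]
  have c1 := congrArg (Nat.cast : ℕ → F) (count S h (fun x => x.submodule ≤ B) hα)
  have c2 := congrArg (Nat.cast : ℕ → F) (count2 S h (α := Projectivization.mk F _ h0)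
    (β := Projectivization.mk F _ h1) fun e => hα (e ▸ hβ))
  have c3 := card_pts (F := F) (⊤ : Submodule F (Fin (n + 3) → F)) top_ne_bot
  rw [Nat.card_congr (Equiv.subtypeUnivEquiv fun x => le_top)] at c3
  have := Fintype.ofFinite {s // s ∈ S ∧ s (Projectivization.mk F _ h0) = Projectivization.mk F _ h0}
  rw [Nat.card_sigma, Nat.cast_mul, card_pts B (fun e => h1 (by
    rw [← Submodule.mem_bot F, ← e]; exact (le_mk _ _ _).1 hβ)), Nat.cast_sum,
    Finset.sum_congr rfl (g := fun _ => (1 : F)), Finset.sum_const, Finset.card_univ, nsmul_one,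
    ← Nat.card_eq_fintype_card] at c1
  · rw [Nat.cast_add, c1, c3] at c2
    simp at c2
  · intro s _
    obtain ⟨σ, f, hf, hs⟩ := hS s.1 s.2.1
    refine Eq.trans ?_ (card_pts (B ⊓ B.comap f) ?_)
    · refine congrArg _ (Nat.card_congr (Equiv.subtypeEquivRight fun x => ?_))
      induction x using Projectivization.ind with
      | h v hv => rw [hs, Projectivization.map_mk, le_mk, le_mk, le_mk]; rfl
    · intro e
      have hi : Function.Injective fun v : Fin (n + 3) → F => (v 0, f v 0) := fun v w hvw => by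
        rw [← sub_eq_zero, ← Submodule.mem_bot F, ← e]
        exact ⟨sub_eq_zero.2 (congrArg Prod.fst hvw), by
          show f (v - w) 0 = 0
          rw [map_sub]; exact sub_eq_zero.2 (congrArg Prod.snd hvw)⟩
      have := Nat.card_le_card_of_injective _ hi
      rw [Nat.card_fun, Nat.card_prod, Nat.card_eq_fintype_card (α := Fin (n + 3)), Fintype.card_fin,
        ← pow_two, Nat.pow_le_pow_iff_right Finite.one_lt_card] at this
      omega

end Cfsg.Agent.S2531
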