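import Cfsg.Statements.S2532


set_option autoImplicit false
open Cfsg

namespace Cfsg.Agent.S2532

open MulAction

theorem exists_points {H X : Type*} [Group H] [Finite H] [Fintype X] [MulAction H X] (r : ℕ)
    (h : 2 ^ Nat.card H * (Nat.card H * r) ≤ Fintype.card X) :
    ∃ (S : Subgroup H) (x : Fin r → X), (∀ i, stabilizer H (x i) = S) ∧
      ∀ i j (g : H), g • x i = x j → i = j := by
  classical
  have : Fintype H := Fintype.ofFinite H
  obtain ⟨S, -, hS⟩ := Finset.exists_le_card_fiber_of_mul_le_card_of_maps_to (s := Finset.univ)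
    (t := Finset.univ) (f := fun x : X => (stabilizer H x : Set H)) (n := Nat.card H * r)
    (fun _ _ => Finset.mem_univ _) Finset.univ_nonempty
    (by rwa [Finset.card_univ, Finset.card_univ, Fintype.card_set, ← Nat.card_eq_fintype_card])
  set F := Finset.univ.filter fun x : X => (stabilizer H x : Set H) = S
  have h2 := Finset.card_le_mul_card_image (f := Quotient.mk (orbitRel H X)) F (Nat.card H) (by
    intro q hq
    obtain ⟨a, -, rfl⟩ := Finset.mem_image.1 hq
    rw [Nat.card_eq_fintype_card, ← Finset.card_univ]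
    refine le_trans (Finset.card_le_card fun y hy => ?_) (Finset.card_image_le (f := fun g : H => g • a))
    obtain ⟨g, hg⟩ := Quotient.exact (Finset.mem_filter.1 hy).2
    exact Finset.mem_image.2 ⟨g, Finset.mem_univ _, hg⟩)
  have h3 : r ≤ (F.image (Quotient.mk (orbitRel H X))).card :=
    Nat.le_of_mul_le_mul_left (hS.trans h2) Nat.card_pos
  obtain ⟨e⟩ : Nonempty (Fin r ↪ F.image (Quotient.mk (orbitRel H X))) :=
    Function.Embedding.nonempty_of_card_le (by rwa [Fintype.card_fin, Fintype.card_coe])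
  have h4 : ∀ i, ∃ y ∈ F, Quotient.mk (orbitRel H X) y = e i := fun i => Finset.mem_image.1 (e i).2
  choose x hx hx' using h4
  rcases Nat.eq_zero_or_pos r with rfl | hr
  · exact ⟨⊥, x, fun i => i.elim0, fun i => i.elim0⟩
  refine ⟨stabilizer H (x ⟨0, hr⟩), x, fun i => SetLike.coe_injective
    ((Finset.mem_filter.1 (hx i)).2.trans (Finset.mem_filter.1 (hx _)).2.symm), fun i j g hg => ?_⟩
  apply e.injective
  apply Subtype.ext
  rw [← hx', ← hx']
  exact (Quotient.sound (s := orbitRel H X) ⟨g, hg⟩).symm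

theorem exists_hom {H X : Type*} [Group H] [MulAction H X] {r : ℕ} (S : Subgroup H) (x : Fin r → X)
    (h1 : ∀ i, stabilizer H (x i) = S) (h2 : ∀ i j (g : H), g • x i = x j → i = j) :
    ∃ φ : Equiv.Perm (Fin r) →* Equiv.Perm X, Function.Injective φ ∧
      ∀ σ (g : H) (y : X), φ σ (g • y) = g • φ σ y := by
  let ι : (H ⧸ S) × Fin r ↪ X := ⟨fun p => p.1.out • x p.2, fun p q h => by
    have h3 : (q.1.out⁻¹ * p.1.out) • x p.2 = x q.2 := by rw [mul_smul, inv_smul_eq_iff]; exact h
    have h4 := h2 _ _ _ h3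
    refine Prod.ext ?_ h4
    rw [← h4, ← mem_stabilizer_iff, h1, ← QuotientGroup.eq, QuotientGroup.out_eq',
      QuotientGroup.out_eq'] at h3
    exact h3.symm⟩
  have hι : ∀ (g : H) q i, ι (g • q, i) = g • ι (q, i) := fun g q i => by
    show (g • q).out • x i = g • q.out • x i
    rw [← mul_smul, eq_comm, ← inv_smul_eq_iff, ← mul_smul, ← mem_stabilizer_iff, h1,
      ← QuotientGroup.eq, QuotientGroup.out_eq']
    show _ = g • (q.out : H ⧸ S)
    rw [QuotientGroup.out_eq']
  let ψ : Equiv.Perm (Fin r) →* Equiv.Perm ((H ⧸ S) × Fin r) :=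
    MonoidHom.mk' (fun σ => Equiv.prodCongr (Equiv.refl _) σ) fun _ _ => rfl
  refine ⟨(Equiv.Perm.viaEmbeddingHom ι).comp ψ,
    (Equiv.Perm.viaEmbeddingHom_injective ι).comp fun a b h => ?_, fun σ g y => ?_⟩
  · ext i : 1
    exact congrArg Prod.snd (Equiv.congr_fun h ((1 : H), i))
  · simp only [MonoidHom.comp_apply, Equiv.Perm.viaEmbeddingHom_apply]
    by_cases hy : y ∈ Set.range ι
    · obtain ⟨⟨q, i⟩, rfl⟩ := hy
      rw [← hι, Equiv.Perm.viaEmbedding_apply, Equiv.Perm.viaEmbedding_apply]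
      exact hι _ _ _
    · rw [Equiv.Perm.viaEmbedding_apply_of_notMem _ _ _ hy, Equiv.Perm.viaEmbedding_apply_of_notMem]
      rintro ⟨⟨q, i⟩, e⟩
      exact hy ⟨(g⁻¹ • q, i), by rw [hι, e, inv_smul_smul]⟩

/-- There is a function `f` of two natural-number arguments such that, whenever `m ≥ f(n, r)`, every subgroup of order `n` of the alternating group of degree `m` centralizes some subgroup of that alternating group isomorphic to the alternating group of degree `r`. -/
theorem result :
    ∃ f : ℕ → ℕ → ℕ, ∀ (m r : ℕ) (H : Subgroup ↥(alternatingGroup (Fin m))), f (Nat.card H) r ≤ m →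
      ∃ K : Subgroup ↥(alternatingGroup (Fin m)), Nonempty (↥K ≃* ↥(alternatingGroup (Fin r))) ∧
        K ≤ Subgroup.centralizer (H : Set ↥(alternatingGroup (Fin m))) := by
  refine ⟨fun n r => 2 ^ n * (n * r), fun m r H h => ?_⟩
  obtain ⟨S, x, h1, h2⟩ := exists_points (H := H) (X := Fin m) r (by simpa using h)
  obtain ⟨φ, hφ, hc⟩ := exists_hom S x h1 h2
  have ha : alternatingGroup (Fin r) ≤ (alternatingGroup (Fin m)).comap φ := by
    rw [← Equiv.Perm.closure_three_cycles_eq_alternating, Subgroup.closure_le]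
    intro c hc
    have h3 : Equiv.Perm.sign (φ c) ^ 3 = 1 := by
      rw [← map_pow, ← map_pow, ← hc.orderOf, pow_orderOf_eq_one, map_one, map_one]
    rwa [pow_succ, Int.units_sq, one_mul] at h3
  let ψ := (φ.comp (alternatingGroup (Fin r)).subtype).codRestrict (alternatingGroup (Fin m))
    fun σ => ha σ.2
  have hψ : Function.Injective ψ := fun a b h => Subtype.ext (hφ (congrArg Subtype.val h))
  refine ⟨ψ.range, ⟨(MonoidHom.ofInjective hψ).symm⟩, ?_⟩
  rintro _ ⟨σ, rfl⟩ g hg
  exact Subtype.ext (Equiv.ext fun y => (hc σ ⟨g, hg⟩ y).symm)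

end Cfsg.Agent.S2532
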