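import Cfsg.Statements.S2533
import Cfsg.Agent.H5.Mat

set_option autoImplicit false
open Cfsg

namespace Cfsg.Agent.S2533

open CfsgH5

/-- the generalised dihedral group of an elementary abelian group of rank three -/
@[ext] structure D (p : ℕ) : Type where
  v : Fin 3 → ZMod p
  e : ℤˣ

instance instGroupD (p : ℕ) : Group (D p) :=
  @Group.ofLeftAxioms (D p) ⟨fun a b => ⟨a.v + a.e • b.v, a.e * b.e⟩⟩ ⟨fun a => ⟨-(a.e • a.v), a.e⟩⟩ ⟨⟨0, 1⟩⟩
    (fun a b c => D.ext (by
      show a.v + a.e • b.v + (a.e * b.e) • c.v = a.v + a.e • (b.v + b.e • c.v)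
      rw [smul_add, mul_smul, add_assoc]) (mul_assoc _ _ _))
    (fun a => D.ext (by show 0 + (1 : ℤˣ) • a.v = a.v; rw [one_smul, zero_add]) (one_mul _))
    (fun a => D.ext (neg_add_cancel _) (Int.units_mul_self _))

/-- the underlying set -/
def eqv (p : ℕ) : D p ≃ (Fin 3 → ZMod p) × ℤˣ := ⟨fun a => (a.v, a.e), fun a => ⟨a.1, a.2⟩, fun _ => rfl, fun _ => rfl⟩

theorem toeplitz {F : Type*} [Field F] {m : ℕ} (Q : Matrix (Fin (m + 1)) (Fin (m + 1)) F)
    (h1 : ∀ j i : Fin m, Q j.succ i.succ = Q j.castSucc i.castSucc) (h2 : ∀ i : Fin m, Q 0 i.succ = 0)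
    (h3 : ∀ i : Fin m, Q (Fin.last m) i.castSucc = 0) : Q = Q 0 0 • (1 : Matrix _ _ F) := by
  have key : ∀ k a b (ha : a + k < m + 1) (hb : b + k < m + 1),
      Q ⟨a + k, ha⟩ ⟨b + k, hb⟩ = Q ⟨a, by omega⟩ ⟨b, by omega⟩ := by
    intro k a b
    induction k with
    | zero => intro _ _; rfl
    | succ k ih =>
      intro ha hb
      exact (h1 ⟨a + k, by omega⟩ ⟨b + k, by omega⟩).trans (ih _ _)
  ext ⟨j, hj⟩ ⟨i, hi⟩
  rw [Matrix.smul_apply, Matrix.one_apply, smul_eq_mul]
  rcases lt_trichotomy j i with h | rfl | h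
  · rw [if_neg (fun e => h.ne (congrArg Fin.val e)), mul_zero]
    have := key j 0 (i - j - 1 + 1) (by omega) (by omega)
    simp only [zero_add, show i - j - 1 + 1 + j = i by omega] at this
    exact this.trans (h2 ⟨i - j - 1, by omega⟩)
  · rw [if_pos rfl, mul_one]
    simpa using key j 0 0 (by omega) (by omega)
  · rw [if_neg (fun e => h.ne' (congrArg Fin.val e)), mul_zero]
    have := key (m - j) j i (by omega) (by omega)
    simp only [show j + (m - j) = m by omega] at this
    exact this.symm.trans (h3 ⟨i + (m - j), by omega⟩)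

variable {p : ℕ} [Fact p.Prime] (m : ℕ)

/-- the lower left block -/
def A (v : Fin 3 → ZMod p) : Matrix (Fin (m + 2 + 1)) (Fin (m + 2)) (ZMod p) :=
  Matrix.of fun j i => (if j = i.castSucc then v 0 else 0) + (if j = i.succ then v 1 else 0) +
    if j = Fin.last _ ∧ i = 0 then v 2 else 0

theorem A_add (v w : Fin 3 → ZMod p) (e : ℤˣ) : A m (v + e • w) = A m v + e • A m w := by
  ext j i
  simp only [A, Matrix.of_apply, Matrix.add_apply, Matrix.smul_apply, Pi.add_apply, Pi.smul_apply]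
  split_ifs <;> simp only [smul_add, smul_zero, add_zero, zero_add] <;> abel

/-- the representation -/
def rep (hm : Odd m) : D p →* Matrix.SpecialLinearGroup (Fin (m + 2) ⊕ Fin (m + 2 + 1)) (ZMod p) :=
  MonoidHom.mk' (fun a => ⟨Matrix.fromBlocks 1 0 (A m a.v) (a.e • 1), by
    rw [Matrix.det_fromBlocks_zero₁₂, Matrix.det_one, one_mul, Matrix.det_smul_of_tower, Matrix.det_one,
      Fintype.card_fin, Int.units_pow_eq_pow_mod_two, show (m + 2 + 1) % 2 = 0 by
        obtain ⟨k, rfl⟩ := hm; omega, pow_zero, one_smul]⟩) fun a b => Subtype.ext (by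
    show Matrix.fromBlocks 1 0 (A m (a.v + a.e • b.v)) ((a.e * b.e) • 1) = Matrix.fromBlocks _ _ _ _ * Matrix.fromBlocks _ _ _ _
    simp [Matrix.fromBlocks_multiply, A_add, mul_smul]
    rw [smul_comm])

theorem rep_coe (hm : Odd m) (a : D p) : (rep m hm a).1 =
    Matrix.fromBlocks 1 0 (A m a.v) (a.e • 1) := rfl

theorem rep_center (hp : p ≠ 2) (hm : Odd m) (a : D p) (h : rep m hm a ∈ Subgroup.center _) : a = 1 := by
  obtain ⟨r, -, hr⟩ := Matrix.SpecialLinearGroup.mem_center_iff.1 h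
  rw [rep_coe] at hr
  have h1 : r = 1 := by simpa using congrFun (congrFun hr (Sum.inl 0)) (Sum.inl 0)
  have h2 : ∀ j i, A m a.v j i = 0 := fun j i => by
    simpa using (congrFun (congrFun hr (Sum.inr j)) (Sum.inl i)).symm
  have h3 : a.e • (1 : ZMod p) = 1 := by
    simpa [h1] using (congrFun (congrFun hr (Sum.inr 0)) (Sum.inr 0)).symm
  refine D.ext (funext fun k => ?_) ?_
  · have a0 := h2 0 0
    have a1 := h2 (Fin.succ 0) 0
    have a2 := h2 (Fin.last _) 0
    have n1 : Fin.succ (0 : Fin (m + 2)) ≠ Fin.last _ := fun e => by have := congrArg Fin.val e; simp at this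
    have n2 : Fin.succ (0 : Fin (m + 2)) ≠ 0 := Fin.succ_ne_zero _
    have n3 : (0 : Fin (m + 2 + 1)) ≠ Fin.last _ := fun e => by have := congrArg Fin.val e; simp at this
    simp only [A, Matrix.of_apply, Fin.castSucc_zero, if_true, n1, n2, n3, n1.symm, n2.symm, n3.symm,
      if_false, false_and, true_and, add_zero, zero_add] at a0 a1 a2
    fin_cases k <;> assumption
  · refine (Int.units_eq_one_or _).resolve_right fun e => ?_
    rw [e, Units.neg_smul, one_smul] at h3
    have : Fact (2 < p) := ⟨lt_of_le_of_ne (Fact.out : p.Prime).two_le hp.symm⟩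
    exact ZMod.neg_one_ne_one h3

theorem centM (hp : p ≠ 2) (g : Matrix (Fin (m + 2) ⊕ Fin (m + 2 + 1)) (Fin (m + 2) ⊕ Fin (m + 2 + 1)) (ZMod p))
    (hg : g.det = 1) (h1 : ∀ (v : Fin 3 → ZMod p) (e : ℤˣ), ∃ r : ZMod p,
      Matrix.fromBlocks 1 0 (A m v) (e • 1) * g = r • (g * Matrix.fromBlocks 1 0 (A m v) (e • 1))) :
    ∃ c : ZMod p, g = c • (1 : Matrix _ _ (ZMod p)) := by
  have : Fact (2 < p) := ⟨lt_of_le_of_ne (Fact.out : p.Prime).two_le hp.symm⟩
  obtain ⟨r, hr⟩ := h1 0 (-1)
  have h2 : r = 1 := by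
    have hu : IsUnit g.det := hg ▸ isUnit_one
    have := congrArg (fun x => Matrix.trace (x * g⁻¹)) hr
    simp only [Matrix.smul_mul, Matrix.trace_smul] at this
    rw [Matrix.mul_nonsing_inv_cancel_right _ _ hu, Matrix.trace_mul_comm,
      Matrix.nonsing_inv_mul_cancel_left _ _ hu] at this
    simp [Matrix.trace] at this
    linear_combination this
  obtain ⟨P, Q, R, S, rfl⟩ : ∃ P Q R S, g = Matrix.fromBlocks P Q R S :=
    ⟨_, _, _, _, (Matrix.fromBlocks_toBlocks g).symm⟩
  have hA : A m (0 : Fin 3 → ZMod p) = 0 := by ext; simp [A]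
  have h4 : ∀ {k l : ℕ} (X : Matrix (Fin k) (Fin l) (ZMod p)), X = -X → X = 0 := fun X hX => by
    ext i j
    have := congrFun (congrFun hX i) j
    rw [Matrix.neg_apply, eq_neg_iff_add_eq_zero, ← mul_two, mul_eq_zero] at this
    refine this.resolve_right fun e => ZMod.neg_one_ne_one (n := p) ?_
    rw [neg_eq_iff_add_eq_zero, one_add_one_eq_two, e]
  simp [h2, hA, Matrix.fromBlocks_multiply] at hr
  have h5 := h4 _ hr.1
  have h6 := h4 _ hr.2.symm
  subst h5 h6
  have h7 : ∀ v j i, ∑ k, A m v j k * P k i = ∑ k, S j k * A m v k i := fun v j i => by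
    obtain ⟨r, hr⟩ := h1 v 1
    simp only [Matrix.fromBlocks_multiply, Matrix.fromBlocks_smul, one_smul,
      Matrix.fromBlocks_inj, Matrix.one_mul, Matrix.mul_one, Matrix.zero_mul, Matrix.mul_zero, add_zero,
      zero_add] at hr
    by_cases e : r = 1
    · have := congrFun (congrFun hr.2.2.1 j) i
      rwa [e, one_smul] at this
    · have : P = 0 := by
        have := hr.1
        rw [← sub_eq_zero] at this
        nth_rw 1 [← one_smul (ZMod p) P] at this
        rw [← sub_smul, smul_eq_zero] at this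
        exact this.resolve_left fun e' => e (sub_eq_zero.1 e').symm
      rw [this, Matrix.det_fromBlocks_zero₁₂, Matrix.det_zero, zero_mul] at hg
      exact absurd hg zero_ne_one
  have a0 : ∀ j i, (∑ k, if j = Fin.castSucc k then P k i else 0) = S j i.castSucc := fun j i => by
    simpa [A] using h7 (Pi.single 0 1) j i
  have a1 : ∀ j i, (∑ k, if j = Fin.succ k then P k i else 0) = S j i.succ := fun j i => by
    simpa [A] using h7 (Pi.single 1 1) j i
  have h8 := toeplitz S (fun j i => by rw [← a0, ← a1]; simp)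
    (fun i => by rw [← a1]; simp [(Fin.succ_ne_zero _).symm])
    (fun i => by rw [← a0]; simp [(Fin.castSucc_ne_last _).symm])
  have h9 : P = S 0 0 • (1 : Matrix _ _ (ZMod p)) := by
    ext j i
    have := a0 j.castSucc i
    rw [h8] at this
    simpa [Matrix.one_apply] using this
  refine ⟨S 0 0, ?_⟩
  generalize S 0 0 = c at h8 h9
  rw [h8, h9, ← Matrix.fromBlocks_one, Matrix.fromBlocks_smul, smul_zero, smul_zero]

theorem cent (hp : p ≠ 2) (hm : Odd m)
    (g : Matrix.SpecialLinearGroup (Fin (m + 2) ⊕ Fin (m + 2 + 1)) (ZMod p))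
    (h : ∀ a : D p, (g * rep m hm a)⁻¹ * (rep m hm a * g) ∈ Subgroup.center _) :
    g ∈ Subgroup.center _ := by
  obtain ⟨c, hc⟩ := centM m hp g.1 g.2 fun v e => by
    obtain ⟨r, -, hr⟩ := Matrix.SpecialLinearGroup.mem_center_iff.1 (h ⟨v, e⟩)
    refine ⟨r, ?_⟩
    have := congrArg (fun x => (g * rep m hm ⟨v, e⟩).1 * x) hr
    simp only [← Matrix.SpecialLinearGroup.coe_mul, mul_inv_cancel_left] at this
    rw [Matrix.scalar_apply, ← Matrix.smul_eq_mul_diagonal] at this
    exact this.symm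
  rw [Subgroup.mem_center_iff]
  intro x
  apply Subtype.ext
  show x.1 * g.1 = g.1 * x.1
  rw [hc, Matrix.mul_smul, Matrix.smul_mul, Matrix.mul_one, Matrix.one_mul]

/-- renumbering -/
def reix {F ι κ : Type*} [Field F] [Fintype ι] [Fintype κ] [DecidableEq ι] [DecidableEq κ] (e : ι ≃ κ) :
    Matrix.SpecialLinearGroup ι F ≃* Matrix.SpecialLinearGroup κ F where
  toFun g := ⟨Matrix.reindex e e g.1, by rw [Matrix.det_reindex_self, g.2]⟩
  invFun g := ⟨Matrix.reindex e.symm e.symm g.1, by rw [Matrix.det_reindex_self, g.2]⟩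
  left_inv g := Subtype.ext (by simp)
  right_inv g := Subtype.ext (by simp)
  map_mul' g h := Subtype.ext (Matrix.submatrix_mul_equiv _ _ _ _ _).symm

/-- For every odd prime `p` there is a finite group `H` of order `2p³` which, for infinitely many `n`, embeds in the projective special linear group `PSL(n, p)` as a subgroup with trivial centralizer. -/
theorem result
    (p : ℕ) [Fact p.Prime] (hp : p ≠ 2) :
    ∃ (H : Type) (_ : Group H) (_ : Finite H), Nat.card H = 2 * p ^ 3 ∧
      ∀ N : ℕ, ∃ n, N ≤ n ∧ ∃ φ : H →* Matrix.ProjectiveSpecialLinearGroup (Fin n) (ZMod p),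
        Function.Injective φ ∧ Subgroup.centralizer (φ.range : Set (Matrix.ProjectiveSpecialLinearGroup (Fin n) (ZMod p))) = ⊥ := by
  refine ⟨D p, inferInstance, Finite.of_equiv _ (eqv p).symm, by
    rw [Nat.card_congr (eqv p), Nat.card_prod, Nat.card_fun, Nat.card_zmod]
    simp [mul_comm], fun N => ?_⟩
  have hm : Odd (2 * N + 1) := odd_two_mul_add_one N
  let e := quotCenterEquiv (reix (F := ZMod p) (finSumFinEquiv (m := 2 * N + 1 + 2) (n := 2 * N + 1 + 2 + 1)))
  let φ := (QuotientGroup.mk' (Subgroup.center _)).comp (rep (p := p) _ hm)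
  refine ⟨_, by omega, e.toMonoidHom.comp φ, e.injective.comp ((injective_iff_map_eq_one _).2
    fun a ha => rep_center _ hp hm a ((QuotientGroup.eq_one_iff _).1 ha)), eq_bot_iff.2 fun x hx => ?_⟩
  obtain ⟨x, rfl⟩ := e.surjective x
  obtain ⟨g, rfl⟩ := QuotientGroup.mk_surjective x
  rw [Subgroup.mem_bot, map_eq_one_iff _ e.injective, QuotientGroup.eq_one_iff]
  refine cent _ hp hm g fun a => QuotientGroup.eq.1 (e.injective ?_)
  rw [QuotientGroup.mk_mul, QuotientGroup.mk_mul, map_mul, map_mul]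
  exact (hx _ ⟨a, rfl⟩).symm

end Cfsg.Agent.S2533
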