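import Cfsg.Statements.S2537
import Cfsg.Agent.H4.SL2Hall

set_option autoImplicit false
open Cfsg

namespace Cfsg.Agent.S2537

theorem not_dvd_iff {r q N c x : ℕ} (hr : r.Prime) (hq : ¬ r ∣ q) (hN : N ≠ 0) (e : x * c = q * N) :
    ¬ r ∣ x ↔ r ^ N.factorization r ∣ c := by
  have q0 : q ≠ 0 := by rintro rfl; simp at hq
  have h0 := e ▸ mul_ne_zero q0 hN
  have x0 := left_ne_zero_of_mul h0
  have c0 := right_ne_zero_of_mul h0
  have := congrArg (fun n => n.factorization r) e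
  simp only [Nat.factorization_mul x0 c0, Nat.factorization_mul q0 hN, Finsupp.add_apply,
    Nat.factorization_eq_zero_of_not_dvd hq] at this
  rw [hr.pow_dvd_iff_le_factorization c0, hr.dvd_iff_one_le_factorization x0]
  omega

/-- Let `F` be a finite field with `q` elements of characteristic `p ≥ 5`, and `ε = 1` if `q ≡ 1 (mod 4)`, `ε = -1` otherwise. Then `PSL(2, F)` has a Hall `{2, 3}`-subgroup if and only if `3` divides `q − ε`, or the `{2,3}`-part of `q² − 1` is 24, or the `{2,3}`-part of `q² − 1` is 48 (the `{2,3}`-part of `m` being the largest divisor of `m` with no prime factor other than 2 and 3). -/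
theorem result {F : Type*} [Field F] [Fintype F] {p : ℕ} [Fact p.Prime] [CharP F p]
    (hp : 5 ≤ p) (q : ℕ) (hq : Fintype.card F = q) :
    (∃ H : Subgroup (Matrix.ProjectiveSpecialLinearGroup (Fin 2) F), Cfsg.IsPiHall ({2, 3} : Set ℕ) H) ↔
      (3 ∣ q - 1 ∧ q % 4 = 1) ∨ (3 ∣ q + 1 ∧ q % 4 = 3) ∨
        2 ^ (q ^ 2 - 1).factorization 2 * 3 ^ (q ^ 2 - 1).factorization 3 = 24 ∨
        2 ^ (q ^ 2 - 1).factorization 2 * 3 ^ (q ^ 2 - 1).factorization 3 = 48 := by
  subst hq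
  have hp' : p.Prime := Fact.out
  have hr : ∀ r : ℕ, r.Prime → r < 5 → (r : F) ≠ 0 ∧ ¬ r ∣ Fintype.card F := fun r hr h5 => by
    have : ¬ p ∣ r := fun h => by have := Nat.le_of_dvd hr.pos h; omega
    refine ⟨by rwa [Ne, CharP.cast_eq_zero_iff F p], fun h => this ?_⟩
    obtain ⟨n, -, e⟩ := FiniteField.card F p
    rw [(Nat.prime_dvd_prime_iff_eq hr hp').1 (hr.dvd_of_dvd_pow (e ▸ h))]
  obtain ⟨h2, q2⟩ := hr 2 Nat.prime_two (by norm_num)
  obtain ⟨h3, q3⟩ := hr 3 Nat.prime_three (by norm_num)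
  have q1 := Fintype.one_lt_card (α := F)
  have hN : Fintype.card F ^ 2 - 1 ≠ 0 := Nat.sub_ne_zero_of_lt (Nat.one_lt_pow two_ne_zero q1)
  have h24 : 24 ∣ Fintype.card F ^ 2 - 1 := by
    refine (Nat.modEq_iff_dvd' (by omega)).1 ?_
    have : Fintype.card F % 24 = 1 ∨ Fintype.card F % 24 = 5 ∨ Fintype.card F % 24 = 7 ∨
      Fintype.card F % 24 = 11 ∨ Fintype.card F % 24 = 13 ∨ Fintype.card F % 24 = 17 ∨
      Fintype.card F % 24 = 19 ∨ Fintype.card F % 24 = 23 := by omega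
    rw [Nat.ModEq, Nat.pow_mod]
    rcases this with h | h | h | h | h | h | h | h <;> rw [h]
  have key : ∀ H : Subgroup (Matrix.SpecialLinearGroup (Fin 2) F),
      (∀ r : ℕ, r.Prime → r ∈ ({2, 3} : Set ℕ) → ¬ r ∣ H.index) ↔
      2 ^ (Fintype.card F ^ 2 - 1).factorization 2 * 3 ^ (Fintype.card F ^ 2 - 1).factorization 3 ∣
        Nat.card H := fun H => by
    have e := H.index_mul_card.trans CfsgH4.SL2.card_SL2
    have e2 := not_dvd_iff Nat.prime_two q2 hN e
    have e3 := not_dvd_iff Nat.prime_three q3 hN e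
    refine ⟨fun h => Nat.Coprime.mul_dvd_of_dvd_of_dvd (Nat.Coprime.pow _ _ (by norm_num))
      (e2.1 (h 2 Nat.prime_two (by simp))) (e3.1 (h 3 Nat.prime_three (by simp))), fun h r _ hr => ?_⟩
    rcases hr with rfl | rfl
    exacts [e2.2 (dvd_of_mul_right_dvd h), e3.2 (dvd_of_mul_left_dvd h)]
  have h24' : 2 ^ 3 * 3 ^ 1 ∣ 2 ^ (Fintype.card F ^ 2 - 1).factorization 2 *
      3 ^ (Fintype.card F ^ 2 - 1).factorization 3 :=
    mul_dvd_mul (pow_dvd_pow 2 ((Nat.prime_two.pow_dvd_iff_le_factorization hN).1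
      (Dvd.dvd.trans (by norm_num) h24))) (pow_dvd_pow 3
        ((Nat.prime_three.pow_dvd_iff_le_factorization hN).1 (Dvd.dvd.trans (by norm_num) h24)))
  rw [CfsgH4.SL2.hall_iff]
  constructor
  · rintro ⟨H, h1, h4⟩
    have h5 := (key H).1 h4
    rcases CfsgH4.SL2.two_three h2 h3 h1 (h24'.trans h5) with h | h | h
    · exact .inl (by omega)
    · exact .inr (.inl (by omega))
    · have h6 := h5.trans h
      have := Nat.le_of_dvd (by norm_num) h6
      have := Nat.pos_of_dvd_of_pos h6 (by norm_num)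
      omega
  · rintro (h | h | h)
    · exact CfsgH4.SL2.exists_hall_dih h2 (.inl h)
    · exact CfsgH4.SL2.exists_hall_dih h2 (.inr h)
    obtain ⟨H, h1, h4, h5⟩ := CfsgH4.SL2.exists_48 h2
    refine ⟨H, fun r hr hd => ?_, (key H).2 ?_⟩
    · rcases hr.dvd_mul.1 (show r ∣ 2 ^ 4 * 3 from hd.trans h1) with h | h
      · exact .inl ((Nat.prime_dvd_prime_iff_eq hr Nat.prime_two).1 (hr.dvd_of_dvd_pow h))
      · exact .inr ((Nat.prime_dvd_prime_iff_eq hr Nat.prime_three).1 h)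
    rcases h with h | h
    · rwa [h]
    · have h6 := h5 (((Nat.Coprime.pow 4 _ (by norm_num : Nat.Coprime 2 3)).dvd_of_dvd_mul_right
        (h ▸ (by norm_num : 2 ^ 4 ∣ 48))).trans (Nat.ordProj_dvd _ 2))
      rw [h]; omega

end Cfsg.Agent.S2537
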