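import Cfsg.Statements.S2540
import Cfsg.Agent.H1.GL1

set_option autoImplicit false
open Cfsg

namespace Cfsg.Agent.S2540

open CfsgH1 Subgroup
open scoped commutatorElement
set_option maxHeartbeats 400000

theorem aux {S : Type*} [Group S] (hperf : _root_.commutator S = ⊤) (φ : MulAut S)
    (hc : ∀ s, s * (φ s)⁻¹ ∈ center S) (s : S) : φ s = s := by
  let ψ : S →* S :=
    MonoidHom.mk' (fun s => s * (φ s)⁻¹) (by
      intro a b
      have := mem_center_iff.1 (hc b) (φ a)⁻¹
      rw [map_mul, mul_inv_rev, mul_assoc a (φ a)⁻¹, this]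
      group)
  have hψ : ψ s = 1 := by
    have : _root_.commutator S ≤ ψ.ker := by
      rw [_root_.commutator_def, commutator_le]
      intro a _ b _
      rw [MonoidHom.mem_ker, map_commutatorElement, commutatorElement_eq_one_iff_mul_comm]
      exact mem_center_iff.1 (hc b) _
    rw [hperf] at this
    exact this (mem_top s)
  exact (mul_inv_eq_one.1 hψ).symm

/-- Let F be a finite field and n ≥ 1, excluding the case n = 2 with #F ≤ 3. A subgroup of GL_n(F) that is normalized by every element of SL_n(F) either consists of scalar matrices or contains SL_n(F). -/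
theorem result {F : Type*} [Field F] [Fintype F] (n : ℕ) (hn : 1 ≤ n) (hex : ¬ (n = 2 ∧ Fintype.card F ≤ 3)) (G : Subgroup (Matrix.GeneralLinearGroup (Fin n) F)) (hG : ∀ s : Matrix.SpecialLinearGroup (Fin n) F, ∀ g ∈ G, (Matrix.SpecialLinearGroup.toGL s) * g * (Matrix.SpecialLinearGroup.toGL s)⁻¹ ∈ G) : (∀ g ∈ G, ∃ c : F, (g : Matrix (Fin n) (Fin n) F) = c • (1 : Matrix (Fin n) (Fin n) F)) ∨ (Matrix.SpecialLinearGroup.toGL : Matrix.SpecialLinearGroup (Fin n) F →* _).range ≤ G := by
  classical
  rcases Nat.lt_or_ge n 2 with h1 | h2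
  · left
    obtain rfl : n = 1 := by omega
    intro g _
    refine ⟨(g : Matrix (Fin 1) (Fin 1) F) 0 0, ?_⟩
    ext i j
    fin_cases i; fin_cases j; simp
  haveI : Nontrivial (Fin n) := Fin.nontrivial_iff_two_le.2 h2
  have hperf : _root_.commutator (Matrix.SpecialLinearGroup (Fin n) F) = ⊤ := by
    rcases Nat.lt_or_ge n 3 with h | h
    · obtain rfl : n = 2 := by omega
      have : 3 < Fintype.card F := by
        by_contra hc
        exact hex ⟨rfl, by omega⟩
      obtain ⟨a, ha, ha2⟩ := exists_sq_ne_one this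
      exact Matrix.SL2.commutator_eq_top ha ha2
    · exact SL_commutator_eq_top_of_three (by simpa using h)
  let N : Subgroup (Matrix.SpecialLinearGroup (Fin n) F) :=
    G.comap Matrix.SpecialLinearGroup.toGL
  haveI : N.Normal := ⟨fun x hx s => by
    change Matrix.SpecialLinearGroup.toGL (s * x * s⁻¹) ∈ G
    rw [map_mul, map_mul, map_inv]
    exact hG s _ hx⟩
  rcases SL_normal_le_center_or N with h | h
  · left
    intro g hg
    apply scalar_of_commute_SL
    -- `s ↦ s * (g s⁻¹ g⁻¹)` is central
    let φ := CfsgH7.conjSL g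
    have hφ : ∀ s : Matrix.SpecialLinearGroup (Fin n) F,
        Matrix.SpecialLinearGroup.toGL (φ s) = g * Matrix.SpecialLinearGroup.toGL s * g⁻¹ := by
      intro s
      ext i j
      simp [φ]
    have hc : ∀ s, s * (φ s)⁻¹ ∈ center (Matrix.SpecialLinearGroup (Fin n) F) := by
      intro s
      apply h
      change Matrix.SpecialLinearGroup.toGL (s * (φ s)⁻¹) ∈ G
      rw [map_mul, map_inv, hφ]
      have := G.mul_mem (hG s g hg) (G.inv_mem hg)
      convert this using 1
      group
    intro s
    have h2 : φ s = s := aux hperf φ hc s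
    have h3 := hφ s
    rw [h2, eq_mul_inv_iff_mul_eq] at h3
    exact congrArg Units.val h3
  · right
    rw [hperf] at h
    rintro _ ⟨s, rfl⟩
    exact h (mem_top s)

end Cfsg.Agent.S2540
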