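import Cfsg.Statements.S2541
import Cfsg.Agent.H5.Alt

set_option autoImplicit false
open Cfsg

namespace Cfsg.Agent.S2541

open CfsgH5 MulAction

/-- chain of the symmetric group -/
noncomputable def cS : List Level :=
  [⟨0, [0x15701], 0x3f,
    ap 18 0x3ffff 0xd586889988565580b55c06c688,
    ap 2 3 0x580, ap 2 3 0xef4⟩,
   ⟨1, [0x21558], 0x3e,
    ap 18 0x3ffff 0x2ec42155854c61a868b1a200000,
    ap 1 1 0x8, ap 2 3 0x9b0⟩,
   ⟨2, [0x1a948], 0x3c,
    ap 18 0x3ffff 0x4ec21a94895322c688000000000,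
    ap 1 1 0x0, ap 2 3 0xd80⟩,
   ⟨4, [0x1d888], 0x38,
    ap 18 0x3ffff 0x8ea22c688762200000000000000,
    ap 1 1 0x0, ap 2 3 0x840⟩,
   ⟨3, [0x1ca88], 0x28,
    ap 18 0x3ffff 0x72a200000b1a200000000000000,
    ap 1 1 0x0, ap 1 1 0x20⟩]

theorem no8 (σ : Equiv.Perm (Fin 6)) (h : σ ^ 8 = 1) : σ ^ 4 = 1 := by
  have hv : ∀ s ∈ gens cS, CP6.In ⊤ s := fun s hs => CP6_in s (by revert s; decide +kernel)
  have hc : checkC (permOps 3 7 6) cS = true := by decide +kernel
  have := CP6.allC_one hv hc (fun p => force ((permOps 3 7 6).mul p p) fun a =>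
    force ((permOps 3 7 6).mul a a) fun b => bimp (Nat.beq ((permOps 3 7 6).mul b b) (permOps 3 7 6).one)
      (Nat.beq b (permOps 3 7 6).one)) (by decide +kernel) σ
    (by rw [CP6.grp_eq_of_card hv hc (by rw [card_S6]; decide +kernel)]; trivial)
  simp only [force_eq, ← CP6.code_mul, ← CP6.code_one, bimp_eq, Bool.or_eq_true, beq_true_iff,
    Bool.not_eq_true', Bool.eq_false_iff, ne_eq, CP6.code_inj.eq_iff] at this
  rw [show σ * σ * (σ * σ) = σ ^ 4 by simp only [pow_succ, pow_zero, one_mul, mul_assoc],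
    ← pow_add] at this
  exact this.resolve_left (not_not.2 h)

/-- Let F be a field with 9 elements. The symmetric group S_6 is not isomorphic to PGL_2(F) (although both have index-2 subgroups isomorphic to A_6). -/
theorem result {F : Type*} [Field F] [Fintype F] (hF : Fintype.card F = 9) : ¬ Nonempty (Equiv.Perm (Fin 6) ≃* Matrix.ProjGenLinGroup (Fin 2) F) := by
  classical
  rintro ⟨e⟩
  obtain ⟨g, hg⟩ := IsCyclic.exists_ofOrder_eq_natCard (α := Fˣ)
  rw [Nat.card_units, Nat.card_eq_fintype_card, hF] at hg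
  let D : GL (Fin 2) F := Matrix.GeneralLinearGroup.mkOfDetNeZero (Matrix.diagonal ![(g : F), 1])
    (by simp [Matrix.det_diagonal])
  have hD : ∀ n : ℕ, ((D ^ n : GL (Fin 2) F) : Matrix (Fin 2) (Fin 2) F) =
      Matrix.diagonal ![((g ^ n : Fˣ) : F), 1] := fun n => by
    rw [Units.val_pow_eq_pow_val]
    show Matrix.diagonal ![(g : F), 1] ^ n = _
    rw [Matrix.diagonal_pow]
    congr 1
    funext i
    fin_cases i <;> simp
  have h8 : D ^ 8 = 1 := Units.ext (by
    rw [hD, show g ^ 8 = 1 from (show orderOf g = 8 from hg) ▸ pow_orderOf_eq_one g]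
    ext i j
    fin_cases i <;> fin_cases j <;> simp)
  have h4 := no8 (e.symm (Matrix.ProjGenLinGroup.mk D)) (by rw [← map_pow, ← map_pow, h8, map_one, map_one])
  rw [← map_pow, ← map_pow, map_eq_one_iff _ e.symm.injective, Matrix.ProjGenLinGroup.mk_eq_one,
    Subgroup.mem_center_iff] at h4
  have h5 := congrArg (fun A : GL (Fin 2) F => (A : Matrix (Fin 2) (Fin 2) F) 0 1)
    (h4 (Matrix.GeneralLinearGroup.mkOfDetNeZero !![0, 1; 1, 0] (by simp [Matrix.det_fin_two])))
  simp only [Units.val_mul, hD] at h5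
  have h6 : g ^ 4 = 1 := Units.ext (by simpa using h5.symm)
  have := orderOf_dvd_of_pow_eq_one h6
  rw [hg] at this
  exact absurd this (by decide)

end Cfsg.Agent.S2541
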