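import Cfsg.Statements.S2542
import Cfsg.Agent.H5.L211b

set_option autoImplicit false
open Cfsg

namespace Cfsg.Agent.S2542

open CfsgH5 MulAction

theorem two_trans {a b : Fin 11} (h : a ≠ b) : ∃ g ∈ C11.grp (gens c11), g a = 0 ∧ g b = 1 := by
  obtain ⟨g, hg, e⟩ := C11.move c11_valid c11_check (a := 0) rfl (x := a) (by clear h; revert a; decide +kernel)
  have e : g a = 0 := e
  have : g b ≠ 0 := fun e' => h (g.injective (e.trans e'.symm))
  obtain ⟨k, hk, e'⟩ := C11.move (C11.valid_drop c11_valid 1) (check_drop c11_check 1) (a := 1) rfl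
    (x := g b) (by revert this; generalize g b = c; revert c; decide +kernel)
  have hk := (C11.mem_tail_iff c11_valid c11_check (a := 0) rfl k).1 hk
  exact ⟨k * g, Subgroup.mul_mem _ hk.1 hg, by rw [Equiv.Perm.mul_apply, e]; exact hk.2, e'⟩

/-- Let F be a field with 11 elements. PSL_2(F) has a subgroup H of index 11 isomorphic to the alternating group A_5, and the action of PSL_2(F) on the cosets of H is 2-transitive (of degree 11). -/
theorem result {F : Type*} [Field F] [Fintype F] (hF : Fintype.card F = 11) : ∃ H : Subgroup (Matrix.ProjectiveSpecialLinearGroup (Fin 2) F), H.index = 11 ∧ Nonempty (H ≃* alternatingGroup (Fin 5)) ∧ MulAction.IsMultiplyPretransitive (Matrix.ProjectiveSpecialLinearGroup (Fin 2) F) ((Matrix.ProjectiveSpecialLinearGroup (Fin 2) F) ⧸ H) 2 := by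
  obtain ⟨f, hf, hr⟩ := exists_L211 F hF
  obtain ⟨h1, h2⟩ := isoH11 f hf hr
  refine ⟨_, index60 f hr hf h1, h2, ?_⟩
  have key : ∀ x y, (QuotientGroup.mk x : _ ⧸ sub11 f hf (gens (c11.drop 1))) = QuotientGroup.mk y ↔
      f x 0 = f y 0 := fun x y => by
    rw [QuotientGroup.eq, mem_H11 f hf hr, map_mul, map_inv, Equiv.Perm.mul_apply,
      Equiv.Perm.inv_eq_iff_eq, eq_comm]
  rw [is_two_pretransitive_iff]
  rintro ⟨a⟩ ⟨b⟩ ⟨c⟩ ⟨d⟩ hab hcd
  obtain ⟨g, hg, e1, e2⟩ := two_trans (mt (key a b).2 hab)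
  obtain ⟨k, hk, e3, e4⟩ := two_trans (mt (key c d).2 hcd)
  rw [← hr] at hg hk
  obtain ⟨g, rfl⟩ := hg
  obtain ⟨k, rfl⟩ := hk
  refine ⟨k⁻¹ * g, (key _ c).2 ?_, (key _ d).2 ?_⟩
  · simp only [smul_eq_mul, map_mul, map_inv, Equiv.Perm.mul_apply, e1, Equiv.Perm.inv_eq_iff_eq, e3]
  · simp only [smul_eq_mul, map_mul, map_inv, Equiv.Perm.mul_apply, e2, Equiv.Perm.inv_eq_iff_eq, e4]

end Cfsg.Agent.S2542
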