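import Cfsg.Statements.S2544
import Cfsg.Agent.H7.Stein3

set_option autoImplicit false
open Cfsg

namespace Cfsg.Agent.S2544


/-- Let F be a finite field of characteristic p and consider the projective special linear group PSL_n(F) with n ≥ 2. This group has an irreducible complex character χ whose degree equals the order of a Sylow p-subgroup (namely q^(n(n−1)/2) when #F = q) and whose restriction to any Sylow p-subgroup P is the regular character of P: χ vanishes on the non-identity elements of P. (This is the Steinberg character.) -/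
theorem result {F : Type*} [Field F] [Fintype F] (p : ℕ) [Fact p.Prime] [CharP F p] (n : ℕ) (hn : 2 ≤ n) : ∃ χ : Matrix.ProjectiveSpecialLinearGroup (Fin n) F → ℂ, Cfsg.IsIrrCharacter (Matrix.ProjectiveSpecialLinearGroup (Fin n) F) χ ∧ ∀ P : Sylow p (Matrix.ProjectiveSpecialLinearGroup (Fin n) F), χ 1 = Nat.card P ∧ ∀ x : Matrix.ProjectiveSpecialLinearGroup (Fin n) F, x ∈ P → x ≠ 1 → χ x = 0 := by
  let ρ : Matrix.SpecialLinearGroup (Fin n) F →* Module.End F (Fin n → F) :=
    { toFun := fun g => Matrix.toLin' g.1
      map_one' := Matrix.toLin'_one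
      map_mul' := fun g h => Matrix.toLin'_mul g.1 h.1 }
  refine CfsgH7.Proj.steinberg ρ (by simpa using hn) p
    (fun g h e => Subtype.ext (Matrix.toLin'.injective e)) fun φ v hv => ?_
  refine ⟨⟨LinearMap.toMatrix' (LinearMap.transvection φ v), ?_⟩, fun x => ?_⟩
  · rw [LinearMap.det_toMatrix', LinearMap.transvection.det, hv, add_zero]
  · change Matrix.toLin' (LinearMap.toMatrix' _) x = _
    rw [Matrix.toLin'_toMatrix', LinearMap.transvection.apply]

end Cfsg.Agent.S2544
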