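import Cfsg.Statements.S2566
import Cfsg.Agent.H8.F2

set_option autoImplicit false
open Cfsg

namespace Cfsg.Agent.S2566

open CfsgH8 QuadraticMap

lemma exists_S3 : Nonempty (OG (QB (1 : ZMod 2) 1) ≃* Equiv.Perm (Fin 3)) := by
  let φ : OG (QB (1 : ZMod 2) 1) →* Equiv.Perm {v : Fin 2 → ZMod 2 // v ≠ 0} :=
    { toFun := fun g => Equiv.Perm.subtypePerm g.1.toEquiv fun v => (OG.eq_zero_iff g v).not
      map_one' := rfl
      map_mul' := fun _ _ => rfl }
  have hφ : ∀ g v, (φ g v : Fin 2 → ZMod 2) = g.1 v := fun _ _ => rfl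
  refine ⟨(MulEquiv.ofBijective φ ⟨fun g h e => OG.ext' fun v => ?_, ?_⟩).trans
    (Fintype.equivFinOfCardEq (by decide)).permCongrHom⟩
  · rcases eq_or_ne v 0 with rfl | hv
    · simp
    · exact (hφ g ⟨v, hv⟩).symm.trans (e ▸ hφ h ⟨v, hv⟩)
  · rw [← MonoidHom.range_eq_top, eq_top_iff, ← Equiv.Perm.closure_isSwap, Subgroup.closure_le]
    rintro _ ⟨a, b, hab, rfl⟩
    refine ⟨refl _ (a.1 + b.1), Equiv.ext fun x => Subtype.ext ?_⟩
    rw [hφ, refl_apply, QB_apply, polar_QB]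
    revert a b x
    decide +kernel

lemma aux {K G : Type*} [Group K] [Group G] (e : K ≃* Equiv.Perm (Fin 3)) (ψ : K × K →* G)
    (hψ : Function.Injective ψ) (s : G) (h1 : ∀ a b, s * ψ (a, b) * s⁻¹ = ψ (b, a))
    (h2 : ∀ g, s * g ∈ ψ.range ∨ g ∈ ψ.range) : Nat.card G = 72 ∧ ∃ A B : Subgroup G,
      Nonempty (A ≃* Equiv.Perm (Fin 3)) ∧ Nonempty (B ≃* Equiv.Perm (Fin 3)) ∧ A ⊓ B = ⊥ ∧
      (∀ a ∈ A, ∀ b ∈ B, a * b = b * a) ∧ (A ⊔ B).index = 2 ∧
        ∃ g : G, A.map (MulAut.conj g).toMonoidHom = B := by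
  have h3 : s ∉ ψ.range := by
    rintro ⟨⟨a, b⟩, rfl⟩
    have := h1 (e.symm (Equiv.swap 0 1)) 1
    rw [← map_inv, ← _root_.map_mul, ← _root_.map_mul, hψ.eq_iff] at this
    have := congrArg Prod.snd this
    simp only [Prod.snd_mul, Prod.snd_inv, mul_one, mul_inv_cancel] at this
    exact absurd (congrArg e this) (by simp; decide)
  have h4 : ψ.range.index = 2 := Subgroup.index_eq_two_iff'.2 ⟨s, fun g => by
    have : ¬ (s * g ∈ ψ.range ∧ g ∈ ψ.range) := fun h => h3 (by simpa using mul_mem h.1 (inv_mem h.2))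
    have := h2 g
    unfold Xor
    tauto⟩
  refine ⟨?_, (ψ.comp (.inl K K)).range, (ψ.comp (.inr K K)).range,
    ⟨(MonoidHom.ofInjective (f := ψ.comp (.inl K K)) (hψ.comp (Prod.mk_left_injective 1))).symm.trans e⟩,
    ⟨(MonoidHom.ofInjective (f := ψ.comp (.inr K K)) (hψ.comp (Prod.mk_right_injective 1))).symm.trans e⟩, ?_, ?_, ?_, s, ?_⟩
  · rw [← ψ.range.card_mul_index, h4, ← Nat.card_congr (MonoidHom.ofInjective hψ).toEquiv,
      Nat.card_prod, Nat.card_congr e.toEquiv]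
    simp; rfl
  · refine eq_bot_iff.2 ?_
    rintro _ ⟨⟨a, rfl⟩, b, h⟩
    obtain rfl : 1 = a := congrArg Prod.fst (hψ h)
    exact _root_.map_one _
  · rintro _ ⟨a, rfl⟩ _ ⟨b, rfl⟩
    simp [← _root_.map_mul]
  · rw [← h4, MonoidHom.range_comp, MonoidHom.range_comp, ← Subgroup.map_sup,
      ψ.range_eq_map]
    congr 2
    rw [eq_top_iff]
    intro x _
    simpa using Subgroup.mul_mem_sup (show MonoidHom.inl K K x.1 ∈ (MonoidHom.inl K K).range from ⟨_, rfl⟩)
      (show MonoidHom.inr K K x.2 ∈ (MonoidHom.inr K K).range from ⟨_, rfl⟩)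
  · rw [MonoidHom.map_range]
    congr 1
    exact MonoidHom.ext fun a => h1 a 1

/-- The full orthogonal group of the plus-type form x₁y₁ + x₂y₂ in dimension 4 over the field of two elements has order 72 and is isomorphic to the wreath product of the symmetric group of degree 3 by a group of order 2: it has a normal subgroup isomorphic to the direct product of two symmetric groups of degree 3, of index 2, whose two direct factors are interchanged by conjugation by some element. -/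
theorem result :
    Nat.card ↥(Cfsg.isometryGroup (ZMod 2) (Cfsg.quadFormPlus 2 (ZMod 2))) = 72 ∧
    ∃ (A B : Subgroup ↥(Cfsg.isometryGroup (ZMod 2) (Cfsg.quadFormPlus 2 (ZMod 2)))),
      Nonempty (↥A ≃* Equiv.Perm (Fin 3)) ∧ Nonempty (↥B ≃* Equiv.Perm (Fin 3)) ∧ A ⊓ B = ⊥ ∧ (∀ a ∈ A, ∀ b ∈ B, a * b = b * a) ∧
      (A ⊔ B).index = 2 ∧ ∃ g : ↥(Cfsg.isometryGroup (ZMod 2) (Cfsg.quadFormPlus 2 (ZMod 2))), A.map (MulAut.conj g).toMonoidHom = B := by
  obtain ⟨e, he⟩ := (iso_QP_iff_gs ((ND_QB_of_disc aniso_one_one.disc_ne).sumQ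
    (ND_QB_of_disc aniso_one_one.disc_ne)) (m := 2) (by simp)).2 (by decide)
  let D := sumDec (QB (1 : ZMod 2) 1) (QB (1 : ZMod 2) 1)
  have hn : ND (sumQ (QB (1 : ZMod 2) 1) (QB (1 : ZMod 2) 1)) :=
    (ND_QB_of_disc aniso_one_one.disc_ne).sumQ (ND_QB_of_disc aniso_one_one.disc_ne)
  let E := (congrOG e one_ne_zero (by simpa using he)).symm.trans (toOG (QP_coe _ _)).symm
  let s : OG (sumQ (QB (1 : ZMod 2) 1) (QB (1 : ZMod 2) 1)) :=
    ⟨D.e.symm.trans D.swap.e, fun v => by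
      obtain ⟨x, y, rfl⟩ := D.surj v
      simp [D.he, add_comm]⟩
  have hs : ∀ x y, s.1 (D.e (x, y)) = D.e (y, x) := fun x y => by simp [s]
  obtain ⟨e3⟩ := exists_S3
  refine aux e3 (E.toMonoidHom.comp D.hom) (E.injective.comp D.hom_injective) (E s)
    (fun a b => ?_) fun g => ?_
  · rw [← map_inv, MonoidHom.comp_apply, MonoidHom.comp_apply, MulEquiv.coe_toMonoidHom,
      ← _root_.map_mul, ← _root_.map_mul, mul_inv_eq_iff_eq_mul.2]
    refine OG.ext' fun v => ?_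
    obtain ⟨x, y, rfl⟩ := D.surj v
    simp [hs]
  · obtain ⟨g, rfl⟩ := E.surjective g
    have key : ∀ u v : Fin 2 ⊕ Fin 2 → ZMod 2, sumQ (QB 1 1) (QB 1 1) u = 1 →
        sumQ (QB 1 1) (QB 1 1) v = 1 → sumQ (QB 1 1) (QB 1 1) (u + v) = 1 →
        (∀ a b : ZMod 2, ∃ x : Fin 2 → ZMod 2, a • u + b • v = Sum.elim (0 : Fin 2 → ZMod 2) x) ∨
          ∀ a b : ZMod 2, ∃ x : Fin 2 → ZMod 2,
            a • u + b • v = Sum.elim x (0 : Fin 2 → ZMod 2) := by
      simp only [sumQ_apply, QB_apply]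
      set_option synthInstance.maxSize 1000 in decide +kernel
    have h0 : ∀ x : Fin 2 → ZMod 2, D.e (x, 0) = x 0 • D.e (![1, 0], 0) + x 1 • D.e (![0, 1], 0) :=
      fun x => by
        rw [← map_smul, ← map_smul, ← map_add]
        congr 1
        revert x; decide
    rcases key (g.1 (D.e (![1, 0], 0))) (g.1 (D.e (![0, 1], 0))) (by simp [D.he, QB_apply])
      (by simp [D.he, QB_apply]) (by
        rw [← map_add, ← map_add, OG.map_Q, Prod.mk_add_mk, D.he]; decide) with h | h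
    · obtain ⟨k, hk⟩ := D.exists_hom hn (s * g) fun x => by
        obtain ⟨y, hy⟩ := h (x 0) (x 1)
        refine ⟨y, ?_⟩
        rw [OG.mul_apply, h0, map_add, map_smul, map_smul, hy, ← sumDec_e, hs]
      exact Or.inl ⟨k, (congrArg E hk).trans (E.map_mul _ _)⟩
    · obtain ⟨k, hk⟩ := D.exists_hom hn g fun x => by
        obtain ⟨y, hy⟩ := h (x 0) (x 1)
        exact ⟨y, by rw [h0, map_add, map_smul, map_smul, hy, sumDec_e]⟩
      exact Or.inr ⟨k, congrArg E hk⟩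

end Cfsg.Agent.S2566
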