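import Cfsg.Statements.S2548
import Cfsg.Agent.H7.Stein7
import Cfsg.Agent.H7.Stein8
import Cfsg.Agent.S2566

set_option autoImplicit false
open Cfsg

namespace Cfsg.Agent.S2548

open Matrix in
theorem exists_hom {F K : Type*} [Field F] [Field K] (σ : F ≃+* K) (m : ℕ) :
    ∃ f : Cfsg.isometryGroup F (Cfsg.quadFormPlus m F) →* Cfsg.isometryGroup K (Cfsg.quadFormPlus m K),
      ∀ g, (f g).1.1 = g.1.1.map σ := by
  have hq : ∀ v : Fin m ⊕ Fin m → F, Cfsg.quadFormPlus m K (σ ∘ v) = σ (Cfsg.quadFormPlus m F v) :=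
    fun v => by simp [Cfsg.quadFormPlus]
  refine ⟨((Matrix.GeneralLinearGroup.map σ.toRingHom).comp (Subgroup.subtype _)).codRestrict _
    fun g => CfsgH8.mem_isometryGroup.2 fun v => ?_, fun g => rfl⟩
  obtain ⟨v, rfl⟩ := σ.surjective.comp_left v
  have : (g.1.1.map σ) *ᵥ (σ ∘ v) = σ ∘ (g.1.1 *ᵥ v) := by
    ext i
    exact (RingHom.map_mulVec σ.toRingHom g.1.1 v i).symm
  change Cfsg.quadFormPlus m K ((g.1.1.map σ) *ᵥ (σ ∘ v)) = Cfsg.quadFormPlus m K (σ ∘ v)
  rw [this, hq, hq, CfsgH8.mem_isometryGroup.1 g.2]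

theorem exists_equiv {F K : Type*} [Field F] [Field K] (σ : F ≃+* K) (m : ℕ) :
    Nonempty (Cfsg.isometryGroup F (Cfsg.quadFormPlus m F) ≃*
      Cfsg.isometryGroup K (Cfsg.quadFormPlus m K)) := by
  obtain ⟨f, hf⟩ := exists_hom σ m
  obtain ⟨f', hf'⟩ := exists_hom σ.symm m
  refine ⟨MonoidHom.toMulEquiv f f' ?_ ?_⟩
  · ext g i j
    simp [hf, hf']
  · ext g i j
    simp [hf, hf']


/-- Let F be a finite field of characteristic p and consider the group PΩ⁺_{2m}(F) of the hyperbolic quadratic form Σ x_i y_i with m ≥ 1, where Ω denotes the commutator subgroup of the full isometry group. This group has an irreducible complex character χ whose degree equals the order of a Sylow p-subgroup (equal to q^(m(m−1)) when #F = q, except in the degenerate case m = 2, q = 2, where this commutator subgroup has order 18 and its Sylow 2-subgroups have order 2) and whose restriction to any Sylow p-subgroup P is the regular character of P: χ vanishes on the non-identity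 elements of P. (This is the Steinberg character.) -/
theorem result {F : Type*} [Field F] [Fintype F] (p : ℕ) [Fact p.Prime] [CharP F p] (m : ℕ) (hm : 1 ≤ m) : ∃ χ : Cfsg.POmega F (Cfsg.quadFormPlus m F) → ℂ, Cfsg.IsIrrCharacter (Cfsg.POmega F (Cfsg.quadFormPlus m F)) χ ∧ ∀ P : Sylow p (Cfsg.POmega F (Cfsg.quadFormPlus m F)), χ 1 = Nat.card P ∧ ∀ x : Cfsg.POmega F (Cfsg.quadFormPlus m F), x ∈ P → x ≠ 1 → χ x = 0 := by
  by_cases h : Fintype.card F ≠ 2 ∨ m ≠ 2
  · exact CfsgH7.steinberg_O CfsgH8.ND_QH (CfsgH8.good_QP h) (CfsgH8.toOG (CfsgH8.QP_coe m F)) p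
  push Not at h
  obtain ⟨hF, rfl⟩ := h
  obtain rfl : p = 2 := by
    obtain ⟨k, -, hk⟩ := FiniteField.card F p
    have h1 : p ∣ 2 := by rw [← hF, hk]; exact dvd_pow_self p k.ne_zero
    exact (Nat.prime_dvd_prime_iff_eq Fact.out Nat.prime_two).1 h1
  obtain ⟨e⟩ := exists_equiv (ZMod.ringEquivOfPrime F Nat.prime_two hF) 2
  obtain ⟨-, A, B, ⟨eA⟩, ⟨eB⟩, hAB, hc, hi, g, hg⟩ := Cfsg.Agent.S2566.result
  refine CfsgH7.hasSt_wreath (A := A.map e.toMonoidHom) (B := B.map e.toMonoidHom)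
    ((e.subgroupMap A).symm.trans eA) ((e.subgroupMap B).symm.trans eB) ?_ ?_ ?_ (e g) ?_
  · rw [← Subgroup.map_inf _ _ _ e.injective, hAB, Subgroup.map_bot]
  · rintro _ ⟨a, ha, rfl⟩ _ ⟨b, hb, rfl⟩
    rw [← map_mul, ← map_mul, hc a ha b hb]
  · rw [← Subgroup.map_sup, Subgroup.index_map_of_bijective e.bijective, hi]
  · rw [← hg, Subgroup.map_map, Subgroup.map_map]
    congr 1
    ext x : 1
    simp

end Cfsg.Agent.S2548
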