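import Cfsg.Statements.S2550
import Cfsg.Agent.H5.L34

set_option autoImplicit false
open Cfsg

namespace Cfsg.Agent.S2550

open CfsgH5 MulAction

theorem no6 : allC ops24 (fun p => force (mul24 p p) fun a => bor (Nat.beq a ops24.one)
    (force (mul24 a p) fun b => bor (Nat.beq b ops24.one) (bnot (Nat.beq (mul24 b b) ops24.one))))
    c34 ops24.one = true := by decide +kernel

/-- an element of order six -/
def A : Matrix.SpecialLinearGroup (Fin 4) (ZMod 2) :=
  ⟨!![0, 1, 0, 0; 0, 0, 1, 0; 1, 0, 0, 0; 1, 0, 0, 1], by decide +kernel⟩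

theorem card_center (F : Type*) [Field F] [Fintype F] (hF : Fintype.card F = 2) :
    Nat.card (Subgroup.center (Matrix.SpecialLinearGroup (Fin 4) F)) = 1 := by
  rw [card_center_SL_of_dvd 4 (by rw [hF]; decide), hF]

/-- Let F be a field with 2 elements and K a field with 4 elements. PSL_4(F) and PSL_3(K) have the same order (20160) but are not isomorphic. -/
theorem result {F K : Type*} [Field F] [Fintype F] [Field K] [Fintype K] (hF : Fintype.card F = 2) (hK : Fintype.card K = 4) : Nat.card (Matrix.ProjectiveSpecialLinearGroup (Fin 4) F) = Nat.card (Matrix.ProjectiveSpecialLinearGroup (Fin 3) K) ∧ ¬ Nonempty (Matrix.ProjectiveSpecialLinearGroup (Fin 4) F ≃* Matrix.ProjectiveSpecialLinearGroup (Fin 3) K) := by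
  obtain ⟨f, hf, hr⟩ := exists_L34 K hK
  constructor
  · have h1 := Subgroup.card_eq_card_quotient_mul_card_subgroup
      (Subgroup.center (Matrix.SpecialLinearGroup (Fin 4) F))
    have h2 := card_SL_field (F := F) 4
    rw [hF, show ∏ i : Fin 4, (2 ^ 4 - 2 ^ (i : ℕ)) = 20160 by decide] at h2
    rw [card_center F hF] at h1
    rw [CF24.card_of_range f hf c34_valid c34_check hr, show ordC ops24 c34 = 20160 by decide +kernel]
    rw [mul_one] at h1
    exact h1.symm.trans (by omega)
  · rintro ⟨e⟩
    obtain ⟨e0⟩ := nonempty_equiv_zmod 2 hF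
    let g := (f.comp ((pslEquiv e0 4).symm.trans e).toMonoidHom).comp (QuotientGroup.mk' _)
    have hg : Function.Injective g := by
      refine (hf.comp (MulEquiv.injective _)).comp ?_
      rw [← MonoidHom.ker_eq_bot_iff, QuotientGroup.ker_mk']
      exact Subgroup.card_eq_one.1 (card_center _ (ZMod.card 2))
    have := CF24.allC_one c34_valid c34_check _ no6 (g A) (hr ▸ ⟨_, rfl⟩)
    have m : ∀ a b, mul24 (CF24.code a) (CF24.code b) = CF24.code (a * b) := fun a b =>
      (CF24.code_mul a b).symm
    simp only [force_eq, m, ← CF24.code_one, bor_eq, Bool.or_eq_true, beq_true_iff, bnot_eq,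
      Bool.not_eq_true', Bool.eq_false_iff, ne_eq, CF24.code_inj.eq_iff, ← map_mul,
      map_eq_one_iff g hg] at this
    revert this
    decide +kernel

end Cfsg.Agent.S2550
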