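import Cfsg.Statements.S2552
import Cfsg.Agent.H1.GL1

set_option autoImplicit false
open Cfsg

namespace Cfsg.Agent.S2552

open CfsgH1 Subgroup
open scoped commutatorElement
set_option maxHeartbeats 400000

open Matrix Module

/-- Let F be a finite field and n ≥ 1. For every k, the special linear group SL_n(F) acts transitively on the set of k-dimensional subspaces of F^n: any two subspaces of the same dimension are carried onto each other by some matrix of determinant 1. -/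
theorem result {F : Type*} [Field F] [Fintype F] (n : ℕ) (hn : 1 ≤ n) (U₁ U₂ : Submodule F (Fin n → F)) (h : Module.finrank F U₁ = Module.finrank F U₂) : ∃ g : Matrix.SpecialLinearGroup (Fin n) F, U₁.map ((Matrix.SpecialLinearGroup.toLin' g : (Fin n → F) ≃ₗ[F] (Fin n → F)) : (Fin n → F) →ₗ[F] (Fin n → F)) = U₂ := by
  classical
  obtain ⟨W₁, h₁⟩ := U₁.exists_isCompl
  obtain ⟨W₂, h₂⟩ := U₂.exists_isCompl
  have hW : finrank F W₁ = finrank F W₂ := by
    have a := Submodule.finrank_add_eq_of_isCompl h₁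
    have b := Submodule.finrank_add_eq_of_isCompl h₂
    omega
  let e1 : U₁ ≃ₗ[F] U₂ := LinearEquiv.ofFinrankEq _ _ h
  let e2 : W₁ ≃ₗ[F] W₂ := LinearEquiv.ofFinrankEq _ _ hW
  let e : (Fin n → F) ≃ₗ[F] (Fin n → F) :=
    (Submodule.prodEquivOfIsCompl U₁ W₁ h₁).symm ≪≫ₗ (e1.prodCongr e2) ≪≫ₗ
      Submodule.prodEquivOfIsCompl U₂ W₂ h₂
  have he : ∀ v ∈ U₁, e v ∈ U₂ := by
    intro v hv
    have : (Submodule.prodEquivOfIsCompl U₁ W₁ h₁).symm v = (⟨v, hv⟩, 0) :=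
      Submodule.prodEquivOfIsCompl_symm_apply_left U₁ W₁ h₁ ⟨v, hv⟩
    simp [e, this]
  -- matrix of `e`
  let A : Matrix (Fin n) (Fin n) F := LinearMap.toMatrix' (e : (Fin n → F) →ₗ[F] (Fin n → F))
  have hA : ∀ v, A *ᵥ v = e v := fun v => by
    simp [A, ← Matrix.toLin'_apply]
  have hdet : A.det ≠ 0 := by
    rw [LinearMap.det_toMatrix']
    exact (LinearEquiv.isUnit_det' e).ne_zero
  -- dilation stabilising `U₂`
  obtain ⟨v, φ, hφ, hv⟩ : ∃ v φ : Fin n → F, φ ⬝ᵥ v = 1 ∧ (v ∈ U₂ ∨ U₂ = ⊥) := by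
    by_cases hU : U₂ = ⊥
    · refine ⟨Pi.single ⟨0, hn⟩ 1, Pi.single ⟨0, hn⟩ 1, by simp, Or.inr hU⟩
    · obtain ⟨v, hv, hv0⟩ := Submodule.exists_mem_ne_zero_of_ne_bot hU
      obtain ⟨x, hx⟩ := CfsgH7.exists_dot_ne_zero hv0
      exact ⟨v, x, by rw [dotProduct_comm]; exact hx, Or.inl hv⟩
  let D : Matrix (Fin n) (Fin n) F := 1 + vecMulVec ((A.det⁻¹ - 1) • v) φ
  have hD : D.det = A.det⁻¹ := det_dil v φ hφ _
  have hDU : ∀ w ∈ U₂, D *ᵥ w ∈ U₂ := by
    intro w hw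
    rcases hv with hv | hv
    · simp only [D, add_mulVec, one_mulVec, CfsgH7.vecMulVec_mulVec']
      exact U₂.add_mem hw (U₂.smul_mem _ (U₂.smul_mem _ hv))
    · rw [hv] at hw ⊢
      rw [(Submodule.mem_bot F).1 hw]; simp
  refine ⟨⟨D * A, by rw [det_mul, hD, inv_mul_cancel₀ hdet]⟩, ?_⟩
  apply Submodule.eq_of_le_of_finrank_le
  · rintro _ ⟨w, hw, rfl⟩
    change (D * A) *ᵥ w ∈ U₂
    rw [← mulVec_mulVec, hA]
    exact hDU _ (he w hw)
  · rw [LinearEquiv.finrank_map_eq, h]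

end Cfsg.Agent.S2552
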