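import Cfsg.Statements.S2561
import Cfsg.Agent.H8.F2

set_option autoImplicit false
open Cfsg

namespace Cfsg.Agent.S2561

open CfsgH8 QuadraticMap

lemma card_aux (m : ℕ) (P : ((Fin m ⊕ Fin m → ZMod 2) → ZMod 2) → Prop) :
    Nat.card {q : (Fin m ⊕ Fin m → ZMod 2) → ZMod 2 // (∀ u v, q (u + v) = q u + q v +
      (QP m (ZMod 2) (u + v) - QP m (ZMod 2) u - QP m (ZMod 2) v)) ∧ P q} =
    Nat.card {w // P fun v => QP m (ZMod 2) v + polar (QP m (ZMod 2)) v w} := by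
  refine (Nat.card_eq_of_bijective (fun w => ⟨_, fun u v => by
    rw [Q_add, polar_add_left]; ring, w.2⟩) ⟨fun w w' h => ?_, ?_⟩).symm
  · refine Subtype.ext (ND_QH.ext fun v => ?_)
    simpa [pcomm v] using congrFun (congrArg Subtype.val h) v
  · rintro ⟨q, hq, h⟩
    obtain ⟨Q', rfl, h1⟩ := exists_quad_of_polar _ q hq
    obtain ⟨w, hw⟩ := exists_shift ND_QH h1
    exact ⟨⟨w, funext hw ▸ h⟩, Subtype.ext (funext hw).symm⟩

lemma shift (m : ℕ) (w : Fin m ⊕ Fin m → ZMod 2) : ∃ Q' : QuadraticForm (ZMod 2) (Fin m ⊕ Fin m → ZMod 2),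
    (∀ v, QP m (ZMod 2) v + polar (QP m (ZMod 2)) v w = Q' v) ∧ ND Q' ∧
      gs Q' = psi (QP m (ZMod 2) w) * 2 ^ m := by
  obtain ⟨Q', h1, h2⟩ := exists_quad_of_polar (QP m (ZMod 2))
    (fun v => QP m (ZMod 2) v + polar (QP m (ZMod 2)) v w) fun u v => by
      rw [Q_add, polar_add_left]; ring
  exact ⟨Q', fun v => (congrFun h1 v).symm, ND_QH.of_polar_eq h2, gs_QP m ▸ gs_shift (congrFun h1)⟩

/-- Fix the non-singular alternating form on the 2m-dimensional space over the field of two elements obtained by polarizing the plus-type form Σ xᵢyᵢ (m ≥ 1). The functions q on the space with q(u + v) = q(u) + q(v) + f(u, v) (the quadratic forms polarizing to f) number 2^(2m); each is equivalent under an invertible linear map either to the plus-type form or to the minus-type form Σ xᵢyᵢ + (z₁² + z₁z₂ + z₂²); and those of plus type number 2^(2m−1) + 2^(m−1), those of minus type 2^(2m−1)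 − 2^(m−1). -/
theorem result (m : ℕ) (hm : 1 ≤ m) :
    Nat.card {q : (Fin m ⊕ Fin m → ZMod 2) → ZMod 2 // (∀ u v : (Fin m ⊕ Fin m → ZMod 2), q (u + v) = q u + q v + (Cfsg.quadFormPlus m (ZMod 2) (u + v) - Cfsg.quadFormPlus m (ZMod 2) u - Cfsg.quadFormPlus m (ZMod 2) v))} = 2 ^ (2 * m) ∧
    (∀ q : (Fin m ⊕ Fin m → ZMod 2) → ZMod 2, (∀ u v : (Fin m ⊕ Fin m → ZMod 2), q (u + v) = q u + q v + (Cfsg.quadFormPlus m (ZMod 2) (u + v) - Cfsg.quadFormPlus m (ZMod 2) u - Cfsg.quadFormPlus m (ZMod 2) v)) →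
      (∃ g : (Fin m ⊕ Fin m → ZMod 2) ≃ₗ[ZMod 2] (Fin m ⊕ Fin m → ZMod 2), ∀ v, q v = Cfsg.quadFormPlus m (ZMod 2) (g v)) ∨
      (∃ g : (Fin m ⊕ Fin m → ZMod 2) ≃ₗ[ZMod 2] ((Fin (m - 1) ⊕ Fin (m - 1)) ⊕ Fin 2 → ZMod 2), ∀ v, q v = Cfsg.quadFormMinus (m - 1) (ZMod 2) 1 1 (g v))) ∧
    Nat.card {q : (Fin m ⊕ Fin m → ZMod 2) → ZMod 2 // (∀ u v : (Fin m ⊕ Fin m → ZMod 2), q (u + v) = q u + q v + (Cfsg.quadFormPlus m (ZMod 2) (u + v) - Cfsg.quadFormPlus m (ZMod 2) u - Cfsg.quadFormPlus m (ZMod 2) v)) ∧ ∃ g : (Fin m ⊕ Fin m → ZMod 2) ≃ₗ[ZMod 2] (Fin m ⊕ Fin m → ZMod 2), ∀ v, q v = Cfsg.quadFormPlus m (ZMod 2) (g v)} = 2 ^ (2 * m - 1) + 2 ^ (m - 1) ∧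
    Nat.card {q : (Fin m ⊕ Fin m → ZMod 2) → ZMod 2 // (∀ u v : (Fin m ⊕ Fin m → ZMod 2), q (u + v) = q u + q v + (Cfsg.quadFormPlus m (ZMod 2) (u + v) - Cfsg.quadFormPlus m (ZMod 2) u - Cfsg.quadFormPlus m (ZMod 2) v)) ∧ ∃ g : (Fin m ⊕ Fin m → ZMod 2) ≃ₗ[ZMod 2] ((Fin (m - 1) ⊕ Fin (m - 1)) ⊕ Fin 2 → ZMod 2), ∀ v, q v = Cfsg.quadFormMinus (m - 1) (ZMod 2) 1 1 (g v)} = 2 ^ (2 * m - 1) - 2 ^ (m - 1) := by
  simp only [← QP_coe, ← QM_coe]
  obtain ⟨m, rfl⟩ : ∃ k, m = k + 1 := ⟨m - 1, by omega⟩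
  have h0 := card_zero_eq (QP (m + 1) (ZMod 2))
  have hc : Fintype.card (Fin (m + 1) ⊕ Fin (m + 1) → ZMod 2) = 2 * 2 ^ (2 * (m + 1) - 1) := by
    simp only [Fintype.card_fun, ZMod.card, Fintype.card_sum, Fintype.card_fin]
    rw [← pow_succ']; congr 1; omega
  rw [gs_QP, hc] at h0
  have h1 : Nat.card {v // QP (m + 1) (ZMod 2) v = 0} = 2 ^ (2 * (m + 1) - 1) + 2 ^ m := by
    zify at h0 ⊢
    rw [pow_succ] at h0
    omega
  have h2 : ∀ a : ZMod 2, (0 < psi a * 2 ^ (m + 1) ↔ a = 0) ∧ (psi a * 2 ^ (m + 1) < 0 ↔ ¬ a = 0) :=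
    fun a => by
    have : (0 : ℤ) < 2 ^ (m + 1) := by positivity
    unfold psi
    split_ifs with h <;> simp [h]
  refine ⟨?_, fun q hq => ?_, ?_, ?_⟩
  · have := card_aux (m + 1) fun _ => True
    simp only [and_true] at this
    rw [this]
    simp [two_mul]
  · obtain ⟨Q', rfl, h3⟩ := exists_quad_of_polar _ q hq
    exact (gs_eq_or (ND_QH.of_polar_eq h3) (m := m + 1) (by simp; ring)).imp
      (fun h => h.1.symm.imp fun _ h v => (h v).symm) fun h => h.2.1.symm.imp fun _ h v => (h v).symm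
  · rw [card_aux, Nat.add_sub_cancel, ← h1]
    refine Nat.card_congr (Equiv.subtypeEquivRight fun w => ?_)
    obtain ⟨Q', h3, h4, h5⟩ := shift (m + 1) w
    simp only [h3]
    rw [← (h2 _).1, ← h5, ← iso_QP_iff_gs h4 (m := m + 1) (by simp; ring)]
    exact ⟨fun ⟨g, h⟩ => Iso.symm ⟨g, fun v => (h v).symm⟩,
      fun h => h.symm.imp fun _ h v => (h v).symm⟩
  · rw [card_aux, Nat.add_sub_cancel]
    have : Nat.card {v // ¬ QP (m + 1) (ZMod 2) v = 0} = 2 ^ (2 * (m + 1) - 1) - 2 ^ m := by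
      rw [Nat.card_eq_fintype_card, Fintype.card_subtype_compl, ← Nat.card_eq_fintype_card (α := Subtype _),
        h1, hc]
      omega
    rw [← this]
    refine Nat.card_congr (Equiv.subtypeEquivRight fun w => ?_)
    obtain ⟨Q', h3, h4, h5⟩ := shift (m + 1) w
    simp only [h3]
    rw [← (h2 _).2, ← h5, ← iso_QM_iff_gs h4 (m := m) (by simp; ring)]
    exact ⟨fun ⟨g, h⟩ => Iso.symm ⟨g, fun v => (h v).symm⟩,
      fun h => h.symm.imp fun _ h v => (h v).symm⟩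

end Cfsg.Agent.S2561
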