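import Cfsg.Statements.S2563
import Cfsg.Agent.H8.SymO

set_option autoImplicit false
open Cfsg

namespace Cfsg.Agent.S2563

open CfsgH8

/-- For k ≥ 1 the symmetric group of degree 4k + 4 embeds in a full orthogonal group in dimension 4k + 2 over the field of two elements: in the isometry group of the plus-type form Σ xᵢyᵢ when k is odd, and in that of the minus-type form Σ xᵢyᵢ + (z₁² + z₁z₂ + z₂²) when k is even (through its action on even partitions of a (4k+4)-set, with the form 'half the size of a part, modulo 2'). -/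
theorem result (k : ℕ) (hk : 1 ≤ k) :
    (Odd k → ∃ φ : Equiv.Perm (Fin (4 * k + 4)) →* ↥(Cfsg.isometryGroup (ZMod 2) (Cfsg.quadFormPlus (2 * k + 1) (ZMod 2))), Function.Injective φ) ∧
    (Even k → ∃ φ : Equiv.Perm (Fin (4 * k + 4)) →* ↥(Cfsg.isometryGroup (ZMod 2) (Cfsg.quadFormMinus (2 * k) (ZMod 2) 1 1)), Function.Injective φ) := by
  obtain ⟨k, rfl⟩ : ∃ j, k = j + 1 := ⟨k - 1, by omega⟩
  obtain ⟨W, _, φ, h1, h2, h3, h4, -⟩ := exists_symO k
  refine ⟨fun hk => ?_, fun hk => ?_⟩
  · have : Even (k + 2) := by simpa [parity_simps] using hk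
    obtain ⟨e⟩ := ((iso_QP_iff_gs h2 (m := 2 * (k + 1) + 1) (by omega)).2 (by
      rw [this.neg_pow] at h4
      have : (0 : ℤ) < 4 ^ (k + 2) := by positivity
      omega)).symm.og
    exact ⟨(e.trans (toOG (QP_coe _ _)).symm).toMonoidHom.comp φ,
      (e.trans (toOG (QP_coe _ _)).symm).injective.comp h1⟩
  · have : Odd (k + 2) := by simpa [parity_simps] using hk
    obtain ⟨e⟩ := ((iso_QM_iff_gs h2 (m := 2 * (k + 1)) (by omega)).2 (by
      rw [this.neg_pow] at h4
      have : (0 : ℤ) < 4 ^ (k + 2) := by positivity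
      omega)).symm.og
    exact ⟨(e.trans (toOG (QM_coe _ _ _ _)).symm).toMonoidHom.comp φ,
      (e.trans (toOG (QM_coe _ _ _ _)).symm).injective.comp h1⟩

end Cfsg.Agent.S2563
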