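import Cfsg.Statements.S2564
import Cfsg.Agent.H8.F2

set_option autoImplicit false
open Cfsg

namespace Cfsg.Agent.S2564

open CfsgH8 QuadraticMap

/-- On the 2m-dimensional space over the field of two elements (m ≥ 1) let f be the alternating form obtained by polarizing the plus-type form Σ xᵢyᵢ, and let q be any quadratic form polarizing to f. For a vector w, the function q + f(·, w) again polarizes to f, and it is equivalent to q under an invertible linear map (that is, has the same type) if and only if q(w) = 0. -/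
theorem result (m : ℕ) (hm : 1 ≤ m) (q : (Fin m ⊕ Fin m → ZMod 2) → ZMod 2) (hq : (∀ u v : (Fin m ⊕ Fin m → ZMod 2), q (u + v) = q u + q v + (Cfsg.quadFormPlus m (ZMod 2) (u + v) - Cfsg.quadFormPlus m (ZMod 2) u - Cfsg.quadFormPlus m (ZMod 2) v))) (w : (Fin m ⊕ Fin m → ZMod 2)) :
    (∀ u v : (Fin m ⊕ Fin m → ZMod 2), (q (u + v) + (Cfsg.quadFormPlus m (ZMod 2) (u + v + w) - Cfsg.quadFormPlus m (ZMod 2) (u + v) - Cfsg.quadFormPlus m (ZMod 2) w)) =
        (q u + (Cfsg.quadFormPlus m (ZMod 2) (u + w) - Cfsg.quadFormPlus m (ZMod 2) u - Cfsg.quadFormPlus m (ZMod 2) w)) + (q v + (Cfsg.quadFormPlus m (ZMod 2) (v + w) - Cfsg.quadFormPlus m (ZMod 2) v - Cfsg.quadFormPlus m (ZMod 2) w)) +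
        (Cfsg.quadFormPlus m (ZMod 2) (u + v) - Cfsg.quadFormPlus m (ZMod 2) u - Cfsg.quadFormPlus m (ZMod 2) v)) ∧
    ((∃ g : (Fin m ⊕ Fin m → ZMod 2) ≃ₗ[ZMod 2] (Fin m ⊕ Fin m → ZMod 2), ∀ v, q v + (Cfsg.quadFormPlus m (ZMod 2) (v + w) - Cfsg.quadFormPlus m (ZMod 2) v - Cfsg.quadFormPlus m (ZMod 2) w) = q (g v)) ↔ q w = 0) := by
  rw [← QP_coe] at hq ⊢
  obtain ⟨Q', rfl, h1⟩ := exists_quad_of_polar _ q hq
  have hp : ∀ u v, QP m (ZMod 2) (u + v) - QP m (ZMod 2) u - QP m (ZMod 2) v = polar Q' u v :=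
    fun u v => (h1 u v).symm
  simp only [hp]
  have h2 : ∀ u v, Q' (u + v) + polar Q' (u + v) w =
      Q' u + polar Q' u w + (Q' v + polar Q' v w) + polar Q' u v := fun u v => by
    rw [Q_add, polar_add_left]; ring
  refine ⟨h2, ?_⟩
  obtain ⟨Q'', h3, h4⟩ := exists_quad_of_polar Q' (fun v => Q' v + polar Q' v w) h2
  have hn := ND_QH.of_polar_eq h1
  have h5 : gs Q'' = psi (Q' w) * gs Q' := gs_shift (congrFun h3)
  have h6 := iso_QP_iff_gs hn (m := m) (by simp; ring)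
  have h7 := iso_QP_iff_gs (hn.of_polar_eq h4) (m := m) (by simp; ring)
  refine ⟨fun ⟨g, hg⟩ => by_contra fun h => ?_, fun h => ?_⟩
  · have h8 : Iso Q'' Q' := ⟨g, fun v => by rw [← hg, h3]⟩
    rw [h8.gs_eq, (by decide : ∀ a : ZMod 2, a ≠ 0 → a = 1) _ h, psi_one] at h5
    rcases gs_eq_or hn (m := m) (by simp; ring) with h | h
    · have := h.2; have : (0 : ℤ) < 2 ^ m := by positivity
      omega
    · have := h.2.2; have : (0 : ℤ) < 2 ^ m := by positivity
      omega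
  · rw [h, psi_zero, one_mul] at h5
    have h8 : Iso Q'' Q' := by
      rcases gs_eq_or hn (m := m) (by simp; ring) with h | h
      · exact (h7.2 (h5 ▸ h6.1 h.1)).symm.trans h.1
      · rcases gs_eq_or (hn.of_polar_eq h4) (m := m) (by simp; ring) with h' | h'
        · exact h'.1.symm.trans (h6.2 (h5 ▸ h7.1 h'.1))
        · exact h'.2.1.symm.trans h.2.1
    obtain ⟨g, hg⟩ := h8
    exact ⟨g, fun v => by rw [hg, h3]⟩

end Cfsg.Agent.S2564
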