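import Cfsg.Statements.S2565
import Cfsg.Agent.H8.SymO

set_option autoImplicit false
open Cfsg

namespace Cfsg.Agent.S2565

open CfsgH8

/-- The commutator subgroup of the full orthogonal group of the plus-type form Σ xᵢyᵢ in dimension 6 over the field of two elements (the group Ω⁺₆(2), of index 2) is isomorphic to the alternating group of degree 8. -/
theorem result :
    (Cfsg.Omega (ZMod 2) (Cfsg.quadFormPlus 3 (ZMod 2))).index = 2 ∧
    Nonempty (↥(Cfsg.Omega (ZMod 2) (Cfsg.quadFormPlus 3 (ZMod 2))) ≃* alternatingGroup (Fin 8)) := by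
  obtain ⟨W, _, φ, h1, h2, h3, h4, h5⟩ := exists_symO 0
  obtain ⟨e⟩ := ((iso_QP_iff_gs h2 (m := 3) h3).2 (by omega)).symm.og
  let e' := ((MulEquiv.ofBijective φ ⟨h1, h5 rfl⟩).trans e).trans (toOG (QP_coe _ _)).symm
  have h : (alternatingGroup (Fin 8)).map e'.toMonoidHom =
      Cfsg.Omega (ZMod 2) (Cfsg.quadFormPlus 3 (ZMod 2)) := by
    rw [← alternatingGroup.commutator_perm_eq (by simp)]
    exact (map_commutator_eq _ _).trans (by rw [MonoidHom.range_eq_top.2 e'.surjective]; rfl)
  rw [← h]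
  exact ⟨(Subgroup.index_map_equiv _ e').trans alternatingGroup.index_eq_two,
    ⟨(e'.subgroupMap _).symm⟩⟩

end Cfsg.Agent.S2565
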