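import Cfsg.Statements.S2567

set_option autoImplicit false
open Cfsg

namespace Cfsg.Agent.S2567


/-- Lifting elements of prime order from PGL to GL: let F be a finite field with q elements, r a prime not dividing q − 1, and x an element of order r in GL_n(F) modulo its centre (the scalar matrices). Then x has exactly one preimage in GL_n(F) of order r. -/
theorem result {F : Type*} [Field F] [Fintype F] {q n r : ℕ} (hF : Fintype.card F = q) (hr : r.Prime) (hdiv : ¬ r ∣ q - 1) (x : GL (Fin n) F ⧸ Subgroup.center (GL (Fin n) F)) (hx : orderOf x = r) : ∃! g : GL (Fin n) F, (QuotientGroup.mk g : GL (Fin n) F ⧸ Subgroup.center (GL (Fin n) F)) = x ∧ orderOf g = r := by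
  classical
  haveI := Fact.mk hr
  have hZ : ∀ z ∈ Subgroup.center (GL (Fin n) F), z ^ (q - 1) = 1 := by
    intro z hz
    rw [Matrix.GeneralLinearGroup.center_eq_range_scalar] at hz
    obtain ⟨u, rfl⟩ := hz
    rw [← map_pow, ← hF, ← Fintype.card_units, pow_card_eq_one, map_one]
  have hcop : Nat.Coprime r (q - 1) := (Nat.Prime.coprime_iff_not_dvd hr).2 hdiv
  obtain ⟨g, rfl⟩ := QuotientGroup.mk_surjective x
  have hgr : g ^ r ∈ Subgroup.center (GL (Fin n) F) := by
    rw [← QuotientGroup.eq_one_iff, QuotientGroup.mk_pow, ← hx, pow_orderOf_eq_one]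
  have hx1 : (QuotientGroup.mk g : GL (Fin n) F ⧸ Subgroup.center (GL (Fin n) F)) ≠ 1 := by
    intro h
    rw [h, orderOf_one] at hx
    exact hr.one_lt.ne hx
  -- find k with r * k ≡ 1 mod (q-1)
  obtain ⟨k, hk⟩ : ∃ k : ℕ, r * k ≡ 1 [MOD (q - 1)] := by
    rcases Nat.eq_zero_or_pos (q - 1) with h0 | h0
    · exact absurd (h0 ▸ dvd_zero r) hdiv
    · exact ⟨r ^ (Nat.totient (q - 1) - 1), by
        rw [← pow_succ', Nat.sub_add_cancel (Nat.totient_pos.2 h0)]
        exact Nat.ModEq.pow_totient hcop⟩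
  have hroot : ∀ z ∈ Subgroup.center (GL (Fin n) F), (z ^ k) ^ r = z := by
    intro z hz
    rw [← pow_mul, mul_comm k r]
    have : z ^ (r * k) = z ^ 1 :=
      pow_eq_pow_iff_modEq.2 (hk.of_dvd (orderOf_dvd_of_pow_eq_one (hZ z hz)))
    rw [this, pow_one]
  have hw : (g ^ r) ^ k ∈ Subgroup.center (GL (Fin n) F) := Subgroup.pow_mem _ hgr k
  refine ⟨g * ((g ^ r) ^ k)⁻¹, ⟨?_, ?_⟩, ?_⟩
  · rw [QuotientGroup.mk_mul, QuotientGroup.mk_inv, (QuotientGroup.eq_one_iff _).2 hw]
    simp
  · apply orderOf_eq_prime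
    · have hc : Commute g (((g ^ r) ^ k)⁻¹) := by
        apply Commute.inv_right
        exact (Commute.refl g).pow_right r |>.pow_right k
      rw [hc.mul_pow, inv_pow, hroot _ hgr, mul_inv_cancel]
    · intro h
      apply hx1
      rw [mul_inv_eq_one] at h
      rw [QuotientGroup.eq_one_iff, h]
      exact hw
  · rintro g' ⟨h1, h2⟩
    rw [QuotientGroup.eq] at h1
    set z := g'⁻¹ * g with hz
    have hg : g = g' * z := by rw [hz]; group
    have hc : Commute g' z := (Subgroup.mem_center_iff.1 h1 g')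
    have h3 : g ^ r = z ^ r := by
      rw [hg, hc.mul_pow, ← h2, pow_orderOf_eq_one, one_mul]
    rw [h3, ← pow_mul, mul_comm r k, pow_mul, hroot z h1, hg]
    group

end Cfsg.Agent.S2567
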