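import Cfsg.Statements.S2568
import Cfsg.Agent.H1.OrdR

set_option autoImplicit false
open Cfsg

namespace Cfsg.Agent.S2568

open CfsgH1 Subgroup
open scoped commutatorElement
set_option maxHeartbeats 400000

open Matrix Module CfsgH7

/-- Number of conjugacy classes of elements of a given prime order r, coprime to the characteristic, in GL_n(q): if i is the multiplicative order of q modulo r and t = (r − 1)/i, the classes correspond to the non-zero t-tuples of natural numbers (a_1, …, a_t) with i(a_1 + ⋯ + a_t) ≤ n (a_j is the multiplicity of the j-th Frobenius orbit of nontrivial r-th roots of unity among the eigenvalues), so there are exactly C(⌊n/i⌋ + t, t) − 1 of them. -/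
theorem result {F : Type*} [Field F] [Fintype F] {p q : ℕ} [Fact p.Prime] [CharP F p] (hF : Fintype.card F = q) (n r i t : ℕ) (hr : r.Prime) (hrp : r ≠ p) (hi : i = orderOf (q : ZMod r)) (ht : t * i = r - 1) : Nat.card {C : ConjClasses (GL (Fin n) F) // ∃ g : GL (Fin n) F, ConjClasses.mk g = C ∧ orderOf g = r} = Nat.choose (n / i + t) t - 1 := by
  classical
  haveI := Fact.mk hr
  subst hF
  have hrF : (r : F) ≠ 0 := natCast_prime_ne_zero hr hrp
  obtain ⟨E, _, _, D, ζ, hτ, hζ⟩ := exists_fext F hrF
  let u : (ZMod r)ˣ := Units.mk0 _ (card_cast_ne_zero hr hrF)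
  have hu : orderOf u = i := by rw [hi, ← orderOf_units]; rfl
  have key : ∀ s : Multiset E, (∀ a ∈ s, a ^ r = 1) → (s.map D.τ = s ↔
      ∀ k : ZMod r, s.count (chi ζ ((u : ZMod r) * k)) = s.count (chi ζ k)) := fun s hs =>
    map_eq_iff_count hζ hs D.τ.injective _ u.mulLeft.surjective fun k => by
      rw [hτ, ← chi_mul hζ]; rfl
  have := card_classes_ordR D.ε hζ (Units.coeHom (Matrix (Fin n) (Fin n) F))
    Units.val_injective u (fun g h _ hc => (isConj_units_iff g h).2 hc)
    (fun g s hs h => (key s hs).1 h.map_τ) (fun s h1 hs h => by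
      obtain ⟨A, hA⟩ := D.exists_isDg ((key s hs).2 h) h1
      exact ⟨(hA.isUnit fun a ha h0 => by simpa [h0, hr.ne_zero] using hs a ha).unit, hA⟩)
  rw [this, hu, Fintype.card_fin, ← ht, Nat.mul_div_cancel _ (hu ▸ orderOf_pos u)]

end Cfsg.Agent.S2568
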