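import Cfsg.Statements.S2569
import Cfsg.Agent.H1.GL2

set_option autoImplicit false
open Cfsg

namespace Cfsg.Agent.S2569

open CfsgH1 Subgroup
open scoped commutatorElement
set_option maxHeartbeats 400000

open Matrix Module Polynomial

/-- In GL_n over a finite field of characteristic p, the conjugacy class of a semisimple element (an element of order prime to p) under the special linear group is its whole GL-conjugacy class: for every such x and every invertible g there is h of determinant one with h x h⁻¹ = g x g⁻¹. -/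
theorem result {F : Type*} [Field F] [Fintype F] {p : ℕ} [Fact p.Prime] [CharP F p] {n : ℕ} (x g : GL (Fin n) F) (hx : (orderOf x).Coprime p) : ∃ h : GL (Fin n) F, (h : Matrix (Fin n) (Fin n) F).det = 1 ∧ h * x * h⁻¹ = g * x * g⁻¹ := by
  classical
  rcases Nat.eq_zero_or_pos n with rfl | hn
  · exact ⟨g, by simp, rfl⟩
  haveI : Nonempty (Fin n) := ⟨⟨0, hn⟩⟩
  have hss : Module.End.IsSemisimple (toLin' (x : Matrix (Fin n) (Fin n) F)) := by
    apply Module.End.isSemisimple_of_squarefree_aeval_eq_zero (p := X ^ orderOf x - 1)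
    · apply Separable.squarefree
      have := separable_X_pow_sub_C (F := F) (n := orderOf x) 1 (by
        rw [Ne, CharP.cast_eq_zero_iff F p]
        intro h
        exact (Fact.out : p.Prime).one_lt.ne' (Nat.Coprime.eq_one_of_dvd hx.symm h)) one_ne_zero
      simpa using this
    · rw [CfsgH7.toLin'_aeval]
      simp [← Units.val_pow_eq_pow_val]
  obtain ⟨e, he, hd⟩ := exists_comm_det hss (g : Matrix (Fin n) (Fin n) F).det⁻¹
  have hg0 : (g : Matrix (Fin n) (Fin n) F).det ≠ 0 := (Matrix.isUnit_det_of_invertible _).ne_zero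
  let E : Matrix (Fin n) (Fin n) F := LinearMap.toMatrix' e
  have hE : E.det = (g : Matrix (Fin n) (Fin n) F).det⁻¹ := by rw [← hd, LinearMap.det_toMatrix']
  have hEx : (x : Matrix (Fin n) (Fin n) F) * E = E * x := by
    apply toLin'.injective
    rw [toLin'_mul, toLin'_mul, toLin'_toMatrix']
    exact he
  let E' : GL (Fin n) F := Matrix.GeneralLinearGroup.mkOfDetNeZero E (by rw [hE]; exact inv_ne_zero hg0)
  have hEx' : E' * x = x * E' := Units.ext hEx.symm
  refine ⟨g * E', ?_, ?_⟩
  · change ((g : Matrix (Fin n) (Fin n) F) * E).det = 1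
    rw [det_mul, hE, mul_inv_cancel₀ hg0]
  · rw [mul_assoc g, hEx']; group

end Cfsg.Agent.S2569
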