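import Cfsg.Statements.S2571
import Cfsg.Agent.H1.JType

set_option autoImplicit false
open Cfsg

namespace Cfsg.Agent.S2571

open CfsgH1 Subgroup
open scoped commutatorElement
set_option maxHeartbeats 400000

open Matrix Module

/-- Centraliser of a regular unipotent element in GL_n(q): if u is an invertible n × n matrix over the field with q elements, n ≥ 1, with (u − 1)^n = 0 and rank(u − 1) = n − 1 (a single unipotent Jordan block), then its centraliser in GL_n(q) has order (q − 1) q^(n−1). -/
theorem result {F : Type*} [Field F] [Fintype F] {q n : ℕ} (hF : Fintype.card F = q) (hn : 1 ≤ n) (u : GL (Fin n) F) (hnil : ((u : Matrix (Fin n) (Fin n) F) - 1) ^ n = 0) (hreg : ((u : Matrix (Fin n) (Fin n) F) - 1).rank = n - 1) : Nat.card ↥(Subgroup.centralizer ({u} : Set (GL (Fin n) F))) = (q - 1) * q ^ (n - 1) := by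
  classical
  subst hF
  rw [card_centralizer_of_jtype (κ := Unit) (d := fun _ => n) (fun _ => hn) (I := {n}) (by simp) u
    (isJType_regular (by simp) hn ⟨_, hnil⟩ hreg)]
  have m1 : mulJ (fun _ : Unit => n) n = 1 := by simp [mulJ]
  rw [Finset.prod_singleton, card_GL_eq, card_Fb, m1]
  simp [gamJ, m1, mul_comm]

end Cfsg.Agent.S2571
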