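import Cfsg.Statements.S2574
import Cfsg.Agent.H1.GL1
import Cfsg.Agent.H7.Symp

set_option autoImplicit false
open Cfsg

namespace Cfsg.Agent.S2574

open CfsgH1 Subgroup
open scoped commutatorElement
set_option maxHeartbeats 400000

open Matrix Module

/-- A regular unipotent element of the symplectic group has totally isotropic small invariant subspaces: over a finite field, if u ∈ Sp_2m(F) satisfies (u − 1)^(2m) = 0 and rank(u − 1) = 2m − 1, and W is a u-invariant subspace with 2 dim W ≤ 2m, then the alternating form vanishes identically on W. -/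
theorem result {F : Type*} [Field F] [Finite F] {m : ℕ} (u : Matrix.symplecticGroup (Fin m) F) (hnil : ((u : Matrix (Fin m ⊕ Fin m) (Fin m ⊕ Fin m) F) - 1) ^ (2 * m) = 0) (hreg : ((u : Matrix (Fin m ⊕ Fin m) (Fin m ⊕ Fin m) F) - 1).rank = 2 * m - 1) (W : Submodule F (Fin m ⊕ Fin m → F)) (hW : ∀ v ∈ W, (u : Matrix (Fin m ⊕ Fin m) (Fin m ⊕ Fin m) F).mulVec v ∈ W) (hdim : 2 * Module.finrank F W ≤ 2 * m) : ∀ v ∈ W, ∀ w ∈ W, Cfsg.sympForm m F v w = 0 := by
  classical
  set A : Matrix (Fin m ⊕ Fin m) (Fin m ⊕ Fin m) F := u.1 with hA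
  have hnil' : IsNilpotent (Matrix.toLin' (A - 1)) :=
    ⟨2 * m, by rw [← Matrix.toLin'_pow, hnil, map_zero]⟩
  have hk : finrank F (LinearMap.ker (Matrix.toLin' (A - 1))) ≤ 1 := by
    rw [CfsgH7.finrank_ker_toLin', hreg]; simp; omega
  let B : LinearMap.BilinForm F (Fin m ⊕ Fin m → F) := Matrix.toBilin' (J (Fin m) F)
  have hB : ∀ v w, B v w = Cfsg.sympForm m F v w := fun v w => by
    simp [B, Matrix.toBilin'_apply', Cfsg.sympForm]
  have hform := (CfsgH7.mem_Sp_iff_form A).1 u.2
  have hAinj : Function.Injective (Matrix.toLin' A) := by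
    have : IsUnit A := (Matrix.isUnit_iff_isUnit_det A).2 (SymplecticGroup.symplectic_det u.2)
    exact Matrix.mulVec_injective_iff_isUnit.2 this
  have hWmap : W.map (Matrix.toLin' A) = W := by
    apply Submodule.eq_of_le_of_finrank_le
    · rintro _ ⟨v, hv, rfl⟩
      exact hW v hv
    · rw [← (Submodule.equivMapOfInjective _ hAinj W).finrank_eq]
  let W' := B.orthogonal W
  have hW' : ∀ v ∈ W', A *ᵥ v ∈ W' := by
    intro v hv w hw
    rw [← hWmap] at hw
    obtain ⟨w', hw', rfl⟩ := hw
    have := hv w' hw'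
    rw [hB] at this ⊢
    rw [Matrix.toLin'_apply, hform, this]
  have hdim' : finrank F W ≤ finrank F W' := by
    have := B.finrank_add_finrank_orthogonal (W := W) (fun x y h => by
      rw [hB] at h ⊢
      rw [CfsgH7.sympForm_skew, h, neg_zero])
    simp at this
    change finrank F W ≤ finrank F (B.orthogonal W)
    omega
  have hle := le_of_regular hnil' hk W W' (fun v hv => by
    rw [Matrix.toLin'_apply, sub_mulVec, one_mulVec]
    exact W.sub_mem (hW v hv) hv) (fun v hv => by
    rw [Matrix.toLin'_apply, sub_mulVec, one_mulVec]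
    exact W'.sub_mem (hW' v hv) hv) hdim'
  intro v hv w hw
  rw [← hB]
  exact hle hw v hv

end Cfsg.Agent.S2574
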