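import Cfsg.Statements.S2575
import Cfsg.Agent.H7.Cyc

set_option autoImplicit false
open Cfsg

namespace Cfsg.Agent.S2575


/-- Which diagonal involutions of PGL_n(q) lie in PSL_n(q), q odd: for the diagonal matrix t with i entries −1 and n − i entries 1, some non-zero scalar multiple of t has determinant one if and only if i is even or the 2-part of q − 1 exceeds the 2-part of n (that is, −1 is an n-th power in the field exactly in the latter case). -/
theorem result {F : Type*} [Field F] [Fintype F] {q : ℕ} (hF : Fintype.card F = q) (hq : Odd q) {n : ℕ} (hn : 1 ≤ n) (i : ℕ) (hi : i ≤ n) : (∃ c : F, c ≠ 0 ∧ (c • Matrix.diagonal (fun j : Fin n => if (j : ℕ) < i then (-1 : F) else 1)).det = 1) ↔ (Even i ∨ padicValNat 2 n < padicValNat 2 (q - 1)) := by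
  classical
  have hq1 : 1 < q := hF ▸ Fintype.one_lt_card
  have hchar : (-1 : F) ≠ 1 := by
    intro h
    have h2 : ringChar F = 2 := by
      apply (CharP.ringChar_of_prime_eq_zero Nat.prime_two)
      have : (1 : F) + 1 = 0 := by linear_combination -h
      push_cast; linear_combination this
    have := FiniteField.even_card_of_char_two h2
    rw [hF] at this
    exact (Nat.not_even_iff_odd.2 hq) (Nat.even_iff.2 this)
  have hdet : (Matrix.diagonal (fun j : Fin n => if (j : ℕ) < i then (-1 : F) else 1)).det = (-1) ^ i := by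
    rw [Matrix.det_diagonal, Finset.prod_ite, Finset.prod_const, Finset.prod_const_one, mul_one]
    congr 1
    rw [Fin.card_filter_val_lt]
    omega
  simp only [Matrix.det_smul, hdet, Fintype.card_fin]
  rcases Nat.even_or_odd i with he | ho
  · simp only [he, true_or, iff_true]
    exact ⟨1, one_ne_zero, by rw [he.neg_one_pow]; simp⟩
  · have : ¬ Even i := Nat.not_even_iff_odd.2 ho
    simp only [this, false_or, ho.neg_one_pow]
    have h1 := CfsgH7.field_exists_pow_iff n (-1 : F) (by simp)
    rw [hF] at h1
    have h2 : (∃ c : F, c ≠ 0 ∧ c ^ n * (-1) = 1) ↔ (∃ c : F, c ≠ 0 ∧ c ^ n = -1) := by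
      refine exists_congr fun c => and_congr_right fun _ => ?_
      constructor
      · intro h; linear_combination -h
      · intro h; rw [h]; ring
    rw [h2, h1, neg_one_pow_eq_one_iff_even hchar]
    have hN : q - 1 ≠ 0 := by omega
    have hn0 : n ≠ 0 := by omega
    have hg : Nat.gcd (q - 1) n ≠ 0 := Nat.gcd_ne_zero_left hN
    have hd : (q - 1) / Nat.gcd (q - 1) n ≠ 0 :=
      (Nat.div_pos (Nat.le_of_dvd (by omega) (Nat.gcd_dvd_left _ _)) (Nat.pos_of_ne_zero hg)).ne'
    rw [even_iff_two_dvd, ← pow_one 2, padicValNat_dvd_iff_le hd, pow_one,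
      padicValNat.div_of_dvd (Nat.gcd_dvd_left _ _)]
    have h3 : padicValNat 2 (Nat.gcd (q - 1) n) = min (padicValNat 2 (q - 1)) (padicValNat 2 n) := by
      have := Nat.factorization_gcd hN hn0
      have h4 := congrArg (fun f => f 2) this
      simpa [Nat.factorization_def _ Nat.prime_two] using h4
    rw [h3]
    omega

end Cfsg.Agent.S2575
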