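import Cfsg.Statements.S2576
import Cfsg.Agent.H7.Cyc

set_option autoImplicit false
open Cfsg

namespace Cfsg.Agent.S2576


/-- Which involutions of PGL_2m(q) coming from a scalar of the quadratic extension field lie in PSL_2m(q), q odd: let μ generate the Sylow 2-subgroup of the multiplicative group of the field with q elements (μ has order the 2-part of q − 1) and let t be the block-diagonal matrix with m diagonal blocks [[0, 1], [μ, 0]] (so t² is the scalar μ and t is an involution modulo scalars). Then some non-zero scalar multiple of t has determinant one if and only if q ≡ 3 (mod 4) or the 2-part of q − 1 is less than the 2-part of 2m. -/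
theorem result {F : Type*} [Field F] [Fintype F] {q : ℕ} (hF : Fintype.card F = q) (hq : Odd q) {m : ℕ} (hm : 1 ≤ m) (μ : F) (hμ : orderOf μ = 2 ^ padicValNat 2 (q - 1)) : (∃ c : F, c ≠ 0 ∧ (c • Matrix.blockDiagonal (fun _ : Fin m => !![(0 : F), 1; μ, 0])).det = 1) ↔ (q % 4 = 3 ∨ padicValNat 2 (q - 1) < padicValNat 2 (2 * m)) := by
  classical
  have hq1 : 1 < q := hF ▸ Fintype.one_lt_card
  have hN : q - 1 ≠ 0 := by omega
  have hm0 : 2 * m ≠ 0 := by omega
  have hk1 : 1 ≤ padicValNat 2 (q - 1) := by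
    rw [← padicValNat_dvd_iff_le hN, pow_one]
    obtain ⟨t, rfl⟩ := hq
    exact ⟨t, by omega⟩
  have hμ0 : μ ≠ 0 := by
    rintro rfl
    rw [orderOf_zero] at hμ
    exact (pow_pos (by norm_num) _).ne hμ
  have hdet : (Matrix.blockDiagonal (fun _ : Fin m => !![(0 : F), 1; μ, 0])).det = (-μ) ^ m := by
    rw [Matrix.det_blockDiagonal]
    simp [Matrix.det_fin_two]
  simp only [Matrix.det_smul, hdet, Fintype.card_prod, Fintype.card_fin]
  have h1 := CfsgH7.field_exists_pow_iff (2 * m) (((-μ) ^ m)⁻¹) (by simp [hμ0])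
  rw [hF] at h1
  have h2 : (∃ c : F, c ≠ 0 ∧ c ^ (2 * m) * (-μ) ^ m = 1) ↔
      (∃ c : F, c ≠ 0 ∧ c ^ (2 * m) = ((-μ) ^ m)⁻¹) := by
    refine exists_congr fun c => and_congr_right fun _ => ?_
    have : (-μ) ^ m ≠ 0 := by simp [hμ0]
    constructor
    · intro h; exact eq_inv_of_mul_eq_one_left h
    · intro h; rw [h]; exact inv_mul_cancel₀ this
  rw [h2, h1, inv_pow, inv_eq_one, ← pow_mul]
  have hg : Nat.gcd (q - 1) (2 * m) ≠ 0 := Nat.gcd_ne_zero_left hN
  have hd : (q - 1) / Nat.gcd (q - 1) (2 * m) ≠ 0 :=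
    (Nat.div_pos (Nat.le_of_dvd (by omega) (Nat.gcd_dvd_left _ _)) (Nat.pos_of_ne_zero hg)).ne'
  have h3 : padicValNat 2 (Nat.gcd (q - 1) (2 * m)) =
      min (padicValNat 2 (q - 1)) (padicValNat 2 (2 * m)) := by
    have := Nat.factorization_gcd hN hm0
    have h4 := congrArg (fun f => f 2) this
    simpa [Nat.factorization_def _ Nat.prime_two] using h4
  have h5 : padicValNat 2 (2 * m) = padicValNat 2 m + 1 := by
    rw [padicValNat.mul (by norm_num) (by omega), padicValNat.self (by norm_num), add_comm]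
  set k := padicValNat 2 (q - 1) with hk
  have hμk : μ ^ (2 ^ (k - 1)) = -1 := by
    have h6 : (μ ^ (2 ^ (k - 1))) ^ 2 = 1 := by
      rw [← pow_mul, ← pow_succ, Nat.sub_add_cancel hk1, ← hμ, pow_orderOf_eq_one]
    rcases sq_eq_one_iff.1 h6 with h | h
    · exfalso
      have := orderOf_dvd_of_pow_eq_one h
      rw [hμ, Nat.pow_dvd_pow_iff_le_right (by norm_num)] at this
      omega
    · exact h
  rcases Nat.lt_or_ge k 2 with hk2 | hk2
  · have hk' : k = 1 := by omega
    rw [hk'] at hμk
    simp only [Nat.sub_self, pow_zero, pow_one] at hμk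
    rw [hμk]
    simp only [neg_neg, one_pow, true_iff]
    left
    have : ¬ 2 ^ 2 ∣ q - 1 := by
      rw [padicValNat_dvd_iff_le hN]; omega
    obtain ⟨t, rfl⟩ := hq
    omega
  · have hq4 : ¬ q % 4 = 3 := by
      have : 2 ^ 2 ∣ q - 1 := by
        rw [padicValNat_dvd_iff_le hN]; omega
      omega
    simp only [hq4, false_or]
    have hord : orderOf (-μ) = 2 ^ k := by
      have hk' : k = (k - 1) + 1 := by omega
      rw [hk']
      apply orderOf_eq_prime_pow
      · rw [neg_pow, hμk, Even.neg_one_pow]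
        · intro h
          rw [one_mul] at h
          have : μ ^ (2 ^ (k - 1)) = 1 := by rw [hμk, h]
          have := orderOf_dvd_of_pow_eq_one this
          rw [hμ, Nat.pow_dvd_pow_iff_le_right (by norm_num)] at this
          omega
        · exact (Nat.even_pow.2 ⟨even_two, by omega⟩)
      · rw [← hk', neg_pow, Even.neg_one_pow (Nat.even_pow.2 ⟨even_two, by omega⟩), one_mul, ← hμ,
          pow_orderOf_eq_one]
    rw [← orderOf_dvd_iff_pow_eq_one, hord, padicValNat_dvd_iff_le (mul_ne_zero (by omega) hd),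
      padicValNat.mul (by omega) hd, padicValNat.div_of_dvd (Nat.gcd_dvd_left _ _), h3, h5]
    omega

end Cfsg.Agent.S2576
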