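import Cfsg.Statements.S2578
import Cfsg.Agent.H1.JType

set_option autoImplicit false
open Cfsg

namespace Cfsg.Agent.S2578

open CfsgH1 Subgroup
open scoped commutatorElement
set_option maxHeartbeats 400000

open Matrix Module

/-- Regular unipotent classes of SL_n(q): for n ≥ 2 over the field with q elements, the matrices u of determinant one with (u − 1)^n = 0 and rank(u − 1) = n − 1 form a single GL_n(q)-class which splits into exactly gcd(n, q − 1) conjugacy classes of SL_n(q). -/
theorem result {F : Type*} [Field F] [Fintype F] {q : ℕ} (hF : Fintype.card F = q) {n : ℕ} (hn : 2 ≤ n) : Nat.card {C : ConjClasses (Matrix.SpecialLinearGroup (Fin n) F) // ∃ u : Matrix.SpecialLinearGroup (Fin n) F, ConjClasses.mk u = C ∧ ((u : Matrix (Fin n) (Fin n) F) - 1) ^ n = 0 ∧ ((u : Matrix (Fin n) (Fin n) F) - 1).rank = n - 1} = Nat.gcd n (q - 1) := by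
  classical
  subst hF
  obtain ⟨u, hu⟩ := exists_isJType (F := F) (ι := Fin n) {n} (by simp; omega) (by simp)
  have hdet : u.det = 1 := by
    simpa using det_smul_add_nilpotent hu.isNilpotent 1
  let u' : Matrix.SpecialLinearGroup (Fin n) F := ⟨u, hdet⟩
  haveI : Nonempty (Fin n) := ⟨⟨0, by omega⟩⟩
  rw [card_classes_split Matrix.SpecialLinearGroup.toGL Matrix.SpecialLinearGroup.toGL_injective
    Matrix.GeneralLinearGroup.det (by
      ext g
      rw [MonoidHom.mem_ker, Units.ext_iff]
      constructor
      · rintro ⟨s, rfl⟩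
        exact s.2
      · intro h
        exact ⟨⟨g, h⟩, Units.ext rfl⟩) u' _ (by
      intro s
      rw [CfsgH7.isConj_units_iff]
      constructor
      · intro h
        exact hu.isConj (isJType_regular (by simp) (by omega) ⟨_, h.1⟩ h.2)
      · intro h
        have := hu.of_isConj h
        exact ⟨by simpa using this.pow_sum, by simpa using this.2 1⟩),
    MonoidHom.range_eq_top.2 Matrix.GeneralLinearGroup.det_surjective, relIndex_top_right,
    ← Nat.card_eq_fintype_card, ← Nat.card_units, ← index_range_pow]
  congr 1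
  ext a
  constructor
  · rintro ⟨g, hg, rfl⟩
    obtain ⟨k, rfl⟩ : ∃ k, n = k + 1 := ⟨n - 1, by omega⟩
    have h1 : (g : Matrix (Fin (k + 1)) (Fin (k + 1)) F) * u = u * g :=
      congrArg Units.val (mem_centralizer_singleton_iff.1 hg)
    obtain ⟨c, hc⟩ := regular_commutant (n := k + 1) (by simp) hu.isNilpotent
      (by simpa using hu.2 1) (g := g) (by rw [mul_sub, sub_mul, h1]; simp)
    have h2 := det_sum_pow hu.isNilpotent c
    rw [← hc, Fintype.card_fin] at h2
    have h3 : c 0 ≠ 0 := by
      intro h
      rw [h, zero_pow (by omega)] at h2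
      exact (Matrix.isUnit_det_of_invertible _).ne_zero h2
    exact ⟨Units.mk0 _ h3, Units.ext h2.symm⟩
  · rintro ⟨c, rfl⟩
    refine ⟨Units.map (Matrix.scalar (Fin n) : F →+* _).toMonoidHom c, ?_, ?_⟩
    · rw [SetLike.mem_coe, mem_centralizer_singleton_iff]
      exact Units.ext (Matrix.scalar_commute _ (fun _ => Commute.all _ _) _).eq
    · ext
      simp

end Cfsg.Agent.S2578
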