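import Cfsg.Statements.S2579
import Cfsg.Agent.H1.GL1

set_option autoImplicit false
open Cfsg

namespace Cfsg.Agent.S2579

open CfsgH1 Subgroup
open scoped commutatorElement
set_option maxHeartbeats 400000

open Matrix Module

/-- In SL_n(F) with n ≥ 3, over a finite field F, any two transvections (matrices t with t − 1 of rank one and square zero) are conjugate by an element of SL_n(F). -/
theorem result {F : Type*} [Field F] [Finite F] {n : ℕ} (hn : 3 ≤ n) (s t : Matrix.SpecialLinearGroup (Fin n) F) (hs : Cfsg.IsTransvection (s : Matrix (Fin n) (Fin n) F)) (ht : Cfsg.IsTransvection (t : Matrix (Fin n) (Fin n) F)) : IsConj s t := by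
  classical
  obtain ⟨g, hg⟩ := CfsgH7.isConj_of_sq_zero _ _ hs.2 ht.2 (hs.1.trans ht.1.symm)
  obtain ⟨v, φ, hvφ⟩ := CfsgH7.exists_vecMulVec_of_rank_le_one _ ht.1.le
  -- a dilation commuting with `t`
  obtain ⟨w, ψ, h1, h2, h3⟩ : ∃ w ψ : Fin n → F, ψ ⬝ᵥ w = 1 ∧ φ ⬝ᵥ w = 0 ∧ ψ ⬝ᵥ v = 0 := by
    let K : Submodule F (Fin n → F) := LinearMap.ker (dotProductBilin F F φ)
    have hK : 2 ≤ finrank F K := by
      have a := (dotProductBilin F F φ).finrank_range_add_finrank_ker
      have b : finrank F (LinearMap.range (dotProductBilin F F φ)) ≤ 1 := by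
        simpa using Submodule.finrank_le (LinearMap.range (dotProductBilin F F φ))
      simp only [finrank_fintype_fun_eq_card, Fintype.card_fin] at a
      change 2 ≤ finrank F (LinearMap.ker (dotProductBilin F F φ))
      omega
    have hnle : ¬ K ≤ Submodule.span F {v} := by
      intro h
      have a := Submodule.finrank_mono h
      have b : finrank F (Submodule.span F {v}) ≤ 1 := by
        simpa using finrank_span_le_card ({v} : Set (Fin n → F))
      omega
    obtain ⟨w, hwK, hwv⟩ := Set.not_subset.1 hnle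
    obtain ⟨f, hf1, hf2⟩ := Submodule.exists_dual_map_eq_bot_of_notMem hwv inferInstance
    let ψ : Fin n → F := fun i => (f w)⁻¹ * f (Pi.single i 1)
    have hψ : ∀ x, ψ ⬝ᵥ x = (f w)⁻¹ * f x := by
      intro x
      conv_rhs => rw [pi_eq_sum_univ' x]
      simp [ψ, dotProduct, Finset.mul_sum, mul_comm, mul_left_comm, mul_assoc]
    refine ⟨w, ψ, by rw [hψ, inv_mul_cancel₀ hf1], hwK, ?_⟩
    have : f v ∈ Submodule.map f (Submodule.span F {v}) :=
      Submodule.mem_map_of_mem (Submodule.mem_span_singleton_self v)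
    rw [hf2] at this
    rw [hψ, (Submodule.mem_bot F).1 this, mul_zero]
  have hg0 : (g : Matrix (Fin n) (Fin n) F).det ≠ 0 := (Matrix.isUnit_det_of_invertible _).ne_zero
  let D : Matrix (Fin n) (Fin n) F := 1 + vecMulVec (((g : Matrix (Fin n) (Fin n) F).det⁻¹ - 1) • w) ψ
  have hD : D.det = (g : Matrix (Fin n) (Fin n) F).det⁻¹ := det_dil w ψ h1 _
  have ht' : (t : Matrix (Fin n) (Fin n) F) = 1 + vecMulVec v φ := by rw [← hvφ]; abel
  have hDt : D * t = t * D := by
    rw [ht', CfsgH7.tv_mul, CfsgH7.tv_mul, dotProduct_smul, h2, h3]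
    simp only [smul_zero, zero_smul, add_zero]
    abel
  rw [isConj_iff]
  let x : Matrix.SpecialLinearGroup (Fin n) F := ⟨D * g, by rw [det_mul, hD, inv_mul_cancel₀ hg0]⟩
  refine ⟨x, ?_⟩
  rw [mul_inv_eq_iff_eq_mul]
  apply Subtype.ext
  change D * g * s = t * (D * g)
  have : (g : Matrix (Fin n) (Fin n) F) * s = t * g := hg
  rw [mul_assoc, this, ← mul_assoc, hDt, mul_assoc]

end Cfsg.Agent.S2579
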