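import Cfsg.Statements.S2582
import Cfsg.Agent.H8.JOrth

set_option autoImplicit false
open Cfsg

namespace Cfsg.Agent.S2582

open CfsgH8 CfsgH1 Matrix

/-- Which unipotent Jordan types occur in the finite symplectic group: over a finite field, a unipotent matrix with Jordan block sizes d_1, …, d_t (sum 2m, all at least 1) is similar to an element of Sp_2m(F) if and only if every odd block size occurs an even number of times. -/
theorem result {F : Type*} [Field F] [Fintype F] {m t : ℕ} (d : Fin t → ℕ) (hd : ∀ k, 1 ≤ d k) (hsum : ∑ k, d k = 2 * m) : (∃ e : ((k : Fin t) × Fin (d k)) ≃ (Fin m ⊕ Fin m), ∃ A : Matrix.symplecticGroup (Fin m) F, IsConj (Matrix.reindex e e (Cfsg.jordanTypeMatrix d F)) (A : Matrix (Fin m ⊕ Fin m) (Fin m ⊕ Fin m) F)) ↔ ∀ j : ℕ, Odd j → Even (Finset.univ.filter (fun k : Fin t => d k = j)).card := by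
  rw [jordanTypeMatrix_eq]
  constructor
  · rintro ⟨e, A, h⟩ j hj
    have := sp_even_count A (((isJType_nilJ hd).reindex e).of_isConj h) hj
    rw [Multiset.count_map] at this
    simp only [eq_comm (a := j)] at this
    exact this
  · intro hp
    obtain ⟨H, h1, h3, h4⟩ := exists_invF_alt (F := F) hd hp
    obtain ⟨g, P, P', a1, a2, a3, -⟩ := exists_sp_model h1 h3 h4 hsum
    let e : JI d ≃ Fin m ⊕ Fin m := Fintype.equivOfCardEq (by rw [card_JI, hsum]; simp [two_mul])
    exact ⟨e, g, ((isJType_nilJ hd).reindex e).isConj (isJType_of_model hd a1 a2 a3)⟩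

end Cfsg.Agent.S2582
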