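import Cfsg.Statements.S2583
import Cfsg.Agent.H8.JOrth

set_option autoImplicit false
open Cfsg

namespace Cfsg.Agent.S2583

open CfsgH8 CfsgH1 Matrix QuadraticMap

/-- Which unipotent Jordan types occur in a finite orthogonal group in odd characteristic: over a finite field of odd order, a unipotent matrix with Jordan block sizes d_1, …, d_t (sum n, all at least 1) is similar to an isometry of some quadratic form on F^n with non-degenerate polar form if and only if every even block size occurs an even number of times. -/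
theorem result {F : Type*} [Field F] [Fintype F] (h2 : (2 : F) ≠ 0) {n t : ℕ} (d : Fin t → ℕ) (hd : ∀ k, 1 ≤ d k) (hsum : ∑ k, d k = n) : (∃ Q : QuadraticForm F (Fin n → F), (QuadraticMap.polarBilin Q).Nondegenerate ∧ ∃ e : ((k : Fin t) × Fin (d k)) ≃ Fin n, ∃ A : ↥(Cfsg.isometryGroup F ⇑Q), IsConj (Matrix.reindex e e (Cfsg.jordanTypeMatrix d F)) ((A : Matrix.GeneralLinearGroup (Fin n) F) : Matrix (Fin n) (Fin n) F)) ↔ ∀ j : ℕ, Even j → 0 < j → Even (Finset.univ.filter (fun k : Fin t => d k = j)).card := by
  rw [orth_model hsum]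
  constructor
  · rintro ⟨Q, hQ, h⟩ j hj h0
    obtain ⟨H, h1, h3, -, h4⟩ := exists_gram hQ
    exact InvF.even_mulJ_symm h2 hd (h4 _ h) h1 h3 hj h0
  · intro hp
    obtain ⟨H, h1, h3⟩ := exists_invF_symm h2 hd hp
    let Q : QuadraticForm F (JI d → F) := LinearMap.BilinMap.toQuadraticMap (Matrix.toBilin' H)
    have hQ : ∀ x, Q x = x ⬝ᵥ H *ᵥ x := fun x => by simp [Q, Matrix.toBilin'_apply']
    refine ⟨Q, ND.of_forall fun x hx => mulVec_injective_iff_isUnit.2 h3 ?_, fun v => by
      rw [hQ, hQ, dot_mul_mul, h1]⟩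
    rw [mulVec_zero, ← dotProduct_eq_zero_iff]
    intro y
    have := hx y
    simp only [polar, hQ, mulVec_add, add_dotProduct, dotProduct_add] at this
    rw [add_mulVec, add_dotProduct, mulVec_transpose, ← dotProduct_mulVec, dotProduct_comm]
    linear_combination this

end Cfsg.Agent.S2583
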