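import Cfsg.Statements.S2585
import Cfsg.Agent.H7.Symp
import Cfsg.Agent.H1.GL1

set_option autoImplicit false
open Cfsg

namespace Cfsg.Agent.S2585

open CfsgH1 Subgroup
open scoped commutatorElement
set_option maxHeartbeats 400000

open Matrix Module

/-- Over a finite field of characteristic two every element of the symplectic group is orthogonal for a suitable quadratic form: for each A in Sp_2m(F) there is a quadratic form Q on F^(2m) whose polar form is the alternating form defining Sp_2m(F) (so Q is non-degenerate) and which A preserves. Equivalently, for m ≥ 1, Sp_2m(F) is the union of the conjugates of its two orthogonal subgroups O⁺_2m(F) and O⁻_2m(F). -/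
theorem result {F : Type*} [Field F] [Fintype F] [CharP F 2] {m : ℕ} (A : Matrix.symplecticGroup (Fin m) F) : ∃ Q : QuadraticForm F (Fin m ⊕ Fin m → F), (∀ u v : Fin m ⊕ Fin m → F, QuadraticMap.polar ⇑Q u v = Cfsg.sympForm m F u v) ∧ ∀ v : Fin m ⊕ Fin m → F, Q ((A : Matrix (Fin m ⊕ Fin m) (Fin m ⊕ Fin m) F).mulVec v) = Q v := by
  classical
  set M : Matrix (Fin m ⊕ Fin m) (Fin m ⊕ Fin m) F := A.1 with hM
  have hform := (CfsgH7.mem_Sp_iff_form M).1 A.2
  let Q₀ : QuadraticForm F (Fin m ⊕ Fin m → F) :=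
    ∑ i : Fin m, QuadraticMap.proj (Sum.inl i) (Sum.inr i)
  have hQ₀ : ∀ u v, QuadraticMap.polar Q₀ u v = Cfsg.sympForm m F u v := by
    intro u v
    simp only [Q₀, QuadraticMap.polar, Cfsg.sympForm, QuadraticMap.sum_apply,
      QuadraticMap.proj_apply, J, fromBlocks_mulVec, dotProduct, Fintype.sum_sum_type,
      ← Finset.sum_sub_distrib, ← Finset.sum_add_distrib]
    refine Finset.sum_congr rfl fun i _ => ?_
    simp [neg_mulVec, CharTwo.neg_eq]
    ring
  haveI : ExpChar F 2 := ExpChar.prime Nat.prime_two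
  let s := (frobeniusEquiv F 2).symm
  have hs : ∀ x, s x ^ 2 = x := fun x => (frobeniusEquiv F 2).apply_symm_apply x
  have hs' : ∀ x, s (x ^ 2) = x := fun x => (frobeniusEquiv F 2).symm_apply_apply x
  let l : (Fin m ⊕ Fin m → F) →ₗ[F] F :=
    { toFun := fun v => s (Q₀ (M *ᵥ v) - Q₀ v)
      map_add' := by
        intro u v
        rw [← map_add, mulVec_add, QuadraticMap.map_add Q₀, QuadraticMap.map_add Q₀ u v, hQ₀, hQ₀,
          hform]
        congr 1; ring
      map_smul' := by
        intro a v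
        rw [mulVec_smul, QuadraticMap.map_smul, QuadraticMap.map_smul, ← smul_sub, smul_eq_mul,
          map_mul, ← sq, hs']
        rfl }
  have hl : l ∈ (LinearMap.ker (toLin' (M - 1))).dualAnnihilator := by
    rw [Submodule.mem_dualAnnihilator]
    intro v hv
    rw [LinearMap.mem_ker, toLin'_apply, sub_mulVec, one_mulVec, sub_eq_zero] at hv
    change s (Q₀ (M *ᵥ v) - Q₀ v) = 0
    rw [hv, sub_self, map_zero]
  rw [← LinearMap.range_dualMap_eq_dualAnnihilator_ker] at hl
  obtain ⟨μ, hμ⟩ := hl
  refine ⟨Q₀ + QuadraticMap.linMulLin μ μ, ?_, ?_⟩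
  · intro u v
    rw [QuadraticMap.coeFn_add, QuadraticMap.polar_add, hQ₀]
    simp only [QuadraticMap.polar, QuadraticMap.linMulLin_apply, map_add]
    have : (2 : F) = 0 := CharTwo.two_eq_zero
    linear_combination (μ u * μ v) * this
  · intro v
    have h1 : μ (M *ᵥ v) - μ v = s (Q₀ (M *ᵥ v) - Q₀ v) := by
      have := LinearMap.congr_fun hμ v
      rw [LinearMap.dualMap_apply, toLin'_apply, sub_mulVec, one_mulVec, map_sub] at this
      exact this
    have h2 := hs (Q₀ (M *ᵥ v) - Q₀ v)
    rw [← h1] at h2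
    simp only [QuadraticMap.add_apply, QuadraticMap.linMulLin_apply]
    have : (2 : F) = 0 := CharTwo.two_eq_zero
    linear_combination -h2 + (μ (M *ᵥ v) ^ 2 - μ (M *ᵥ v) * μ v) * this

end Cfsg.Agent.S2585
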