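import Cfsg.Statements.S2584
import Cfsg.Agent.H8.JOrth
import Cfsg.Agent.S2585

set_option autoImplicit false
open Cfsg

namespace Cfsg.Agent.S2584

open CfsgH8 CfsgH1 Matrix QuadraticMap

/-- Which unipotent Jordan types occur in a finite orthogonal group in characteristic two: over a finite field of characteristic 2 and in even dimension 2m, a unipotent matrix with Jordan block sizes d_1, …, d_t (sum 2m, all at least 1) is similar to an isometry of some quadratic form on F^(2m) with non-degenerate polar form if and only if every odd block size occurs an even number of times (the same condition as for the symplectic group, which contains these orthogonal groups). -/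
theorem result {F : Type*} [Field F] [Fintype F] [CharP F 2] {m t : ℕ} (d : Fin t → ℕ) (hd : ∀ k, 1 ≤ d k) (hsum : ∑ k, d k = 2 * m) : (∃ Q : QuadraticForm F (Fin (2 * m) → F), (QuadraticMap.polarBilin Q).Nondegenerate ∧ ∃ e : ((k : Fin t) × Fin (d k)) ≃ Fin (2 * m), ∃ A : ↥(Cfsg.isometryGroup F ⇑Q), IsConj (Matrix.reindex e e (Cfsg.jordanTypeMatrix d F)) ((A : Matrix.GeneralLinearGroup (Fin (2 * m)) F) : Matrix (Fin (2 * m)) (Fin (2 * m)) F)) ↔ ∀ j : ℕ, Odd j → Even (Finset.univ.filter (fun k : Fin t => d k = j)).card := by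
  rw [orth_model hsum]
  constructor
  · rintro ⟨Q, hQ, h⟩ j hj
    obtain ⟨H, h1, -, h3, h4⟩ := exists_gram hQ
    exact InvF.even_mulJ hd (h4 _ h) h1
      (fun v => by rw [h3, polar_self', CharTwo.two_eq_zero, zero_mul]) hj
  · intro hp
    obtain ⟨H, h1, h3, h4⟩ := exists_invF_alt (F := F) hd hp
    obtain ⟨g, P, P', a1, a2, a3, a4⟩ := exists_sp_model h1 h3 h4 hsum
    obtain ⟨Q, b1, b2⟩ := Cfsg.Agent.S2585.result g
    refine ⟨Q.comp (toLin' P), ND.of_forall fun x hx => mulVec_injective_iff_isUnit.2 h3 ?_,
      fun v => ?_⟩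
    · rw [mulVec_zero, ← dotProduct_eq_zero_iff]
      intro y
      have : polar Q (P *ᵥ y) (P *ᵥ x) = 0 := by
        simpa [polar, mulVec_add, add_comm, sub_right_comm] using hx y
      rw [b1, ← toBilin'_J, Matrix.toBilin'_apply', dot_mul_mul, a4] at this
      rwa [dotProduct_comm]
    · simp only [QuadraticMap.comp_apply, toLin'_apply, mulVec_mulVec]
      rw [← a3, ← mulVec_mulVec, b2]

end Cfsg.Agent.S2584
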