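import Cfsg.Statements.S2587
import Cfsg.Agent.H7.Herm

set_option autoImplicit false
open Cfsg

namespace Cfsg.Agent.S2587


/-- Conjugacy in the finite general unitary group is controlled by the general linear group: two elements of GU_n(q) (the invertible matrices over the field with q² elements preserving the Hermitian form Σ u_i v_i^q) are conjugate in GU_n(q) if and only if they are conjugate in GL_n(q²). -/
theorem result {K : Type*} [Field K] [Fintype K] {q n : ℕ} (hK : Fintype.card K = q ^ 2) (A B : ↥(Cfsg.GU n K q)) : IsConj A B ↔ IsConj (A : GL (Fin n) K) (B : GL (Fin n) K) := by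
  exact CfsgH7.GU_isConj_iff hK A B

end Cfsg.Agent.S2587
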