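import Cfsg.Statements.S2590
import Cfsg.Agent.H8.Semi2

set_option autoImplicit false
open Cfsg

namespace Cfsg.Agent.S2590

open CfsgH8

/-- Two semisimple elements of odd order of a finite orthogonal group (isometry group of a quadratic form on F^n with non-degenerate polar form, F finite of characteristic p; the elements have odd order prime to p) are conjugate in the orthogonal group if and only if they are conjugate in GL_n(F). -/
theorem result {F : Type*} [Field F] [Fintype F] {p : ℕ} [Fact p.Prime] [CharP F p] {n : ℕ} (Q : QuadraticForm F (Fin n → F)) (hQ : (QuadraticMap.polarBilin Q).Nondegenerate) (A B : ↥(Cfsg.isometryGroup F ⇑Q)) (hodd : Odd (orderOf A)) (hA : (orderOf A).Coprime p) : IsConj A B ↔ IsConj ((A : Matrix.GeneralLinearGroup (Fin n) F) : Matrix (Fin n) (Fin n) F) ((B : Matrix.GeneralLinearGroup (Fin n) F) : Matrix (Fin n) (Fin n) F) := by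
  constructor
  · intro h
    exact ((Units.coeHom _).comp (Cfsg.isometryGroup F ⇑Q).subtype).map_isConj h
  · rintro ⟨g, hg⟩
    have hN : ((orderOf A : ℕ) : F) ≠ 0 := fun h =>
      (Fact.out : p.Prime).one_lt.ne' (Nat.Coprime.eq_one_of_dvd hA.symm
        ((CharP.cast_eq_zero_iff F p _).1 h))
    have := conj_of_lin hQ (A := toOG rfl A) (B := toOG rfl B) (N := orderOf A)
      (by rw [← map_pow, pow_orderOf_eq_one, _root_.map_one]) hodd hN (glEquiv _ F g) fun x => by
        simp only [toOG_apply, glEquiv_apply, Matrix.mulVec_mulVec]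
        rw [hg.eq]
    simpa using (toOG (Q := Q) rfl).symm.toMonoidHom.map_isConj this

end Cfsg.Agent.S2590
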