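import Cfsg.Statements.S2591
import Cfsg.Agent.H1.JForm2

set_option autoImplicit false
open Cfsg

namespace Cfsg.Agent.S2591

open CfsgH1 Subgroup
open scoped commutatorElement
set_option maxHeartbeats 400000

open Matrix Module CfsgH7

/-- Over a finite field of odd order and for m ≥ 1, the regular unipotent elements of Sp_2m(F) (u − 1 nilpotent of rank 2m − 1, a single Jordan block) form exactly two conjugacy classes of Sp_2m(F) (one class under the similarity group, which splits in two). -/
theorem result {F : Type*} [Field F] [Fintype F] {q : ℕ} (hF : Fintype.card F = q) (hq : Odd q) {m : ℕ} (hm : 1 ≤ m) : Nat.card {C : ConjClasses ↥(Matrix.symplecticGroup (Fin m) F) // ∃ u : Matrix.symplecticGroup (Fin m) F, ConjClasses.mk u = C ∧ ((u : Matrix (Fin m ⊕ Fin m) (Fin m ⊕ Fin m) F) - 1) ^ (2 * m) = 0 ∧ ((u : Matrix (Fin m ⊕ Fin m) (Fin m ⊕ Fin m) F) - 1).rank = 2 * m - 1} = 2 := by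
  have h2 : (2 : F) ≠ 0 := CfsgH8.two_ne_zero_of_odd (hF ▸ hq)
  have := card_classes_jtype h2 (m := m) (s := {2 * m}) (by simp; omega) (by simp) fun i hi => by
    rw [Multiset.count_singleton, if_neg (by rintro rfl; exact (Nat.not_odd_iff_even.2 (even_two_mul m)) hi)]; simp
  rw [show (({2 * m} : Multiset ℕ).toFinset.filter Even).card = 1 by
    simp [Finset.filter_singleton]] at this
  refine Eq.trans (Nat.card_congr (Equiv.subtypeEquivRight fun C => exists_congr fun u =>
    and_congr Iff.rfl ⟨fun h => ?_, fun h => ⟨?_, ?_⟩⟩)) this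
  · exact isJType_regular (by simp [two_mul]) (by omega) ⟨_, h.1⟩ h.2
  · simpa using h.pow_sum
  · simpa using h.2 1

end Cfsg.Agent.S2591
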