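import Cfsg.Statements.S2592
import Cfsg.Agent.H1.JForm2

set_option autoImplicit false
open Cfsg

namespace Cfsg.Agent.S2592

open CfsgH1 Subgroup
open scoped commutatorElement
set_option maxHeartbeats 400000

open Matrix Module CfsgH7

/-- Over a finite field with q elements, q odd, the centraliser in Sp_2m(F) (m ≥ 1) of a regular unipotent element (u − 1 nilpotent of rank 2m − 1) has order 2 q^m. -/
theorem result {F : Type*} [Field F] [Fintype F] {q : ℕ} (hF : Fintype.card F = q) (hq : Odd q) {m : ℕ} (hm : 1 ≤ m) (u : Matrix.symplecticGroup (Fin m) F) (hnil : ((u : Matrix (Fin m ⊕ Fin m) (Fin m ⊕ Fin m) F) - 1) ^ (2 * m) = 0) (hreg : ((u : Matrix (Fin m ⊕ Fin m) (Fin m ⊕ Fin m) F) - 1).rank = 2 * m - 1) : Nat.card ↥(Subgroup.centralizer ({u} : Set ↥(Matrix.symplecticGroup (Fin m) F))) = 2 * q ^ m := by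
  classical
  subst hF
  have h2 : (2 : F) ≠ 0 := CfsgH8.two_ne_zero_of_odd hq
  let d : Unit → ℕ := fun _ => 2 * m
  have hd : ∀ k, 1 ≤ d k := fun _ => by simp only [d]; omega
  have hu : IsJType u.1 (Finset.univ.val.map d) :=
    (isJType_regular (n := 2 * m) (by simp [two_mul]) (by omega) ⟨_, hnil⟩ hreg :)
  obtain ⟨Q, Q', h3, h4, h5⟩ := hu.exists_model_map hd
  have hI : ∀ k, d k ∈ ({2 * m} : Finset ℕ) := fun k => Finset.mem_singleton_self _
  let τ := RingHom.id F
  set H := (Q.map τ)ᵀ * J (Fin m) F * Q with hH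
  have i1 : InvF H := invF_model τ h5 (SymplecticGroup.mem_iff'.1 u.2)
  have i2 : IsUnit H := isUnit_model τ isUnit_J h3 h4
  have i3 : (H.map τ)ᵀ = (-1 : F) • H := by
    rw [neg_one_smul]; exact ((altM_J _).congr Q).transpose_eq
  have h6 : Nat.card ↥(Subgroup.centralizer ({u} : Set ↥(Matrix.symplecticGroup (Fin m) F))) =
      Nat.card {x : Matrix (Fin m ⊕ Fin m) (Fin m ⊕ Fin m) F //
        x * u.1 = u.1 * x ∧ (x.map τ)ᵀ * J (Fin m) F * x = J (Fin m) F} :=
    Nat.card_congr ⟨fun g => ⟨g.1.1, congrArg Subtype.val (mem_centralizer_singleton_iff.1 g.2),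
      SymplecticGroup.mem_iff'.1 g.1.2⟩, fun x => ⟨⟨x.1, SymplecticGroup.mem_iff'.2 x.2.2⟩,
        mem_centralizer_singleton_iff.2 (Subtype.ext x.2.1)⟩, fun _ => rfl, fun _ => rfl⟩
  rw [h6, card_cent_model τ h3 h4 h5, card_cent_invF hd hI τ (fun _ => rfl) i1 i2 i3 (t := 2⁻¹) (by
    simp only [τ, RingHom.id_apply]; field_simp; norm_num), Finset.prod_singleton]
  haveI : Unique (Fb d (2 * m)) := ⟨⟨⟨(), rfl⟩⟩, fun _ => rfl⟩
  have hY := (i1.isUnit_iff hd).1 i2 (2 * m)
  have hY0 : Ymat hd H (2 * m) default default ≠ 0 := by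
    simpa using (isUnit_iff_isUnit_det _).1 hY
  congr 1
  · have : Nat.card {x : F // x = 1 ∨ x = -1} = 2 := by
      rw [← Set.ncard_pair (show (1 : F) ≠ -1 from fun h => h2 (by linear_combination h))]
      rfl
    refine Eq.trans (Nat.card_congr (Equiv.subtypeEquiv (Matrix.uniqueEquiv) fun X => ?_)) this
    rw [← Matrix.ext_iff, ← sq_eq_one_iff]
    simp only [Unique.forall_iff, mul_apply, Fintype.sum_unique, transpose_apply, map_apply, τ,
      RingHom.id_apply, uniqueEquiv_apply]
    rw [mul_right_comm, mul_eq_right₀ hY0, sq]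
  · set N := nilJ d F
    let M := 1 + N - (1 + N)⁻¹
    have hM : M = ((1 + N)⁻¹ * ((2 : F) • 1 + N)) * N := by
      rw [Matrix.mul_assoc, ← isUnit_unip.mul_right_inj, ← Matrix.mul_assoc, unip_mul_inv,
        Matrix.mul_sub, unip_mul_inv, two_smul]
      noncomm_ring
    have hMu : IsUnit ((1 + N)⁻¹ * ((2 : F) • 1 + N)) :=
      (IsUnit.of_mul_eq_one _ unip_inv_mul).mul ((isUnit_iff_isUnit_det _).2 (by
        rw [det_smul_add_nilpotent nilJ_isNilpotent]; exact (pow_ne_zero _ h2).isUnit))
    have hc : Commute ((1 + N)⁻¹ * ((2 : F) • 1 + N)) N :=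
      commute_unip_inv.symm.mul_left (((Commute.one_left _).smul_left _).add_left (Commute.refl _))
    have hMn : IsNilpotent M := hM ▸ hc.isNilpotent_mul_left nilJ_isNilpotent
    have hMr : M.rank = 2 * m - 1 := by
      rw [hM, rank_mul_eq_right_of_isUnit_det _ _ ((isUnit_iff_isUnit_det _).1 hMu), rank_shJ]
      simp [d]
    have hcard : Fintype.card (JI d) = 2 * m := by simp [d]
    have hMm : M ∈ comJ d F := sub_mem (add_mem (one_mem _) nilJ_mem) unip_inv_mem
    have ha1 : adjM H (1 + N) = (1 + N)⁻¹ := by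
      rw [adjM_eq_iff i2, transpose_add, Matrix.add_mul, i1.eq1, MJ, Matrix.mul_sub]; simp [N]
    have haM : adjM H M = -M := by
      rw [map_sub, ha1, ← ha1, adjM_adjM i2 i3, ha1, neg_sub]
    have hli := regular_linearIndependent hcard hMn hMr
    have hadj : ∀ c : Fin (2 * m) → F, adjM H (∑ i, c i • M ^ (i : ℕ)) =
        -∑ i, c i • M ^ (i : ℕ) ↔ ∀ i : Fin (2 * m), Even (i : ℕ) → c i = 0 := fun c => by
      rw [map_sum, eq_neg_iff_add_eq_zero, ← Finset.sum_add_distrib]
      simp only [adjM_smul, adjM_pow i2, haM]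
      simp only [← neg_one_smul F M, smul_pow, smul_smul, ← add_smul]
      refine ⟨fun h i hi => ?_, fun h => Finset.sum_eq_zero fun i _ => ?_⟩
      · have := Fintype.linearIndependent_iff.1 hli _ h i
        rw [hi.neg_one_pow] at this
        exact mul_left_cancel₀ h2 (by linear_combination this)
      · rcases Nat.even_or_odd (i : ℕ) with hi | hi
        · simp [h i hi]
        · simp [hi.neg_one_pow]
    have e1 : Nat.card {c : Fin (2 * m) → F // ∀ i : Fin (2 * m), Even (i : ℕ) → c i = 0} =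
        Fintype.card F ^ m := by
      rw [show Fintype.card F ^ m = Nat.card (Fin m → F) by simp]
      refine Nat.card_congr ⟨fun c j => c.1 ⟨2 * j + 1, by omega⟩,
        fun c => ⟨fun i => if Even (i : ℕ) then 0 else c ⟨i / 2, by omega⟩, fun i hi => if_pos hi⟩,
        fun c => Subtype.ext (funext fun i => ?_), fun c => funext fun j => ?_⟩
      · by_cases hi : Even (i : ℕ)
        · simp [hi, c.2 i hi]
        · simp only [hi, if_false]
          exact congrArg c.1
            (Fin.ext (Nat.two_mul_div_two_add_one_of_odd (Nat.not_even_iff_odd.1 hi)))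
      · simp only [Nat.even_add_one, even_two_mul, not_true, if_false]
        congr 1
        exact Fin.ext (by simp only; omega)
    rw [← e1]
    symm
    refine Nat.card_eq_of_bijective (fun c => ⟨⟨∑ i, c.1 i • M ^ (i : ℕ),
      sum_mem fun i _ => Subalgebra.smul_mem _ (pow_mem hMm _) _⟩, ?_, (hadj c.1).2 c.2⟩)
      ⟨fun a b h => Subtype.ext (funext fun i => ?_), ?_⟩
    · funext ⟨i, hi⟩
      obtain rfl := Finset.mem_singleton.1 hi
      have mm : ∑ i, c.1 i • M ^ (i : ℕ) ∈ comJ d F :=
        sum_mem fun i _ => Subalgebra.smul_mem _ (pow_mem hMm _) _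
      have a1 := i1.Ymat_mul hd mm (one_mem _) (2 * m)
      have a2 := i1.Ymat_mul hd (one_mem _) (neg_mem mm) (2 * m)
      rw [transpose_one, Matrix.one_mul, ← (hadj c.1).2 c.2, mul_adjM i2, (hadj c.1).2 c.2] at a2
      rw [Matrix.mul_one, a2, piM_one, transpose_one, Matrix.one_mul, Matrix.mul_one] at a1
      have a3 := congrFun (congrFun a1 default) default
      ext a b
      rw [Subsingleton.elim a default, Subsingleton.elim b default]
      simp only [transpose_one, Matrix.one_mul, Matrix.mul_one, mul_apply, Fintype.sum_unique,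
        transpose_apply, piM_apply, Matrix.neg_apply] at a3
      exact mul_left_cancel₀ (mul_ne_zero h2 hY0) (by
        rw [piJ_apply, piM_apply, Pi.zero_apply, Matrix.zero_apply]; linear_combination -a3)
    · have := congrArg (fun x => x.1.1) h
      simp only at this
      rw [← sub_eq_zero, ← Finset.sum_sub_distrib] at this
      simp only [← sub_smul] at this
      exact sub_eq_zero.1 (Fintype.linearIndependent_iff.1 hli _ this i)
    · rintro ⟨⟨x, hx⟩, -, h7⟩
      obtain ⟨c, rfl⟩ := regular_commutant hcard hMn hMr (g := x) (by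
        rw [Matrix.mul_sub, Matrix.sub_mul, comJ_iff_unip.1 hx, comJ_comm_inv hx])
      exact ⟨⟨c, (hadj c).1 h7⟩, rfl⟩

end Cfsg.Agent.S2592
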