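import Cfsg.Statements.S2593
import Cfsg.Agent.H1.Sp3

set_option autoImplicit false
open Cfsg

namespace Cfsg.Agent.S2593

open CfsgH1 Subgroup
open scoped commutatorElement
set_option maxHeartbeats 400000

open Matrix Module CfsgH7

/-- Number of conjugacy classes of involutions in the symplectic group Sp_2m(F) over a finite field of characteristic two (m ≥ 1): for each s with 1 ≤ s ≤ m there is one class with rank(t − 1) = s if s is odd and two if s is even (according as v ↦ f(v, tv), f the symplectic form, vanishes identically or not), so m + ⌊m/2⌋ classes in all. -/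
theorem result {F : Type*} [Field F] [Fintype F] [CharP F 2] {m : ℕ} (hm : 1 ≤ m) : Nat.card {C : ConjClasses ↥(Matrix.symplecticGroup (Fin m) F) // ∃ g : Matrix.symplecticGroup (Fin m) F, ConjClasses.mk g = C ∧ orderOf g = 2} = m + m / 2 := by
  classical
  have hord : ∀ g : Matrix.symplecticGroup (Fin m) F, orderOf g = 2 ↔ g ^ 2 = 1 ∧ g ≠ 1 :=
    fun g => orderOf_eq_prime_iff
  rw [card_classes_of_inv (fun g : Matrix.symplecticGroup (Fin m) F => orderOf g = 2)
    (fun g => ((g.1 - 1).rank, decide (AltM (J (Fin m) F * g.1))))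
    (fun p => 1 ≤ p.1 ∧ p.1 ≤ m ∧ (p.2 = true → Even p.1))]
  · have e : {p : ℕ × Bool // 1 ≤ p.1 ∧ p.1 ≤ m ∧ (p.2 = true → Even p.1)} ≃ Fin m ⊕ Fin (m / 2) :=
      { toFun := fun p => if h : p.1.2 = true then .inr ⟨p.1.1 / 2 - 1, by
            obtain ⟨h1, h2, h3⟩ := p.2
            obtain ⟨k, hk⟩ := h3 h
            omega⟩ else .inl ⟨p.1.1 - 1, by obtain ⟨h1, h2, h3⟩ := p.2; omega⟩
        invFun := Sum.elim (fun i => ⟨(i + 1, false), by simp, by simp, by simp⟩)
          (fun i => ⟨(2 * (i + 1), true), by simp; omega, by simp; omega, by simp⟩)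
        left_inv := by
          rintro ⟨⟨s, b⟩, h1, h2, h3⟩
          cases b
          · simp only [Bool.false_eq_true, dite_false, Sum.elim_inl]
            apply Subtype.ext
            simp only [Prod.mk.injEq, and_true] at *
            omega
          · simp only [dite_true, Sum.elim_inr]
            apply Subtype.ext
            obtain ⟨k, hk⟩ := h3 rfl
            simp only [Prod.mk.injEq, and_true] at *
            omega
        right_inv := by rintro (i | i) <;> simp }
    rw [Nat.card_congr e]; simp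
  · intro g hg
    obtain ⟨h1, h2⟩ := (hord g).1 hg
    obtain ⟨β, ⟨D⟩⟩ := exists_tvData g (sp_sq_iff.1 h1) rfl
    refine ⟨Nat.pos_of_ne_zero fun h => h2 (Subtype.ext (sub_eq_zero.1 (rank_eq_zero_iff'.1 h))),
      D.card_centralizer.1, fun h => ?_⟩
    simpa using even_card_of_altM D.unit (D.alt_iff.1 (of_decide_eq_true h))
  · intro g h hg hh
    rw [Prod.mk.injEq, decide_eq_decide]
    constructor
    · intro hc
      refine ⟨?_, altM_conj_iff hc⟩
      obtain ⟨c, rfl⟩ := isConj_iff.1 hc
      have : (c * g * c⁻¹).1 - 1 = c.1 * (g.1 - 1) * (c⁻¹).1 := by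
        have h1 : c.1 * (c⁻¹).1 = 1 := congrArg Subtype.val (mul_inv_cancel c)
        rw [Matrix.mul_sub, Matrix.sub_mul, Matrix.mul_one, h1]; rfl
      rw [this, rank_mul_eq_left_of_isUnit_det (c⁻¹).1 _ ((isUnit_iff_isUnit_det _).1
        (spToGL m F c⁻¹).isUnit), rank_mul_eq_right_of_isUnit_det c.1 _
          ((isUnit_iff_isUnit_det _).1 (spToGL m F c).isUnit)]
    · rintro ⟨e1, e2⟩
      obtain ⟨β, ⟨D⟩⟩ := exists_tvData g (sp_sq_iff.1 ((hord g).1 hg).1) rfl
      obtain ⟨β', ⟨D'⟩⟩ := exists_tvData h (sp_sq_iff.1 ((hord h).1 hh).1) e1.symm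
      rw [D.alt_iff, D'.alt_iff] at e2
      by_cases ha : AltM β
      · obtain ⟨P, hP⟩ := alt_congr_GL D.unit ha D'.unit (e2.1 ha)
        exact D.isConj D' ⟨P.1ᵀ, P⁻¹.1ᵀ, by rw [← transpose_mul]; simp,
          by rw [← transpose_mul]; simp⟩ hP
      · obtain ⟨P, hP⟩ := exists_congr_one D.symm D.unit ha
        obtain ⟨Q, hQ⟩ := exists_congr_one D'.symm D'.unit (fun h => ha (e2.2 h))
        refine D.isConj D' ⟨(P * Q⁻¹).1ᵀ, (P * Q⁻¹)⁻¹.1ᵀ,
          by rw [← transpose_mul, Units.inv_mul, transpose_one],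
          by rw [← transpose_mul, Units.mul_inv, transpose_one]⟩ ?_
        have := congrArg (fun X => Q⁻¹.1ᵀ * X * Q⁻¹.1) (hP.trans hQ.symm)
        simp only [Units.val_mul, transpose_mul, transpose_transpose, Matrix.mul_assoc,
          Units.mul_inv, Matrix.mul_one] at this ⊢
        rw [this, ← Matrix.mul_assoc, ← transpose_mul, Units.mul_inv]; simp
  · rintro ⟨s, b⟩ ⟨h1, h2, h3⟩
    have key : ∀ β : Matrix (Fin s) (Fin s) F, βᵀ = β → IsUnit β → (AltM β ↔ b = true) →
        ∃ g : Matrix.symplecticGroup (Fin m) F, orderOf g = 2 ∧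
          ((g.1 - 1).rank, decide (AltM (J (Fin m) F * g.1))) = (s, b) := fun β hβ hu hb => by
      obtain ⟨g, ⟨D⟩⟩ := exists_tvData_of h2 hβ hu
      have hr : (g.1 - 1).rank = s := by simpa using D.rank
      refine ⟨g, (hord g).2 ⟨sp_sq_iff.2 D.sq, ?_⟩, ?_⟩
      · rintro rfl
        simp at hr
        simp only at h1
        omega
      · rw [hr, D.alt_iff]
        cases b <;> simp_all
    cases b
    · refine key 1 (by simp) isUnit_one ⟨fun h => ?_, by simp⟩
      simpa using h.diag ⟨0, h1⟩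
    · exact key (onesM _ F) onesM_transpose (isUnit_onesM (by simpa using h3 rfl))
        (by simp [altM_onesM])

end Cfsg.Agent.S2593
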