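import Cfsg.Statements.S2594
import Cfsg.Agent.H1.Sp3
import Cfsg.Agent.H7.Sim2

set_option autoImplicit false
open Cfsg

namespace Cfsg.Agent.S2594

open CfsgH1 Subgroup
open scoped commutatorElement
set_option maxHeartbeats 400000

open Matrix Module CfsgH7

/-- Over a finite field with q elements, q even, an element t of Sp_2m(F) with rank(t − 1) = 1 (a symplectic transvection) has centraliser in Sp_2m(F) of order q^(2m−1) · |Sp_(2m−2)(q)| = q^(2m−1) · q^((m−1)²) · Π_(i=1)^(m−1) (q^(2i) − 1). -/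
theorem result {F : Type*} [Field F] [Fintype F] [CharP F 2] {q : ℕ} (hF : Fintype.card F = q) {m : ℕ} (hm : 1 ≤ m) (t : Matrix.symplecticGroup (Fin m) F) (ht : ((t : Matrix (Fin m ⊕ Fin m) (Fin m ⊕ Fin m) F) - 1).rank = 1) : Nat.card ↥(Subgroup.centralizer ({t} : Set ↥(Matrix.symplecticGroup (Fin m) F))) = q ^ (2 * m - 1) * (q ^ ((m - 1) ^ 2) * ∏ i : Fin (m - 1), (q ^ (2 * ((i : ℕ) + 1)) - 1)) := by
  subst hF
  have h2 : (t.1 - 1) * (t.1 - 1) = 0 := by
    obtain ⟨W, L, hL, hW⟩ := exists_rank_factor _ ht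
    set C := L * (t.1 - 1)
    have h1 : t.1 = 1 + W * C := by rw [← Matrix.mul_assoc, hW]; simp
    have h0 : Wᵀ * J (Fin m) F * W = 0 := by
      ext a b
      rw [transpose_mul_mul_apply, Subsingleton.elim a b]
      exact altM_J _ _
    have h3 := SymplecticGroup.mem_iff'.1 t.2
    have h4 := congrArg (· * W) h3
    have h5 : t.1 * W = W * (1 + C * W) := by
      rw [h1, Matrix.add_mul, Matrix.mul_add, Matrix.mul_assoc]; simp
    have h6 : t.1ᵀ * J (Fin m) F * W = J (Fin m) F * W := by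
      rw [h1, transpose_add, transpose_mul, Matrix.add_mul, Matrix.add_mul, Matrix.mul_assoc,
        Matrix.mul_assoc, Matrix.mul_assoc, ← Matrix.mul_assoc Wᵀ, h0]
      simp
    rw [Matrix.mul_assoc, h5, ← Matrix.mul_assoc, h6, Matrix.mul_add, Matrix.mul_one,
      add_eq_left, Matrix.mul_assoc] at h4
    have h7 := congrArg (fun X => L * (J (Fin m) F * X)) h4
    simp only [← Matrix.mul_assoc (J _ _), J_squared] at h7
    rw [Matrix.neg_mul, Matrix.one_mul, Matrix.neg_mul, Matrix.mul_neg, ← Matrix.mul_assoc, hL] at h7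
    simp only [Matrix.one_mul, Matrix.mul_zero, neg_eq_zero] at h7
    rw [h1, add_sub_cancel_left, Matrix.mul_assoc, ← Matrix.mul_assoc C, h7]; simp
  obtain ⟨β, ⟨D⟩⟩ := exists_tvData t h2 ht
  have hna : ¬ AltM β := fun h => by
    have := even_card_of_altM D.unit h
    simp at this
  rw [D.card_centralizer.2, card_IsomG_nonalt D.symm D.unit hna,
    card_orth_odd (k := 0) (by simp), ordSp, ordSp]
  simp

end Cfsg.Agent.S2594
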