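import Cfsg.Statements.S2599
import Cfsg.Agent.H8.Mat

set_option autoImplicit false
open Cfsg

namespace Cfsg.Agent.S2599

open CfsgH8 QuadraticMap

/-- An irreducible invariant subspace of a semisimple isometry is non-degenerate or totally singular: let Q be a quadratic form on F^n (F finite of characteristic p) with non-degenerate polar form f, x an isometry of Q of order prime to p, and U a non-zero x-invariant subspace containing no x-invariant subspace other than 0 and U. Then U meets its f-orthogonal trivially, or Q vanishes on U, or p = 2, U is a line spanned by a non-singular vector and x fixes U pointwise. -/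
theorem result {F : Type*} [Field F] [Fintype F] {p : ℕ} [Fact p.Prime] [CharP F p] {n : ℕ} (Q : QuadraticForm F (Fin n → F)) (hQ : (QuadraticMap.polarBilin Q).Nondegenerate) (x : ↥(Cfsg.isometryGroup F ⇑Q)) (hx : (orderOf x).Coprime p) (U : Submodule F (Fin n → F)) (hU0 : U ≠ ⊥) (hUx : ∀ u ∈ U, ((x : Matrix.GeneralLinearGroup (Fin n) F) : Matrix (Fin n) (Fin n) F).mulVec u ∈ U) (hirr : ∀ W : Submodule F (Fin n → F), W ≤ U → (∀ w ∈ W, ((x : Matrix.GeneralLinearGroup (Fin n) F) : Matrix (Fin n) (Fin n) F).mulVec w ∈ W) → W = ⊥ ∨ W = U) : U ⊓ LinearMap.BilinForm.orthogonal (QuadraticMap.polarBilin Q) U = ⊥ ∨ (∀ u ∈ U, Q u = 0) ∨ (p = 2 ∧ Module.finrank F U = 1 ∧ (∃ u ∈ U, Q u ≠ 0) ∧ ∀ u ∈ U, ((x : Matrix.GeneralLinearGroup (Fin n) F) : Matrix (Fin n) (Fin n) F).mulVec u = u) := by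
  set g := toOG (Q := Q) rfl x with hg
  have hgU : ∀ u ∈ U, g.1 u ∈ U := hUx
  have hmap : U.map g.1.toLinearMap = U :=
    Submodule.eq_of_le_of_finrank_eq (by rintro _ ⟨x, hx, rfl⟩; exact hgU x hx)
      (LinearEquiv.finrank_map_eq _ _)
  rcases hirr (U ⊓ perp Q U) inf_le_left (fun w hw => ⟨hgU w hw.1, mem_perp.2 fun u hu => by
      rw [← hmap] at hu
      obtain ⟨u, hu', rfl⟩ := hu
      exact (OG.map_polar g u w).trans (mem_perp.1 hw.2 u hu')⟩) with h | h
  · exact Or.inl h
  right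
  have hp : ∀ u ∈ U, ∀ v ∈ U, polar Q u v = 0 := fun u hu v hv => by
    rw [← h] at hv; exact mem_perp.1 hv.2 u hu
  let S : Submodule F (Fin n → F) :=
    { carrier := {u | u ∈ U ∧ Q u = 0}
      add_mem' := fun {a b} ha hb => ⟨U.add_mem ha.1 hb.1, by
        rw [Q_add, ha.2, hb.2, hp a ha.1 b hb.1]; simp⟩
      zero_mem' := ⟨U.zero_mem, by simp⟩
      smul_mem' := fun c a ha => ⟨U.smul_mem c ha.1, by rw [Q_smul, ha.2, mul_zero]⟩ }
  rcases hirr S (fun u hu => hu.1) (fun w hw => ⟨hgU w hw.1, (OG.map_Q g w).trans hw.2⟩) with h' | h'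
  swap
  · left
    intro u hu
    rw [← h'] at hu
    exact hu.2
  right
  have hS : ∀ u ∈ U, Q u = 0 → u = 0 := fun u hu h0 => by
    have : u ∈ S := ⟨hu, h0⟩
    rwa [h'] at this
  obtain ⟨u, hu, hu0⟩ := Submodule.exists_mem_ne_zero_of_ne_bot hU0
  have hQu : Q u ≠ 0 := fun h0 => hu0 (hS u hu h0)
  have h2 : (2 : F) = 0 := by
    have := hp u hu u hu
    rw [polar_self'] at this
    exact (mul_eq_zero.1 this).resolve_right hQu
  have hp2 : p = 2 := by
    have := (CharP.cast_eq_zero_iff F p 2).1 (by simpa using h2)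
    exact (Nat.prime_dvd_prime_iff_eq Fact.out Nat.prime_two).1 this
  refine ⟨hp2, ?_, ⟨u, hu, hQu⟩, fun v hv => ?_⟩
  · have : U = F ∙ u := by
      refine le_antisymm (fun v hv => ?_) ((Submodule.span_singleton_le_iff_mem _ _).2 hu)
      obtain ⟨a, ha⟩ := isSquare_of_two_eq_zero h2 (Q v / Q u)
      have := hS (v - a • u) (U.sub_mem hv (U.smul_mem _ hu)) (by
        rw [Q_sub, Q_smul, hp v hv _ (U.smul_mem _ hu), pow_two, ← ha]
        field_simp
        linear_combination (Q v) * h2)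
      rw [sub_eq_zero] at this
      exact Submodule.mem_span_singleton.2 ⟨a, this.symm⟩
    rw [this, finrank_span_singleton hu0]
  · have := hS (g.1 v - v) (U.sub_mem (hgU v hv) hv) (by
      rw [Q_sub, OG.map_Q, hp _ (hgU v hv) v hv]
      linear_combination (Q v) * h2)
    exact sub_eq_zero.1 this

end Cfsg.Agent.S2599
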