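import Cfsg.Statements.S2600
import Cfsg.Agent.H7.Sp4

set_option autoImplicit false
open Cfsg

namespace Cfsg.Agent.S2600


/-- Outer automorphism group of PSp_4(q) for q = 2^f even: it is cyclic of order 2f, generated by the class of the exceptional (graph-field) automorphism whose square is the Frobenius field automorphism. -/
theorem result {F : Type*} [Field F] [Fintype F] {f : ℕ} (hf : 1 ≤ f) (hF : Fintype.card F = 2 ^ f) : IsCyclic (Cfsg.Out (Cfsg.PSp 2 F)) ∧ Nat.card (Cfsg.Out (Cfsg.PSp 2 F)) = 2 * f := by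
  classical
  haveI : CharP F 2 := charP_of_card_eq_prime_pow hF
  obtain ⟨φ, hφ, ho, hgen⟩ := CfsgH7.ringAut_structure hF
  have hsq := CfsgH7.omPSp_sq hφ
  let x : Cfsg.Out (Cfsg.PSp 2 F) := QuotientGroup.mk (CfsgH7.omPSp F)
  have hD : ∀ (g : Cfsg.GSp 2 F) (k : ℕ), (QuotientGroup.mk (CfsgH7.diagPSp g * CfsgH7.fieldPSp (φ ^ k)) :
      Cfsg.Out (Cfsg.PSp 2 F)) = x ^ (2 * k) := by
    intro g k
    rw [QuotientGroup.mk_mul, (QuotientGroup.eq_one_iff _).2 (CfsgH7.diagPSp_mem_inn_char_two g),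
      one_mul, map_pow, ← hsq, ← pow_mul, QuotientGroup.mk_pow]
  have hx : ∀ y : Cfsg.Out (Cfsg.PSp 2 F), y ∈ Subgroup.zpowers x := by
    intro y
    obtain ⟨β, rfl⟩ := QuotientGroup.mk_surjective y
    obtain ⟨g, τ, h | h⟩ := CfsgH7.aut_psp4 β
    · obtain ⟨k, rfl⟩ := hgen τ
      rw [h, hD]
      exact pow_mem (Subgroup.mem_zpowers x) _
    · obtain ⟨k, rfl⟩ := hgen τ
      have e := hD g k
      rw [← h, QuotientGroup.mk_mul, ← eq_inv_mul_iff_mul_eq] at e
      rw [e]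
      exact mul_mem (inv_mem (Subgroup.mem_zpowers x)) (pow_mem (Subgroup.mem_zpowers x) _)
  refine ⟨⟨x, hx⟩, ?_⟩
  rw [← orderOf_eq_card_of_forall_mem_zpowers hx, orderOf_eq_iff (by omega)]
  constructor
  · have := hD 1 f
    rw [← ho, pow_orderOf_eq_one, map_one, map_one, mul_one, QuotientGroup.mk_one, ho] at this
    exact this.symm
  · intro n hn hn0 h
    obtain ⟨s, hs⟩ := CfsgH7.inn_le_diagPSp_range ((QuotientGroup.eq_one_iff _).1
      ((QuotientGroup.mk_pow _ _ _).trans h))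
    obtain ⟨k, rfl | rfl⟩ := Nat.even_or_odd' n
    · rw [pow_mul, hsq, ← map_pow] at hs
      have h1 := (CfsgH7.diag_field_eq_one_Sp (m := 2) le_rfl (g := s⁻¹) (τ := φ ^ k) (by
        rw [map_inv, hs, inv_mul_cancel])).1
      have h2 := Nat.le_of_dvd (by omega) (orderOf_dvd_of_pow_eq_one h1)
      omega
    · rw [pow_succ', pow_mul, hsq, ← map_pow, ← mul_inv_eq_iff_eq_mul, ← map_inv] at hs
      exact CfsgH7.omPSp_ne _ _ hs.symm

end Cfsg.Agent.S2600
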