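import Cfsg.Statements.S2601
import Cfsg.Agent.H7.PSLApi
import Cfsg.Agent.H7.OutAbs

set_option autoImplicit false
open Cfsg

namespace Cfsg.Agent.S2601


/-- Structure of the outer automorphism group of PSL_n(q), n ≥ 3, q = p^f: it has a normal cyclic subgroup of order gcd(n, q − 1) (the diagonal automorphisms) whose quotient is the direct product of a cyclic group of order f (field automorphisms) and a group of order 2 (the inverse-transpose graph automorphism). -/
theorem result {F : Type*} [Field F] [Fintype F] {p f n : ℕ} [Fact p.Prime] (hf : 1 ≤ f) (hF : Fintype.card F = p ^ f) (hn : 3 ≤ n) : ∃ φ : Cfsg.Out (Matrix.ProjectiveSpecialLinearGroup (Fin n) F) →* Multiplicative (ZMod f × ZMod 2), Function.Surjective φ ∧ IsCyclic φ.ker ∧ Nat.card φ.ker = Nat.gcd n (p ^ f - 1) := by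
  classical
  haveI := CfsgH7.diagPSL_range_normal (F := F) (n := n) (by omega)
  haveI : Nontrivial (Fin n) := Fin.nontrivial_iff_two_le.2 (by omega)
  obtain ⟨e⟩ := CfsgH7.ringAut_equiv_zmod hF
  let ψ : (F ≃+* F) × Multiplicative (ZMod 2) →*
      MulAut (Matrix.ProjectiveSpecialLinearGroup (Fin n) F) :=
    MonoidHom.noncommCoprod CfsgH7.fieldPSL (CfsgH7.invHom _ CfsgH7.graphPSL_mul_self) (by
      intro σ x
      rcases CfsgH7.invHom_cases _ (CfsgH7.graphPSL_mul_self (F := F) (ι := Fin n)) x with h | h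
      · rw [h.2]; exact Commute.one_right _
      · rw [h]; exact (CfsgH7.graphPSL_fieldPSL σ).symm)
  obtain ⟨φ, h1, h2, h3⟩ := CfsgH7.out_abstract
    (Cfsg.Inn (Matrix.ProjectiveSpecialLinearGroup (Fin n) F)) CfsgH7.diagPSL
    CfsgH7.inn_le_diagPSL_range ψ (by
      intro β
      obtain ⟨g, σ, rfl | ⟨-, rfl⟩⟩ := CfsgH7.aut_psl (by omega) β
      · exact ⟨g, (σ, 1), by simp [ψ]⟩
      · exact ⟨g, (σ, Multiplicative.ofAdd 1), by
          simp [ψ, CfsgH7.invHom_ofAdd_one, mul_assoc]⟩)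
    (by
      rintro ⟨σ, x⟩ g h
      change CfsgH7.fieldPSL σ * CfsgH7.invHom _ CfsgH7.graphPSL_mul_self x = _ at h
      rcases CfsgH7.invHom_cases _ (CfsgH7.graphPSL_mul_self (F := F) (ι := Fin n)) x with h' | h'
      · rw [h'.2, mul_one] at h
        rw [h'.1, CfsgH7.diag_field_unique (g := 1) (h := g) (σ := σ) (τ := 1) (by simpa using h)]
        rfl
      · exfalso
        rw [h'] at h
        apply CfsgH7.diag_field_ne_graph (CfsgH7.fin_three_ex hn) (CfsgH7.mapGL' σ⁻¹ g) σ⁻¹
        rw [← CfsgH7.fieldPSL_diagPSL, ← h, map_inv, inv_mul_cancel_left])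
    Matrix.GeneralLinearGroup.det Matrix.GeneralLinearGroup.det_surjective _
    (fun g => CfsgH7.diagPSL_mem_inn_iff)
    ((MulEquiv.prodCongr e (MulEquiv.refl _)).trans (MulEquiv.prodMultiplicative _ _).symm)
  refine ⟨φ, h1, h2, ?_⟩
  rw [h3, IsCyclic.index_powMonoidHom_range, Nat.card_eq_fintype_card, Fintype.card_units, hF,
    Fintype.card_fin, Nat.gcd_comm]

end Cfsg.Agent.S2601
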