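import Cfsg.Statements.S2602
import Cfsg.Agent.H7.PSLApi
import Cfsg.Agent.H7.OutAbs

set_option autoImplicit false
open Cfsg

namespace Cfsg.Agent.S2602


/-- Structure of the outer automorphism group of PSL_2(q), q = p^f ≥ 4: it has a normal cyclic subgroup of order gcd(2, q − 1) (diagonal automorphisms) with cyclic quotient of order f (field automorphisms); there is no graph automorphism in dimension 2. -/
theorem result {F : Type*} [Field F] [Fintype F] {p f : ℕ} [Fact p.Prime] (hf : 1 ≤ f) (hF : Fintype.card F = p ^ f) (h4 : 4 ≤ p ^ f) : ∃ φ : Cfsg.Out (Matrix.ProjectiveSpecialLinearGroup (Fin 2) F) →* Multiplicative (ZMod f), Function.Surjective φ ∧ IsCyclic φ.ker ∧ Nat.card φ.ker = Nat.gcd 2 (p ^ f - 1) := by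
  classical
  haveI := CfsgH7.diagPSL_range_normal (F := F) (n := 2) le_rfl
  obtain ⟨e⟩ := CfsgH7.ringAut_equiv_zmod hF
  obtain ⟨φ, h1, h2, h3⟩ := CfsgH7.out_abstract
    (Cfsg.Inn (Matrix.ProjectiveSpecialLinearGroup (Fin 2) F)) CfsgH7.diagPSL
    CfsgH7.inn_le_diagPSL_range CfsgH7.fieldPSL CfsgH7.aut_psl_two
    (fun r g h => (CfsgH7.diag_field_unique (g := 1) (h := g) (τ := 1) (by simpa using h)))
    Matrix.GeneralLinearGroup.det Matrix.GeneralLinearGroup.det_surjective _
    (fun g => CfsgH7.diagPSL_mem_inn_iff) e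
  refine ⟨φ, h1, h2, ?_⟩
  rw [h3, IsCyclic.index_powMonoidHom_range, Nat.card_eq_fintype_card, Fintype.card_units, hF,
    Fintype.card_fin, Nat.gcd_comm]

end Cfsg.Agent.S2602
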