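import Cfsg.Statements.S2603
import Cfsg.Agent.H7.PSUApi
import Cfsg.Agent.H7.OutAbs

set_option autoImplicit false
open Cfsg

namespace Cfsg.Agent.S2603


/-- Structure of the outer automorphism group of PSU_n(q), n ≥ 3, (n, q) ≠ (3, 2), q = p^f, realised over the field with q² elements: it has a normal cyclic subgroup of order gcd(n, q + 1) (diagonal automorphisms) with cyclic quotient of order 2f (generated by the Frobenius field automorphism of the field with q² elements, whose f-th power is the graph automorphism). -/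
theorem result {K : Type*} [Field K] [Fintype K] {p f q n : ℕ} [Fact p.Prime] (hf : 1 ≤ f) (hq : q = p ^ f) (hK : Fintype.card K = q ^ 2) (hn : 3 ≤ n) (h32 : ¬ (n = 3 ∧ q = 2)) : ∃ φ : Cfsg.Out (Cfsg.PSU n K q) →* Multiplicative (ZMod (2 * f)), Function.Surjective φ ∧ IsCyclic φ.ker ∧ Nat.card φ.ker = Nat.gcd n (q + 1) := by
  classical
  haveI := CfsgH7.diagPSU_range_normal hK hn h32
  haveI : Nonempty (Fin n) := ⟨⟨0, by omega⟩⟩
  obtain ⟨e⟩ := CfsgH7.ringAut_equiv_zmod (F := K) (p := p) (f := 2 * f)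
    (by rw [hK, hq, ← pow_mul, mul_comm])
  obtain ⟨φ, h1, h2, h3⟩ := CfsgH7.out_abstract
    (Cfsg.Inn (Cfsg.PSU n K q)) CfsgH7.diagPSU
    CfsgH7.inn_le_diagPSU_range CfsgH7.fieldPSU (CfsgH7.aut_psu hK hn h32)
    (fun r g h => (CfsgH7.diag_field_unique_SU hK hn (g := 1) (h := g) (τ := 1) (by simpa using h)))
    (CfsgH7.detGU hK) (CfsgH7.detGU_surjective hK) _
    (fun g => CfsgH7.diagPSU_mem_inn_iff hK hn) e
  refine ⟨φ, h1, h2, ?_⟩
  rw [h3, IsCyclic.index_powMonoidHom_range, CfsgH7.card_ker_pow_units hK, Nat.gcd_comm]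

end Cfsg.Agent.S2603
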