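import Cfsg.Statements.S2604
import Cfsg.Agent.H8.Out
import Cfsg.Agent.H7.FldAut

set_option autoImplicit false
open Cfsg

namespace Cfsg.Agent.S2604

open CfsgH8

/-- Outer automorphism group of the simple orthogonal group Ω_(2m+1)(q), m ≥ 3, q = p^f odd: it is the direct product of a group of order 2 (diagonal automorphisms, from SO) and a cyclic group of order f (field automorphisms). -/
theorem result {F : Type*} [Field F] [Fintype F] {p f m : ℕ} [Fact p.Prime] (hf : 1 ≤ f) (hF : Fintype.card F = p ^ f) (hp : p ≠ 2) (hm : 3 ≤ m) : Nonempty (Cfsg.Out (Cfsg.POmega F (Cfsg.quadFormOdd m F)) ≃* Multiplicative (ZMod 2 × ZMod f)) := by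
  have h2 : (2 : F) ≠ 0 := two_ne_zero_of_odd
    (hF ▸ ((Fact.out : p.Prime).odd_of_ne_two hp).pow)
  have := big_QO (F := F) (m := m) (by omega) h2
  obtain ⟨τ, -, h1, h3⟩ := CfsgH7.ringAut_structure hF
  obtain ⟨e⟩ := out_equiv (QO_coe m F) (Phi_surj_QO hm h2)
  obtain ⟨π, hπ, -⟩ := pres_odd (Q := QO m F) h2 (by simp)
  have hc : ∀ v, QO m F (τ ∘ v) = τ (QO m F v) := fun v => QO_comp (τ : F →+* F) m v
  obtain ⟨e'⟩ := out_sign hπ (T := fldG τ hc) (f := f) (by omega) h1 h3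
    (fldG_pow τ hc (h1 ▸ pow_orderOf_eq_one τ))
  exact ⟨e.trans e'⟩

end Cfsg.Agent.S2604
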