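import Cfsg.Statements.S2605
import Cfsg.Agent.H8.Out
import Cfsg.Agent.H7.FldAut

set_option autoImplicit false
open Cfsg

namespace Cfsg.Agent.S2605

open CfsgH8

/-- Outer automorphism group of PΩ⁻_2m(q), m ≥ 4, q = 2^f: cyclic of order 2f, generated by a semilinear map inducing the Frobenius automorphism of the field (its f-th power is a graph automorphism, an orthogonal transvection). -/
theorem result {F : Type*} [Field F] [Fintype F] {f m : ℕ} (hf : 1 ≤ f) (hF : Fintype.card F = 2 ^ f) (hm : 4 ≤ m) (a b : F) (hab : ∀ z₁ z₂ : F, z₁ ^ 2 + a * z₁ * z₂ + b * z₂ ^ 2 = 0 → z₁ = 0 ∧ z₂ = 0) : IsCyclic (Cfsg.Out (Cfsg.POmega F (Cfsg.quadFormMinus (m - 1) F a b))) ∧ Nat.card (Cfsg.Out (Cfsg.POmega F (Cfsg.quadFormMinus (m - 1) F a b))) = 2 * f := by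
  have : Fact (Nat.Prime 2) := ⟨Nat.prime_two⟩
  have : CharP F 2 := charP_of_card_eq_prime_pow hF
  have h2 : (2 : F) = 0 := CharTwo.two_eq_zero
  have := big_QM (F := F) (m := m - 1) (by omega) hab
  obtain ⟨τ, h0, h1, h3⟩ := CfsgH7.ringAut_structure hF
  obtain ⟨e⟩ := out_equiv (QM_coe (m - 1) F a b) (Phi_surj_QM (by omega) hab)
  obtain ⟨T, r, rfl, -, h4, h5, h6⟩ := exists_frob_QM hF h0 (h1 ▸ pow_orderOf_eq_one τ) (m - 1) hab
  obtain ⟨e'⟩ := out_two_minus h2 (even_QM _) (by omega) h1 h3 h4 h5 h6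
  have e'' := e.trans e'
  refine ⟨isCyclic_of_surjective e''.symm e''.symm.surjective, ?_⟩
  rw [Nat.card_congr e''.toEquiv, Nat.card_congr Multiplicative.toAdd, Nat.card_zmod]

end Cfsg.Agent.S2605
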