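import Cfsg.Statements.S2606
import Cfsg.Agent.H8.Out
import Cfsg.Agent.H7.FldAut

set_option autoImplicit false
open Cfsg

namespace Cfsg.Agent.S2606

open CfsgH8

/-- Outer automorphism group of PΩ⁻_2m(q), m ≥ 4, q = p^f odd: it is dihedral of order 8 times cyclic of order f when q ≡ 3 (mod 4) and m is odd, and otherwise the direct product of a group of order 2 with a cyclic group of order 2f. -/
theorem result {F : Type*} [Field F] [Fintype F] {p f m : ℕ} [Fact p.Prime] (hf : 1 ≤ f) (hF : Fintype.card F = p ^ f) (hp : p ≠ 2) (hm : 4 ≤ m) (a b : F) (hab : ∀ z₁ z₂ : F, z₁ ^ 2 + a * z₁ * z₂ + b * z₂ ^ 2 = 0 → z₁ = 0 ∧ z₂ = 0) : if p ^ f % 4 = 3 ∧ Odd m then Nonempty (Cfsg.Out (Cfsg.POmega F (Cfsg.quadFormMinus (m - 1) F a b)) ≃* DihedralGroup 4 × Multiplicative (ZMod f)) else Nonempty (Cfsg.Out (Cfsg.POmega F (Cfsg.quadFormMinus (m - 1) F a b)) ≃* Multiplicative (ZMod 2 × ZMod (2 * f))) := by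
  have h2 : (2 : F) ≠ 0 := two_ne_zero_of_odd
    (hF ▸ ((Fact.out : p.Prime).odd_of_ne_two hp).pow)
  have := big_QM (F := F) (m := m - 1) (by omega) hab
  obtain ⟨τ, h0, h1, h3⟩ := CfsgH7.ringAut_structure hF
  obtain ⟨e⟩ := out_equiv (QM_coe (m - 1) F a b) (Phi_surj_QM (by omega) hab)
  obtain ⟨T, r, rfl, hc, h4, h5, h6⟩ := exists_frob_QM hF h0 (h1 ▸ pow_orderOf_eq_one τ) (m - 1) hab
  have hpar : Even (m - 1) ↔ Odd m := by
    rw [Nat.even_iff, Nat.odd_iff]; omega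
  split_ifs with h
  · have hf' : Odd f := by
      by_contra hf'
      obtain ⟨l, rfl⟩ := Nat.not_odd_iff_even.1 hf'
      have h7 := h.1
      rw [pow_add, Nat.mul_mod] at h7
      have := Nat.mod_lt (p ^ l) (show 0 < 4 by omega)
      interval_cases p ^ l % 4 <;> omega
    obtain ⟨e'⟩ := out_D8_odd h2 (k := m) (by simp; omega)
      ((discC_QM_iff h2 _ hab).2 ⟨hpar.2 h.2, hF ▸ h.1⟩) hf' h1 h3 hc (by
        rw [mul_comm, pow_mul, h4, pow_two, ← _root_.map_mul, h6, _root_.map_one])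
    exact ⟨e.trans e'⟩
  · obtain ⟨e'⟩ := out_odd_minus h2 (even_QM _) (discC_QM_neg h2 hab (by
      rw [hpar, hF, and_comm]; exact h)) (by omega) h1 h3 h4 h5 h6
    exact ⟨e.trans e'⟩

end Cfsg.Agent.S2606
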