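import Cfsg.Statements.S2607
import Cfsg.Agent.H7.OutO8

set_option autoImplicit false
open Cfsg

namespace Cfsg.Agent.S2607


/-- Outer automorphism group of PΩ⁺_2m(q), q = 2^f: for m ≥ 5 it is the direct product of a group of order 2 (graph automorphism, an orthogonal transvection) and a cyclic group of order f (field automorphisms); for m = 4 triality enlarges it to S_3 × C_f. -/
theorem result {F : Type*} [Field F] [Fintype F] {f m : ℕ} (hf : 1 ≤ f) (hF : Fintype.card F = 2 ^ f) (hm : 4 ≤ m) : if m = 4 then Nonempty (Cfsg.Out (Cfsg.POmega F (Cfsg.quadFormPlus m F)) ≃* Equiv.Perm (Fin 3) × Multiplicative (ZMod f)) else Nonempty (Cfsg.Out (Cfsg.POmega F (Cfsg.quadFormPlus m F)) ≃* Multiplicative (ZMod 2 × ZMod f)) := by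
  have : Fact (Nat.Prime 2) := ⟨Nat.prime_two⟩
  have : CharP F 2 := charP_of_card_eq_prime_pow hF
  have h2 : (2 : F) = 0 := CharTwo.two_eq_zero
  obtain ⟨τ, -, h1, h3⟩ := CfsgH7.ringAut_structure hF
  split_ifs with h
  · subst h
    exact CfsgH7.out8_even h2 h1 h3
  · haveI : Fact (3 ≤ m) := ⟨by omega⟩
    obtain ⟨e⟩ := CfsgH8.out_equiv (CfsgH8.QP_coe m F) (CfsgH8.Phi_surj_QP (by omega))
    have hc : ∀ v, CfsgH8.QP m F (τ ∘ v) = τ (CfsgH8.QP m F v) :=
      fun v => CfsgH8.QH_comp (τ : F →+* F) v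
    obtain ⟨e'⟩ := CfsgH8.out_sign (CfsgH8.pres_two h2 (CfsgH8.even_QP m))
      (T := CfsgH8.fldG τ hc) (f := f) (by omega) h1 h3
      (CfsgH8.fldG_pow τ hc (h1 ▸ pow_orderOf_eq_one τ))
    exact ⟨e.trans e'⟩

end Cfsg.Agent.S2607
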