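import Cfsg.Statements.S2608
import Cfsg.Agent.H7.OutO8

set_option autoImplicit false
open Cfsg

namespace Cfsg.Agent.S2608


/-- Outer automorphism group of PΩ⁺_2m(q), q = p^f odd: for m = 4 it is S_4 × C_f (triality); for m ≥ 5 it is C_2 × C_2 × C_f when q ≡ 3 (mod 4) and m is odd, and D_8 × C_f otherwise. -/
theorem result {F : Type*} [Field F] [Fintype F] {p f m : ℕ} [Fact p.Prime] (hf : 1 ≤ f) (hF : Fintype.card F = p ^ f) (hp : p ≠ 2) (hm : 4 ≤ m) : if m = 4 then Nonempty (Cfsg.Out (Cfsg.POmega F (Cfsg.quadFormPlus m F)) ≃* Equiv.Perm (Fin 4) × Multiplicative (ZMod f)) else if p ^ f % 4 = 3 ∧ Odd m then Nonempty (Cfsg.Out (Cfsg.POmega F (Cfsg.quadFormPlus m F)) ≃* Multiplicative (ZMod 2 × ZMod 2 × ZMod f)) else Nonempty (Cfsg.Out (Cfsg.POmega F (Cfsg.quadFormPlus m F)) ≃* DihedralGroup 4 × Multiplicative (ZMod f)) := by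
  have h2 : (2 : F) ≠ 0 := CfsgH8.two_ne_zero_of_odd
    (hF ▸ ((Fact.out : p.Prime).odd_of_ne_two hp).pow)
  obtain ⟨τ, -, h1, h3⟩ := CfsgH7.ringAut_structure hF
  by_cases h : m = 4
  · rw [if_pos h]
    subst h
    exact CfsgH7.out8_odd h2 h1 h3
  rw [if_neg h]
  haveI : Fact (3 ≤ m) := ⟨by omega⟩
  obtain ⟨e⟩ := CfsgH8.out_equiv (CfsgH8.QP_coe m F) (CfsgH8.Phi_surj_QP (by omega))
  have hc : ∀ v, CfsgH8.QP m F (τ ∘ v) = τ (CfsgH8.QP m F v) :=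
    fun v => CfsgH8.QH_comp (τ : F →+* F) v
  have h4 := CfsgH8.fldG_pow τ hc (h1 ▸ pow_orderOf_eq_one τ : τ ^ f = 1)
  split_ifs with h'
  · obtain ⟨e'⟩ := CfsgH8.out_klein h2 (CfsgH8.even_QP m)
      (CfsgH8.discC_QP_neg h2 ⟨h'.2, hF ▸ h'.1⟩) (T := CfsgH8.fldG τ hc) (f := f) (by omega) h1 h3 h4
    exact ⟨e.trans e'⟩
  · let i : Fin m := ⟨0, by omega⟩
    obtain ⟨e'⟩ := CfsgH8.out_D8 h2 (k := m) (by simp; omega)
      ((CfsgH8.discC_QP_iff h2 m).2 (by rw [hF, and_comm]; exact h')) (T := CfsgH8.fldG τ hc) (f := f)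
      (by omega) h1 h3 rfl h4 (v := Pi.single (.inl i) 1 + Pi.single (.inr i) 1)
      (by simp [CfsgH8.QH_apply, Pi.single_apply]) (by
        ext k
        rw [CfsgH8.fldG_T]
        simp [Pi.single_apply, apply_ite τ])
    exact ⟨e.trans e'⟩

end Cfsg.Agent.S2608
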