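import Cfsg.Statements.S2612
import Cfsg.Agent.H8.MaxTS

set_option autoImplicit false
open Cfsg

namespace Cfsg.Agent.S2612

open CfsgH8

/-- For the hyperbolic quadratic form Σ x_i y_i on F^(2m) (F finite, m ≥ 1, excluding m = 2 over the field of two elements), Ω⁺_2m(F) (the commutator subgroup of the orthogonal group) contains an element interchanging the two complementary maximal totally singular subspaces {y = 0} and {x = 0} if and only if m is even (dimension divisible by 4). -/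
theorem result {F : Type*} [Field F] [Fintype F] {m : ℕ} (hm : 1 ≤ m) (h : Fintype.card F ≠ 2 ∨ m ≠ 2) : (∃ g : ↥(Cfsg.isometryGroup F (Cfsg.quadFormPlus m F)), g ∈ Cfsg.Omega F (Cfsg.quadFormPlus m F) ∧ (∀ v : Fin m ⊕ Fin m → F, (∀ i, v (Sum.inr i) = 0) → ∀ i, (((g : Matrix.GeneralLinearGroup (Fin m ⊕ Fin m) F) : Matrix (Fin m ⊕ Fin m) (Fin m ⊕ Fin m) F).mulVec v) (Sum.inl i) = 0) ∧ (∀ v : Fin m ⊕ Fin m → F, (∀ i, v (Sum.inl i) = 0) → ∀ i, (((g : Matrix.GeneralLinearGroup (Fin m ⊕ Fin m) F) : Matrix (Fin m ⊕ Fin m) (Fin m ⊕ Fin m) F).mulVec v) (Sum.inr i) = 0)) ↔ Even m := by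
  have hG : Good (QP m F) := good_QP h
  refine (exists_Omega_iff (QP_coe m F) (fun f => (∀ v : Fin m ⊕ Fin m → F,
    (∀ i, v (Sum.inr i) = 0) → ∀ i, f v (Sum.inl i) = 0) ∧ (∀ v : Fin m ⊕ Fin m → F,
    (∀ i, v (Sum.inl i) = 0) → ∀ i, f v (Sum.inr i) = 0))).trans ?_
  have key : ∀ g : OG (QP m F), (∀ v : Fin m ⊕ Fin m → F,
      (∀ i, v (Sum.inr i) = 0) → ∀ i, g.1 v (Sum.inl i) = 0) → (dickF g = 1 ↔ Even m) := by
    intro g hg
    have h1 : stdE (Fin m) F ⊓ (stdE (Fin m) F).map g.1.toLinearMap = ⊥ := by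
      rw [eq_bot_iff, ← stdE_inf_stdE']
      refine inf_le_inf_left _ ?_
      rintro _ ⟨v, hv, rfl⟩
      exact mem_stdE'.2 (hg v (mem_stdE.1 hv))
    rw [← MTS_stdE.even_iff_dickF ND_QH hG, h1, finrank_stdE]
    simp
  constructor
  · rintro ⟨g, hg, h1, -⟩
    exact (key g h1).1 ((mem_commutator_iff ND_QH hG g).1 hg).1
  · intro he
    let τ : OG (QP m F) := ⟨LinearEquiv.funCongrLeft F F (Equiv.sumComm _ _), fun v => by
      simp [QH_apply, mul_comm]⟩
    have hτ : ∀ v k, τ.1 v k = v k.swap := fun v k => rfl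
    obtain ⟨s, hs, hgs⟩ := exists_mul_mem_commutator' ND_QH hG
      (stab _ (stdE (Fin m) F) ⊓ stab _ (stdE' (Fin m) F)) (fun h2 => by
        obtain ⟨a, ha, ha'⟩ := exists_nonsq h2
        obtain ⟨g, hg, h1, h3⟩ := exists_diag hG (fun i : Fin m => if i = ⟨0, hm⟩ then a else 1)
          (fun i => by split_ifs <;> simp [ha])
        refine ⟨g, ⟨mem_stab_iff.2 fun x hx => mem_stdE.2 fun i => ?_,
          mem_stab_iff.2 fun x hx => mem_stdE'.2 fun i => ?_⟩, h1, by simpa [ha'] using h3⟩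
        · rw [hg, mem_stdE.1 hx, mul_zero]
        · rw [hg, mem_stdE'.1 hx, mul_zero]) τ
        ((key τ fun v hv i => by simp [hτ, hv]).2 he)
    refine ⟨τ * s, hgs, fun v hv i => ?_, fun v hv i => ?_⟩
    · exact mem_stdE.1 (mem_stab_iff.1 hs.1 v (mem_stdE.2 hv)) i
    · exact mem_stdE'.1 (mem_stab_iff.1 hs.2 v (mem_stdE'.2 hv)) i

end Cfsg.Agent.S2612
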