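import Cfsg.Statements.S2619
import Cfsg.Agent.H8.Basic

set_option autoImplicit false
open Cfsg

namespace Cfsg.Agent.S2619

open CfsgH8 QuadraticMap

/-- Over a finite field of characteristic two, given an alternating bilinear form B on a finite-dimensional space, a basis (v_i) and scalars (λ_i), there is exactly one quadratic form whose polar form is B and whose value at each v_i is λ_i. -/
theorem result {F V ι : Type*} [Field F] [Finite F] [CharP F 2] [AddCommGroup V] [Module F V] [Fintype ι] (b : Module.Basis ι F V) (B : LinearMap.BilinForm F V) (hB : B.IsAlt) (c : ι → F) : ∃! Q : QuadraticForm F V, QuadraticMap.polarBilin Q = B ∧ ∀ i, Q (b i) = c i := by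
  classical
  let e := Fintype.equivFin ι
  let _i : LinearOrder ι := LinearOrder.lift' e e.injective
  let M : Matrix ι ι F := fun i j => if i < j then B (b i) (b j) else if i = j then c i else 0
  let B' : LinearMap.BilinForm F V := Matrix.toBilin b M
  have hB' : ∀ i j, B' (b i) (b j) = M i j := fun i j => by
    have := LinearMap.BilinForm.toMatrix_apply b B' i j
    rw [← this, LinearMap.BilinForm.toMatrix_toBilin]
  have h2 : (2 : F) = 0 := CharTwo.two_eq_zero
  have hsymm : ∀ x y, B x y = B y x := fun x y => by
    rw [← hB.neg_eq, CharTwo.neg_eq]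
  have hpol : polarBilin (LinearMap.BilinMap.toQuadraticMap B') = B := by
    rw [LinearMap.BilinMap.polarBilin_toQuadraticMap]
    refine LinearMap.BilinForm.ext_basis b fun i j => ?_
    simp only [LinearMap.add_apply, LinearMap.flip_apply, hB', M]
    rcases lt_trichotomy i j with h | h | h
    · simp [h, h.not_gt, h.ne']
    · subst h; simp [hB.self_eq_zero, CharTwo.add_self_eq_zero]
    · simp [h, h.not_gt, h.ne', hsymm (b i)]
  refine ⟨LinearMap.BilinMap.toQuadraticMap B', ⟨hpol, fun i => by simp [hB', M]⟩, ?_⟩
  rintro Q ⟨hQ1, hQ2⟩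
  ext x
  have hx : x ∈ Submodule.span F (Set.range b) := by rw [b.span_eq]; trivial
  induction hx using Submodule.span_induction with
  | mem y hy => obtain ⟨i, rfl⟩ := hy; simp [hQ2, hB', M]
  | zero => simp
  | add y z _ _ hy hz =>
    rw [Q_add, Q_add, hy, hz, ← polarBilin_apply_apply, ← polarBilin_apply_apply, hQ1, hpol]
  | smul a y _ hy => rw [Q_smul, Q_smul, hy]

end Cfsg.Agent.S2619
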