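import Cfsg.Statements.S2621
import Cfsg.Agent.H8.Disc

set_option autoImplicit false
open Cfsg

namespace Cfsg.Agent.S2621

open CfsgH8

/-- Discriminant of an elliptic quadratic form Σ_(i<m−1) x_i y_i + z₁² + a z₁z₂ + c z₂² (binary part anisotropic) in dimension 2m over a field with q elements, q odd, m ≥ 1: the determinant of the Gram matrix of its polar form in any basis is a square if and only if m(q − 1)/2 is odd (equivalently q^m ≡ 3 (mod 4)). -/
theorem result {F : Type*} [Field F] [Fintype F] {q : ℕ} (hF : Fintype.card F = q) (hq : Odd q) {m : ℕ} (hm : 1 ≤ m) (a c : F) (hac : ∀ z₁ z₂ : F, z₁ ^ 2 + a * z₁ * z₂ + c * z₂ ^ 2 = 0 → z₁ = 0 ∧ z₂ = 0) {ι : Type*} [Fintype ι] [DecidableEq ι] (b : Module.Basis ι F ((Fin (m - 1) ⊕ Fin (m - 1)) ⊕ Fin 2 → F)) : IsSquare (Matrix.of (fun i j : ι => QuadraticMap.polar (Cfsg.quadFormMinus (m - 1) F a c) (b i) (b j))).det ↔ ¬ Even (m * (q - 1) / 2) := by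
  subst hF
  have h2 := two_ne_zero_of_odd hq
  rw [← QM_coe]
  refine (isSquare_gram_iff (Q := QM (m - 1) F a c) b).trans ?_
  rw [discC_QM h2 hac, chi_neg_one h2, ← pow_mul, Nat.sub_add_cancel hm]
  obtain ⟨k, hk⟩ := hq
  have e1 : (Fintype.card F - 1) / 2 = k := by omega
  have e2 : m * (Fintype.card F - 1) / 2 = k * m := by
    rw [hk, Nat.add_sub_cancel, mul_comm 2 k, ← mul_assoc, Nat.mul_div_cancel _ two_pos, mul_comm]
  rw [e1, e2]
  rcases Nat.even_or_odd (k * m) with h | h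
  · simp [h, h.neg_one_pow]
  · simp [h.neg_one_pow, Nat.not_even_iff_odd.2 h]

end Cfsg.Agent.S2621
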