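import Cfsg.Statements.S2624
import Cfsg.Agent.H8.Disc

set_option autoImplicit false
open Cfsg

namespace Cfsg.Agent.S2624

open CfsgH8

/-- For a quadratic form Q on F^n with non-degenerate polar form, F finite and n ≥ 2 even, every non-zero scalar c is the multiplier of some similarity: there is an invertible linear map g with Q(g v) = c·Q(v) for all v. -/
theorem result {F : Type*} [Field F] [Fintype F] {n : ℕ} (hn : 2 ≤ n) (he : Even n) (Q : QuadraticForm F (Fin n → F)) (hQ : (QuadraticMap.polarBilin Q).Nondegenerate) (c : F) (hc : c ≠ 0) : ∃ g : (Fin n → F) ≃ₗ[F] (Fin n → F), ∀ v, Q (g v) = c * Q v := by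
  by_cases h2 : (2 : F) = 0
  · obtain ⟨t, ht⟩ := isSquare_of_two_eq_zero h2 c
    have ht0 : t ≠ 0 := by rintro rfl; simp_all
    refine ⟨LinearEquiv.smulOfNeZero F _ t ht0, fun v => ?_⟩
    rw [LinearEquiv.smulOfNeZero_apply, Q_smul, ht, pow_two]
  · have h1 : ND (c • Q) := ND.congr (Q₁ := Q) (LinearEquiv.refl _ _) hc (fun _ => rfl) hQ
    have h3 := discC_sim (Q₂ := c • Q) hQ (LinearEquiv.refl _ _) hc (fun _ => rfl)
    obtain ⟨k, hk⟩ := he
    exact iso_of_discC h2 h1 hQ rfl (by rw [h3]; simp [hk, pow_add])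

end Cfsg.Agent.S2624
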