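import Cfsg.Statements.S2627
import Cfsg.Agent.H8.Sum

set_option autoImplicit false
open Cfsg

namespace Cfsg.Agent.S2627

open CfsgH8

/-- For an orthogonal direct sum Q = Q₁ ⊕ Q₂ of quadratic forms with non-degenerate polar forms over a finite field, an isometry g₁ of Q₁ extended by the identity on the second summand lies in Ω(Q) (the commutator subgroup of the orthogonal group of Q) if and only if g₁ lies in Ω(Q₁). (Excluded: the field of two elements when the first summand or the whole space has dimension 4, where the commutator subgroup of O⁺₄(2) is smaller than the group usually called Ω.) -/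
theorem result {F : Type*} [Field F] [Fintype F] {k l : ℕ} (h : Fintype.card F ≠ 2 ∨ (k ≠ 4 ∧ k + l ≠ 4)) (Q₁ : QuadraticForm F (Fin k → F)) (Q₂ : QuadraticForm F (Fin l → F)) (h₁ : (QuadraticMap.polarBilin Q₁).Nondegenerate) (h₂ : (QuadraticMap.polarBilin Q₂).Nondegenerate) (g₁ : ↥(Cfsg.isometryGroup F ⇑Q₁)) : (∃ g : ↥(Cfsg.isometryGroup F (fun v : Fin k ⊕ Fin l → F => Q₁ (v ∘ Sum.inl) + Q₂ (v ∘ Sum.inr))), g ∈ Cfsg.Omega F (fun v : Fin k ⊕ Fin l → F => Q₁ (v ∘ Sum.inl) + Q₂ (v ∘ Sum.inr)) ∧ ((g : Matrix.GeneralLinearGroup (Fin k ⊕ Fin l) F) : Matrix (Fin k ⊕ Fin l) (Fin k ⊕ Fin l) F) = Matrix.fromBlocks ((g₁ : Matrix.GeneralLinearGroup (Fin k) F) : Matrix (Fin k) (Fin k) F) 0 0 1) ↔ g₁ ∈ Cfsg.Omega F ⇑Q₁ := by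
  rw [exists_Omega_matrix_iff (sumQ_coe Q₁ Q₂) _ ((sumDec Q₁ Q₂).homL (toOG rfl g₁)),
    mem_Omega_iff rfl]
  · exact ODec.homL_mem_commutator_iff _ (ND.sumQ h₁ h₂) (good_of_or (n := k + l) (by simp) (by omega))
      (good_of_or (n := k) (by simp) (by omega)) _
  · intro v
    obtain ⟨x, y, rfl⟩ := (sumDec Q₁ Q₂).surj v
    rw [ODec.homL_apply, sumDec_e, sumDec_e]
    simp [Matrix.fromBlocks_mulVec]

end Cfsg.Agent.S2627
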