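import Cfsg.Statements.S2628
import Cfsg.Agent.H8.Sum

set_option autoImplicit false
open Cfsg

namespace Cfsg.Agent.S2628

open CfsgH8

/-- For the orthogonal direct sum Q ⊕ Q of two copies of a quadratic form Q with non-degenerate polar form on F^k (F finite), every isometry g of Q acting diagonally, diag(g, g), lies in Ω(Q ⊕ Q), the commutator subgroup of the orthogonal group of Q ⊕ Q. (Excluded: k = 2 over the field of two elements, where Q ⊕ Q is the hyperbolic 4-space whose orthogonal group's commutator subgroup is smaller than the group usually called Ω.) -/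
theorem result {F : Type*} [Field F] [Fintype F] {k : ℕ} (h : Fintype.card F ≠ 2 ∨ k ≠ 2) (Q : QuadraticForm F (Fin k → F)) (hQ : (QuadraticMap.polarBilin Q).Nondegenerate) (g : ↥(Cfsg.isometryGroup F ⇑Q)) : ∃ x : ↥(Cfsg.isometryGroup F (fun v : Fin k ⊕ Fin k → F => Q (v ∘ Sum.inl) + Q (v ∘ Sum.inr))), x ∈ Cfsg.Omega F (fun v : Fin k ⊕ Fin k → F => Q (v ∘ Sum.inl) + Q (v ∘ Sum.inr)) ∧ ((x : Matrix.GeneralLinearGroup (Fin k ⊕ Fin k) F) : Matrix (Fin k ⊕ Fin k) (Fin k ⊕ Fin k) F) = Matrix.fromBlocks ((g : Matrix.GeneralLinearGroup (Fin k) F) : Matrix (Fin k) (Fin k) F) 0 0 ((g : Matrix.GeneralLinearGroup (Fin k) F) : Matrix (Fin k) (Fin k) F) := by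
  refine (exists_Omega_matrix_iff (sumQ_coe Q Q) _
    ((sumDec Q Q).hom (toOG rfl g, toOG rfl g)) fun v => ?_).2 ?_
  · obtain ⟨x, y, rfl⟩ := (sumDec Q Q).surj v
    rw [ODec.hom_apply, sumDec_e, sumDec_e]
    simp [Matrix.fromBlocks_mulVec]
  · have hN : ND (sumQ Q Q) := ND.sumQ hQ hQ
    have hG : Good (sumQ Q Q) := good_of_or (n := k + k) (by simp) (by omega)
    set D := sumDec Q Q
    let τ : OG (sumQ Q Q) := ⟨D.e.symm ≪≫ₗ D.swap.e, fun v => by
      obtain ⟨x, y, rfl⟩ := D.surj v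
      simp [D.he, add_comm]⟩
    have hτ : ∀ x y, τ.1 (D.e (x, y)) = D.e (y, x) := fun x y => by simp [τ]
    have : D.swap.homL (toOG rfl g) = τ * D.homL (toOG rfl g) * τ⁻¹ := by
      rw [eq_mul_inv_iff_mul_eq]
      refine OG.ext' fun v => ?_
      obtain ⟨x, y, rfl⟩ := D.surj v
      rw [OG.mul_apply, OG.mul_apply, hτ, ODec.homL_apply, hτ, ← ODec.swap_e, ODec.homL_apply,
        ODec.swap_e]
    rw [ODec.hom_eq_mul, this, mem_commutator_iff hN hG]
    simp only [dickF_mul hN hG, spinF_mul hN hG, dickF_inv hN hG, spinF_inv hN hG]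
    constructor
    · rw [mul_comm (dickF τ), mul_assoc, ← mul_assoc, Int.units_mul_self, Int.units_mul_self,
        one_mul]
    · rw [mul_comm (spinF τ), mul_assoc, ← mul_assoc, Int.units_mul_self, Int.units_mul_self,
        one_mul]

end Cfsg.Agent.S2628
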