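import Cfsg.Statements.S2634
import Cfsg.Agent.H8.Mat

set_option autoImplicit false
open Cfsg

namespace Cfsg.Agent.S2634

open CfsgH8

/-- Over a finite field of characteristic two, Ω (the commutator subgroup of the orthogonal group of a quadratic form Q on F^n with non-degenerate polar form; excluding dimension 4 over the field of two elements) acts transitively on the non-singular 1-spaces: for u, v with Q(u) ≠ 0 and Q(v) ≠ 0 some element of Ω carries the line through u to the line through v. -/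
theorem result {F : Type*} [Field F] [Fintype F] [CharP F 2] {n : ℕ} (h : Fintype.card F ≠ 2 ∨ n ≠ 4) (Q : QuadraticForm F (Fin n → F)) (hQ : (QuadraticMap.polarBilin Q).Nondegenerate) (u v : Fin n → F) (hu : Q u ≠ 0) (hv : Q v ≠ 0) : ∃ g : ↥(Cfsg.isometryGroup F ⇑Q), g ∈ Cfsg.Omega F ⇑Q ∧ (F ∙ ((g : Matrix.GeneralLinearGroup (Fin n) F) : Matrix (Fin n) (Fin n) F).mulVec u) = F ∙ v := by
  have hG : Good Q := good_of_or (by simp) h
  have h2 : (2 : F) = 0 := CharTwo.two_eq_zero
  obtain ⟨c, hc, hcu⟩ := exists_sq_mul_of_chi hv hu (by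
    rw [chi_eq_one_iff.2 (isSquare_of_two_eq_zero h2 _), chi_eq_one_iff.2 (isSquare_of_two_eq_zero h2 _)])
  have hv0 : v ≠ 0 := by rintro rfl; simp at hv
  obtain ⟨g, hg⟩ := witt_vec hQ (x := u) (y := c • v) (by rintro rfl; simp at hu)
    (smul_ne_zero hc hv0) (by rw [Q_smul, hcu])
  have hvv : (refl Q v).1 v = v := by
    rw [refl_self hv, neg_eq_iff_add_eq_zero, ← two_smul F, h2, zero_smul]
  refine (exists_Omega_iff (Q := Q) rfl (fun f => (F ∙ f u) = F ∙ v)).2 ?_
  rcases Int.units_eq_one_or (dickF g) with hd | hd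
  · refine ⟨g, (mem_commutator_iff_two hQ hG h2 _).2 hd, ?_⟩
    simp only [LinearEquiv.coe_coe, hg]
    exact Submodule.span_singleton_smul_eq (IsUnit.mk0 c hc) v
  · refine ⟨refl Q v * g, (mem_commutator_iff_two hQ hG h2 _).2 (by
      rw [dickF_refl_mul hQ _ hv, hd, neg_neg]), ?_⟩
    simp only [LinearEquiv.coe_coe, OG.mul_apply, hg, map_smul, hvv]
    exact Submodule.span_singleton_smul_eq (IsUnit.mk0 c hc) v

end Cfsg.Agent.S2634
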