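import Cfsg.Statements.S2635
import Cfsg.Agent.H8.Mat

set_option autoImplicit false
open Cfsg

namespace Cfsg.Agent.S2635

open CfsgH8

/-- Over a finite field of characteristic two, for a quadratic form Q on F^n with non-degenerate polar form, n ≥ 2, other than dimension 4 over the field of two elements, Ω (the commutator subgroup of the orthogonal group) is exactly the subgroup generated by the products of two reflections (orthogonal transvections) x ↦ x − Q(v)⁻¹ f(x, v) v, Q(v) ≠ 0: the products of an even number of reflections. -/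
theorem result {F : Type*} [Field F] [Fintype F] [CharP F 2] {n : ℕ} (hn : 2 ≤ n) (h : Fintype.card F ≠ 2 ∨ n ≠ 4) (Q : QuadraticForm F (Fin n → F)) (hQ : (QuadraticMap.polarBilin Q).Nondegenerate) : Cfsg.Omega F ⇑Q = Subgroup.closure {g : ↥(Cfsg.isometryGroup F ⇑Q) | ∃ u v : Fin n → F, Q u ≠ 0 ∧ Q v ≠ 0 ∧ ((g : Matrix.GeneralLinearGroup (Fin n) F) : Matrix (Fin n) (Fin n) F) = Cfsg.reflectionMatrix ⇑Q u * Cfsg.reflectionMatrix ⇑Q v} := by
  have hG : Good Q := good_of_or (by simp) h
  have h2 : (2 : F) = 0 := CharTwo.two_eq_zero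
  set S : Set ↥(Cfsg.isometryGroup F ⇑Q) := {g : ↥(Cfsg.isometryGroup F ⇑Q) | ∃ u v : Fin n → F, Q u ≠ 0 ∧ Q v ≠ 0 ∧ ((g : Matrix.GeneralLinearGroup (Fin n) F) : Matrix (Fin n) (Fin n) F) = Cfsg.reflectionMatrix ⇑Q u * Cfsg.reflectionMatrix ⇑Q v} with hS
  apply le_antisymm
  · intro g hg
    rw [mem_Omega_iff rfl] at hg
    obtain ⟨vs, hvs, he⟩ := exists_list hQ hG (toOG rfl g)
    rw [he, list_mem_commutator_iff hQ hG vs hvs] at hg
    have key : ∀ (k : ℕ) (vs : List (Fin n → F)), vs.length = 2 * k → (∀ v ∈ vs, Q v ≠ 0) →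
        (toOG (Q := Q) rfl).symm (vs.map (refl Q)).prod ∈ Subgroup.closure S := by
      intro k
      induction k with
      | zero =>
        intro vs h _
        have : vs = [] := List.length_eq_zero_iff.1 h
        subst this
        simp
      | succ k ih =>
        intro vs h hvs
        match vs, h, hvs with
        | u :: v :: ws, h, hvs =>
          rw [List.map_cons, List.prod_cons, List.map_cons, List.prod_cons, ← mul_assoc, map_mul]
          refine Subgroup.mul_mem _ (Subgroup.subset_closure ⟨u, v, hvs u (by simp), hvs v (by simp), ?_⟩)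
            (ih ws (by simp at h; omega) (fun w hw => hvs w (by simp [hw])))
          rw [matrix_eq_iff]
          intro x
          rw [toOG_symm_mulVec, ← Matrix.mulVec_mulVec, reflectionMatrix_mulVec rfl,
            reflectionMatrix_mulVec rfl, OG.mul_apply]
    obtain ⟨k, hk⟩ := hg.1
    have := key k vs (by omega) hvs
    rwa [← he, MulEquiv.symm_apply_apply] at this
  · rw [Subgroup.closure_le]
    rintro g ⟨u, v, hu, hv, hg⟩
    have : toOG rfl g = refl Q u * refl Q v := OG.ext' fun x => by
      rw [toOG_apply, hg, ← Matrix.mulVec_mulVec, reflectionMatrix_mulVec rfl,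
        reflectionMatrix_mulVec rfl, OG.mul_apply]
    rw [SetLike.mem_coe, mem_Omega_iff rfl, this, mem_commutator_iff_two hQ hG h2,
      dickF_refl_mul hQ _ hu, dickF_refl hQ hv, neg_neg]

end Cfsg.Agent.S2635
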