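import Cfsg.Statements.S2636
import Cfsg.Agent.H1.GU1

set_option autoImplicit false
open Cfsg

namespace Cfsg.Agent.S2636

open CfsgH1 Subgroup
open scoped commutatorElement
set_option maxHeartbeats 400000

open Matrix Module CfsgH7

/-- Centraliser of a field automorphism in PGL_n: let F be the field with q = q₀^r elements, σ a field automorphism of F of prime order r (so its fixed field has q₀ elements) and n ≥ 1. The invertible matrices g whose entrywise image under σ is a scalar multiple of g — those whose coset modulo scalars is fixed by σ — number (q − 1)/(q₀ − 1) · |GL_n(q₀)|; equivalently the centraliser in PGL_n(q) of the induced automorphism has the order of PGL_n(q₀). -/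
theorem result {F : Type*} [Field F] [Fintype F] {q₀ r n : ℕ} (hr : r.Prime) (hn : 1 ≤ n) (hF : Fintype.card F = q₀ ^ r) (σ : F ≃+* F) (hσ : orderOf σ = r) : Nat.card {g : GL (Fin n) F // ∃ c : F, c ≠ 0 ∧ (g : Matrix (Fin n) (Fin n) F).map σ = c • (g : Matrix (Fin n) (Fin n) F)} = (q₀ ^ r - 1) / (q₀ - 1) * ∏ i : Fin n, (q₀ ^ n - q₀ ^ (i : ℕ)) := by
  classical
  haveI : Nonempty (Fin n) := ⟨⟨0, hn⟩⟩
  have hq : Nat.card (fixF σ) = q₀ := card_fixF_eq σ (by rw [hσ, hF])
  let ε : fixF σ →+* F := (fixF σ).subtype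
  let φ : Fˣ × GL (Fin n) (fixF σ) →* GL (Fin n) F :=
    MonoidHom.mk' (fun x => smulGL x.1 x.1.ne_zero (Matrix.GeneralLinearGroup.map ε x.2)) (by
      intro a b
      apply Units.ext
      simp [smulGL_coe, smul_smul, mul_comm])
  have hφ : ∀ x, ((φ x : GL (Fin n) F) : Matrix (Fin n) (Fin n) F) =
      (x.1 : F) • (x.2 : Matrix (Fin n) (Fin n) (fixF σ)).map ε := fun x => rfl
  have h1 : Nat.card {g : GL (Fin n) F // ∃ c : F, c ≠ 0 ∧
      (g : Matrix (Fin n) (Fin n) F).map σ = c • (g : Matrix (Fin n) (Fin n) F)} =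
      Nat.card φ.range := by
    refine Nat.card_congr (Equiv.subtypeEquivRight fun g => ⟨?_, ?_⟩)
    · rintro ⟨c, -, hc⟩
      obtain ⟨x, hx0, hx⟩ := exists_fixed_of_map_eq_smul σ g hc
      obtain ⟨g₀, hg₀⟩ := exists_GL_map_eq ε (smulGL x hx0 g) (fun i j =>
        ⟨⟨(smulGL x hx0 g : Matrix (Fin n) (Fin n) F) i j, mem_fixF.2 (by
        have h1 : σ ((g : Matrix (Fin n) (Fin n) F) i j) = c * (g : Matrix (Fin n) (Fin n) F) i j := by
          simpa using congrFun (congrFun hc i) j
        rw [smulGL_coe, Matrix.smul_apply, smul_eq_mul, map_mul, h1, ← mul_assoc, mul_comm (σ x),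
          hx])⟩, rfl⟩)
      refine ⟨((Units.mk0 x hx0)⁻¹, g₀), Units.ext ?_⟩
      have := congrArg Units.val hg₀
      rw [hφ]
      change x⁻¹ • (Matrix.GeneralLinearGroup.map ε g₀).1 = _
      rw [this, smulGL_coe, smul_smul, inv_mul_cancel₀ hx0, one_smul]
    · rintro ⟨x, rfl⟩
      refine ⟨σ x.1 / x.1, by simp, ?_⟩
      rw [hφ]
      ext i j
      have := mem_fixF.1 ((x.2 : Matrix (Fin n) (Fin n) (fixF σ)) i j).2
      simp [ε, this]
      field_simp
  have h2 : Nat.card φ.ker = q₀ - 1 := by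
    rw [← hq, ← Nat.card_units]
    symm
    refine Nat.card_eq_of_bijective (fun a => ⟨((Units.map (ε : fixF σ →* F) a)⁻¹,
      smulGL a a.ne_zero 1), ?_⟩) ⟨?_, ?_⟩
    · rw [MonoidHom.mem_ker]
      apply Units.ext
      rw [hφ]
      ext i j
      simp [smulGL_coe, one_apply, ε]
      split_ifs <;> simp
    · intro a b h
      have := congrArg (fun x => x.1.1) h
      simp only [_root_.inv_inj] at this
      exact Units.map_injective ε.injective this
    · rintro ⟨⟨a, g⟩, h⟩
      have h' := congrArg Units.val (MonoidHom.mem_ker.1 h)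
      rw [hφ] at h'
      obtain ⟨i⟩ := ‹Nonempty (Fin n)›
      have h3 : (a : F) * ε ((g : Matrix (Fin n) (Fin n) (fixF σ)) i i) = 1 := by
        simpa using congrFun (congrFun h' i) i
      have h4 : (g : Matrix (Fin n) (Fin n) (fixF σ)) i i ≠ 0 := by
        intro h0; rw [h0] at h3; simp at h3
      refine ⟨Units.mk0 _ h4, Subtype.ext (Prod.ext ?_ (Units.ext ?_))⟩
      · apply inv_eq_of_mul_eq_one_left
        exact Units.ext h3
      · ext j k
        have h5 : (a : F) * ε ((g : Matrix (Fin n) (Fin n) (fixF σ)) j k) =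
            (1 : Matrix (Fin n) (Fin n) F) j k := by
          simpa using congrFun (congrFun h' j) k
        apply mul_left_cancel₀ a.ne_zero
        change (a : F) * ε (((g : Matrix (Fin n) (Fin n) (fixF σ)) i i •
          (1 : Matrix (Fin n) (Fin n) (fixF σ))) j k) = (a : F) * ε _
        rw [h5, Matrix.smul_apply, smul_eq_mul, map_mul, ← mul_assoc, h3, one_mul]
        simp [one_apply, apply_ite ε]
  have h3 := φ.ker.card_mul_index
  rw [index_ker, h2, Nat.card_prod, Nat.card_units, Nat.card_eq_fintype_card (α := F), hF,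
    Matrix.card_GL_field, ← Nat.card_eq_fintype_card, hq] at h3
  have h4 : 1 < q₀ := by rw [← hq]; exact Finite.one_lt_card
  obtain ⟨k, hk⟩ := Nat.sub_one_dvd_pow_sub_one q₀ r
  rw [h1, hk, Nat.mul_div_cancel_left _ (by omega)]
  rw [hk, mul_assoc] at h3
  exact Nat.eq_of_mul_eq_mul_left (by omega) h3

end Cfsg.Agent.S2636
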