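import Cfsg.Statements.S2637
import Cfsg.Agent.H1.QExt
import Cfsg.Agent.H7.Sim2

set_option autoImplicit false
open Cfsg

namespace Cfsg.Agent.S2637

open CfsgH1 Subgroup
open scoped commutatorElement
set_option maxHeartbeats 400000

open Matrix Module CfsgH7 Polynomial

/-- Centraliser of a fixed-point-free element of order three in Sp_2m(q) when q ≡ 2 (mod 3): if x ∈ Sp_2m(F) (|F| = q, m ≥ 1) satisfies x³ = 1 and x − 1 is invertible, then its centraliser in Sp_2m(F) has the order of the unitary group GU_m(q), namely q^(m(m−1)/2) Π_(i=1)^m (q^i − (−1)^i) (x lies in the centre of a subgroup GU_m(q) of Sp_2m(q)). -/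
theorem result {F : Type*} [Field F] [Fintype F] {q : ℕ} (hF : Fintype.card F = q) (hq : q % 3 = 2) {m : ℕ} (hm : 1 ≤ m) (x : Matrix.symplecticGroup (Fin m) F) (hx3 : x ^ 3 = 1) (hfpf : IsUnit ((x : Matrix (Fin m ⊕ Fin m) (Fin m ⊕ Fin m) F) - 1)) : (Nat.card ↥(Subgroup.centralizer ({x} : Set ↥(Matrix.symplecticGroup (Fin m) F))) : ℤ) = (q : ℤ) ^ (m * (m - 1) / 2) * ∏ i : Fin m, ((q : ℤ) ^ ((i : ℕ) + 1) - (-1) ^ ((i : ℕ) + 1)) := by
  classical
  obtain ⟨p, f, hp, -, -, hc⟩ := exists_card_eq_pow F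
  haveI := Fact.mk hp
  obtain ⟨K, _, _, hK⟩ : ∃ (K : Type) (_ : Field K) (_ : Fintype K), Fintype.card K = q ^ 2 :=
    ⟨FiniteField.Extension F p 2, inferInstance, Fintype.ofFinite _, by
      rw [← @Nat.card_eq_fintype_card _ (Fintype.ofFinite _), FiniteField.natCard_extension,
        Nat.card_eq_fintype_card, hF]⟩
  obtain ⟨alg, E, hσ⟩ := exists_qext hK hF
  haveI : Module.Finite F K := Module.finite_of_finrank_eq_succ E.rank
  obtain ⟨θ, h0, hθ⟩ := E.exists_skew
  have h3F : ((3 : ℕ) : F) ≠ 0 := fun h => by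
    have h1 : (q : F) = 0 := by rw [← hF]; exact FiniteField.cast_card_eq_zero F
    rw [← Nat.div_add_mod q 3, hq] at h1
    push_cast at h h1
    have : (1 : F) = 0 := by linear_combination h - h1 + (((q / 3 : ℕ) : F)) * h
    exact one_ne_zero this
  obtain ⟨ω, hω⟩ : ∃ ω : Kˣ, orderOf ω = 3 := by
    haveI := Fact.mk Nat.prime_three
    apply exists_prime_orderOf_dvd_card
    rw [Fintype.card_units, hK]
    have : q ^ 2 % 3 = 1 := by rw [Nat.pow_mod, hq]
    omega
  have hω3 : (ω : K) ^ 3 = 1 := by rw [← Units.val_pow_eq_pow_val, ← hω, pow_orderOf_eq_one]; rfl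
  have hω1 : (ω : K) ≠ 1 := fun h => by
    rw [Units.val_eq_one] at h; simp [h] at hω
  have hω2 : (ω : K) ^ 2 + ω + 1 = 0 :=
    mul_left_cancel₀ (sub_ne_zero.2 hω1) (by linear_combination hω3)
  have hσω : E.σ ω = (ω : K) ^ 2 := by
    rw [hσ, ← Nat.div_add_mod q 3, hq, pow_add, pow_mul, hω3, one_pow, one_mul]
  have hne : E.σ ω ≠ ω := fun h => hω1 (mul_left_cancel₀ ω.ne_zero (by rw [← sq, ← hσω, h, mul_one]))
  obtain ⟨e, he⟩ := exists_symp_equiv (E.trB_alt (ι := Fin m) hθ) (E.trB_nondeg h0) (m := m)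
    (by rw [E.finrank_fun, Fintype.card_fin])
  let Ψ : Module.End F (Fin m → K) ≃ₐ[F] Matrix (Fin m ⊕ Fin m) (Fin m ⊕ Fin m) F :=
    (e.symm.conjAlgEquiv F).trans LinearMap.toMatrixAlgEquiv'
  have hΨ : ∀ g v, Ψ g *ᵥ v = e.symm (g (e v)) := fun g v => by
    change LinearMap.toMatrix' (e.symm.conjAlgEquiv F g) *ᵥ v = _
    rw [← Matrix.toLin'_apply, toLin'_toMatrix']
    rfl
  have hSp : ∀ g, Ψ g ∈ symplecticGroup (Fin m) F ↔
      ∀ u v, E.trB θ _ (g u) (g v) = E.trB θ _ u v := fun g => by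
    rw [mem_Sp_iff_form]
    simp only [hΨ, ← toBilin'_J, ← he, LinearEquiv.apply_symm_apply]
    refine ⟨fun h u v => ?_, fun h u v => h _ _⟩
    simpa using h (e.symm u) (e.symm v)
  have hU : ∀ g : Matrix (Fin m) (Fin m) K, ct E.σ g * g = 1 →
      Ψ (QExt.resM F _ g) ∈ symplecticGroup (Fin m) F := fun g hg => (hSp _).2 fun u v => by
    rw [QExt.resM_apply, QExt.resM_apply, E.trB_apply, E.trB_apply, E.sesq_apply, E.sesq_apply,
      (preserves_herm_iff E.σ g).2 hg]
  let x₀ : symplecticGroup (Fin m) F := ⟨_, hU ((ω : K) • 1) (by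
    rw [ct_smul, ct_one, smul_mul_smul_comm, hσω, ← pow_succ, hω3]; simp)⟩
  have hx₀ : x₀.1 = Ψ (QExt.resM F _ ((ω : K) • 1)) := rfl
  let P : F[X] := X ^ 2 + X + 1
  have hP : Irreducible P := by
    have hdeg : P.natDegree = 2 := by simp only [P]; compute_degree!
    refine irreducible_of_degree_le_three_of_not_isRoot (by simp [hdeg]) fun a ha => ?_
    have h1 : algebraMap F K a ^ 2 + algebraMap F K a + 1 = 0 := by
      have := congrArg (algebraMap F K) ha
      simpa [P] using this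
    have h2 : (algebraMap F K a - ω) * (algebraMap F K a - ω ^ 2) = 0 := by
      linear_combination h1 - algebraMap F K a * hω2 + hω3
    rcases mul_eq_zero.1 h2 with h | h
    · exact hne (by rw [← sub_eq_zero.1 h, E.σ_alg])
    · apply hne
      have := E.σ_alg a
      rw [sub_eq_zero.1 h, ← hσω, E.σσ] at this
      exact this.symm
  have hPm : P.Monic := by simp only [P]; monicity!
  have hx : aeval x.1 P = 0 := by
    have h1 : x.1 ^ 3 = 1 := congrArg Subtype.val hx3
    apply hfpf.mul_left_cancel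
    simp only [P, map_add, map_pow, aeval_X, map_one, mul_zero]
    rw [← sub_eq_zero.2 h1]; noncomm_ring
  have hx0 : aeval x₀.1 P = 0 := by
    simp only [P, map_add, map_pow, aeval_X, map_one]
    rw [hx₀, ← map_pow Ψ, ← map_one Ψ, ← map_add, ← map_add, EmbeddingLike.map_eq_zero_iff]
    refine LinearMap.ext fun v => ?_
    simp only [sq, LinearMap.add_apply, Module.End.mul_apply, QExt.resM_apply, smul_mulVec,
      one_mulVec, smul_smul, Module.End.one_apply, LinearMap.zero_apply]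
    have := congrArg (· • v) hω2
    simpa [add_smul, sq] using this
  have hconj : IsConj x x₀ := (sp_isConj_iff hx3 h3F).2
    (isConj_of_rank_dvd _ _ P hx hx0 fun p hp hpm hd e => by
      obtain rfl := eq_of_monic_of_associated hpm hPm (hp.associated_of_dvd hP hd)
      rw [map_pow, map_pow, hx, hx0])
  rw [card_centralizer_of_isConj hconj]
  have hcard := card_UM E.ord hK (Fin m)
  rw [Fintype.card_fin, ordGU] at hcard
  rw [← hcard]
  congr 1
  symm
  refine Nat.card_eq_of_bijective (fun g => ⟨⟨_, hU g.1 g.2⟩,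
    Subgroup.mem_centralizer_singleton_iff.2 (Subtype.ext ?_)⟩) ⟨fun a b h => ?_, ?_⟩
  · change Ψ _ * Ψ _ = Ψ _ * Ψ _
    rw [← map_mul, ← map_mul, ← map_mul, ← map_mul]; simp
  · have := congrArg (fun g => g.1.1) h
    exact Subtype.ext (QExt.resM_injective (Ψ.injective this))
  · rintro ⟨⟨g, hg1⟩, hg2⟩
    obtain ⟨g, rfl⟩ := Ψ.surjective g
    have h1 := congrArg Subtype.val (Subgroup.mem_centralizer_singleton_iff.1 hg2)
    change Ψ _ * Ψ _ = Ψ _ * Ψ _ at h1
    rw [← map_mul, ← map_mul, EmbeddingLike.apply_eq_iff_eq] at h1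
    have h2 : ∀ v, g ((ω : K) • v) = (ω : K) • g v := fun v => by
      simpa [QExt.resM_apply, smul_mulVec] using LinearMap.congr_fun h1 v
    let g' : (Fin m → K) →ₗ[K] (Fin m → K) :=
      { toFun := g
        map_add' := g.map_add
        map_smul' := fun c v => by
          obtain ⟨a, b, rfl⟩ := E.exists_lin_comb hne c
          simp only [add_smul, mul_smul, algebraMap_smul, map_add, map_smul, h2, RingHom.id_apply] }
    have h3 : QExt.resM F _ (LinearMap.toMatrix' g') = g := LinearMap.ext fun v => by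
      rw [QExt.resM_apply, ← toLin'_apply, toLin'_toMatrix']; rfl
    refine ⟨⟨LinearMap.toMatrix' g', (preserves_herm_iff E.σ _).1 fun u v => ?_⟩,
      Subtype.ext (Subtype.ext (congrArg Ψ h3))⟩
    rw [← toLin'_apply, ← toLin'_apply, toLin'_toMatrix']
    exact E.sesq_eq_of_trB h0 (g := g') ((hSp g).1 hg1) u v

end Cfsg.Agent.S2637
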