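import Cfsg.Statements.S2638
import Cfsg.Agent.H1.GL2

set_option autoImplicit false
open Cfsg

namespace Cfsg.Agent.S2638

open CfsgH1 Subgroup
open scoped commutatorElement
set_option maxHeartbeats 400000

open Matrix Module Polynomial

theorem eq_one_of_pow {F V : Type*} [Field F] [Fintype F] [AddCommGroup V] [Module F V]
    [FiniteDimensional F V] {r : ℕ} (hr : r.Prime) (hq : (Fintype.card F : ZMod r) ≠ 0)
    (hd : finrank F V < orderOf (Fintype.card F : ZMod r)) (f : Module.End F V) (hf : f ^ r = 1) :
    f = 1 := by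
  classical
  haveI := Fact.mk hr
  let b := Module.finBasis F V
  let A := LinearMap.toMatrixAlgEquiv b f
  have hA : A ^ r = 1 := by rw [← map_pow, hf, map_one]
  let u : GL (Fin (finrank F V)) F := Units.ofPowEqOne A r hA hr.ne_zero
  have hu : u ^ r = 1 := Units.ext hA
  by_contra hne
  have hu1 : u ≠ 1 := by
    intro h
    apply hne
    apply (LinearMap.toMatrixAlgEquiv b).injective
    rw [map_one]
    exact congrArg Units.val h
  have h1 : r ∣ Nat.card (GL (Fin (finrank F V)) F) := by
    rw [← orderOf_eq_prime hu hu1]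
    exact _root_.orderOf_dvd_natCard u
  rw [Matrix.card_GL_field, Prime.dvd_finsetProd_iff hr.prime] at h1
  obtain ⟨i, -, hi⟩ := h1
  have hle : Fintype.card F ^ (i : ℕ) ≤ Fintype.card F ^ finrank F V :=
    Nat.pow_le_pow_right Fintype.card_pos i.2.le
  rw [← ZMod.natCast_eq_zero_iff, Nat.cast_sub hle, sub_eq_zero, Nat.cast_pow, Nat.cast_pow] at hi
  have h2 : (Fintype.card F : ZMod r) ^ (finrank F V - i) = 1 := by
    apply mul_left_cancel₀ (pow_ne_zero (i : ℕ) hq)
    rw [← pow_add, Nat.add_sub_cancel' i.2.le, hi, mul_one]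
  have := Nat.le_of_dvd (by have := i.2; omega) (orderOf_dvd_of_pow_eq_one h2)
  omega

/-- If an element x of GL_n(q), n ≥ 1, has prime order r and the multiplicative order of q modulo r is n (r is a primitive prime divisor of q^n − 1, so x acts irreducibly), then the centraliser of x in GL_n(q) is cyclic of order q^n − 1 (the multiplicative group of the field with q^n elements, a Singer cycle). -/
theorem result {F : Type*} [Field F] [Fintype F] {p q : ℕ} [Fact p.Prime] [CharP F p] (hF : Fintype.card F = q) {n r : ℕ} (hn : 1 ≤ n) (hr : r.Prime) (hrp : r ≠ p) (hi : orderOf (q : ZMod r) = n) (x : GL (Fin n) F) (hx : orderOf x = r) : IsCyclic ↥(Subgroup.centralizer ({x} : Set (GL (Fin n) F))) ∧ Nat.card ↥(Subgroup.centralizer ({x} : Set (GL (Fin n) F))) = q ^ n - 1 := by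
  classical
  subst hF
  have hp := (Fact.out : p.Prime)
  haveI := Fact.mk hr
  haveI : Nonempty (Fin n) := ⟨⟨0, hn⟩⟩
  have hq : (Fintype.card F : ZMod r) ≠ 0 := by
    obtain ⟨k, -, hk⟩ := FiniteField.card F p
    rw [hk, Ne, ZMod.natCast_eq_zero_iff]
    intro h
    exact hrp ((Nat.prime_dvd_prime_iff_eq hr hp).1 (hr.dvd_of_dvd_pow h))
  let f : Module.End F (Fin n → F) := toLin' (x : Matrix (Fin n) (Fin n) F)
  have hfr : f ^ r = 1 := by
    rw [← Matrix.toLin'_pow, ← Units.val_pow_eq_pow_val, ← hx, pow_orderOf_eq_one, Units.val_one,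
      toLin'_one]
    rfl
  have hirr : IrrEnd f := by
    intro W hW
    by_contra hc
    push Not at hc
    have hW1 : finrank F W < n := by
      simpa using Submodule.finrank_lt hc.2
    have hW2 : finrank F ((Fin n → F) ⧸ W) < n := by
      have h1 := W.finrank_quotient_add_finrank
      have h2 : finrank F W ≠ 0 := fun h => hc.1 (Submodule.finrank_eq_zero.1 h)
      simp at h1
      omega
    have h1 := eq_one_of_pow hr hq (hi ▸ hW1) (f.restrict hW) (by
      rw [Module.End.pow_restrict]
      ext v : 2
      rw [LinearMap.restrict_coe_apply, hfr]; rfl)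
    have h2 := eq_one_of_pow hr hq (hi ▸ hW2) (W.mapQ W f hW) (by
      rw [← Submodule.mapQ_pow]
      ext v
      simp [hfr])
    have h3 : (f - 1) ^ 2 = 0 := by
      refine LinearMap.ext fun v => ?_
      have h4 : f v - v ∈ W := by
        have := LinearMap.congr_fun h2 (Submodule.Quotient.mk v)
        rwa [Submodule.mapQ_apply, Module.End.one_apply, Submodule.Quotient.eq] at this
      have h5 : f (f v - v) = f v - v := congrArg Subtype.val (LinearMap.congr_fun h1 ⟨_, h4⟩)
      rw [sq, Module.End.mul_apply]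
      change f (f v - v) - (f v - v) = 0
      rw [h5, sub_self]
    have h4 : ((x : Matrix (Fin n) (Fin n) F) - 1) ^ 2 = 0 := by
      apply toLin'.injective
      rw [Matrix.toLin'_pow, map_sub, toLin'_one, map_zero]
      exact h3
    have h5 : x ^ p = 1 := by
      apply Units.ext
      rw [Units.val_pow_eq_pow_val, Units.val_one, ← sub_eq_zero]
      have := sub_pow_char_of_commute p (Commute.one_right (x : Matrix (Fin n) (Fin n) F))
      rw [one_pow] at this
      rw [← this]
      exact pow_eq_zero_of_le hp.two_le h4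
    have := orderOf_dvd_of_pow_eq_one h5
    rw [hx] at this
    exact hrp ((Nat.prime_dvd_prime_iff_eq hr hp).1 this)
  haveI : Finite (Module.End F (Fin n → F)) := CfsgH7.finite_linMap
  letI : Field (Subalgebra.centralizer F {f}) := hirr.isField.toField
  have hcomm : ∀ g : centralizer ({x} : Set (GL (Fin n) F)),
      f * toLin' (g.1 : Matrix (Fin n) (Fin n) F) = toLin' (g.1 : Matrix (Fin n) (Fin n) F) * f := by
    intro g
    have := congrArg Units.val (mem_centralizer_singleton_iff.1 g.2)
    change toLin' _ ∘ₗ toLin' _ = toLin' _ ∘ₗ toLin' _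
    rw [← toLin'_mul, ← toLin'_mul]
    exact congrArg toLin' this.symm
  let ψ : centralizer ({x} : Set (GL (Fin n) F)) →* Subalgebra.centralizer F {f} :=
    { toFun := fun g => ⟨toLin' (g.1 : Matrix (Fin n) (Fin n) F), mem_centralizer_single.2 (hcomm g)⟩
      map_one' := Subtype.ext toLin'_one
      map_mul' := fun a b => Subtype.ext (toLin'_mul _ _) }
  have hψ : Function.Injective ψ := fun a b h =>
    Subtype.ext (Units.ext (toLin'.injective (congrArg Subtype.val h)))
  refine ⟨isCyclic_of_injective_ringHom ψ hψ, ?_⟩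
  have hb : Function.Bijective ψ.toHomUnits := by
    refine ⟨fun a b h => hψ (congrArg Units.val h), fun e => ?_⟩
    have h1 : LinearMap.toMatrix' e.1.1 * LinearMap.toMatrix' (e⁻¹).1.1 = 1 := by
      rw [← LinearMap.toMatrix'_mul, ← LinearMap.toMatrix'_one]
      congr 1
      exact congrArg Subtype.val e.mul_inv
    refine ⟨⟨⟨_, _, h1, mul_eq_one_comm.1 h1⟩, mem_centralizer_singleton_iff.2 (Units.ext ?_)⟩, ?_⟩
    · apply toLin'.injective
      change toLin' (LinearMap.toMatrix' e.1.1 * _) = toLin' (_ * LinearMap.toMatrix' e.1.1)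
      rw [toLin'_mul, toLin'_mul, toLin'_toMatrix']
      exact (mem_centralizer_single.1 e.1.2).symm
    · exact Units.ext (Subtype.ext (toLin'_toMatrix' _))
  obtain ⟨v, hv⟩ := exists_ne (0 : Fin n → F)
  rw [Nat.card_eq_of_bijective _ hb, Nat.card_units,
    Nat.card_eq_of_bijective _ (hirr.evalCent_bijective hv)]
  simp

end Cfsg.Agent.S2638
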