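import Cfsg.Statements.S2639
import Cfsg.Agent.H1.QExt

set_option autoImplicit false
open Cfsg

namespace Cfsg.Agent.S2639

open CfsgH1 Subgroup
open scoped commutatorElement
set_option maxHeartbeats 400000

open Matrix Module CfsgH7

/-- The unitary group embeds in the symplectic group of twice the dimension over the subfield: for a field K with q² elements and a field F with q elements (isomorphic to the subfield of K of order q), there is an injective homomorphism GU_m(q) → Sp_2m(F). -/
theorem result {K F : Type*} [Field K] [Fintype K] [Field F] [Fintype F] {q : ℕ} (hK : Fintype.card K = q ^ 2) (hF : Fintype.card F = q) (m : ℕ) : ∃ φ : ↥(Cfsg.GU m K q) →* ↥(Matrix.symplecticGroup (Fin m) F), Function.Injective φ := by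
  obtain ⟨_, E, hσ⟩ := exists_qext hK hF
  haveI : Module.Finite F K := Module.finite_of_finrank_eq_succ E.rank
  obtain ⟨θ, h0, hθ⟩ := E.exists_skew
  refine exists_embed_Sp (E.trB_alt (ι := Fin m) hθ) (E.trB_nondeg h0)
    (by rw [E.finrank_fun, Fintype.card_fin])
    (((QExt.resM F (Fin m)).comp (Units.coeHom _)).comp (Cfsg.GU m K q).subtype)
    (fun a b h => Subtype.ext (Units.ext (QExt.resM_injective h))) fun g x y => ?_
  change E.trB θ _ (g.1.1 *ᵥ x) (g.1.1 *ᵥ y) = _
  rw [E.trB_apply, E.trB_apply, E.sesq_apply, E.sesq_apply,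
    (preserves_herm_iff E.σ g.1.1).2 ((mem_GU_iff hσ _).1 g.2)]

end Cfsg.Agent.S2639
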