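import Cfsg.Statements.S2640
import Cfsg.Agent.H1.QExt

set_option autoImplicit false
open Cfsg

namespace Cfsg.Agent.S2640

open CfsgH1 Subgroup
open scoped commutatorElement
set_option maxHeartbeats 400000

open Matrix Module CfsgH7 CfsgH8

/-- For m even, the unitary group GU_m(q) (over the field with q² elements) embeds in the orthogonal group O⁺_2m(q) of the hyperbolic form Σ x_i y_i over the field with q elements (there is an injective homomorphism). -/
theorem result {K F : Type*} [Field K] [Fintype K] [Field F] [Fintype F] {q : ℕ} (hK : Fintype.card K = q ^ 2) (hF : Fintype.card F = q) (m : ℕ) (hm : Even m) : ∃ φ : ↥(Cfsg.GU m K q) →* ↥(Cfsg.isometryGroup F (Cfsg.quadFormPlus m F)), Function.Injective φ := by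
  obtain ⟨_, E, hσ⟩ := exists_qext hK hF
  haveI : Module.Finite F K := Module.finite_of_finrank_eq_succ E.rank
  obtain ⟨φ, hφ⟩ := E.exists_embed_OG (n := m) hσ
  obtain ⟨ζ, hζ⟩ := exists_aniso (F := F)
  obtain ⟨k, rfl⟩ := hm
  rcases (E.nd_nQ (ι := Fin (k + k))).classify_even (m := k + k)
    (by rw [E.finrank_fun, Fintype.card_fin]) hζ with h | ⟨h1, h⟩
  · obtain ⟨e⟩ := h.symm.og
    exact ⟨((toOG (QP_coe _ F)).symm.toMonoidHom.comp e.toMonoidHom).comp φ,
      ((toOG (QP_coe _ F)).symm.injective.comp e.injective).comp hφ⟩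
  · obtain ⟨U, h2, h3, -⟩ := E.exists_TS (ι := Fin (k + k)) (k := k) (r := 0) (by simp)
      (Fintype.equivOfCardEq (by simp))
    obtain ⟨W, h4, h5⟩ := h.symm.exists_TS h2
    have := finrank_TS_QM hζ h4
    omega

end Cfsg.Agent.S2640
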