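import Cfsg.Statements.S2641
import Cfsg.Agent.H1.QExt
import Cfsg.Agent.H8.MaxTS

set_option autoImplicit false
open Cfsg

namespace Cfsg.Agent.S2641

open CfsgH1 Subgroup
open scoped commutatorElement
set_option maxHeartbeats 400000

open Matrix Module CfsgH7 CfsgH8

/-- For m odd, the unitary group GU_m(q) (over the field with q² elements) embeds in the orthogonal group O⁻_2m(q) of an elliptic form (Σ_(i<m−1) x_i y_i plus an anisotropic binary form) over the field with q elements (there is an injective homomorphism). -/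
theorem result {K F : Type*} [Field K] [Fintype K] [Field F] [Fintype F] {q : ℕ} (hK : Fintype.card K = q ^ 2) (hF : Fintype.card F = q) (m : ℕ) (hm : Odd m) (a b : F) (hab : ∀ z₁ z₂ : F, z₁ ^ 2 + a * z₁ * z₂ + b * z₂ ^ 2 = 0 → z₁ = 0 ∧ z₂ = 0) : ∃ φ : ↥(Cfsg.GU m K q) →* ↥(Cfsg.isometryGroup F (Cfsg.quadFormMinus (m - 1) F a b)), Function.Injective φ := by
  obtain ⟨_, E, hσ⟩ := exists_qext hK hF
  haveI : Module.Finite F K := Module.finite_of_finrank_eq_succ E.rank
  obtain ⟨φ, hφ⟩ := E.exists_embed_OG (n := m) hσ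
  rcases (E.nd_nQ (ι := Fin m)).classify_even (m := m)
    (by rw [E.finrank_fun, Fintype.card_fin]) hab with h | ⟨h1, h⟩
  · obtain ⟨k, rfl⟩ := hm
    obtain ⟨U, h2, h3, h4⟩ := E.exists_TS (ι := Fin (2 * k + 1)) (k := k) (r := 1) (by simp)
      (Fintype.equivOfCardEq (by simp [two_mul]))
    obtain ⟨W, h5, h6⟩ := h.exists_TS (MTS_stdE (κ := Fin (2 * k + 1)) (F := F)).1
    have := h5.finrank_le_of_max E.nd_nQ h2 h4
    rw [h6, finrank_stdE, Fintype.card_fin] at this
    omega
  · obtain ⟨e⟩ := h.symm.og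
    exact ⟨((toOG (QM_coe _ F a b)).symm.toMonoidHom.comp e.toMonoidHom).comp φ,
      ((toOG (QM_coe _ F a b)).symm.injective.comp e.injective).comp hφ⟩

end Cfsg.Agent.S2641
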