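import Cfsg.Statements.S2642
import Cfsg.Agent.H1.GU1

set_option autoImplicit false
open Cfsg

namespace Cfsg.Agent.S2642

open CfsgH1 Subgroup
open scoped commutatorElement
set_option maxHeartbeats 400000

open Matrix Module

/-- Number of conjugacy classes of elements of order p in the general unitary group GU_n(q), q a power of p: every unipotent Jordan type occurs and the classes correspond to the partitions of n with all parts at most p other than the all-ones partition, exactly as in GL_n; so there are (number of partitions of n with parts ≤ p) − 1 classes. -/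
theorem result {K : Type*} [Field K] [Fintype K] {p q n : ℕ} [Fact p.Prime] [CharP K p] (hK : Fintype.card K = q ^ 2) : Nat.card {C : ConjClasses ↥(Cfsg.GU n K q) // ∃ g : ↥(Cfsg.GU n K q), ConjClasses.mk g = C ∧ orderOf g = p} = (Finset.univ.filter (fun μ : Nat.Partition n => ∀ a ∈ μ.parts, a ≤ p)).card - 1 := by
  classical
  rw [← card_partition_sub_one _ (fun μ h a ha => (h a ha).trans (Fact.out : p.Prime).one_le)]
  choose f hf using fun μ : n.Partition =>
    exists_GU_jtype hK μ.parts (fun a ha => μ.parts_pos ha) μ.parts_sum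
  have key : ∀ (g : Cfsg.GU n K q) s, IsJType (g.1 : Matrix (Fin n) (Fin n) K) s →
      (orderOf g = p ↔ (∀ a ∈ s, a ≤ p) ∧ ¬ ∀ a ∈ s, a ≤ 1) := by
    intro g s hs
    rw [orderOf_eq_prime_iff', ← hs.pow_eq_zero_iff, ← hs.eq_one_iff, ← pow_char_eq_one_iff, Ne,
      Subtype.ext_iff, Subtype.ext_iff, Units.ext_iff, Units.ext_iff]
    rfl
  refine card_classes_of_reps _ (fun μ => f μ.1) (fun μ => (key _ _ (hf _)).2 μ.2) ?_ ?_
  · intro s t h
    exact Subtype.ext (Nat.Partition.ext
      ((hf _).eq_of_isConj (hf _) ((CfsgH7.isConj_units_iff _ _).1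
        ((CfsgH7.GU_isConj_iff hK _ _).1 h))))
  · intro g hg
    have h1 : (g.1 : Matrix (Fin n) (Fin n) K) ^ p = 1 :=
      congrArg (fun x => x.1.1) (orderOf_eq_prime_iff'.1 hg).1
    obtain ⟨s, hs⟩ := exists_jtype ⟨p, (pow_char_eq_one_iff p _).1 h1⟩
    refine ⟨⟨⟨s, fun h => hs.1 _ h, by simpa using hs.sum_eq⟩, (key _ _ hs).1 hg⟩, ?_⟩
    exact (CfsgH7.GU_isConj_iff hK _ _).2 ((CfsgH7.isConj_units_iff _ _).2 ((hf _).isConj hs))

end Cfsg.Agent.S2642
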