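import Cfsg.Statements.S2643
import Cfsg.Agent.H1.GU1

set_option autoImplicit false
open Cfsg

namespace Cfsg.Agent.S2643

open CfsgH1 Subgroup
open scoped commutatorElement
set_option maxHeartbeats 400000

open Matrix Module CfsgH7

/-- Regular unipotent classes of SU_n(q), n ≥ 2: the elements u of the special unitary group (isometries of Σ u_i v_i^q of determinant one over the field with q² elements) with (u − 1)^n = 0 and rank(u − 1) = n − 1 form exactly gcd(n, q + 1) conjugacy classes of SU_n(q). -/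
theorem result {K : Type*} [Field K] [Fintype K] {q n : ℕ} (hK : Fintype.card K = q ^ 2) (hn : 2 ≤ n) : Nat.card {C : ConjClasses ↥(Cfsg.SU n K q) // ∃ u : ↥(Cfsg.SU n K q), ConjClasses.mk u = C ∧ (((u : GL (Fin n) K) : Matrix (Fin n) (Fin n) K) - 1) ^ n = 0 ∧ (((u : GL (Fin n) K) : Matrix (Fin n) (Fin n) K) - 1).rank = n - 1} = Nat.gcd n (q + 1) := by
  classical
  obtain ⟨σ, hσ, h2⟩ := exists_qfrob hK
  obtain ⟨u, hu⟩ := exists_GU_jtype hK {n} (by simp; omega) (n := n) (by simp)
  have hdet : (u.1 : Matrix (Fin n) (Fin n) K).det = 1 := by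
    simpa using det_smul_add_nilpotent hu.isNilpotent 1
  let u' : Cfsg.SU n K q := ⟨⟨u.1, hdet⟩, (mem_SU_iff hσ _).2 ((mem_GU_iff hσ _).1 u.2)⟩
  haveI : Nonempty (Fin n) := ⟨⟨0, by omega⟩⟩
  rw [card_classes_split suToGU (fun a b h => Subtype.ext (Subtype.ext (congrArg (fun x => x.1.1) h)))
    (detGU hK) (by
      ext g
      rw [MonoidHom.mem_ker, Subtype.ext_iff, Units.ext_iff]
      constructor
      · rintro ⟨s, rfl⟩
        exact s.1.2
      · intro h
        exact ⟨⟨⟨g.1, h⟩, (mem_SU_iff hσ _).2 ((mem_GU_iff hσ _).1 g.2)⟩,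
          Subtype.ext (Units.ext rfl)⟩) u' _ (by
      intro s
      rw [GU_isConj_iff hK, CfsgH7.isConj_units_iff]
      constructor
      · intro h
        exact hu.isConj (isJType_regular (by simp) (by omega) ⟨_, h.1⟩ h.2)
      · intro h
        have := hu.of_isConj h
        exact ⟨by simpa [suToGU_coe] using this.pow_sum, by simpa [suToGU_coe] using this.2 1⟩),
    MonoidHom.range_eq_top.2 (detGU_surjective hK), relIndex_top_right,
    ← card_ker_pow_units hK, ← index_range_pow]
  congr 1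
  ext a
  constructor
  · rintro ⟨g, hg, rfl⟩
    obtain ⟨k, rfl⟩ : ∃ k, n = k + 1 := ⟨n - 1, by omega⟩
    have h1 : (g.1 : Matrix (Fin (k + 1)) (Fin (k + 1)) K) * u.1 = u.1 * g.1 :=
      congrArg (fun x => x.1.1) (mem_centralizer_singleton_iff.1 hg)
    obtain ⟨c, hc⟩ := regular_commutant (n := k + 1) (by simp) hu.isNilpotent
      (by simpa using hu.2 1) (g := g.1) (by rw [mul_sub, sub_mul, h1]; simp)
    have h3 := det_sum_pow hu.isNilpotent c
    rw [← hc, Fintype.card_fin] at h3
    obtain ⟨M, hM, hMN, hgM⟩ := sum_pow_eq_add_nilpotent hu.isNilpotent c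
    rw [← hc] at hgM
    have h4 : c 0 ^ (q + 1) = 1 := by
      -- use a vector fixed by `u`
      obtain ⟨v, hv0, hv⟩ : ∃ v, v ≠ 0 ∧ M *ᵥ v = 0 := by
        exact Matrix.exists_mulVec_eq_zero_iff.2 (by simpa using det_smul_add_nilpotent hM 0)
      have hg' := (mem_GU_iff hσ _).1 g.2
      have hM' : IsNilpotent (ct σ M) := by
        obtain ⟨N, hN⟩ := hM
        refine ⟨N, ?_⟩
        rw [ct_apply, ← transpose_pow]
        change ((σ : K →+* K).mapMatrix M ^ N)ᵀ = 0
        rw [← map_pow, hN]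
        simp
      have h5 : (σ (c 0) * c 0 - 1) • v = - (c 0 • ct σ M) *ᵥ v := by
        have := congrArg (· *ᵥ v) hg'
        simp only [← mulVec_mulVec, one_mulVec] at this
        rw [hgM, add_mulVec, hv, add_zero, smul_mulVec, one_mulVec, map_add, ct_smul, ct_one,
          add_mulVec, smul_mulVec, one_mulVec, smul_smul] at this
        rw [sub_smul, one_smul, neg_mulVec, smul_mulVec, ← mulVec_smul]
        linear_combination (exp := 1) this
      by_contra hne
      have h6 := det_smul_add_nilpotent (hM'.smul (c 0)) (σ (c 0) * c 0 - 1)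
      have h7 : ((σ (c 0) * c 0 - 1) • (1 : Matrix (Fin (k + 1)) (Fin (k + 1)) K) +
          c 0 • ct σ M).det = 0 := by
        apply Matrix.exists_mulVec_eq_zero_iff.1 ⟨v, hv0, _⟩
        rw [add_mulVec, smul_mulVec _ 1, one_mulVec, h5, neg_mulVec, neg_add_cancel]
      rw [h7] at h6
      apply hne
      have := pow_eq_zero_iff (by simp) |>.1 h6.symm
      rw [hσ, ← pow_succ, sub_eq_zero] at this
      exact this
    have h5 : c 0 ≠ 0 := by
      intro h
      rw [h] at h4
      simp at h4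
    exact ⟨⟨Units.mk0 _ h5, Units.ext h4⟩, Subtype.ext (Units.ext h3.symm)⟩
  · rintro ⟨⟨c, hc⟩, rfl⟩
    refine ⟨⟨smulGL c c.ne_zero 1, (smul_mem_GU_iff hσ (one_mem _) _).2
      (congrArg Units.val hc)⟩, ?_, ?_⟩
    · rw [SetLike.mem_coe, mem_centralizer_singleton_iff]
      refine Subtype.ext (Units.ext ?_)
      change (c : K) • (1 : Matrix (Fin n) (Fin n) K) * _ = _ * (c : K) • (1 : Matrix (Fin n) (Fin n) K)
      simp
    · refine Subtype.ext (Units.ext ?_)
      change ((c : K) • (1 : Matrix (Fin n) (Fin n) K)).det = _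
      simp

end Cfsg.Agent.S2643
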