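import Cfsg.Statements.S2644
import Cfsg.Agent.H1.GU1

set_option autoImplicit false
open Cfsg

namespace Cfsg.Agent.S2644

open CfsgH1 Subgroup
open scoped commutatorElement
set_option maxHeartbeats 400000

open Matrix Module CfsgH7

/-- In the special unitary group SU_n(q) with n ≥ 3 (isometries of Σ u_i v_i^q of determinant one over the field with q² elements), any two transvections (elements t with t − 1 of rank one and square zero) are conjugate. -/
theorem result {K : Type*} [Field K] [Fintype K] {q n : ℕ} (hK : Fintype.card K = q ^ 2) (hn : 3 ≤ n) (s t : ↥(Cfsg.SU n K q)) (hs : Cfsg.IsTransvection (((s : GL (Fin n) K) : Matrix (Fin n) (Fin n) K))) (ht : Cfsg.IsTransvection (((t : GL (Fin n) K) : Matrix (Fin n) (Fin n) K))) : IsConj s t := by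
  classical
  obtain ⟨σ, hσ, h2⟩ := exists_qfrob hK
  have hts : ∀ x : Cfsg.SU n K q, ((x : GL (Fin n) K) : Matrix (Fin n) (Fin n) K) = x.1.1 :=
    fun x => rfl
  obtain ⟨g, hg⟩ := isConj_iff.1 ((GU_isConj_iff hK (suToGU s) (suToGU t)).2
    ((isConj_units_iff _ _).2 (isConj_of_sq_zero _ _ hs.2 ht.2 (hs.1.trans ht.1.symm))))
  obtain ⟨v, φ, hvφ⟩ := CfsgH7.exists_vecMulVec_of_rank_le_one _ ht.1.le
  rw [hts] at hvφ
  have ht' : t.1.1 = 1 + vecMulVec v φ := by rw [← hvφ]; abel
  have htu := (preserves_herm_iff σ _).2 ((mem_SU_iff hσ _).1 t.2)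
  have hφ0 : φ ≠ 0 := by
    rintro rfl
    have := ht.1
    rw [hts, hvφ] at this
    simp at this
  have hadd : ∀ u v z : Fin n → K, u ⬝ᵥ (σ ∘ (v + z)) = u ⬝ᵥ (σ ∘ v) + u ⬝ᵥ (σ ∘ z) := by
    intro u v z
    simp [dotProduct, mul_add, Finset.sum_add_distrib]
  obtain ⟨w, hw1, hw2⟩ : ∃ w : Fin n → K, φ ⬝ᵥ w = 0 ∧ w ⬝ᵥ (σ ∘ w) ≠ 0 := by
    by_contra hc
    push Not at hc
    let U : Submodule K (Fin n → K) := LinearMap.ker (dotProductBilin K K φ)
    have hU : 2 ≤ finrank K U := by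
      have a := (dotProductBilin K K φ).finrank_range_add_finrank_ker
      have b : finrank K (LinearMap.range (dotProductBilin K K φ)) ≤ 1 := by
        simpa using Submodule.finrank_le (LinearMap.range (dotProductBilin K K φ))
      simp only [finrank_fintype_fun_eq_card, Fintype.card_fin] at a
      change 2 ≤ finrank K (LinearMap.ker (dotProductBilin K K φ))
      omega
    have hle : U ≤ Submodule.span K {σ ∘ φ} := by
      intro w hw
      have hw : φ ⬝ᵥ w = 0 := hw
      obtain ⟨c, hc⟩ := exists_smul_of_dot (φ := σ ∘ w) hφ0 (fun x hx => by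
        obtain ⟨θ, hθ⟩ := exists_ne_of_orderOf h2
        have key : ∀ a : K, a * (x ⬝ᵥ (σ ∘ w)) + σ a * (w ⬝ᵥ (σ ∘ x)) = 0 := by
          intro a
          have h1 := hc (a • x + w) (by rw [dotProduct_add, dotProduct_smul, hx, hw]; simp)
          have e1 := dot_smul_herm (σ := σ) a 1 x w
          have e2 := dot_smul_herm (σ := σ) 1 a w x
          rw [one_smul] at e1 e2
          rw [hadd, add_dotProduct, add_dotProduct, dot_smul_herm, hc x hx, hc w hw, e1, e2] at h1
          simp only [map_one] at h1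
          linear_combination h1
        have h1 := key 1
        have h3 := key θ
        rw [map_one] at h1
        rw [dotProduct_comm]
        apply mul_left_cancel₀ hθ
        linear_combination h3 - σ θ * h1)
      refine Submodule.mem_span_singleton.2 ⟨σ c, ?_⟩
      ext i
      have := congrArg σ (congrFun hc i)
      simpa [invol_of_orderOf h2] using this.symm
    have a := Submodule.finrank_mono hle
    have b : finrank K (Submodule.span K {σ ∘ φ}) ≤ 1 := by
      simpa using finrank_span_le_card ({σ ∘ φ} : Set (Fin n → K))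
    omega
  set N := w ⬝ᵥ (σ ∘ w) with hN
  have hNσ : σ N = N := herm_conj h2 w w
  set l : K := ((g.1 : Matrix (Fin n) (Fin n) K).det)⁻¹ with hl
  have hl1 : l * σ l = 1 := by
    have := congrArg Matrix.det ((mem_GU_iff hσ _).1 g.2)
    rw [det_mul, det_ct, det_one] at this
    rw [hl, map_inv₀, ← mul_inv, mul_comm, this, inv_one]
  let D : Matrix (Fin n) (Fin n) K := 1 + vecMulVec ((l - 1) • w) (N⁻¹ • (σ ∘ w))
  have hD : D.det = l := det_dil w _ (by
    rw [smul_dotProduct, dotProduct_comm, ← hN, smul_eq_mul, inv_mul_cancel₀ hw2]) _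
  have hDv : ∀ z, D *ᵥ z = z + (N⁻¹ * (z ⬝ᵥ (σ ∘ w)) * (l - 1)) • w := by
    intro z
    rw [add_mulVec, one_mulVec, vecMulVec_mulVec', smul_smul, smul_dotProduct, dotProduct_comm,
      smul_eq_mul]
  have hDu : ct σ D * D = 1 := (preserves_herm_iff σ _).1 fun a b => by
    rw [hDv, hDv, hadd, add_dotProduct, add_dotProduct, dot_smul_herm]
    have e1 := dot_smul_herm (σ := σ) 1 (N⁻¹ * (b ⬝ᵥ (σ ∘ w)) * (l - 1)) a w
    have e2 := dot_smul_herm (σ := σ) (N⁻¹ * (a ⬝ᵥ (σ ∘ w)) * (l - 1)) 1 w b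
    rw [one_smul] at e1 e2
    rw [e1, e2, ← hN]
    simp only [map_mul, map_inv₀, map_sub, map_one, herm_conj h2 b w, hNσ]
    clear_value N
    field_simp
    linear_combination (a ⬝ᵥ (σ ∘ w)) * (w ⬝ᵥ (σ ∘ b)) * hl1
  have htw : t.1.1 *ᵥ w = w := by
    rw [ht', add_mulVec, one_mulVec, vecMulVec_mulVec', hw1]; simp
  have hDt : D * t.1.1 = t.1.1 * D := by
    apply toLin'.injective
    refine LinearMap.ext fun z => ?_
    rw [toLin'_apply, toLin'_apply, ← mulVec_mulVec, ← mulVec_mulVec, hDv, hDv, mulVec_add,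
      mulVec_smul, htw]
    conv_lhs => rw [← htw, htu, htw]
  have hg0 : (g.1 : Matrix (Fin n) (Fin n) K).det ≠ 0 := (Matrix.isUnit_det_of_invertible _).ne_zero
  let x : Matrix.SpecialLinearGroup (Fin n) K :=
    ⟨D * g.1, by rw [det_mul, hD, inv_mul_cancel₀ hg0]⟩
  have hx : x ∈ Cfsg.SU n K q := (mem_SU_iff hσ _).2 (by
    change ct σ (D * g.1.1) * (D * g.1.1) = 1
    rw [ct_mul, Matrix.mul_assoc, ← Matrix.mul_assoc (ct σ D), hDu, one_mul,
      (mem_GU_iff hσ _).1 g.2])
  refine isConj_iff.2 ⟨⟨x, hx⟩, ?_⟩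
  rw [mul_inv_eq_iff_eq_mul] at hg ⊢
  refine Subtype.ext (Subtype.ext ?_)
  change D * g.1 * s.1.1 = t.1.1 * (D * g.1)
  have : (g.1 : Matrix (Fin n) (Fin n) K) * s.1.1 = t.1.1 * g.1 := congrArg (fun y => y.1.1) hg
  rw [mul_assoc, this, ← mul_assoc, hDt, mul_assoc]

end Cfsg.Agent.S2644
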