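import Cfsg.Statements.S2645
import Cfsg.Agent.H1.OrdR

set_option autoImplicit false
open Cfsg

namespace Cfsg.Agent.S2645

open CfsgH1 Subgroup
open scoped commutatorElement
set_option maxHeartbeats 400000

open Matrix Module CfsgH7

/-- Number of conjugacy classes of elements of odd prime order r, r different from the characteristic, in the symplectic group Sp_2m(q): let i be the multiplicative order of q modulo r and t = (r − 1)/i. If i is odd the eigenvalue orbits pair off (Λ ≠ Λ⁻¹) and the classes correspond to the non-zero (t/2)-tuples (a_j) with 2i Σ a_j ≤ 2m, giving C(⌊m/i⌋ + t/2, t/2) − 1 classes; if i is even (Λ = Λ⁻¹) they correspond to the non-zero t-tuples with i Σ a_j ≤ 2m, giving C(⌊2m/i⌋ + t, t) − 1 classes. -/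
theorem result {F : Type*} [Field F] [Fintype F] {p q : ℕ} [Fact p.Prime] [CharP F p] (hF : Fintype.card F = q) (m r i t : ℕ) (hr : r.Prime) (hr2 : r ≠ 2) (hrp : r ≠ p) (hi : i = orderOf (q : ZMod r)) (ht : t * i = r - 1) : Nat.card {C : ConjClasses ↥(Matrix.symplecticGroup (Fin m) F) // ∃ g : Matrix.symplecticGroup (Fin m) F, ConjClasses.mk g = C ∧ orderOf g = r} = if Odd i then Nat.choose (m / i + t / 2) (t / 2) - 1 else Nat.choose (2 * m / i + t) t - 1 := by
  classical
  haveI := Fact.mk hr
  subst hF
  have hrF : (r : F) ≠ 0 := natCast_prime_ne_zero hr hrp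
  obtain ⟨E, _, _, D, ζ, hτ, hζ⟩ := exists_fext F hrF
  let u : (ZMod r)ˣ := Units.mk0 _ (card_cast_ne_zero hr hrF)
  have hu : orderOf u = i := by rw [hi, ← orderOf_units]; rfl
  have hi0 : 0 < i := hu ▸ orderOf_pos u
  have h2 : (2 : ZMod r) ≠ 0 := fun h => hr2 ((Nat.prime_dvd_prime_iff_eq hr Nat.prime_two).1
    ((ZMod.natCast_eq_zero_iff 2 r).1 (by exact_mod_cast h)))
  have key : ∀ s : Multiset E, (∀ a ∈ s, a ^ r = 1) → (s.map D.τ = s ↔
      ∀ k : ZMod r, s.count (chi ζ ((u : ZMod r) * k)) = s.count (chi ζ k)) := fun s hs =>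
    map_eq_iff_count hζ hs D.τ.injective _ u.mulLeft.surjective fun k => by
      rw [hτ, ← chi_mul hζ]; rfl
  have key2 : ∀ s : Multiset E, (∀ a ∈ s, a ^ r = 1) → (s.map (·⁻¹) = s ↔
      ∀ k : ZMod r, s.count (chi ζ (((-1 : (ZMod r)ˣ) : ZMod r) * k)) = s.count (chi ζ k)) :=
    fun s hs => map_eq_iff_count hζ hs inv_injective _ (-1 : (ZMod r)ˣ).mulLeft.surjective
      fun k => by rw [← chi_neg hζ]; simp
  have main : ∀ v : (ZMod r)ˣ, (v = u ∨ v = -u) → u ∈ zpowers v → -1 ∈ zpowers v →
      Nat.card {C : ConjClasses ↥(Matrix.symplecticGroup (Fin m) F) //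
        ∃ g : Matrix.symplecticGroup (Fin m) F, ConjClasses.mk g = C ∧ orderOf g = r} =
      (2 * m / orderOf v + (r - 1) / orderOf v).choose ((r - 1) / orderOf v) - 1 := by
    intro v hv h3 h4
    have := card_classes_ordR D.ε hζ (Matrix.symplecticGroup (Fin m) F).subtype
      Subtype.val_injective v (fun g h hg hc => (sp_isConj_iff hg hrF).2 hc)
      (fun g s hs h k => by
        have e1 := (key s hs).1 h.map_τ
        rcases hv with rfl | rfl
        · exact e1 k
        · have e2 : s.map (·⁻¹) = s := by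
            have a1 : IsDg D.ε (g⁻¹).1 (s.map (·⁻¹)) :=
              h.inv (congrArg Subtype.val (mul_inv_cancel g))
            have a2 : IsDg D.ε g.1ᵀ s := IsDg.transpose h
            refine a1.eq_of_isConj a2 ⟨isUnit_J.unit, ?_⟩
            change J (Fin m) F * _ = _ * J (Fin m) F
            have a3 : g.1 * (g⁻¹).1 = 1 := congrArg Subtype.val (mul_inv_cancel g)
            conv_lhs => rw [← SymplecticGroup.mem_iff'.1 g.2, Matrix.mul_assoc, a3, Matrix.mul_one]
          rw [← e1 k, ← (key2 s hs).1 e2 (u * k)]; simp)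
      (fun s h1 hs h => by
        have e := (inv_zpowers_iff v fun k => s.count (chi ζ k)).2 h
        have e2 := e _ h4
        refine D.exists_isDg_Sp ((key s hs).2 (e _ h3)) ((key2 s hs).2 e2) (fun a ha => ⟨fun h0 => by
          simpa [h0, hr.ne_zero] using hs a ha, fun h5 => ?_⟩) ?_ (by simpa [two_mul] using h1)
        · obtain ⟨k, hk⟩ := hr.odd_of_ne_two hr2
          have := hs a ha
          rwa [hk, pow_succ, pow_mul, h5, one_pow, one_mul] at this
        · have e3 := card_msOf (ζ := ζ) (fun k : ZMod r => s.count (chi ζ k))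
          rw [msOf_count hζ hs, h1, sum_field_units, chi_zero] at e3
          have e4 : Even (∑ w : (ZMod r)ˣ, s.count (chi ζ (w : ZMod r))) := by
            rw [← ZMod.natCast_eq_zero_iff_even, Nat.cast_sum]
            refine Finset.sum_involution (fun w _ => -w) (fun w _ => ?_) (fun w _ _ h6 => h2 ?_)
              (by simp) (by simp)
            · have := e2 w
              simp only [Units.val_neg, Units.val_one, neg_mul, one_mul] at this
              rw [Units.val_neg, this, CharTwo.add_self_eq_zero]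
            · have := congrArg Units.val h6
              rw [Units.val_neg] at this
              exact mul_right_cancel₀ w.ne_zero (by linear_combination -this)
          have e5 : Even (s.count 1 + ∑ w : (ZMod r)ˣ, s.count (chi ζ (w : ZMod r))) := by
            rw [← e3]; simp
          exact (Nat.even_add.1 e5).2 e4)
    rwa [Fintype.card_sum, Fintype.card_fin, ← two_mul] at this
  split_ifs with h
  · have h5 : (-u) ^ i = -1 := by rw [h.neg_pow, ← hu, pow_orderOf_eq_one]
    rw [main (-u) (.inr rfl) ⟨(i + 1 : ℕ), by simp only [zpow_natCast]; rw [pow_succ, h5]; simp⟩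
      ⟨(i : ℕ), by simp only [zpow_natCast]; exact h5⟩, orderOf_neg_units h2, hu, if_pos h,
      Nat.mul_div_mul_left _ _ two_pos, ← ht, Nat.mul_div_mul_right _ _ hi0]
  · rw [main u (.inl rfl) (mem_zpowers u) ⟨(orderOf u / 2 : ℕ), by
      simp only [zpow_natCast]
      exact neg_one_mem_zpowers (hu ▸ Nat.not_odd_iff_even.1 h)⟩, hu, ← ht,
      Nat.mul_div_cancel _ hi0]

end Cfsg.Agent.S2645
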