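import Cfsg.Statements.S2646
import Cfsg.Agent.H1.JForm2

set_option autoImplicit false
open Cfsg

namespace Cfsg.Agent.S2646

open CfsgH1 Subgroup
open scoped commutatorElement
set_option maxHeartbeats 400000

open Matrix Module CfsgH7

/-- Order of the centraliser in the general unitary group GU_n(q) of a unipotent element of given Jordan type: if u ∈ GU_n(q) (isometries of Σ u_i v_i^q over the field with q² elements) is similar to the unipotent matrix with a_i Jordan blocks of size i (all sizes at least 1), then its centraliser in GU_n(q) has order q^γ · Π_i |GU_(a_i)(q)| with γ = 2 Σ_(i<j) i a_i a_j + Σ_i (i − 1) a_i², the same exponent as in GL_n(q), where |GU_a(q)| = q^(a(a−1)/2) Π_(k=1)^a (q^k − (−1)^k). -/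
theorem result {K : Type*} [Field K] [Fintype K] {q n t : ℕ} (hK : Fintype.card K = q ^ 2) (d : Fin t → ℕ) (hd : ∀ k, 1 ≤ d k) (e : ((k : Fin t) × Fin (d k)) ≃ Fin n) (u : ↥(Cfsg.GU n K q)) (hu : IsConj (Matrix.reindex e e (Cfsg.jordanTypeMatrix d K)) ((u : GL (Fin n) K) : Matrix (Fin n) (Fin n) K)) : (Nat.card ↥(Subgroup.centralizer ({u} : Set ↥(Cfsg.GU n K q))) : ℤ) = (q : ℤ) ^ (2 * (∑ i ∈ Finset.range (Finset.univ.sup d + 1), ∑ j ∈ Finset.range (Finset.univ.sup d + 1), if i < j then i * (Finset.univ.filter (fun k : Fin t => d k = i)).card * (Finset.univ.filter (fun k : Fin t => d k = j)).card else 0) + ∑ i ∈ Finset.range (Finset.univ.sup d + 1), (i - 1) * (Finset.univ.filter (fun k : Fin t => d k = i)).card ^ 2) * ∏ i ∈ Finset.range (Finset.univ.sup d + 1), ((q : ℤ) ^ ((Finset.univ.filter (fun k : Fin t => d k = i)).card * ((Finset.univ.filter (fun k : Fin t => d k = i)).card - 1) / 2) * ∏ j : Fin (Finset.univ.filter (fun k : Fin t => d k = i)).card, ((q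 : ℤ) ^ ((j : ℕ) + 1) - (-1) ^ ((j : ℕ) + 1))) := by
  classical
  obtain ⟨σ, hσ, h2⟩ := exists_qfrob hK
  rw [jordanTypeMatrix_eq] at hu
  obtain ⟨Q, Q', h3, h4, h5⟩ := (((isJType_nilJ hd).reindex e).of_isConj hu).exists_model_map hd
  have hI : ∀ k, d k ∈ Finset.range (Finset.univ.sup d + 1) := fun k =>
    Finset.mem_range.2 (Nat.lt_succ_of_le (Finset.le_sup (Finset.mem_univ k)))
  let τ := σ.toRingHom
  have hτ : ∀ x, τ (τ x) = x := invol_of_orderOf h2
  have i1 : InvF ((Q.map τ)ᵀ * (1 : Matrix (Fin n) (Fin n) K) * Q) := invF_model τ h5 (by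
    rw [Matrix.mul_one]; exact (mem_GU_iff hσ _).1 u.2)
  have i2 : IsUnit ((Q.map τ)ᵀ * (1 : Matrix (Fin n) (Fin n) K) * Q) := isUnit_model τ isUnit_one h3 h4
  have i3 : (((Q.map τ)ᵀ * (1 : Matrix (Fin n) (Fin n) K) * Q).map τ)ᵀ = (1 : K) • ((Q.map τ)ᵀ * (1 : Matrix (Fin n) (Fin n) K) * Q) := by
    rw [Matrix.mul_one, one_smul, Matrix.map_mul, transpose_mul, transpose_map, transpose_transpose,
      Matrix.map_map]
    congr 1
    ext; simp [invol_of_orderOf h2, τ]
  obtain ⟨t, ht⟩ := exists_trace_two h2 (map_one σ)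
  have h6 : Nat.card ↥(Subgroup.centralizer ({u} : Set ↥(Cfsg.GU n K q))) =
      Nat.card {x : Matrix (Fin n) (Fin n) K // x * u.1.1 = u.1.1 * x ∧ (x.map τ)ᵀ * 1 * x = 1} := by
    refine Nat.card_eq_of_bijective (fun g => ⟨g.1.1.1, congrArg (fun x => x.1.1)
      (mem_centralizer_singleton_iff.1 g.2), by
        rw [Matrix.mul_one]; exact (mem_GU_iff hσ _).1 g.1.2⟩)
      ⟨fun a b h => Subtype.ext (Subtype.ext (Units.ext (congrArg Subtype.val h))), ?_⟩
    rintro ⟨x, h7, h8⟩
    rw [Matrix.mul_one] at h8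
    exact ⟨⟨⟨(isUnit_of_mul_isUnit_right (h8 ▸ isUnit_one)).unit, (mem_GU_iff hσ _).2 h8⟩,
      mem_centralizer_singleton_iff.2 (Subtype.ext (Units.ext h7))⟩, rfl⟩
  rw [h6, card_cent_model τ h3 h4 h5, card_cent_invF hd hI τ hτ i1 i2 i3 ht, mul_comm]
  obtain ⟨θ, hθ⟩ := exists_ne_of_orderOf h2
  have h7 := (invDataJ hd hI τ hτ i1 i2 i3 ht).card_skew_sq (θ := algebraMap K _ (θ - σ θ))
    (hθ.isUnit.map _) (Algebra.commutes _) (Subtype.ext (by
      change adjM _ ((algebraMap K (Matrix (JI d) (JI d) K) _).map τ) =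
        -algebraMap K (Matrix (JI d) (JI d) K) _
      have : ((θ - σ θ) • (1 : Matrix (JI d) (JI d) K)).map τ = -(θ - σ θ) • 1 := by
        ext a b; by_cases h : a = b <;> simp [h, τ, invol_of_orderOf h2]
      rw [Algebra.algebraMap_eq_smul_one, this, adjM_smul, adjM_one i2, neg_smul]))
  have h8 := card_ker_piJ (F := K) hd hI
  rw [hK, ← pow_mul, mul_comm, pow_mul] at h8
  have h9 := Nat.pow_left_injective two_ne_zero (h7.trans h8)
  push_cast
  congr 1
  · rw [← Nat.cast_pow, ← gamJ, ← h9]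
    congr 1
    exact Nat.card_congr (Equiv.subtypeEquivRight fun x => and_congr Iff.rfl (by
      rw [Subtype.ext_iff]; rfl))
  · refine Finset.prod_congr rfl fun i _ => ?_
    have := card_unitary_form h2 hK ((i1.isUnit_iff hd).1 i2 i) (e := i - 1) (by
      have e1 := i1.Ymat_transpose hd i
      rw [one_smul] at i3
      rw [← i3, transpose_transpose] at e1
      rw [ct_apply]
      change (Ymat hd (((Q.map τ)ᵀ * (1 : Matrix (Fin n) (Fin n) K) * Q).map τ) i)ᵀ = _
      rw [e1, i3, transpose_smul, transpose_transpose])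
    rw [card_Fb] at this
    exact this

end Cfsg.Agent.S2646
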