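import Cfsg.Statements.S2665
import Cfsg.Agent.H1.GL1
import Cfsg.Agent.H7.FldAut

set_option autoImplicit false
open scoped MatrixGroups
open Cfsg

namespace Cfsg.Agent.S2665

open CfsgH1 Subgroup
open scoped commutatorElement
set_option maxHeartbeats 400000

open Matrix Module Polynomial

theorem exists_fixed {K V : Type*} [Field K] [IsAlgClosed K] [AddCommGroup V] [Module K V]
    [FiniteDimensional K V] {q : ℕ} (hq : 2 ≤ q) (hq0 : (q : K) = 0) (T : V →+ V)
    (hT : ∀ (a : K) v, T (a • v) = a ^ q • T v) (hinj : Function.Injective T) {v : V}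
    (hv : v ≠ 0) : ∃ w, w ≠ 0 ∧ T w = w := by
  classical
  let U : ℕ →o Submodule K V :=
    ⟨fun k => Submodule.span K ((fun i => T^[i] v) '' Set.Iio k), fun a b h =>
      Submodule.span_mono (Set.image_mono (Set.Iio_subset_Iio h))⟩
  have hex : ∃ k, T^[k] v ∈ U k := by
    obtain ⟨n, hn⟩ := monotone_stabilizes_iff_noetherian.2 (inferInstance : IsNoetherian K V) U
    refine ⟨n, ?_⟩
    rw [hn (n + 1) (by omega)]
    exact Submodule.subset_span ⟨n, by simp, rfl⟩
  have hU : ∀ k x, x ∈ U k ↔ ∃ a : ℕ → K, ∑ i ∈ Finset.range k, a i • T^[i] v = x := by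
    intro k x
    have : ((fun i => T^[i] v) '' Set.Iio k) = (fun i => T^[i] v) '' (Finset.range k : Set ℕ) := by
      simp
    change x ∈ Submodule.span K _ ↔ _
    rw [this, Submodule.mem_span_image_finset_iff_exists_fun']
  obtain ⟨k, hk, hmin⟩ : ∃ k, T^[k + 1] v ∈ U (k + 1) ∧ T^[k] v ∉ U k := by
    have h0 : Nat.find hex ≠ 0 := by
      intro h
      have := Nat.find_spec hex
      rw [h, hU] at this
      obtain ⟨a, ha⟩ := this
      simp at ha
      exact hv ha.symm
    obtain ⟨k, hk⟩ := Nat.exists_eq_succ_of_ne_zero h0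
    refine ⟨k, ?_, Nat.find_min hex (by omega)⟩
    have := Nat.find_spec hex
    rwa [hk] at this
  obtain ⟨a, ha⟩ := (hU _ _).1 hk
  let P : ℕ → K[X] := fun i => Nat.rec (C (a 0) * X ^ q) (fun i P => P ^ q + C (a (i + 1)) * X ^ q) i
  have P0 : P 0 = C (a 0) * X ^ q := rfl
  have Ps : ∀ i, P (i + 1) = P i ^ q + C (a (i + 1)) * X ^ q := fun i => rfl
  have hq' : ((q : ℕ) : K[X]) = 0 := by rw [← C_eq_natCast, hq0, C_0]
  have hder : ∀ i, derivative (P i) = 0 := by
    intro i
    cases i with
    | zero => simp [P0, derivative_pow, hq0]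
    | succ i => simp [Ps, derivative_pow, hq0]
  have hev : ∀ i, (P i).eval 0 = 0 := by
    intro i
    induction i with
    | zero => simp [P0, show q ≠ 0 by omega]
    | succ i ih => simp [Ps, ih, show q ≠ 0 by omega]
  have hdeg : ∀ i, (P i = 0 ∧ ∀ j ≤ i, a j = 0) ∨ q ≤ (P i).natDegree := by
    intro i
    induction i with
    | zero =>
      by_cases h : a 0 = 0
      · left
        refine ⟨by simp [P0, h], fun j hj => by rwa [Nat.le_zero.1 hj]⟩
      · right
        rw [P0, natDegree_C_mul_X_pow _ _ h]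
    | succ i ih =>
      rcases ih with ⟨h1, h2⟩ | h
      · by_cases h : a (i + 1) = 0
        · left
          refine ⟨by simp [Ps, h, h1, show q ≠ 0 by omega], fun j hj => ?_⟩
          rcases Nat.lt_or_ge j (i + 1) with h' | h'
          · exact h2 j (by omega)
          · rwa [show j = i + 1 by omega]
        · right
          rw [Ps, h1, zero_pow (by omega), zero_add, natDegree_C_mul_X_pow _ _ h]
      · right
        have h3 : (C (a (i + 1)) * X ^ q).natDegree ≤ q := natDegree_C_mul_X_pow_le _ _
        have h4 : (P i ^ q).natDegree = q * (P i).natDegree := natDegree_pow _ _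
        rw [Ps, natDegree_add_eq_left_of_natDegree_lt (by nlinarith), h4]
        nlinarith
  have hdk : q ≤ (P k).natDegree := by
    rcases hdeg k with ⟨-, h2⟩ | h
    · exfalso
      have : T^[k + 1] v = 0 := by
        rw [← ha]
        exact Finset.sum_eq_zero fun i hi => by
          rw [h2 i (by simpa [Nat.lt_succ_iff] using hi), zero_smul]
      apply hv
      apply hinj.iterate (k + 1)
      rw [this, iterate_map_zero]
    · exact h
  obtain ⟨R, hR⟩ : X ∣ P k - X := by
    rw [X_dvd_iff, coeff_zero_eq_eval_zero]; simp [hev]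
  have hR0 : R.eval 0 = -1 := by
    have := congrArg (fun f => (derivative f).eval 0) hR
    simp [hder] at this
    exact this.symm
  have hRd : R.degree ≠ 0 := by
    intro h
    have h1 : (P k - X).natDegree = (P k).natDegree :=
      natDegree_sub_eq_left_of_natDegree_lt (by rw [natDegree_X]; omega)
    have h2 : (X * R).natDegree ≤ 1 := by
      refine natDegree_mul_le.trans ?_
      rw [natDegree_X, natDegree_eq_zero_iff_degree_le_zero.2 h.le]
    rw [← hR] at h2
    omega
  obtain ⟨y, hy⟩ := IsAlgClosed.exists_root R hRd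
  have hy0 : y ≠ 0 := by
    rintro rfl
    rw [IsRoot.def, hR0] at hy
    simp at hy
  have hyP : (P k).eval y = y := by
    have := congrArg (eval y) hR
    rw [eval_mul, hy.eq_zero] at this
    simpa [sub_eq_zero] using this
  refine ⟨∑ i ∈ Finset.range (k + 1), (P i).eval y • T^[i] v, ?_, ?_⟩
  · intro h
    apply hmin
    rw [Finset.sum_range_succ, hyP, add_eq_zero_iff_eq_neg'] at h
    have : T^[k] v = y⁻¹ • (y • T^[k] v) := by rw [smul_smul, inv_mul_cancel₀ hy0, one_smul]
    rw [this, h]
    exact (U k).smul_mem _ ((U k).neg_mem ((hU _ _).2 ⟨_, rfl⟩))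
  · rw [map_sum]
    simp only [hT, ← Function.iterate_succ_apply' T]
    rw [Finset.sum_range_succ, hyP, ← ha, Finset.sum_range_succ', Finset.sum_range_succ', smul_add,
      Finset.smul_sum, ← add_assoc, ← Finset.sum_add_distrib]
    congr 1
    · refine Finset.sum_congr rfl fun i _ => ?_
      rw [Ps, smul_smul, ← add_smul]
      congr 1
      rw [eval_add, eval_pow, eval_mul, eval_C, eval_pow, eval_X, mul_comm]
    · rw [P0, smul_smul, eval_mul, eval_C, eval_pow, eval_X, mul_comm]

theorem span_fixed {K V : Type*} [Field K] [IsAlgClosed K] [AddCommGroup V] [Module K V]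
    [FiniteDimensional K V] {q : ℕ} (hq : 2 ≤ q) (hq0 : (q : K) = 0) (T : V →+ V)
    (hT : ∀ (a : K) v, T (a • v) = a ^ q • T v) (hinj : Function.Injective T) :
    Submodule.span K {v | T v = v} = ⊤ := by
  classical
  set S := Submodule.span K {v | T v = v} with hS
  -- every element of `S` is of the form `T s` and `s - T s`
  have h1 : ∀ x ∈ S, T x ∈ S ∧ (∃ s ∈ S, T s = x) ∧ ∃ s ∈ S, s - T s = x := by
    intro x hx
    have key : ∀ a : K, T (a • x) ∈ S ∧ (∃ s ∈ S, T s = a • x) ∧ ∃ s ∈ S, s - T s = a • x := by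
      induction hx using Submodule.span_induction with
      | mem x hx =>
        intro a
        have hxS : x ∈ S := Submodule.subset_span hx
        have hx : T x = x := hx
        refine ⟨by rw [hT, hx]; exact S.smul_mem _ hxS, ?_, ?_⟩
        · obtain ⟨b, hb⟩ := IsAlgClosed.exists_pow_nat_eq a (show 0 < q by omega)
          exact ⟨b • x, S.smul_mem _ hxS, by rw [hT, hx, hb]⟩
        · obtain ⟨b, hb⟩ := IsAlgClosed.exists_root (X ^ q - X + C a : K[X]) (by
            have : (X ^ q - X + C a : K[X]).natDegree = q := by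
              compute_degree!
              · rw [if_neg (show ¬ 1 = q by omega), if_neg (show ¬ q = 0 by omega)]; simp [Int.subNatNat_eq_coe]
              · omega
            intro h
            rw [natDegree_eq_zero_iff_degree_le_zero.2 h.le] at this
            omega)
          refine ⟨b • x, S.smul_mem _ hxS, ?_⟩
          rw [hT, hx, ← sub_smul]
          congr 1
          simp only [IsRoot.def, eval_add, eval_sub, eval_pow, eval_X, eval_C] at hb
          linear_combination -hb
      | zero => intro a; simp; exact ⟨⟨0, S.zero_mem, by simp⟩, ⟨0, S.zero_mem, by simp⟩⟩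
      | add x y _ _ hx hy =>
        intro a
        obtain ⟨a1, ⟨s1, a2, a3⟩, ⟨t1, a4, a5⟩⟩ := hx a
        obtain ⟨b1, ⟨s2, b2, b3⟩, ⟨t2, b4, b5⟩⟩ := hy a
        refine ⟨by rw [smul_add, map_add]; exact S.add_mem a1 b1,
          ⟨s1 + s2, S.add_mem a2 b2, by rw [map_add, a3, b3, smul_add]⟩,
          ⟨t1 + t2, S.add_mem a4 b4, by rw [map_add, smul_add, ← a5, ← b5]; abel⟩⟩
      | smul b x _ hx => intro a; rw [smul_smul]; exact hx _
    simpa using key 1
  by_contra hne
  obtain ⟨v, hv⟩ : ∃ v, v ∉ S := by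
    by_contra h
    push Not at h
    exact hne (Submodule.eq_top_iff'.2 h)
  let T' : (V ⧸ S) →+ (V ⧸ S) := QuotientAddGroup.map S.toAddSubgroup S.toAddSubgroup T
    (fun x hx => (h1 x hx).1)
  have hT' : ∀ x, T' (Submodule.Quotient.mk x) = Submodule.Quotient.mk (T x) := fun x => rfl
  obtain ⟨w, hw0, hw⟩ := exists_fixed (K := K) hq hq0 T' (by
    intro a x
    obtain ⟨x, rfl⟩ := Submodule.Quotient.mk_surjective S x
    rw [← Submodule.Quotient.mk_smul, hT', hT', hT, Submodule.Quotient.mk_smul]) (by
    rw [injective_iff_map_eq_zero]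
    intro x hx
    obtain ⟨x, rfl⟩ := Submodule.Quotient.mk_surjective S x
    rw [hT', Submodule.Quotient.mk_eq_zero] at hx
    obtain ⟨s, hs, e⟩ := (h1 _ hx).2.1
    rw [Submodule.Quotient.mk_eq_zero, ← hinj e]
    exact hs) (v := Submodule.Quotient.mk v) (by rwa [Ne, Submodule.Quotient.mk_eq_zero])
  obtain ⟨w, rfl⟩ := Submodule.Quotient.mk_surjective S w
  rw [hT', Submodule.Quotient.eq] at hw
  obtain ⟨s, hs, e⟩ := (h1 _ hw).2.2
  apply hw0
  rw [Submodule.Quotient.mk_eq_zero]
  have : w + s ∈ S := Submodule.subset_span (by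
    change T (w + s) = w + s
    rw [map_add]
    rw [sub_eq_sub_iff_add_eq_add] at e
    rw [add_comm w s, e])
  simpa using S.sub_mem this hs

/-- The Lang–Steinberg Theorem for the general linear group. Let `K` be an algebraically closed field of prime characteristic `p`, let `q = p^f` with `f ≥ 1`, and let `σ` be the endomorphism of GL_n(K) raising every matrix entry to the `q`-th power. Then every element `g` of GL_n(K) can be written `g = x · σ(x)⁻¹` for some `x` in GL_n(K): the map `x ↦ x σ(x)⁻¹` is surjective. -/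
theorem result {K : Type*} [Field K] [IsAlgClosed K] (p : ℕ) [Fact p.Prime] [CharP K p]
    (f : ℕ) (hf : 1 ≤ f) (n : ℕ) (g : GL (Fin n) K) :
    ∃ x : GL (Fin n) K, g = x * (Matrix.GeneralLinearGroup.map (iterateFrobenius K p f) x)⁻¹ := by
  classical
  let σ := iterateFrobenius K p f
  let T : (Fin n → K) →+ (Fin n → K) :=
    AddMonoidHom.mk' (fun v => (g : Matrix (Fin n) (Fin n) K) *ᵥ (σ ∘ v)) (by
      intro a b
      rw [← mulVec_add]
      congr 1
      ext i
      simp)
  have hp := (Fact.out : p.Prime)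
  have hs := span_fixed (K := K) (q := p ^ f) (by
      calc 2 ≤ p := hp.two_le
        _ = p ^ 1 := (pow_one p).symm
        _ ≤ p ^ f := Nat.pow_le_pow_right hp.pos hf)
    (by rw [Nat.cast_pow, CharP.cast_eq_zero, zero_pow (by omega)]) T (by
      intro a v
      change (g : Matrix (Fin n) (Fin n) K) *ᵥ _ = _ • (g : Matrix (Fin n) (Fin n) K) *ᵥ _
      rw [← mulVec_smul]
      congr 1
      ext i
      simp [σ, iterateFrobenius_def, mul_pow]) (by
      intro a b h
      have h2 : σ ∘ a = σ ∘ b := Matrix.mulVec_injective_iff_isUnit.2 g.isUnit h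
      ext i
      exact σ.injective (congrFun h2 i))
  obtain ⟨h, hh⟩ := CfsgH7.exists_GL_cols _ hs
  refine ⟨h, ?_⟩
  rw [eq_mul_inv_iff_mul_eq]
  ext i j
  have := congrFun (hh j) i
  simpa [T, Matrix.mul_apply, mulVec, dotProduct] using this

end Cfsg.Agent.S2665
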