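import Cfsg.Statements.S2669
import Cfsg.Agent.H7.Shintani

set_option autoImplicit false
open Cfsg

namespace Cfsg.Agent.S2669


/-- Shintani descent preserves numbers of fixed points on coset spaces (abstract form). Let `σ` be an automorphism of a group `X` and `e ≥ 1`; write `G` for the fixed points of `σᵉ` and `H` for the fixed points of `σ`, and assume `G` is finite. Let `Y` be a `σ`-stable subgroup of `X` on which the maps `a ↦ a σ(a)⁻¹` and `a ↦ a σᵉ(a)⁻¹` are surjective (as for a closed connected `σ`-stable subgroup of an algebraic group). Let `g ∈ G`, let `a ∈ X` satisfy `g = a σ(a)⁻¹` and put `x = σᵉ(a)⁻¹ a` (the Shintani image, an element of `H`). The element `g σ` of the semidirect product acts on the cosets of `Y ∩ G` in `G` by `k (Y ∩ G) ↦ g σ(k) (Y ∩ G)`, fixing that coset exactly when `k⁻¹ g σ(k) ∈ Y`; and `x` fixes the coset `h (Y ∩ H)` of `H` exactly when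 `h⁻¹ x h ∈ Y`. Then the two numbers of fixed cosets agree; in cross-multiplied form, `#{k ∈ G : k⁻¹ g σ(k) ∈ Y} · |Y ∩ H| = #{h ∈ H : h⁻¹ x h ∈ Y} · |Y ∩ G|`. -/
theorem result {X : Type*} [Group X] (σ : MulAut X) (e : ℕ) (he : 1 ≤ e)
    [Finite ↥((MulEquiv.toMonoidHom (σ ^ e)).eqLocus (MonoidHom.id X))]
    (Y : Subgroup X) (hY : ∀ y : X, y ∈ Y ↔ σ y ∈ Y)
    (hYL : ∀ y ∈ Y, ∃ a ∈ Y, y = a * (σ a)⁻¹) (hYLe : ∀ y ∈ Y, ∃ a ∈ Y, y = a * ((σ ^ e) a)⁻¹)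
    (g : X) (hg : g ∈ (MulEquiv.toMonoidHom (σ ^ e)).eqLocus (MonoidHom.id X)) (a : X) (ha : g = a * (σ a)⁻¹) :
    Nat.card {k : ↥((MulEquiv.toMonoidHom (σ ^ e)).eqLocus (MonoidHom.id X)) // (k : X)⁻¹ * g * σ k ∈ Y} *
        Nat.card ↥(Y ⊓ (MulEquiv.toMonoidHom σ).eqLocus (MonoidHom.id X)) =
      Nat.card {h : ↥((MulEquiv.toMonoidHom σ).eqLocus (MonoidHom.id X)) // (h : X)⁻¹ * (((σ ^ e) a)⁻¹ * a) * h ∈ Y} *
        Nat.card ↥(Y ⊓ (MulEquiv.toMonoidHom (σ ^ e)).eqLocus (MonoidHom.id X)) := by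
  classical
  rw [CfsgH7.shin_mem_iff] at hg
  set τ := σ ^ e with hτ
  have hYτ : ∀ y ∈ Y, τ y ∈ Y := by
    intro y hy
    rw [hτ]
    generalize e = j
    induction j with
    | zero => simpa using hy
    | succ j ih => rw [pow_succ', MulAut.mul_apply]; exact (hY _).1 ih
  have hfix : ∀ h : X, σ h = h → τ h = h := fun h hh => CfsgH7.shin_pow_fixed σ h hh e
  let T := {p : X × X // τ p.1 = p.1 ∧ p.2 ∈ Y ∧ σ (a⁻¹ * p.1 * p.2) = a⁻¹ * p.1 * p.2}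
  -- first projection
  have hA : ∀ k : {k : ↥((MulEquiv.toMonoidHom τ).eqLocus (MonoidHom.id X)) // (k : X)⁻¹ * g * σ k ∈ Y},
      ∃ y ∈ Y, σ (a⁻¹ * (k.1 : X) * y) = a⁻¹ * (k.1 : X) * y := by
    rintro ⟨⟨k, hk⟩, hk'⟩
    obtain ⟨y, hy, hy'⟩ := hYL _ hk'
    refine ⟨y, hy, ?_⟩
    simp only at hy' ⊢
    rw [ha] at hy'
    rw [map_mul, map_mul, map_inv]
    calc (σ a)⁻¹ * σ k * σ y = a⁻¹ * k * (k⁻¹ * (a * (σ a)⁻¹) * σ k) * σ y := by group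
      _ = a⁻¹ * k * (y * (σ y)⁻¹) * σ y := by rw [hy']
      _ = _ := by group
  choose yA hyA hyA' using hA
  have hB : ∀ h : {h : ↥((MulEquiv.toMonoidHom σ).eqLocus (MonoidHom.id X)) //
      (h : X)⁻¹ * ((τ a)⁻¹ * a) * h ∈ Y}, ∃ y ∈ Y, τ (a * (h.1 : X) * y⁻¹) = a * (h.1 : X) * y⁻¹ := by
    rintro ⟨⟨h, hh⟩, hh'⟩
    obtain ⟨y, hy, hy'⟩ := hYLe _ (Y.inv_mem hh')
    refine ⟨y⁻¹, Y.inv_mem hy, ?_⟩
    simp only at hy' ⊢
    rw [inv_inv, map_mul, map_mul, hfix h hh]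
    calc τ a * h * τ y = a * h * (h⁻¹ * ((τ a)⁻¹ * a) * h)⁻¹ * τ y := by group
      _ = a * h * (y * (τ y)⁻¹) * τ y := by rw [hy']
      _ = _ := by group
  choose yB hyB hyB' using hB
  have e1 : Nat.card T = Nat.card {k : ↥((MulEquiv.toMonoidHom τ).eqLocus (MonoidHom.id X)) // (k : X)⁻¹ * g * σ k ∈ Y} *
        Nat.card ↥(Y ⊓ (MulEquiv.toMonoidHom σ).eqLocus (MonoidHom.id X)) := by
    rw [← Nat.card_prod]
    symm
    refine Nat.card_congr (Equiv.ofBijective (fun p => (⟨(p.1.1.1, yA p.1 * p.2.1), p.1.1.2,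
      Y.mul_mem (hyA _) p.2.2.1, ?_⟩ : T)) ⟨?_, ?_⟩)
    · have h2 : σ p.2.1 = p.2.1 := p.2.2.2
      simp only
      rw [← mul_assoc, map_mul, hyA', h2]
    · rintro ⟨k, z⟩ ⟨k', z'⟩ hh
      simp only [T, Subtype.mk.injEq, Prod.mk.injEq] at hh
      obtain ⟨h1, h2⟩ := hh
      have hk : k = k' := Subtype.ext (Subtype.ext h1)
      subst hk
      simp only [mul_right_inj] at h2
      exact Prod.ext rfl (Subtype.ext h2)
    · rintro ⟨⟨k, y⟩, hk, hy, hky⟩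
      simp only at hk hy hky
      have hk' : k⁻¹ * g * σ k ∈ Y := by
        have : k⁻¹ * g * σ k = y * (σ y)⁻¹ := by
          rw [map_mul, map_mul, map_inv] at hky
          rw [ha]
          calc k⁻¹ * (a * (σ a)⁻¹) * σ k = k⁻¹ * a * ((σ a)⁻¹ * σ k * σ y) * (σ y)⁻¹ := by group
            _ = k⁻¹ * a * (a⁻¹ * k * y) * (σ y)⁻¹ := by rw [hky]
            _ = _ := by group
        rw [this]
        exact Y.mul_mem hy (Y.inv_mem ((hY _).1 hy))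
      let kk : {k : ↥((MulEquiv.toMonoidHom τ).eqLocus (MonoidHom.id X)) // (k : X)⁻¹ * g * σ k ∈ Y} :=
        ⟨⟨k, hk⟩, hk'⟩
      refine ⟨⟨kk, ⟨(yA kk)⁻¹ * y, Y.mul_mem (Y.inv_mem (hyA _)) hy, ?_⟩⟩, ?_⟩
      · have h1 := hyA' kk
        change σ ((yA kk)⁻¹ * y) = (yA kk)⁻¹ * y
        have : (yA kk)⁻¹ * y = (a⁻¹ * k * yA kk)⁻¹ * (a⁻¹ * k * y) := by group
        rw [this, map_mul, map_inv, hky]
        congr 2
      · apply Subtype.ext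
        simp [kk]
  have e2 : Nat.card T = Nat.card {h : ↥((MulEquiv.toMonoidHom σ).eqLocus (MonoidHom.id X)) //
      (h : X)⁻¹ * ((τ a)⁻¹ * a) * h ∈ Y} *
        Nat.card ↥(Y ⊓ (MulEquiv.toMonoidHom τ).eqLocus (MonoidHom.id X)) := by
    rw [← Nat.card_prod]
    symm
    refine Nat.card_congr (Equiv.ofBijective (fun p => (⟨(a * p.1.1.1 * (yB p.1)⁻¹ * p.2.1⁻¹, p.2.1 * yB p.1), ?_,
      Y.mul_mem p.2.2.1 (hyB _) , ?_⟩ : T)) ⟨?_, ?_⟩)
    · have h2 : τ p.2.1 = p.2.1 := p.2.2.2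
      simp only
      rw [map_mul, hyB', map_inv, h2]
    · have h2 : σ p.1.1.1 = p.1.1.1 := p.1.1.2
      simp only
      have : a⁻¹ * (a * p.1.1.1 * (yB p.1)⁻¹ * p.2.1⁻¹) * (p.2.1 * yB p.1) = p.1.1.1 := by group
      rw [this, h2]
    · rintro ⟨k, z⟩ ⟨k', z'⟩ hh
      simp only [T, Subtype.mk.injEq, Prod.mk.injEq] at hh
      obtain ⟨h1, h2⟩ := hh
      have hk : k = k' := by
        apply Subtype.ext
        apply Subtype.ext
        calc (k.1.1 : X) = a⁻¹ * (a * k.1.1 * (yB k)⁻¹ * z.1⁻¹) * (z.1 * yB k) := by group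
          _ = a⁻¹ * (a * k'.1.1 * (yB k')⁻¹ * z'.1⁻¹) * (z'.1 * yB k') := by rw [h1, h2]
          _ = _ := by group
      subst hk
      simp only [mul_left_inj] at h2
      exact Prod.ext rfl (Subtype.ext h2)
    · rintro ⟨⟨k, y⟩, hk, hy, hky⟩
      simp only at hk hy hky
      have hk' : (a⁻¹ * k * y)⁻¹ * ((τ a)⁻¹ * a) * (a⁻¹ * k * y) ∈ Y := by
        have h3 := hfix _ hky
        have : (a⁻¹ * k * y)⁻¹ * ((τ a)⁻¹ * a) * (a⁻¹ * k * y) = (τ y)⁻¹ * y := by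
          rw [map_mul, map_mul, map_inv, hk] at h3
          calc (a⁻¹ * k * y)⁻¹ * ((τ a)⁻¹ * a) * (a⁻¹ * k * y)
              = ((τ a)⁻¹ * k * τ y)⁻¹ * ((τ a)⁻¹ * a) * (a⁻¹ * k * y) := by rw [h3]
            _ = _ := by group
        rw [this]
        exact Y.mul_mem (Y.inv_mem (hYτ _ hy)) hy
      let hh : {h : ↥((MulEquiv.toMonoidHom σ).eqLocus (MonoidHom.id X)) //
        (h : X)⁻¹ * ((τ a)⁻¹ * a) * h ∈ Y} := ⟨⟨a⁻¹ * k * y, hky⟩, hk'⟩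
      refine ⟨⟨hh, ⟨y * (yB hh)⁻¹, Y.mul_mem hy (Y.inv_mem (hyB _)), ?_⟩⟩, ?_⟩
      · have h1 := hyB' hh
        change τ (y * (yB hh)⁻¹) = y * (yB hh)⁻¹
        have : y * (yB hh)⁻¹ = k⁻¹ * (a * (a⁻¹ * k * y) * (yB hh)⁻¹) := by group
        rw [this, map_mul, map_inv, hk]
        congr 1
      · apply Subtype.ext
        simp [hh]
        group
  rw [← e1, e2]

end Cfsg.Agent.S2669
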