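import Cfsg.Statements.S2671
import Cfsg.Agent.H1.OrdR

set_option autoImplicit false
open Cfsg

namespace Cfsg.Agent.S2671

open CfsgH1 Subgroup
open scoped commutatorElement
set_option maxHeartbeats 400000

open Matrix Module CfsgH7

/-- Number of conjugacy classes of elements of odd prime order r in the general unitary group GU_n(q), for r not dividing q(q + 1): let i be the multiplicative order of q modulo r, b = i if i is odd and b = i/2 if i is even, and s = (r − 1)/b. If i ≢ 2 (mod 4) the eigenvalue orbits pair off into dual pairs of totally isotropic blocks and there are C(⌊n/(2b)⌋ + s/2, s/2) − 1 classes; if i ≡ 2 (mod 4) each orbit gives a non-degenerate block of dimension i/2 and there are C(⌊2n/i⌋ + s, s) − 1 classes. -/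
theorem result {K : Type*} [Field K] [Fintype K] {p q n r i b s : ℕ} [Fact p.Prime] [CharP K p] (hK : Fintype.card K = q ^ 2) (hr : r.Prime) (hr2 : r ≠ 2) (hrp : r ≠ p) (hi : i = orderOf (q : ZMod r)) (hi2 : i ≠ 2) (hb : b = if Odd i then i else i / 2) (hs : s * b = r - 1) : Nat.card {C : ConjClasses ↥(Cfsg.GU n K q) // ∃ g : ↥(Cfsg.GU n K q), ConjClasses.mk g = C ∧ orderOf g = r} = if i % 4 = 2 then Nat.choose (2 * n / i + s) s - 1 else Nat.choose (n / (2 * b) + s / 2) (s / 2) - 1 := by
  classical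
  haveI := Fact.mk hr
  have hrF : (r : K) ≠ 0 := natCast_prime_ne_zero hr hrp
  obtain ⟨E, _, _, D, ζ, hτ, hζ⟩ := exists_fext K hrF
  obtain ⟨σ, hσ, hσ2⟩ := exists_qfrob hK
  have hq0 : (q : ZMod r) ≠ 0 := fun h => card_cast_ne_zero hr hrF (by rw [hK]; simp [h])
  let u : (ZMod r)ˣ := Units.mk0 _ hq0
  have hu : orderOf u = i := by rw [hi, ← orderOf_units]; rfl
  have hi0 : 0 < i := hu ▸ orderOf_pos u
  have h2 : (2 : ZMod r) ≠ 0 := fun h => hr2 ((Nat.prime_dvd_prime_iff_eq hr Nat.prime_two).1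
    ((ZMod.natCast_eq_zero_iff 2 r).1 (by exact_mod_cast h)))
  obtain ⟨φ, hφ⟩ : ∃ φ : E →+* E, ∀ x, φ x = x ^ q := by
    haveI : CharP E p := charP_of_injective_ringHom D.ε.injective p
    obtain ⟨f, -, hf⟩ := FiniteField.card K p
    obtain ⟨e, -, rfl⟩ := (Nat.dvd_prime_pow (Fact.out : p.Prime)).1
      (show q ∣ p ^ (f : ℕ) by rw [← hf, hK]; exact dvd_pow_self q two_ne_zero)
    exact ⟨iterateFrobenius E p e, fun x => rfl⟩
  have key : ∀ s : Multiset E, (∀ a ∈ s, a ^ r = 1) → (s.map D.τ = s ↔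
      ∀ k : ZMod r, s.count (chi ζ (((u ^ 2 : (ZMod r)ˣ) : ZMod r) * k)) = s.count (chi ζ k)) :=
    fun s hs => map_eq_iff_count hζ hs D.τ.injective _ (u ^ 2).mulLeft.surjective fun k => by
      rw [hτ, ← chi_mul hζ, hK]; simp [u]
  have key2 : ∀ s : Multiset E, (∀ a ∈ s, a ^ r = 1) → (s.map (fun a => (φ a)⁻¹) = s ↔
      ∀ k : ZMod r, s.count (chi ζ (((-u : (ZMod r)ˣ) : ZMod r) * k)) = s.count (chi ζ k)) :=
    fun s hs => map_eq_iff_count hζ hs (inv_injective.comp φ.injective) _ (-u).mulLeft.surjective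
      fun k => by rw [Function.comp_apply, hφ, ← chi_mul hζ, ← chi_neg hζ]; simp [u]
  have hct : ∀ (A : Matrix (Fin n) (Fin n) K) (s : Multiset E), IsDg D.ε A s →
      IsDg D.ε (ct σ A) (s.map φ) := fun A s h =>
    (h.map_hom σ.toRingHom φ (ε' := D.ε) fun x => by simp [hσ, hφ]).transpose
  have := card_classes_ordR D.ε hζ ((Units.coeHom (Matrix (Fin n) (Fin n) K)).comp
      (Cfsg.GU n K q).subtype) (Units.val_injective.comp Subtype.val_injective) (-u)
      (fun g h _ hc => (GU_isConj_iff hK g h).2 ((isConj_units_iff _ _).2 hc))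
      (fun g s hs h => (key2 s hs).1 (by
        have := (hct _ _ h).inv ((mem_GU_iff hσ _).1 g.2)
        rw [Multiset.map_map] at this
        exact this.unique h))
      (fun s h1 hs h => by
        have e := (inv_zpowers_iff (-u) fun k => s.count (chi ζ k)).2 h
        obtain ⟨A, hA⟩ := D.exists_isDg ((key s hs).2 (e _ ⟨(2 : ℕ), by
          simp only [zpow_natCast]; simp⟩)) h1
        obtain ⟨A, rfl⟩ := hA.isUnit fun a ha h0 => by simpa [h0, hr.ne_zero] using hs a ha
        have e1 : (A.1.map fun x : K => x ^ q).transpose = ct σ A.1 := by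
          ext i j; simp [ct_apply, hσ]
        obtain ⟨B, hB⟩ := (Cfsg.Agent.S2588.result hK A).2 (by
          have := (hct _ _ hA).inv (mul_nonsing_inv _
            ((isUnit_iff_isUnit_det _).1 (isUnit_ct σ A.isUnit)))
          rw [Multiset.map_map] at this
          rw [e1]
          exact hA.isConj ((key2 s hs).2 h ▸ this))
        exact ⟨B, hA.of_isConj ((isConj_units_iff _ _).1 hB)⟩)
  rw [this, orderOf_neg_units h2, hu, Fintype.card_fin, ← hs]
  by_cases h3 : Odd i
  · rw [if_pos h3] at hb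
    rw [if_pos h3, if_neg (by obtain ⟨k, hk⟩ := h3; omega), hb, Nat.mul_div_mul_right _ _ hi0]
  · rw [if_neg h3] at hb
    obtain ⟨k, hk⟩ := Nat.not_odd_iff_even.1 h3
    have hb' : i = 2 * b := by omega
    have hb0 : 0 < b := by omega
    rw [if_neg h3]
    split_ifs with h4
    · rw [← hb, Nat.mul_div_cancel _ hb0, hb', Nat.mul_div_mul_left _ _ two_pos]
    · rw [hb', Nat.mul_div_mul_right _ _ hb0]

end Cfsg.Agent.S2671
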