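import Cfsg.Statements.S2673
import Cfsg.Agent.H8.OrdO

set_option autoImplicit false
open Cfsg

namespace Cfsg.Agent.S2673

open CfsgH8

/-- Number of conjugacy classes of elements of odd prime order r ≠ p in the orthogonal group O_(2m+1)(q) of x_0² + Σ x_j y_j, q odd: with i the multiplicative order of q mod r and t = (r − 1)/i, there are C(⌊m/i⌋ + t/2, t/2) − 1 classes if i is odd (dual pairs of totally singular i-blocks) and C(⌊(2m+1)/i⌋ + t, t) − 1 if i is even (elliptic i-blocks). -/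
theorem result {F : Type*} [Field F] [Fintype F] {p q : ℕ} [Fact p.Prime] [CharP F p] (hF : Fintype.card F = q) (hq : Odd q) (m r i t : ℕ) (hr : r.Prime) (hr2 : r ≠ 2) (hrp : r ≠ p) (hi : i = orderOf (q : ZMod r)) (ht : t * i = r - 1) : Nat.card {C : ConjClasses ↥(Cfsg.isometryGroup F (Cfsg.quadFormOdd m F)) // ∃ g : ↥(Cfsg.isometryGroup F (Cfsg.quadFormOdd m F)), ConjClasses.mk g = C ∧ orderOf g = r} = if Odd i then Nat.choose (m / i + t / 2) (t / 2) - 1 else Nat.choose ((2 * m + 1) / i + t) t - 1 := by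
  have := Fact.mk hr
  subst hF
  have hrF : (r : F) ≠ 0 := CfsgH1.natCast_prime_ne_zero hr hrp
  obtain ⟨u, v, h1, h2, h3, h4, h5, h6, h7, h8⟩ := exists_unit_ord hr2 hrF hi ht
  have hc : Fintype.card (Unit ⊕ (Fin m ⊕ Fin m)) = 2 * m + 1 := by simp; ring
  rw [card_classes_orth (QO_coe m F) (ND_QO (two_ne_zero_of_odd hq)) (by omega) hr2 hrF True
    (fun _ _ _ => trivial) (fun κ _ _ _ _ e1 e2 => absurd e2 (by rw [e1, hc]; simp)) h1 h2 h3 h4,
    if_neg (by simp), Nat.sub_zero, hc]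
  split_ifs with h
  · rw [(h7 h).2, (h7 h).1, ← Nat.div_div_eq_div_mul, show (2 * m + 1) / 2 = m by omega]
  · rw [(h8 h).2.1, (h8 h).1]

end Cfsg.Agent.S2673
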