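import Cfsg.Statements.S2674
import Cfsg.Agent.H8.OrdO

set_option autoImplicit false
open Cfsg

namespace Cfsg.Agent.S2674

open CfsgH8

/-- Number of conjugacy classes of elements of odd prime order r ≠ p in the orthogonal group O⁺_2m(q) of Σ x_j y_j (m ≥ 1): with i the multiplicative order of q mod r and t = (r − 1)/i — if i is odd, C(⌊m/i⌋ + t/2, t/2) − 1; if i is even, C(⌊2m/i⌋ + t, t) − 1 minus, when i divides 2m with odd quotient, the C(2m/i + t − 1, t − 1) tuples using the whole space (an odd number of elliptic i-blocks fills an elliptic, not a hyperbolic, space). -/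
theorem result {F : Type*} [Field F] [Fintype F] {p q : ℕ} [Fact p.Prime] [CharP F p] (hF : Fintype.card F = q) (m r i t : ℕ) (hm : 1 ≤ m) (hr : r.Prime) (hr2 : r ≠ 2) (hrp : r ≠ p) (hi : i = orderOf (q : ZMod r)) (ht : t * i = r - 1) : Nat.card {C : ConjClasses ↥(Cfsg.isometryGroup F (Cfsg.quadFormPlus m F)) // ∃ g : ↥(Cfsg.isometryGroup F (Cfsg.quadFormPlus m F)), ConjClasses.mk g = C ∧ orderOf g = r} = if Odd i then Nat.choose (m / i + t / 2) (t / 2) - 1 else Nat.choose (2 * m / i + t) t - 1 - (if i ∣ 2 * m ∧ Odd (2 * m / i) then Nat.choose (2 * m / i + t - 1) (t - 1) else 0) := by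
  classical
  have := Fact.mk hr
  subst hF
  have hrF : (r : F) ≠ 0 := CfsgH1.natCast_prime_ne_zero hr hrp
  obtain ⟨u, v, h1, h2, h3, h4, h5, h6, h7, h8⟩ := exists_unit_ord hr2 hrF hi ht
  have hc : Fintype.card (Fin m ⊕ Fin m) = 2 * m := by simp; ring
  have hq : (Fintype.card F : ZMod r) ≠ 0 := h1 ▸ u.ne_zero
  have h9 : (1 : ZMod r) ≠ -1 := fun h => h6 (by linear_combination h)
  obtain ⟨ζ, hζ⟩ := exists_aniso (F := F)
  rw [card_classes_orth (QP_coe m F) ND_QH (by omega) hr2 hrF ((Fintype.card F : ZMod r) ^ m = 1)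
    (fun A => pow_eq_one_of_fpf (Iso.refl _) hq) (fun κ _ Q' A e0 e1 e2 e3 e4 e5 =>
      ((e0.classify_even (m := m) (by simp [e1, hc]) hζ).resolve_right fun h => h9 (by
        rw [← pow_eq_neg_one_of_fpf hζ h.2 hq e3 e4, Nat.sub_add_cancel hm, e5])).symm)
    h1 h2 h3 h4, hc]
  simp only [← orderOf_dvd_iff_pow_eq_one, ← hi]
  by_cases h : Odd i
  · rw [(h7 h).2, (h7 h).1, if_pos h, Nat.mul_div_mul_left _ _ two_pos, if_neg, Nat.sub_zero]
    exact fun h => h.2 (Nat.dvd_of_mul_dvd_mul_left two_pos h.1)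
  · rw [(h8 h).2.1, (h8 h).1, if_neg h]
    congr 1
    refine if_congr (and_congr_right ?_) rfl rfl
    rintro ⟨d, hd⟩
    rw [hd, Nat.mul_div_cancel_left _ h5, ← Nat.not_even_iff_odd, not_iff_not]
    constructor
    · rintro ⟨e, rfl⟩
      exact ⟨e, Nat.eq_of_mul_eq_mul_left h5 (by linarith)⟩
    · rintro ⟨e, rfl⟩
      exact ⟨e, by linarith⟩

end Cfsg.Agent.S2674
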