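import Cfsg.Statements.S2675
import Cfsg.Agent.H8.OrdO

set_option autoImplicit false
open Cfsg

namespace Cfsg.Agent.S2675

open CfsgH8

/-- Number of conjugacy classes of elements of odd prime order r ≠ p in the orthogonal group O⁻_2m(q) of an elliptic form Σ_(j<m−1) x_j y_j + z₁² + a z₁z₂ + c z₂² (binary part anisotropic, m ≥ 1): with i the multiplicative order of q mod r and t = (r − 1)/i — if i is odd, C(⌊m/i⌋ + t/2, t/2) − 1 minus, when i divides m, the C(m/i + t/2 − 1, t/2 − 1) tuples filling the whole space (dual pairs of totally singular blocks fill a hyperbolic space); if i is even, C(⌊2m/i⌋ + t, t) − 1 minus, when i divides 2m with even quotient, the C(2m/i + t − 1, t − 1) tuples filling the whole space with an even number of elliptic blocks. -/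
theorem result {F : Type*} [Field F] [Fintype F] {p q : ℕ} [Fact p.Prime] [CharP F p] (hF : Fintype.card F = q) (m r i t : ℕ) (hm : 1 ≤ m) (a c : F) (hac : ∀ z₁ z₂ : F, z₁ ^ 2 + a * z₁ * z₂ + c * z₂ ^ 2 = 0 → z₁ = 0 ∧ z₂ = 0) (hr : r.Prime) (hr2 : r ≠ 2) (hrp : r ≠ p) (hi : i = orderOf (q : ZMod r)) (ht : t * i = r - 1) : Nat.card {C : ConjClasses ↥(Cfsg.isometryGroup F (Cfsg.quadFormMinus (m - 1) F a c)) // ∃ g : ↥(Cfsg.isometryGroup F (Cfsg.quadFormMinus (m - 1) F a c)), ConjClasses.mk g = C ∧ orderOf g = r} = if Odd i then Nat.choose (m / i + t / 2) (t / 2) - 1 - (if i ∣ m then Nat.choose (m / i + t / 2 - 1) (t / 2 - 1) else 0) else Nat.choose (2 * m / i + t) t - 1 - (if i ∣ 2 * m ∧ Even (2 * m / i) then Nat.choose (2 * m / i + t - 1) (t - 1) else 0) := by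
  classical
  have := Fact.mk hr
  subst hF
  obtain ⟨m, rfl⟩ : ∃ k, m = k + 1 := ⟨m - 1, by omega⟩
  have hrF : (r : F) ≠ 0 := CfsgH1.natCast_prime_ne_zero hr hrp
  obtain ⟨u, v, h1, h2, h3, h4, h5, h6, h7, h8⟩ := exists_unit_ord hr2 hrF hi ht
  have hc : Fintype.card ((Fin m ⊕ Fin m) ⊕ Fin 2) = 2 * (m + 1) := by simp; ring
  have hq : (Fintype.card F : ZMod r) ≠ 0 := h1 ▸ u.ne_zero
  have h9 : (1 : ZMod r) ≠ -1 := fun h => h6 (by linear_combination h)
  rw [Nat.add_sub_cancel, card_classes_orth (QM_coe m F a c) (ND_QM hac) (by omega) hr2 hrF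
    ((Fintype.card F : ZMod r) ^ (m + 1) = -1)
    (fun A => pow_eq_neg_one_of_fpf hac (Iso.refl _) hq) (fun κ _ Q' A e0 e1 e2 e3 e4 e5 =>
      ((e0.classify_even (m := m + 1) (by simp [e1, hc]) hac).resolve_left fun h => h9 (by
        rw [← e5, pow_eq_one_of_fpf h hq e3 e4])).2.symm)
    h1 h2 h3 h4, hc]
  by_cases h : Odd i
  · rw [(h7 h).2, (h7 h).1, if_pos h, Nat.mul_div_mul_left _ _ two_pos]
    congr 1
    refine if_congr ?_ rfl rfl
    rw [Nat.mul_dvd_mul_iff_left two_pos, and_iff_left_iff_imp, hi, orderOf_dvd_iff_pow_eq_one]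
    exact fun h => h ▸ h9
  · obtain ⟨e1, e2, e3⟩ := h8 h
    rw [e2, e1, if_neg h]
    congr 1
    refine if_congr (and_congr_right ?_) rfl rfl
    rintro ⟨d, hd⟩
    obtain ⟨j, rfl⟩ := Nat.not_odd_iff_even.1 h
    rw [hd, Nat.mul_div_cancel_left _ h5, show m + 1 = (j + j) / 2 * d by
      rw [show (j + j) / 2 = j by omega]; linarith, pow_mul, e3, ← Nat.not_odd_iff_even, not_iff_not]
    exact ⟨fun h => Nat.not_even_iff_odd.1 fun h' => h9 (h'.neg_one_pow.symm.trans h),
      fun h => h.neg_one_pow⟩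

end Cfsg.Agent.S2675
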