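import Cfsg.Statements.S2676
import Cfsg.Agent.H1.JForm2

set_option autoImplicit false
open Classical
open Cfsg

namespace Cfsg.Agent.S2676

open CfsgH1 Subgroup
open scoped commutatorElement
set_option maxHeartbeats 400000

open Matrix Module CfsgH7

/-- Number of conjugacy classes of elements of order p in Sp_2m(q), q a power of the odd prime p: the classes correspond to the signed partitions of 2m — partitions with all parts at most p in which every odd part has even multiplicity, each even part size that occurs carrying a sign — other than the all-ones partition; so the count is the sum over such partitions of 2^(number of distinct even parts), minus one. -/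
theorem result {F : Type*} [Field F] [Fintype F] {p : ℕ} [Fact p.Prime] [CharP F p] (hp : p ≠ 2) (m : ℕ) : Nat.card {C : ConjClasses ↥(Matrix.symplecticGroup (Fin m) F) // ∃ g : Matrix.symplecticGroup (Fin m) F, ConjClasses.mk g = C ∧ orderOf g = p} = (∑ μ ∈ Finset.univ.filter (fun μ : Nat.Partition (2 * m) => (∀ a ∈ μ.parts, a ≤ p) ∧ ∀ j : ℕ, Odd j → Even (μ.parts.count j)), 2 ^ ((μ.parts.toFinset.filter (fun j : ℕ => Even j)).card)) - 1 := by
  have h2 : (2 : F) ≠ 0 := fun h => hp ((Nat.prime_dvd_prime_iff_eq Fact.out Nat.prime_two).1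
    ((CharP.cast_eq_zero_iff F p 2).1 (by exact_mod_cast h)))
  let P : Nat.Partition (2 * m) → Prop := fun μ =>
    (∀ a ∈ μ.parts, a ≤ p) ∧ ∀ j : ℕ, Odd j → Even (μ.parts.count j)
  let T := {μ : Nat.Partition (2 * m) // P μ ∧ ¬ ∀ a ∈ μ.parts, a ≤ 1}
  have hord : ∀ (g : Matrix.symplecticGroup (Fin m) F) s, IsJType g.1 s →
      (orderOf g = p ↔ (∀ a ∈ s, a ≤ p) ∧ ¬ ∀ a ∈ s, a ≤ 1) := fun g s h => by
    rw [orderOf_eq_prime_iff', ← h.pow_eq_zero_iff, ← h.eq_one_iff, ← pow_char_eq_one_iff p, Ne,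
      Subtype.ext_iff, Subtype.ext_iff]
    rfl
  have h1 : Nat.card {C : ConjClasses ↥(Matrix.symplecticGroup (Fin m) F) //
      ∃ g : Matrix.symplecticGroup (Fin m) F, ConjClasses.mk g = C ∧ orderOf g = p} =
      Nat.card (Σ μ : T, {C : ConjClasses ↥(Matrix.symplecticGroup (Fin m) F) //
        ∃ g, ConjClasses.mk g = C ∧ IsJType g.1 μ.1.parts}) := by
    symm
    refine Nat.card_eq_of_bijective (fun x => ⟨x.2.1, by
      obtain ⟨g, h1, h2⟩ := x.2.2
      exact ⟨g, h1, (hord g _ h2).2 ⟨x.1.2.1.1, x.1.2.2⟩⟩⟩) ⟨?_, ?_⟩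
    · rintro ⟨μ, C, g, rfl, h1⟩ ⟨μ', C', g', rfl, h1'⟩ h
      have h3 : ConjClasses.mk g = ConjClasses.mk g' := congrArg Subtype.val h
      obtain rfl : μ = μ' := Subtype.ext (Nat.Partition.ext (h1.eq_of_isConj h1'
        ((Matrix.symplecticGroup (Fin m) F).subtype.map_isConj
          (ConjClasses.mk_eq_mk_iff_isConj.1 h3))))
      exact congrArg _ (Subtype.ext h3)
    · rintro ⟨_, g, rfl, hg⟩
      obtain ⟨s, hs⟩ := exists_jtype (u := g.1) ⟨p, (pow_char_eq_one_iff p _).1
        (congrArg Subtype.val (orderOf_eq_prime_iff'.1 hg).1)⟩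
      have h3 := (hord g s hs).1 hg
      exact ⟨⟨⟨⟨s, fun h => hs.1 _ h, by simpa [two_mul] using hs.sum_eq⟩,
        ⟨h3.1, fun j hj => sp_even_count g hs hj⟩, h3.2⟩, _, g, rfl, hs⟩, rfl⟩
  let o : Nat.Partition (2 * m) := ⟨Multiset.replicate (2 * m) 1, fun h => by
    rw [Multiset.eq_of_mem_replicate h]; exact one_pos, by simp⟩
  have ho : ∀ μ : Nat.Partition (2 * m), (∀ a ∈ μ.parts, a ≤ 1) ↔ μ = o := by
    intro μ
    constructor
    · intro h
      have h1 : μ.parts = Multiset.replicate μ.parts.card 1 :=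
        Multiset.eq_replicate.2 ⟨rfl, fun b hb => le_antisymm (h b hb) (μ.parts_pos hb)⟩
      have h2 := μ.parts_sum
      rw [h1] at h2
      simp only [Multiset.sum_replicate, smul_eq_mul, mul_one] at h2
      ext1
      rw [h1, h2]
    · rintro rfl a ha
      exact (Multiset.eq_of_mem_replicate ha).le
  have hPo : o ∈ Finset.univ.filter P := by
    refine Finset.mem_filter.2 ⟨Finset.mem_univ _, fun a ha => ?_, fun j _ => ?_⟩
    · rw [Multiset.eq_of_mem_replicate ha]; exact (Fact.out : p.Prime).one_le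
    · simp only [o, Multiset.count_replicate]; split_ifs <;> simp
  have ho1 : 2 ^ (o.parts.toFinset.filter (fun j : ℕ => Even j)).card = 1 := by
    rw [Finset.filter_eq_empty_iff.2 fun a ha => by
      rw [Multiset.eq_of_mem_replicate (Multiset.mem_toFinset.1 ha)]; simp]
    simp
  rw [h1, Nat.card_sigma, ← Finset.add_sum_erase _ _ hPo, ho1, Nat.add_sub_cancel_left,
    Finset.sum_subtype (p := fun μ => P μ ∧ ¬ ∀ a ∈ μ.parts, a ≤ 1) _ (fun μ => by
      simp only [Finset.mem_erase, Finset.mem_filter, Finset.mem_univ, true_and, ho, and_comm])]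
  refine Finset.sum_congr rfl fun μ _ => ?_
  exact card_classes_jtype h2 (fun a ha => μ.1.parts_pos ha) μ.1.parts_sum μ.2.1.2

end Cfsg.Agent.S2676
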