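import Cfsg.Statements.S2677
import Cfsg.Agent.H1.GU1

set_option autoImplicit false
open Cfsg

namespace Cfsg.Agent.S2677

open CfsgH1 Subgroup
open scoped commutatorElement
set_option maxHeartbeats 400000

open Matrix Module CfsgH7

/-- Centraliser of a field automorphism of odd prime order in PGU_n(q): let q = q₀^r with r an odd prime, K the field with q² elements and σ a field automorphism of K of order r (fixed field of order q₀²). The elements g of GU_n(q) whose entrywise image under σ is a scalar multiple of g — those whose coset modulo the q + 1 unitary scalars is fixed by σ — number (q + 1)/(q₀ + 1) · |GU_n(q₀)|; equivalently the centraliser in PGU_n(q) of the induced automorphism has the order of PGU_n(q₀). -/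
theorem result {K : Type*} [Field K] [Fintype K] {q₀ q r n : ℕ} (hr : r.Prime) (hr2 : r ≠ 2) (hn : 1 ≤ n) (hq : q = q₀ ^ r) (hK : Fintype.card K = q ^ 2) (σ : K ≃+* K) (hσ : orderOf σ = r) : (Nat.card {g : ↥(Cfsg.GU n K q) // ∃ c : K, c ≠ 0 ∧ ((g : GL (Fin n) K) : Matrix (Fin n) (Fin n) K).map σ = c • ((g : GL (Fin n) K) : Matrix (Fin n) (Fin n) K)} : ℤ) = ((q + 1) / (q₀ + 1) : ℕ) * ((q₀ : ℤ) ^ (n * (n - 1) / 2) * ∏ i : Fin n, ((q₀ : ℤ) ^ ((i : ℕ) + 1) - (-1) ^ ((i : ℕ) + 1))) := by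
  classical
  haveI : Nonempty (Fin n) := ⟨⟨0, hn⟩⟩
  obtain ⟨τ, hτ, h2⟩ := exists_qfrob hK
  have hodd : Odd r := hr.odd_of_ne_two hr2
  haveI := Fintype.ofFinite (fixF σ)
  have hq0 : Fintype.card (fixF σ) = q₀ ^ 2 := by
    rw [← Nat.card_eq_fintype_card]
    exact card_fixF_eq σ (by rw [hσ, hK, hq, ← pow_mul, ← pow_mul, mul_comm])
  obtain ⟨τ₀, hτ₀, h2₀⟩ := exists_qfrob hq0
  let ε : fixF σ →+* K := (fixF σ).subtype
  have hε : ∀ x, τ (ε x) = ε (τ₀ x) := fun x => by
    rw [hτ, hτ₀, ← map_pow, hq, pow_pow_odd hq0 hodd]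
  have hmem := fun g : GL (Fin n) (fixF σ) => GL_map_mem_GU_iff (n := n) ε hτ hτ₀ hε g
  let φ : NormOne K q × Cfsg.GU n (fixF σ) q₀ →* Cfsg.GU n K q :=
    MonoidHom.mk' (fun x => ⟨smulGL x.1.1 x.1.1.ne_zero (Matrix.GeneralLinearGroup.map ε x.2.1),
      (smul_mem_GU_iff hτ ((hmem _).2 x.2.2) _).2 (congrArg Units.val x.1.2)⟩) (by
      intro a b
      refine Subtype.ext (Units.ext ?_)
      simp [smulGL_coe, smul_smul, mul_comm])
  have hφ : ∀ x, (((φ x).1 : GL (Fin n) K) : Matrix (Fin n) (Fin n) K) =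
      (x.1.1 : K) • (x.2.1 : Matrix (Fin n) (Fin n) (fixF σ)).map ε := fun x => rfl
  have h1 : Nat.card {g : Cfsg.GU n K q // ∃ c : K, c ≠ 0 ∧
      ((g : GL (Fin n) K) : Matrix (Fin n) (Fin n) K).map σ =
        c • ((g : GL (Fin n) K) : Matrix (Fin n) (Fin n) K)} = Nat.card φ.range := by
    refine Nat.card_congr (Equiv.subtypeEquivRight fun g => ⟨?_, ?_⟩)
    · rintro ⟨c, -, hc⟩
      obtain ⟨x, hx0, hx⟩ := exists_fixed_of_map_eq_smul σ g.1 hc
      have hcn : τ c * c = 1 := by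
        have := norm_of_smul_GU hK (g := mapGU σ g) (h := g) hc
        rw [hτ, ← pow_succ, this]
      obtain ⟨z, hz1, hz2⟩ := exists_norm_fixed h2 (hσ ▸ hodd) (y := τ x * x) (by simp [hx0])
        (by rw [map_mul, invol_of_orderOf h2, mul_comm]) (by
          rw [map_mul, ringAut_comm_apply σ τ]
          conv_rhs => rw [← hx, map_mul]
          linear_combination (-(τ (σ x)) * σ x) * hcn)
      have hz0 : z ≠ 0 := by
        rintro rfl
        simp [hx0] at hz2
      have hxz : x / z ≠ 0 := div_ne_zero hx0 hz0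
      have hn1 : (x / z) ^ (q + 1) = 1 := by
        rw [pow_succ, ← hτ, map_div₀, div_mul_div_comm, hz2, div_self (by simp [hx0])]
      obtain ⟨g₀, hg₀⟩ := exists_GL_map_eq ε (smulGL _ hxz g.1) (fun i j =>
        ⟨⟨(smulGL _ hxz g.1 : Matrix (Fin n) (Fin n) K) i j, mem_fixF.2 (by
        have h1 : σ ((g.1 : Matrix (Fin n) (Fin n) K) i j) =
            c * (g.1 : Matrix (Fin n) (Fin n) K) i j := by
          simpa using congrFun (congrFun hc i) j
        rw [smulGL_coe, Matrix.smul_apply, smul_eq_mul, map_mul, h1, ← mul_assoc, map_div₀, hz1,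
          div_mul_eq_mul_div, mul_comm (σ x), hx])⟩, rfl⟩)
      refine ⟨((⟨Units.mk0 _ hxz, Units.ext hn1⟩ : NormOne K q)⁻¹, ⟨g₀, (hmem _).1 ?_⟩),
        Subtype.ext (Units.ext ?_)⟩
      · rw [hg₀]
        exact (smul_mem_GU_iff hτ g.2 _).2 hn1
      have := congrArg Units.val hg₀
      rw [hφ]
      change (x / z)⁻¹ • (Matrix.GeneralLinearGroup.map ε g₀).1 = _
      rw [this, smulGL_coe, smul_smul, inv_mul_cancel₀ hxz, one_smul]
    · rintro ⟨x, rfl⟩
      refine ⟨σ x.1.1 / x.1.1, by simp, ?_⟩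
      rw [hφ]
      ext i j
      have := mem_fixF.1 ((x.2.1 : Matrix (Fin n) (Fin n) (fixF σ)) i j).2
      simp [ε, this]
      field_simp
  have h3 : Nat.card φ.ker = q₀ + 1 := by
    rw [← card_ker_pow_units hq0]
    symm
    have hn1 : ∀ a : NormOne (fixF σ) q₀, Units.map (ε : fixF σ →* K) a.1 ∈ NormOne K q := by
      intro a
      apply Units.ext
      have : (a.1 : fixF σ) ^ (q₀ + 1) = 1 := congrArg Units.val a.2
      change ε a.1 ^ (q + 1) = 1
      rw [pow_succ, ← hτ, hε, ← map_mul, hτ₀, ← pow_succ, this, map_one]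
    refine Nat.card_eq_of_bijective (fun a => ⟨((⟨_, hn1 a⟩ : NormOne K q)⁻¹,
      ⟨smulGL a.1 a.1.ne_zero 1, (smul_mem_GU_iff hτ₀ (one_mem _) _).2
        (congrArg Units.val a.2)⟩), ?_⟩) ⟨?_, ?_⟩
    · rw [MonoidHom.mem_ker]
      refine Subtype.ext (Units.ext ?_)
      rw [hφ]
      ext i j
      simp [smulGL_coe, one_apply, ε]
      split_ifs <;> simp
    · intro a b h
      have := congrArg (fun x => x.1.1) h
      simp only [_root_.inv_inj] at this
      exact Subtype.ext (Units.map_injective ε.injective (congrArg Subtype.val this))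
    · rintro ⟨⟨a, g⟩, h⟩
      have h' := congrArg (fun x => x.1.1) (MonoidHom.mem_ker.1 h)
      simp only [hφ] at h'
      obtain ⟨i⟩ := ‹Nonempty (Fin n)›
      have h3 : (a.1 : K) * ε ((g.1 : Matrix (Fin n) (Fin n) (fixF σ)) i i) = 1 := by
        simpa using congrFun (congrFun h' i) i
      have h4 : (g.1 : Matrix (Fin n) (Fin n) (fixF σ)) i i ≠ 0 := by
        intro h0; rw [h0] at h3; simp at h3
      have h6 : (g.1 : Matrix (Fin n) (Fin n) (fixF σ)) =
          (g.1 : Matrix (Fin n) (Fin n) (fixF σ)) i i • 1 := by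
        refine Matrix.ext fun j k => ?_
        have h5 : (a.1 : K) * ε ((g.1 : Matrix (Fin n) (Fin n) (fixF σ)) j k) =
            (1 : Matrix (Fin n) (Fin n) K) j k := by
          simpa using congrFun (congrFun h' j) k
        apply ε.injective
        apply mul_left_cancel₀ a.1.ne_zero
        rw [h5, Matrix.smul_apply, smul_eq_mul, map_mul, ← mul_assoc, h3, one_mul]
        simp [one_apply, apply_ite ε]
      refine ⟨⟨Units.mk0 _ h4, Units.ext (norm_of_smul_GU hq0 (g := g) (h := 1) h6)⟩,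
        Subtype.ext (Prod.ext ?_ (Subtype.ext (Units.ext h6.symm)))⟩
      apply inv_eq_of_mul_eq_one_left
      exact Subtype.ext (Units.ext h3)
  have h4 := φ.ker.card_mul_index
  rw [index_ker, h3, Nat.card_prod, card_ker_pow_units hK] at h4
  obtain ⟨k, hk⟩ : q₀ + 1 ∣ q + 1 := by
    simpa [hq] using hodd.nat_add_dvd_pow_add_pow q₀ 1
  rw [h1, hk, Nat.mul_div_cancel_left _ (by omega)]
  rw [hk, mul_assoc] at h4
  rw [Nat.eq_of_mul_eq_mul_left (by omega) h4, Nat.cast_mul, card_GU hq0]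
  rfl

end Cfsg.Agent.S2677
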