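import Cfsg.Statements.S2678
import Cfsg.Agent.H1.QExt

set_option autoImplicit false
open Cfsg

namespace Cfsg.Agent.S2678

open CfsgH1 Subgroup
open scoped commutatorElement
set_option maxHeartbeats 400000

open Matrix Module CfsgH7

/-- Field-extension embedding of symplectic groups: for a field K with q² elements and a field F with q elements there is an injective homomorphism Sp_2a(K) → Sp_4a(F). -/
theorem result {K F : Type*} [Field K] [Fintype K] [Field F] [Fintype F] {q : ℕ} (hK : Fintype.card K = q ^ 2) (hF : Fintype.card F = q) (a : ℕ) : ∃ φ : ↥(Matrix.symplecticGroup (Fin a) K) →* ↥(Matrix.symplecticGroup (Fin (2 * a)) F), Function.Injective φ := by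
  obtain ⟨_, E, hσ⟩ := exists_qext hK hF
  haveI : Module.Finite F K := Module.finite_of_finrank_eq_succ E.rank
  let B : LinearMap.BilinForm F (Fin a ⊕ Fin a → K) :=
    ((Matrix.toBilin' (J (Fin a) K)).restrictScalars₁₂ F F).compr₂ E.tr
  have hB : ∀ u v, B u v = E.tr (Matrix.toBilin' (J (Fin a) K) u v) := fun u v => rfl
  refine exists_embed_Sp (B := B) (fun v => by rw [hB, (altM_J _).isAlt, map_zero])
    (fun u hu => toBilin'_nondeg isUnit_J u fun v => E.eq_zero_of_tr fun c => by
      rw [← hu (c • v), hB, map_smul, smul_eq_mul, mul_comm])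
    (by rw [E.finrank_fun]; simp [two_mul])
    ((QExt.resM F (Fin a ⊕ Fin a)).comp (Matrix.symplecticGroup (Fin a) K).subtype)
    (fun a b h => Subtype.ext (QExt.resM_injective h)) fun g x y => ?_
  change B (g.1 *ᵥ x) (g.1 *ᵥ y) = _
  rw [hB, hB, toBilin'_J, toBilin'_J, (mem_Sp_iff_form _).1 g.2]

end Cfsg.Agent.S2678
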