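import Cfsg.Statements.S2679
import Cfsg.Agent.H8.BaseChange

set_option autoImplicit false
open Cfsg

namespace Cfsg.Agent.S2679

open CfsgH8

/-- An elliptic orthogonal group embeds in the hyperbolic orthogonal group of the same dimension over the quadratic extension: for a field F with q elements and a field K with q² elements there is an injective homomorphism from O⁻_2m(F) (isometries of Σ_(j<m−1) x_j y_j + z₁² + a z₁z₂ + c z₂², binary part anisotropic) to O⁺_2m(K) (isometries of Σ_(j<m) x_j y_j over K). -/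
theorem result {F K : Type*} [Field F] [Fintype F] [Field K] [Fintype K] {q : ℕ} (hF : Fintype.card F = q) (hK : Fintype.card K = q ^ 2) {m : ℕ} (hm : 1 ≤ m) (a c : F) (hac : ∀ z₁ z₂ : F, z₁ ^ 2 + a * z₁ * z₂ + c * z₂ ^ 2 = 0 → z₁ = 0 ∧ z₂ = 0) : ∃ φ : ↥(Cfsg.isometryGroup F (Cfsg.quadFormMinus (m - 1) F a c)) →* ↥(Cfsg.isometryGroup K (Cfsg.quadFormPlus m K)), Function.Injective φ := by
  obtain ⟨φ⟩ := exists_ringHom_of_card (F := F) (K := K) two_ne_zero (by rw [hK, hF])
  let _ := φ.toAlgebra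
  have h2 : Module.finrank F K = 2 := finrank_two_of_card (by rw [hK, hF])
  have h3 := iso_QM_QP_ext h2 (m - 1) hac
  rw [Nat.sub_add_cancel hm] at h3
  obtain ⟨e⟩ := h3.symm.og
  refine ⟨(toOG (QP_coe m K)).symm.toMonoidHom.comp (e.toMonoidHom.comp
    ((toOG rfl).toMonoidHom.comp (baseChangeHom φ (QM_coe _ _ _ _) rfl (QM_comp φ _ _ _)))), ?_⟩
  exact (toOG (QP_coe m K)).symm.injective.comp (e.injective.comp ((toOG rfl).injective.comp
    (baseChangeHom_injective _ _ _ _)))

end Cfsg.Agent.S2679
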