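import Cfsg.Statements.S2682
import Cfsg.Agent.H1.Sp3

set_option autoImplicit false
open Cfsg

namespace Cfsg.Agent.S2682

open CfsgH1 Subgroup
open scoped commutatorElement
set_option maxHeartbeats 400000

open Matrix Module CfsgH7

/-- Centraliser order of an involution t of Sp_2m(q), q even, with s = rank(t − 1) even and f(v, tv) ≠ 0 for some v, f the symplectic form (type c_s): |C(t)| = q^(2ms − (3s² − 3s)/2 − 1) · |Sp_(s−2)(q)| · |Sp_(2m−2s)(q)|. -/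
theorem result {F : Type*} [Field F] [Fintype F] [CharP F 2] {q : ℕ} (hF : Fintype.card F = q) {m s : ℕ} (t : Matrix.symplecticGroup (Fin m) F) (ht : t ^ 2 = 1) (hs : ((t : Matrix (Fin m ⊕ Fin m) (Fin m ⊕ Fin m) F) - 1).rank = s) (heven : Even s) (hna : ∃ v : Fin m ⊕ Fin m → F, Cfsg.sympForm m F v ((t : Matrix (Fin m ⊕ Fin m) (Fin m ⊕ Fin m) F).mulVec v) ≠ 0) : Nat.card ↥(Subgroup.centralizer ({t} : Set ↥(Matrix.symplecticGroup (Fin m) F))) = q ^ (2 * m * s - (3 * s ^ 2 - 3 * s) / 2 - 1) * ((q : ℕ) ^ (((s - 2) / 2) ^ 2) * ∏ i : Fin ((s - 2) / 2), (q ^ (2 * ((i : ℕ) + 1)) - 1)) * ((q : ℕ) ^ ((m - s) ^ 2) * ∏ i : Fin (m - s), (q ^ (2 * ((i : ℕ) + 1)) - 1)) := by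
  subst hF
  obtain ⟨β, ⟨D⟩⟩ := exists_tvData t (sp_sq_iff.1 ht) hs
  have hna' : ¬ AltM β := fun h => by
    obtain ⟨v, hv⟩ := hna
    have := D.alt_iff.2 h v
    rw [← mulVec_mulVec] at this
    exact hv this
  obtain ⟨k, rfl⟩ := heven
  obtain rfl | ⟨k, rfl⟩ : k = 0 ∨ ∃ j, k = j + 1 := by rcases k with _ | k <;> simp
  · exact absurd (fun v => by simp [dotProduct]) hna'
  have hm := D.card_centralizer.1
  rw [D.card_centralizer.2, card_IsomG_nonalt D.symm D.unit hna',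
    card_orth_even (k := k) (by simp [two_mul]), show (k + 1 + (k + 1) - 2) / 2 = k by omega,
    ordSp, ordSp]
  have : 2 * m * (k + 1 + (k + 1)) - (3 * (k + 1 + (k + 1)) ^ 2 - 3 * (k + 1 + (k + 1))) / 2 - 1 =
      2 * k + 1 + (2 * m * (k + 1 + (k + 1)) - (3 * (k + 1 + (k + 1)) ^ 2 - (k + 1 + (k + 1))) / 2) := by
    obtain ⟨j, rfl⟩ := Nat.exists_eq_add_of_le hm
    have e1 : (k + 1 + (k + 1)) ^ 2 = 4 * (k * k) + 8 * k + 4 := by ring
    have e2 : 2 * (k + 1 + (k + 1) + j) * (k + 1 + (k + 1)) =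
      8 * (k * k) + 16 * k + 8 + 4 * (j * k) + 4 * j := by ring
    rw [e1, e2]
    omega
  rw [this]
  ring

end Cfsg.Agent.S2682
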