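import Cfsg.Statements.S2684
import Cfsg.Agent.H8.Inv3

set_option autoImplicit false
open Cfsg

namespace Cfsg.Agent.S2684

open CfsgH8

/-- For the hyperbolic form Q = Σ x_j y_j on F^(2m) over a finite field with q elements, q even (excluding m = 2 over the field of two elements), and an involution x ≠ 1 of the orthogonal group with s = rank(x − 1) even and Q vanishing on the image of x − 1 (equivalently f(v, xv) = 0 for all v, where f(u, w) = Q(u + w) − Q(u) − Q(w) is the bilinear form of Q; type a_s, which lies in Ω): its centraliser in Ω (the commutator subgroup of the orthogonal group) has order q^(2ms − (3s² + s)/2) · |Sp_s(q)| · |Ω⁺_(2m−2s)(q)|, where |Ω⁺_2k(q)| = q^(k(k−1)) (q^k − 1) Π_(i=1)^(k−1) (q^(2i) − 1) for k ≥ 1 and the last factor is 1 when s = m. -/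
theorem result {F : Type*} [Field F] [Fintype F] [CharP F 2] {q : ℕ} (hF : Fintype.card F = q) {m s : ℕ} (h : Fintype.card F ≠ 2 ∨ m ≠ 2) (x : ↥(Cfsg.isometryGroup F (Cfsg.quadFormPlus m F))) (hx : x ^ 2 = 1) (hx1 : x ≠ 1) (hs : (((x : Matrix.GeneralLinearGroup (Fin m ⊕ Fin m) F) : Matrix (Fin m ⊕ Fin m) (Fin m ⊕ Fin m) F) - 1).rank = s) (heven : Even s) (halt : ∀ v : Fin m ⊕ Fin m → F, Cfsg.quadFormPlus m F ((((x : Matrix.GeneralLinearGroup (Fin m ⊕ Fin m) F) : Matrix (Fin m ⊕ Fin m) (Fin m ⊕ Fin m) F) - 1).mulVec v) = 0) : Nat.card {g : ↥(Cfsg.Omega F (Cfsg.quadFormPlus m F)) // (g : ↥(Cfsg.isometryGroup F (Cfsg.quadFormPlus m F))) * x = x * (g : ↥(Cfsg.isometryGroup F (Cfsg.quadFormPlus m F)))} = q ^ (2 * m * s - (3 * s ^ 2 + s) / 2) * ((q : ℕ) ^ ((s / 2) ^ 2) * ∏ i : Fin (s / 2), (q ^ (2 * ((i : ℕ) + 1)) - 1)) * (if s = m then 1 else q ^ ((m - s) * (m - s - 1)) * (q ^ (m - s) - 1) * ∏ i : Fin (m - s - 1), (q ^ (2 * ((i : ℕ) + 1))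 - 1)) := by
  subst hF
  have hr := (rank_toOG (QP_coe m F) x).trans hs
  have ht : toOG (QP_coe m F) x * toOG (QP_coe m F) x = 1 := by
    rw [← _root_.map_mul, ← pow_two, hx, _root_.map_one]
  have hT : TS (QP m F) (movS (toOG (QP_coe m F) x)) := fun y hy => by
    obtain ⟨v, rfl⟩ := mem_movS.1 hy
    have := halt v
    rw [Matrix.sub_mulVec, Matrix.one_mulVec] at this
    exact (congrFun (QP_coe m F) _).trans this
  obtain ⟨k, rfl⟩ := heven.two_dvd
  obtain ⟨h1, h2⟩ := card_cent_alt (Iso.refl _) ht hT hr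
  obtain ⟨n, rfl⟩ := Nat.exists_eq_add_of_le h1
  obtain ⟨h3, h4⟩ := card_cent_Omega ND_QH (good_QP h) ht
  rw [card_comm_congr (QP_coe _ F), Nat.mul_div_cancel_left _ two_pos, Nat.add_sub_cancel_left]
  rw [Nat.add_sub_cancel_left] at h2
  cases n with
  | zero =>
    rw [h4 ⟨hT, by rw [hr]; simp; ring⟩, h2, card_OG_QP_zero, if_pos (by simp), mul_one, mul_one,
      mul_comm]
    rfl
  | succ n =>
    refine Nat.eq_of_mul_eq_mul_left two_pos ?_
    rw [h3 fun h => by have := h.2; rw [hr] at this; simp at this; omega, h2, card_OG_QP,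
      cnt_QP_one', if_neg (by omega), CfsgH1.ordSp, CfsgH1.ordSp, Nat.add_sub_cancel]
    ring

end Cfsg.Agent.S2684
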