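import Cfsg.Statements.S2685
import Cfsg.Agent.H8.Inv3

set_option autoImplicit false
open Cfsg

namespace Cfsg.Agent.S2685

open CfsgH8

/-- For the hyperbolic form Q = Σ x_j y_j on F^(2m) over a finite field with q elements, q even (excluding m = 2 over the field of two elements), and an involution x of the orthogonal group with s = rank(x − 1) even and Q not vanishing on the image of x − 1 (f(v, xv) ≠ 0 for some v, where f(u, w) = Q(u + w) − Q(u) − Q(w) is the bilinear form of Q; type c_s, which lies in Ω): its centraliser in Ω (the commutator subgroup of the orthogonal group) has order q^(2m(s−1) − (3s² − 5s)/2 − 1) · |Sp_(s−2)(q)| · |Sp_(2m−2s)(q)|. -/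
theorem result {F : Type*} [Field F] [Fintype F] [CharP F 2] {q : ℕ} (hF : Fintype.card F = q) {m s : ℕ} (h : Fintype.card F ≠ 2 ∨ m ≠ 2) (x : ↥(Cfsg.isometryGroup F (Cfsg.quadFormPlus m F))) (hx : x ^ 2 = 1) (hs : (((x : Matrix.GeneralLinearGroup (Fin m ⊕ Fin m) F) : Matrix (Fin m ⊕ Fin m) (Fin m ⊕ Fin m) F) - 1).rank = s) (heven : Even s) (hna : ∃ v : Fin m ⊕ Fin m → F, Cfsg.quadFormPlus m F ((((x : Matrix.GeneralLinearGroup (Fin m ⊕ Fin m) F) : Matrix (Fin m ⊕ Fin m) (Fin m ⊕ Fin m) F) - 1).mulVec v) ≠ 0) : Nat.card {g : ↥(Cfsg.Omega F (Cfsg.quadFormPlus m F)) // (g : ↥(Cfsg.isometryGroup F (Cfsg.quadFormPlus m F))) * x = x * (g : ↥(Cfsg.isometryGroup F (Cfsg.quadFormPlus m F)))} = q ^ (2 * m * (s - 1) - (3 * s ^ 2 - 5 * s) / 2 - 1) * ((q : ℕ) ^ (((s - 2) / 2) ^ 2) * ∏ i : Fin ((s - 2) / 2), (q ^ (2 * ((i : ℕ) + 1)) - 1)) * ((q : ℕ) ^ ((m - s) ^ 2) * ∏ i : Fin (m - s), (q ^ (2 * ((i : ℕ) + 1)) - 1)) := by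
  subst hF
  have hr := (rank_toOG (QP_coe m F) x).trans hs
  have ht : toOG (QP_coe m F) x * toOG (QP_coe m F) x = 1 := by
    rw [← _root_.map_mul, ← pow_two, hx, _root_.map_one]
  have hT : ¬ TS (QP m F) (movS (toOG (QP_coe m F) x)) := fun h => by
    obtain ⟨v, hv⟩ := hna
    refine hv ?_
    rw [Matrix.sub_mulVec, Matrix.one_mulVec]
    exact (congrFun (QP_coe m F) _).symm.trans (h _ (mem_movS.2 ⟨v, rfl⟩))
  obtain ⟨k, rfl⟩ : ∃ k, s = 2 * k + 1 + 1 := by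
    obtain ⟨k, rfl⟩ := heven
    refine ⟨k - 1, ?_⟩
    have : k ≠ 0 := by
      rintro rfl
      exact hT (by rw [Submodule.finrank_eq_zero.1 hr]; intro x hx; simp [(Submodule.mem_bot F).1 hx])
    omega
  obtain ⟨h1, h2⟩ := card_cent_nonalt (Iso.refl _) (good_QP h) ht hT hr
  obtain ⟨n, rfl⟩ := Nat.exists_eq_add_of_le h1
  rw [card_comm_congr (QP_coe _ F), h2, CfsgH1.card_orth_even (k := k) (by simp; ring),
    Nat.add_sub_cancel, show 2 * k + 1 + 1 - 2 = 2 * k by omega, Nat.mul_div_cancel_left _ two_pos,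
    mul_right_comm, ← mul_assoc, ← pow_add, mul_right_comm]
  congr 3
  rw [show 3 * (2 * k + 1 + 1) ^ 2 - 3 * (2 * k + 1 + 1) = 2 * (6 * (k * k) + 9 * k + 3) from
      Nat.sub_eq_of_eq_add (by ring),
    show 3 * (2 * k + 1 + 1) ^ 2 - 5 * (2 * k + 1 + 1) = 2 * (6 * (k * k) + 7 * k + 1) from
      Nat.sub_eq_of_eq_add (by ring), Nat.mul_div_cancel_left _ two_pos,
    Nat.mul_div_cancel_left _ two_pos, show 2 * (2 * k + 1 + 1 + n) * (2 * k + 1) =
      8 * (k * k) + 12 * k + 4 + 2 * n * (2 * k + 1) by ring]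
  omega

end Cfsg.Agent.S2685
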