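import Cfsg.Statements.S2695
import Cfsg.Agent.H8.MatAut

set_option autoImplicit false
open Cfsg

namespace Cfsg.Agent.S2695

open CfsgH8

/-- For m ≥ 5 and a finite field F, the automorphism group of PΩ⁺_{2m}(F) (the form Σ xᵢ yᵢ) is generated by the automorphisms induced by the semisimilarities v ↦ g σ(v) of the form (the image of the projective semisimilarity group). The case 2m = 8 is excluded: there triality gives further automorphisms. -/
theorem result {F : Type*} [Field F] [Fintype F] {m : ℕ} (hm : 5 ≤ m) :
    Cfsg.gammaPOmega F (Cfsg.quadFormPlus m F) = ⊤ := by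
  rw [gammaPOmega_eq (QP_coe m F), MonoidHom.range_eq_top]
  exact PhiM_surjective _ (Phi_surj_QP hm)

end Cfsg.Agent.S2695
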