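import Cfsg.Statements.S2697
import Cfsg.Agent.H7.PSLField

set_option autoImplicit false
open Cfsg

namespace Cfsg.Agent.S2697


/-- Let T = PSL_n(F) be simple over a finite field (n ≥ 2; |F| ≥ 4 when n = 2) and let x be a field automorphism or a graph-field automorphism of T of prime order r. Then an element y of the coset Inndiag(T)·x (that is, y = δ x with δ in the inner-diagonal group, the image of PGL_n(F)) has order r if and only if y is conjugate to x by an element of Inndiag(T). -/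
theorem result {F : Type*} [Field F] [Fintype F] {p f : ℕ} [Fact p.Prime] (hF : Fintype.card F = p ^ f) (hf : 1 ≤ f) {n : ℕ} (hn : 2 ≤ n) (hs : n = 2 → 4 ≤ Fintype.card F) (x δ : MulAut (Matrix.ProjectiveSpecialLinearGroup (Fin n) F)) (hx : Cfsg.IsFieldAutClassPSL x ∨ Cfsg.IsGraphFieldAutClassPSL x) {r : ℕ} (hr : r.Prime) (hxr : orderOf x = r) (hδ : δ ∈ Cfsg.inndiagPSL n F) :
    orderOf (δ * x) = r ↔ Cfsg.IsConjUnder (Cfsg.inndiagPSL n F) x (δ * x) := by
  haveI : Nontrivial (Fin n) := Fin.nontrivial_iff_two_le.2 hn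
  haveI := CfsgH7.inndiagPSL_normal (F := F) hn
  rw [← hxr]
  rcases hx with ⟨α, σ, -, hσ⟩ | ⟨h3, α, φ, γ, σ, hσ, hφ, hγ, e⟩
  · rw [CfsgH7.isStdFieldAutPSL_iff] at hσ
    refine CfsgH7.coset_conj_of_std _ hσ ?_ hδ
    rw [CfsgH7.inndiagPSL_eq, CfsgH7.orderOf_fieldPSL]
    rintro _ ⟨g, rfl⟩ h
    exact CfsgH7.field_coset σ g h
  · rw [CfsgH7.isStdFieldAutPSL_iff] at hφ
    rw [CfsgH7.isInverseTransposeAutPSL_iff] at hγ
    subst hφ hγ
    have ho : orderOf (CfsgH7.fieldPSL σ * CfsgH7.graphPSL :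
        MulAut (Matrix.ProjectiveSpecialLinearGroup (Fin n) F)) = r := by
      rw [← e, ← hxr]; exact (MulAut.conj α).orderOf_eq x
    obtain ⟨h1, h2⟩ := CfsgH7.gf_order (CfsgH7.fin_three_ex h3) hσ hr ho
    refine CfsgH7.coset_conj_of_std _ e ?_ hδ
    rw [CfsgH7.inndiagPSL_eq, ho, h1]
    rintro _ ⟨g, rfl⟩ h
    exact CfsgH7.gf_coset h2 g h

end Cfsg.Agent.S2697
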