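import Cfsg.Statements.S2698
import Cfsg.Agent.H7.PSLField

set_option autoImplicit false
open Cfsg

namespace Cfsg.Agent.S2698


/-- Let T = PSL_n(F) be simple over the field F with p^f elements (n ≥ 2; p^f ≥ 4 when n = 2), G = Inndiag(T) the image of PGL_n(F) in Aut(T), and x a field automorphism of T of prime order r. Then r divides f; the centralizer C_G(x) is isomorphic to PGL_n(F₀) for the subfield size |F₀| = p^(f/r); and the G-class of x is the union of exactly gcd(n, (p^f − 1)/(p^(f/r) − 1)) classes under conjugation by T (the inner automorphism group). -/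
theorem result {F : Type*} [Field F] [Fintype F] {p f : ℕ} [Fact p.Prime] (hF : Fintype.card F = p ^ f) (hf : 1 ≤ f) {n : ℕ} (hn : 2 ≤ n) (hs : n = 2 → 4 ≤ Fintype.card F) (x : MulAut (Matrix.ProjectiveSpecialLinearGroup (Fin n) F)) (hx : Cfsg.IsFieldAutClassPSL x) {r : ℕ} (hr : r.Prime) (hxr : orderOf x = r) (F₀ : Type*) [Field F₀] [Fintype F₀] (hF₀ : Fintype.card F₀ = p ^ (f / r)) :
    r ∣ f ∧ Nonempty (↥(Cfsg.inndiagPSL n F ⊓ Subgroup.centralizer {x}) ≃* Matrix.ProjGenLinGroup (Fin n) F₀) ∧ Cfsg.splitClassCount (Cfsg.inndiagPSL n F) (Cfsg.Inn (Matrix.ProjectiveSpecialLinearGroup (Fin n) F)) x = Nat.gcd n ((p ^ f - 1) / (p ^ (f / r) - 1)) := by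
  haveI : Nontrivial (Fin n) := Fin.nontrivial_iff_two_le.2 hn
  haveI := CfsgH7.inndiagPSL_normal (F := F) hn
  haveI : (Cfsg.Inn (Matrix.ProjectiveSpecialLinearGroup (Fin n) F)).Normal := inferInstance
  obtain ⟨α, σ, -, hσ⟩ := hx
  rw [CfsgH7.isStdFieldAutPSL_iff] at hσ
  have ho : orderOf σ = r := by
    rw [← CfsgH7.orderOf_fieldPSL (ι := Fin n), ← hσ, ← hxr]; exact (MulAut.conj α).orderOf_eq x
  have hrf : r ∣ f := ho ▸ CfsgH7.ringAut_orderOf_dvd hF σ
  have hfix : Nat.card (CfsgH7.fixF σ) = p ^ (f / r) :=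
    CfsgH7.card_fixF_eq σ (by rw [ho, ← pow_mul, Nat.div_mul_cancel hrf, hF])
  obtain ⟨ε, hε⟩ := CfsgH7.exists_emb_fixF σ F₀ (by rw [hfix, hF₀])
  have hc := CfsgH7.field_centralizer (ι := Fin n) σ ε hε
  refine ⟨hrf, ?_, ?_⟩
  · obtain ⟨e1⟩ := CfsgH7.inf_centralizer_conj (Cfsg.inndiagPSL n F) α x
    rw [hσ] at e1
    obtain ⟨e2⟩ := CfsgH7.nonempty_equiv_quot
      (CfsgH7.diagPSL.comp (Matrix.GeneralLinearGroup.map (n := Fin n) ε))
      (Cfsg.inndiagPSL n F ⊓ Subgroup.centralizer {CfsgH7.fieldPSL σ})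
      (by rw [CfsgH7.inndiagPSL_eq, hc, MonoidHom.range_comp]) (Subgroup.center _) (by
        ext g
        rw [MonoidHom.mem_ker, MonoidHom.comp_apply, CfsgH7.diagPSL_eq_one_iff,
          CfsgH7.GL_map_scalar_iff, CfsgH7.GL_mem_center_iff])
    exact ⟨e1.trans e2⟩
  · rw [← CfsgH7.splitClassCount_conj _ _ α, hσ, CfsgH7.inndiagPSL_eq,
      CfsgH7.split_abstract _ _ Matrix.GeneralLinearGroup.det_surjective _
        CfsgH7.inn_le_diagPSL_range _ (fun g => CfsgH7.diagPSL_mem_inn_iff) _ _ hc,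
      CfsgH7.map_det_range_GL_map, Fintype.card_fin]
    apply CfsgH7.cyc_index_sup'
    · rw [Nat.card_units, Nat.card_eq_fintype_card, hF]
    · rw [CfsgH7.card_range_units_map, Nat.card_eq_fintype_card, hF₀]

end Cfsg.Agent.S2698
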