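import Cfsg.Statements.S2702
import Cfsg.Agent.H7.Graph3

set_option autoImplicit false
open Cfsg

namespace Cfsg.Agent.S2702


/-- Let T = PSL_n(F) over the field with q = p^f elements, n ≥ 3, G = Inndiag(T) the image of PGL_n(F), and γ an involutory graph automorphism of T. The G-class of γ is the union of exactly c T-classes, where: if n is even and q is odd, c = gcd(n/2, q − 1) when C_G(γ) is isomorphic to the projective conformal symplectic group PGSp_n(F) (symplectic type) and c = gcd(n, q − 1)/2 otherwise; and c = gcd(n, q − 1) when n is odd or q is even. -/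
theorem result {F : Type*} [Field F] [Fintype F] {p f : ℕ} [Fact p.Prime] (hF : Fintype.card F = p ^ f) (hf : 1 ≤ f) {n : ℕ} (hn : 3 ≤ n) (γ : MulAut (Matrix.ProjectiveSpecialLinearGroup (Fin n) F)) (hγ : Cfsg.IsGraphAutClassPSL γ) (hγ2 : orderOf γ = 2) :
    ((Even n ∧ Odd p ∧ Nonempty (↥(Cfsg.inndiagPSL n F ⊓ Subgroup.centralizer {γ}) ≃* Cfsg.PGSp (n / 2) F)) → Cfsg.splitClassCount (Cfsg.inndiagPSL n F) (Cfsg.Inn (Matrix.ProjectiveSpecialLinearGroup (Fin n) F)) γ = Nat.gcd (n / 2) (p ^ f - 1)) ∧ ((Even n ∧ Odd p ∧ ¬ Nonempty (↥(Cfsg.inndiagPSL n F ⊓ Subgroup.centralizer {γ}) ≃* Cfsg.PGSp (n / 2) F)) → Cfsg.splitClassCount (Cfsg.inndiagPSL n F) (Cfsg.Inn (Matrix.ProjectiveSpecialLinearGroup (Fin n) F)) γ = Nat.gcd n (p ^ f - 1) / 2) ∧ (¬ (Even n ∧ Odd p) → Cfsg.splitClassCount (Cfsg.inndiagPSL n F) (Cfsg.Inn (Matrix.ProjectiveSpecialLinearGroup (Fin n) F)) γ = Nat.gcd n (p ^ f - 1)) := by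
  obtain ⟨B, r, hB⟩ := (CfsgH7.grFamPSL hn).ex1 γ ⟨hγ, hγ2⟩
  have hc : Nat.card Fˣ = p ^ f - 1 := by rw [Nat.card_units, Nat.card_eq_fintype_card, hF]
  have hs := CfsgH7.split_grB (by omega) B
  rw [← show γ = CfsgH7.grB B from r] at hs
  rw [hs, ← hc]
  have h2 := CfsgH7.two_ne_zero_iff_odd hF hf
  refine ⟨?_, ?_, ?_⟩
  · rintro ⟨⟨m, hm⟩, hp, h⟩
    obtain rfl : n = 2 * m := by omega
    rw [Nat.mul_div_cancel_left _ two_pos] at h ⊢
    have ha := ((CfsgH7.grFamPSL hn).alt_iff (h2.2 hp) (by omega) rfl r hB).1 h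
    refine CfsgH7.cyc_split_alt fun d => ?_
    rw [CfsgH7.mem_map_det_SimG]
    constructor
    · rintro ⟨c, hc, h⟩
      exact ⟨Units.mk0 c hc, Units.ext ((CfsgH7.md_alt B.isUnit ha (by simp) hc).1 h)⟩
    · rintro ⟨c, rfl⟩
      exact ⟨c, c.ne_zero, (CfsgH7.md_alt B.isUnit ha (by simp) c.ne_zero).2 rfl⟩
  · rintro ⟨⟨m, hm⟩, hp, h⟩
    obtain rfl : n = 2 * m := by omega
    rw [Nat.mul_div_cancel_left _ two_pos] at h
    have ha := ((CfsgH7.grFamPSL hn).alt_iff (h2.2 hp) (by omega) rfl r hB).2 h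
    have hz : orderOf (-1 : Fˣ) = 2 := orderOf_eq_prime (by simp) fun h =>
      h2.2 hp (by have := congrArg Units.val h; simp at this; linear_combination -this)
    refine CfsgH7.cyc_split_sym hz fun d => ?_
    rw [CfsgH7.mem_map_det_SimG]
    constructor
    · rintro ⟨c, hc, h⟩
      refine ⟨Units.mk0 c hc, ?_⟩
      rcases (CfsgH7.md_sym (m := m) (h2.2 hp) ha B.isUnit (by omega) (by simp) hc).1 h with h | h
      · exact Or.inl (Units.ext h)
      · exact Or.inr (Units.ext (by simpa using h))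
    · rintro ⟨c, h⟩
      refine ⟨c, c.ne_zero,
        (CfsgH7.md_sym (m := m) (h2.2 hp) ha B.isUnit (by omega) (by simp) c.ne_zero).2 ?_⟩
      rcases h with rfl | rfl
      · exact Or.inl rfl
      · exact Or.inr (by simp)
  · intro h
    refine CfsgH7.cyc_split_le fun d hd => ?_
    obtain ⟨c, hc, hd⟩ := CfsgH7.mem_map_det_SimG.1 hd
    have h3 := CfsgH7.md_sq B.isUnit hd
    rw [Fintype.card_fin] at h3
    obtain ⟨x, h4, h5⟩ := CfsgH7.exists_root_of_sq hc h3 (by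
      by_contra h'
      push Not at h'
      exact h ⟨Nat.not_odd_iff_even.1 h'.1, h2.1 h'.2⟩)
    exact ⟨Units.mk0 x (by rintro rfl; exact hc (by simpa using h4)), Units.ext h5.symm⟩

end Cfsg.Agent.S2702
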