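import Cfsg.Statements.S2703
import Cfsg.Agent.H7.Graph3

set_option autoImplicit false
open Cfsg

namespace Cfsg.Agent.S2703


/-- Let T = PSL_n(F) over the field with q elements, q odd, n = 2m ≥ 4 even, and ι the inverse-transpose automorphism. Its centralizer in G = Inndiag(T) (the image of PGL_n(F)) is isomorphic to the projective conformal orthogonal group of the plus-type form Σ xᵢ yᵢ in dimension n when n(q − 1)/4 is even, and to that of a minus-type form (Σ xᵢ yᵢ + z₁² + a z₁ z₂ + b z₂² with anisotropic binary part) when n(q − 1)/4 is odd. -/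
theorem result {F : Type*} [Field F] [Fintype F] (hodd : Odd (Fintype.card F)) {n m : ℕ} (hm : 2 ≤ m) (hnm : n = 2 * m) (ι : MulAut (Matrix.ProjectiveSpecialLinearGroup (Fin n) F)) (hι : Cfsg.IsInverseTransposeAutPSL ι) :
    (Even (n * (Fintype.card F - 1) / 4) → Nonempty (↥(Cfsg.inndiagPSL n F ⊓ Subgroup.centralizer {ι}) ≃* Cfsg.PGO F (Cfsg.quadFormPlus m F))) ∧ (¬ Even (n * (Fintype.card F - 1) / 4) → ∃ a b : F, (∀ z₁ z₂ : F, z₁ ^ 2 + a * z₁ * z₂ + b * z₂ ^ 2 = 0 → z₁ = 0 ∧ z₂ = 0) ∧ Nonempty (↥(Cfsg.inndiagPSL n F ⊓ Subgroup.centralizer {ι}) ≃* Cfsg.PGO F (Cfsg.quadFormMinus (m - 1) F a b))) := by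
  have h2 := CfsgH8.two_ne_zero_of_odd hodd
  have h := (CfsgH7.grFamPSL (F := F) (n := n) (by omega)).one_case h2 (m := m) (by omega) hnm
    (γ := ι) (by
      rw [CfsgH7.isInverseTransposeAutPSL_iff.1 hι]
      change _ = CfsgH7.grB 1
      rw [CfsgH7.grB, inv_one, map_one, one_mul])
  obtain ⟨k, hk⟩ := hodd
  have e : n * (Fintype.card F - 1) / 4 = k * m := by
    rw [hk, hnm, Nat.add_sub_cancel, show 2 * m * (2 * k) = 4 * (k * m) by ring,
      Nat.mul_div_cancel_left _ (by norm_num)]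
  have e2 : CfsgH8.chi (-1 : F) ^ m = 1 ↔ Even (k * m) := by
    rw [CfsgH8.chi_neg_one h2, hk, Nat.add_sub_cancel, Nat.mul_div_cancel_left _ two_pos,
      ← pow_mul, neg_one_pow_eq_one_iff_even (by decide)]
  rw [e, ← e2]
  exact h

end Cfsg.Agent.S2703
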