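import Cfsg.Statements.S2704
import Cfsg.Agent.H7.PSLField

set_option autoImplicit false
open Cfsg

namespace Cfsg.Agent.S2704


/-- Let T = PSL_n(F) over the field F with p^f elements, n ≥ 3, and G = Inndiag(T) the image of PGL_n(F). If x is an involutory graph-field automorphism of T then f is even; x is G-conjugate to every other involutory graph-field automorphism; C_G(x) is isomorphic to the projective general unitary group PGU_n(q₀) with q₀² = p^f, realised over F itself through the Hermitian form Σ uᵢ vᵢ^{q₀}; and the G-class of x is the union of exactly gcd(n, q₀ − 1) T-classes. -/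
theorem result {F : Type*} [Field F] [Fintype F] {p f : ℕ} [Fact p.Prime] (hF : Fintype.card F = p ^ f) (hf : 1 ≤ f) {n : ℕ} (hn : 3 ≤ n) (x : MulAut (Matrix.ProjectiveSpecialLinearGroup (Fin n) F)) (hx : Cfsg.IsGraphFieldAutClassPSL x) (hx2 : orderOf x = 2) :
    Even f ∧ (∀ y : MulAut (Matrix.ProjectiveSpecialLinearGroup (Fin n) F), Cfsg.IsGraphFieldAutClassPSL y → orderOf y = 2 → Cfsg.IsConjUnder (Cfsg.inndiagPSL n F) x y) ∧ Nonempty (↥(Cfsg.inndiagPSL n F ⊓ Subgroup.centralizer {x}) ≃* Cfsg.PGU n F (p ^ (f / 2))) ∧ Cfsg.splitClassCount (Cfsg.inndiagPSL n F) (Cfsg.Inn (Matrix.ProjectiveSpecialLinearGroup (Fin n) F)) x = Nat.gcd n (p ^ (f / 2) - 1) := by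
  have hn2 : 2 ≤ n := by omega
  haveI : Nontrivial (Fin n) := Fin.nontrivial_iff_two_le.2 hn2
  haveI := CfsgH7.inndiagPSL_normal (F := F) hn2
  haveI : (Cfsg.Inn (Matrix.ProjectiveSpecialLinearGroup (Fin n) F)).Normal := inferInstance
  have key : ∀ y : MulAut (Matrix.ProjectiveSpecialLinearGroup (Fin n) F),
      Cfsg.IsGraphFieldAutClassPSL y → orderOf y = 2 → ∃ (α : MulAut _) (σ : F ≃+* F),
        orderOf σ = 2 ∧ α * y * α⁻¹ = CfsgH7.fieldPSL σ * CfsgH7.graphPSL := by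
    rintro y ⟨h3, α, φ, γ, σ, hσ, hφ, hγ, e⟩ hy
    rw [CfsgH7.isStdFieldAutPSL_iff] at hφ
    rw [CfsgH7.isInverseTransposeAutPSL_iff] at hγ
    subst hφ hγ
    have ho : orderOf (CfsgH7.fieldPSL σ * CfsgH7.graphPSL :
        MulAut (Matrix.ProjectiveSpecialLinearGroup (Fin n) F)) = 2 := by
      rw [← e, ← hy]; exact (MulAut.conj α).orderOf_eq y
    exact ⟨α, σ, (CfsgH7.gf_order (CfsgH7.fin_three_ex h3) hσ Nat.prime_two ho).2, e⟩
  obtain ⟨α, σ, h2, e⟩ := key x hx hx2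
  have hrf : 2 ∣ f := h2 ▸ CfsgH7.ringAut_orderOf_dvd hF σ
  have hq : Fintype.card F = (p ^ (f / 2)) ^ 2 := by rw [← pow_mul, Nat.div_mul_cancel hrf, hF]
  obtain ⟨τ, hσ, hτ⟩ := CfsgH7.exists_qfrob hq
  haveI := CfsgH7.finite_ringAut (F := F)
  haveI := CfsgH7.ringAut_isCyclic (F := F)
  obtain rfl : σ = τ := CfsgH7.eq_of_orderOf_two h2 hτ
  have hc := CfsgH7.gf_centralizer (n := n) hσ h2
  refine ⟨even_iff_two_dvd.2 hrf, ?_, ?_, ?_⟩
  · intro y hy hy2
    obtain ⟨β, τ, hτ2, e'⟩ := key y hy hy2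
    obtain rfl : σ = τ := CfsgH7.eq_of_orderOf_two h2 hτ2
    have e1 := CfsgH7.aut_conj_gf hn2 σ α⁻¹
    have e2 := CfsgH7.aut_conj_gf hn2 σ β⁻¹
    rw [← CfsgH7.inndiagPSL_eq] at e1 e2
    conv at e1 => rhs; rw [← e]
    conv at e2 => rhs; rw [← e']
    simp only [inv_inv, mul_assoc, inv_mul_cancel_left, inv_mul_cancel, mul_one] at e1 e2
    exact CfsgH7.isConjUnder_trans (CfsgH7.isConjUnder_symm e1) e2
  · obtain ⟨e1⟩ := CfsgH7.inf_centralizer_conj (Cfsg.inndiagPSL n F) α x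
    rw [e] at e1
    obtain ⟨e2⟩ := CfsgH7.nonempty_equiv_quot
      (CfsgH7.diagPSL.comp (Cfsg.GU n F (p ^ (f / 2))).subtype)
      (Cfsg.inndiagPSL n F ⊓ Subgroup.centralizer {CfsgH7.fieldPSL σ * CfsgH7.graphPSL})
      (by rw [CfsgH7.inndiagPSL_eq, hc, MonoidHom.range_comp, Subgroup.range_subtype])
      ((Cfsg.Geo.scalars (Fin n) F).subgroupOf (Cfsg.GU n F (p ^ (f / 2)))) (by
        ext g
        rw [MonoidHom.mem_ker, MonoidHom.comp_apply, CfsgH7.diagPSL_eq_one_iff,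
          Subgroup.mem_subgroupOf, Cfsg.Geo.mem_scalars_iff]
        exact ⟨fun ⟨c, hc⟩ => ⟨Units.mk0 c (CfsgH7.GL_smul_one_ne_zero (g := g.1) hc), hc⟩,
          fun ⟨c, hc⟩ => ⟨c, hc⟩⟩)
    exact ⟨e1.trans e2⟩
  · rw [← CfsgH7.splitClassCount_conj _ _ α, e, CfsgH7.inndiagPSL_eq,
      CfsgH7.split_abstract _ _ Matrix.GeneralLinearGroup.det_surjective _
        CfsgH7.inn_le_diagPSL_range _ (fun g => CfsgH7.diagPSL_mem_inn_iff) _ _ hc,
      CfsgH7.map_det_GU hσ, Fintype.card_fin]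
    generalize p ^ (f / 2) = q at hq
    have h1 : Nat.card Fˣ = q ^ 2 - 1 := by rw [Nat.card_units, Nat.card_eq_fintype_card, hq]
    have h3 := CfsgH7.cyc_index_sup' _ h1 (CfsgH7.card_ker_pow_units hq) n
    rw [h3, show q ^ 2 - 1 = q ^ 2 - 1 ^ 2 by simp, Nat.sq_sub_sq,
      Nat.mul_div_cancel_left _ (Nat.succ_pos _)]

end Cfsg.Agent.S2704
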