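import Cfsg.Statements.S2705
import Cfsg.Agent.H7.PSUField

set_option autoImplicit false
open Cfsg

namespace Cfsg.Agent.S2705


/-- Let T = PSU_n(q) be simple (n ≥ 3, (n, q) ≠ (3, 2), q = p^f), realised over the field F with q² elements, G = Inndiag(T) the image of PGU_n(q) in Aut(T), and x a field automorphism of T (conjugate to a standard field automorphism of odd order) of odd prime order r. Then r divides f; C_G(x) is isomorphic to PGU_n(q₀) with q₀ = p^(f/r), realised over a field F₀ with q₀² elements; and the G-class of x is the union of exactly gcd(n, (q + 1)/(q₀ + 1)) T-classes. -/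
theorem result {F : Type*} [Field F] [Fintype F] {p f q : ℕ} [Fact p.Prime] (hq : q = p ^ f) (hf : 1 ≤ f) (hF : Fintype.card F = q ^ 2) {n : ℕ} (hn : 3 ≤ n) (hs : ¬ (n = 3 ∧ q = 2)) (x : MulAut (Cfsg.PSU n F q)) (hx : Cfsg.IsFieldAutClassPSU x) {r : ℕ} (hr : r.Prime) (hro : Odd r) (hxr : orderOf x = r) (F₀ : Type*) [Field F₀] [Fintype F₀] (hF₀ : Fintype.card F₀ = p ^ (2 * (f / r))) :
    r ∣ f ∧ Nonempty (↥(Cfsg.inndiagPSU n F q ⊓ Subgroup.centralizer {x}) ≃* Cfsg.PGU n F₀ (p ^ (f / r))) ∧ Cfsg.splitClassCount (Cfsg.inndiagPSU n F q) (Cfsg.Inn (Cfsg.PSU n F q)) x = Nat.gcd n ((q + 1) / (p ^ (f / r) + 1)) := by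
  haveI : Nonempty (Fin n) := ⟨⟨0, by omega⟩⟩
  haveI : (Cfsg.inndiagPSU n F q).Normal :=
    CfsgH7.inndiagPSU_eq (K := F) (n := n) (q := q) ▸ CfsgH7.diagPSU_range_normal hF hn hs
  haveI : (Cfsg.Inn (Cfsg.PSU n F q)).Normal := inferInstance
  obtain ⟨α, φ, τ, -, hodd, hφ, e⟩ := hx
  rw [CfsgH7.isFieldAutPSUOf_iff] at hφ
  subst hφ
  have ho : orderOf τ = r := by
    rw [← orderOf_injective _ (CfsgH7.fieldPSU_injective hF hn), ← e, ← hxr]
    exact (MulAut.conj α).orderOf_eq x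
  have hF2 : Fintype.card F = p ^ (2 * f) := by rw [hF, hq, ← pow_mul, mul_comm]
  have hrf : r ∣ f := (Nat.Coprime.dvd_mul_left (Nat.coprime_two_right.2 hro)).1
    (ho ▸ CfsgH7.ringAut_orderOf_dvd hF2 τ)
  have hqr : q = (p ^ (f / r)) ^ r := by rw [← pow_mul, Nat.div_mul_cancel hrf, hq]
  have hF₀' : Fintype.card F₀ = (p ^ (f / r)) ^ 2 := by rw [hF₀, ← pow_mul, mul_comm]
  generalize p ^ (f / r) = q₀ at hqr hF₀' ⊢
  have hfix : Nat.card (CfsgH7.fixF τ) = q₀ ^ 2 :=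
    CfsgH7.card_fixF_eq τ (by rw [ho, hF, hqr, ← pow_mul, ← pow_mul, mul_comm])
  obtain ⟨ε, hε⟩ := CfsgH7.exists_emb_fixF τ F₀ (by rw [hfix, hF₀'])
  obtain ⟨σ, hσ, -⟩ := CfsgH7.exists_qfrob hF
  obtain ⟨σ₀, hσ₀, -⟩ := CfsgH7.exists_qfrob hF₀'
  have hεσ : ∀ x, σ (ε x) = ε (σ₀ x) := fun x => by
    rw [hσ, hσ₀, ← map_pow, hqr, CfsgH7.pow_pow_odd hF₀' hro]
  let E : Cfsg.GU n F₀ q₀ →* Cfsg.GU n F q :=
    ((Matrix.GeneralLinearGroup.map ε).comp (Cfsg.GU n F₀ q₀).subtype).codRestrict _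
      (fun g => (CfsgH7.GL_map_mem_GU_iff ε hσ hσ₀ hεσ g.1).2 g.2)
  have hE : (CfsgH7.mapGU τ).eqLocus (MonoidHom.id _) = E.range := by
    ext g
    constructor
    · intro hg
      obtain ⟨g₀, hg₀⟩ := CfsgH7.exists_GL_map_eq ε g.1 (fun i j => (hε _).1
        (congrFun (congrFun (congrArg (fun g : Cfsg.GU n F q => g.1.1) hg) i) j))
      exact ⟨⟨g₀, (CfsgH7.GL_map_mem_GU_iff ε hσ hσ₀ hεσ g₀).1 (hg₀ ▸ g.2)⟩, Subtype.ext hg₀⟩
    · rintro ⟨g₀, rfl⟩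
      refine Subtype.ext (Units.ext ?_)
      ext i j
      exact (hε _).2 ⟨_, rfl⟩
  have hc := CfsgH7.field_centralizer_SU hF hn hodd
  rw [hE] at hc
  refine ⟨hrf, ?_, ?_⟩
  · obtain ⟨e1⟩ := CfsgH7.inf_centralizer_conj (Cfsg.inndiagPSU n F q) α x
    rw [e] at e1
    obtain ⟨e2⟩ := CfsgH7.nonempty_equiv_quot (CfsgH7.diagPSU.comp E)
      (Cfsg.inndiagPSU n F q ⊓ Subgroup.centralizer {CfsgH7.fieldPSU τ})
      (by rw [CfsgH7.inndiagPSU_eq, hc, MonoidHom.range_comp])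
      ((Cfsg.Geo.scalars (Fin n) F₀).subgroupOf (Cfsg.GU n F₀ q₀)) (by
        ext g
        rw [MonoidHom.mem_ker, MonoidHom.comp_apply, CfsgH7.diagPSU_eq_one_iff hF hn,
          Subgroup.mem_subgroupOf, Cfsg.Geo.mem_scalars_iff]
        refine (CfsgH7.GL_map_scalar_iff ε g.1).trans ?_
        exact ⟨fun ⟨c, hc⟩ => ⟨Units.mk0 c (CfsgH7.GL_smul_one_ne_zero (g := g.1) hc), hc⟩,
          fun ⟨c, hc⟩ => ⟨c, hc⟩⟩)
    exact ⟨e1.trans e2⟩
  · rw [← CfsgH7.splitClassCount_conj _ _ α, e, CfsgH7.inndiagPSU_eq,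
      CfsgH7.split_abstract _ _ (CfsgH7.detGU_surjective hF) _
        CfsgH7.inn_le_diagPSU_range _ (fun g => CfsgH7.diagPSU_mem_inn_iff hF hn) _ _ hc]
    apply CfsgH7.cyc_index_sup' _ (CfsgH7.card_ker_pow_units hF)
    let N : CfsgH7.NormOne F₀ q₀ →* CfsgH7.NormOne F q :=
      ((Units.map (ε : F₀ →* F)).comp (CfsgH7.NormOne F₀ q₀).subtype).codRestrict _ (fun x =>
        Units.ext (by
          have : (x.1 : F₀) ^ (q₀ + 1) = 1 := congrArg Units.val x.2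
          change (ε x.1) ^ (q + 1) = 1
          rw [pow_succ, ← hσ, hεσ, ← map_mul, hσ₀, ← pow_succ, this, map_one]))
    have hN : (CfsgH7.detGU hF).comp E = N.comp (CfsgH7.detGU hF₀') := by
      refine MonoidHom.ext fun g => Subtype.ext ?_
      exact Matrix.GeneralLinearGroup.map_det ε g.1
    rw [← MonoidHom.range_comp, hN, MonoidHom.range_comp,
      MonoidHom.range_eq_top.2 (CfsgH7.detGU_surjective hF₀'), ← MonoidHom.range_eq_map,
      ← CfsgH7.card_ker_pow_units hF₀']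
    refine (Nat.card_congr (MonoidHom.ofInjective ?_).toEquiv).symm
    intro a b h
    exact Subtype.ext (Units.ext (ε.injective
      (congrArg (fun x : CfsgH7.NormOne F q => (x.1 : F)) h)))

end Cfsg.Agent.S2705
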