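import Cfsg.Statements.S2708
import Cfsg.Agent.H7.Graph4

set_option autoImplicit false
open Cfsg

namespace Cfsg.Agent.S2708


/-- Let T = PSU_n(q) with n = 2m ≥ 4 even and q even, realised over the field F (of characteristic 2) with q² elements, and G = Inndiag(T) the image of PGU_n(q). The involutory graph automorphisms of T fall into exactly two G-classes, with representatives whose centralizers in G are isomorphic respectively to the symplectic group Sp_n(F₀) and to the centralizer in Sp_n(F₀) of a symplectic transvection, F₀ a field with q elements. -/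
theorem result {F : Type*} [Field F] [Fintype F] [CharP F 2] {q : ℕ} (hF : Fintype.card F = q ^ 2) {n m : ℕ} (hm : 2 ≤ m) (hnm : n = 2 * m) (F₀ : Type*) [Field F₀] [Fintype F₀] (hF₀ : Fintype.card F₀ = q) :
    ∃ (γ₁ γ₃ : MulAut (Cfsg.PSU n F q)) (t : ↥(Matrix.symplecticGroup (Fin m) F₀)), Cfsg.IsTransvection (t : Matrix (Fin m ⊕ Fin m) (Fin m ⊕ Fin m) F₀) ∧ Cfsg.IsGraphAutClassPSU γ₁ ∧ orderOf γ₁ = 2 ∧ Cfsg.IsGraphAutClassPSU γ₃ ∧ orderOf γ₃ = 2 ∧ ¬ Cfsg.IsConjUnder (Cfsg.inndiagPSU n F q) γ₁ γ₃ ∧ (∀ γ : MulAut (Cfsg.PSU n F q), Cfsg.IsGraphAutClassPSU γ → orderOf γ = 2 → Cfsg.IsConjUnder (Cfsg.inndiagPSU n F q) γ₁ γ ∨ Cfsg.IsConjUnder (Cfsg.inndiagPSU n F q) γ₃ γ) ∧ Nonempty (↥(Cfsg.inndiagPSU n F q ⊓ Subgroup.centralizer {γ₁}) ≃* ↥(Matrix.symplecticGroup (Fin m) F₀)) ∧ Nonempty (↥(Cfsg.inndiagPSU n F q ⊓ Subgroup.centralizer {γ₃}) ≃* ↥(Subgroup.centralizer ({t}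 : Set ↥(Matrix.symplecticGroup (Fin m) F₀)))) := by
  obtain ⟨σ, hσ, h2⟩ := CfsgH7.exists_qfrob hF
  obtain ⟨ε, hε⟩ := CfsgH7.exists_ud_setup hF F₀ hF₀ h2
  haveI : CharP F₀ 2 := ε.charP ε.injective 2
  obtain ⟨γ₁, γ₃, t, h0, ⟨h1, h1'⟩, ⟨h3, h3'⟩, h4, h7, h8⟩ :=
    (CfsgH7.grFamPSU (n := n) hσ h2 hε hF (by omega)).two_classes (by omega) hnm
  exact ⟨γ₁, γ₃, t, h0, h1, h1', h3, h3', h4, fun γ h h' => h7 γ ⟨h, h'⟩, h8⟩

end Cfsg.Agent.S2708
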