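import Cfsg.Statements.S2709
import Cfsg.Agent.H7.Graph4

set_option autoImplicit false
open Cfsg

namespace Cfsg.Agent.S2709


/-- Let T = PSU_n(q) be simple (n ≥ 3, (n,q) ≠ (3,2), q = p^f), realised over the field F with q² elements, G = Inndiag(T) the image of PGU_n(q), and γ an involutory graph automorphism of T. The G-class of γ is the union of exactly c T-classes, where: if n is even and q is odd, c = gcd(n/2, q + 1) when C_G(γ) is isomorphic to PGSp_n(F₀) for a field F₀ with q elements (symplectic type) and c = gcd(n, q + 1)/2 otherwise; and c = gcd(n, q + 1) when n is odd or q is even. -/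
theorem result {F : Type*} [Field F] [Fintype F] {p f q : ℕ} [Fact p.Prime] (hq : q = p ^ f) (hf : 1 ≤ f) (hF : Fintype.card F = q ^ 2) {n : ℕ} (hn : 3 ≤ n) (hs : ¬ (n = 3 ∧ q = 2)) (F₀ : Type*) [Field F₀] [Fintype F₀] (hF₀ : Fintype.card F₀ = q) (γ : MulAut (Cfsg.PSU n F q)) (hγ : Cfsg.IsGraphAutClassPSU γ) (hγ2 : orderOf γ = 2) :
    ((Even n ∧ Odd q ∧ Nonempty (↥(Cfsg.inndiagPSU n F q ⊓ Subgroup.centralizer {γ}) ≃* Cfsg.PGSp (n / 2) F₀)) → Cfsg.splitClassCount (Cfsg.inndiagPSU n F q) (Cfsg.Inn (Cfsg.PSU n F q)) γ = Nat.gcd (n / 2) (q + 1)) ∧ ((Even n ∧ Odd q ∧ ¬ Nonempty (↥(Cfsg.inndiagPSU n F q ⊓ Subgroup.centralizer {γ}) ≃* Cfsg.PGSp (n / 2) F₀)) → Cfsg.splitClassCount (Cfsg.inndiagPSU n F q) (Cfsg.Inn (Cfsg.PSU n F q)) γ = Nat.gcd n (q + 1) / 2) ∧ (¬ (Even n ∧ Odd q) → Cfsg.splitClassCount (Cfsg.inndiagPSU n F q) (Cfsg.Inn (Cfsg.PSU n F q)) γ = Nat.gcd n (q + 1)) := by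
  obtain ⟨σ, hσ, h2⟩ := CfsgH7.exists_qfrob hF
  obtain ⟨ε, hε⟩ := CfsgH7.exists_ud_setup hF F₀ hF₀ h2
  obtain ⟨B, r, hB⟩ := (CfsgH7.grFamPSU hσ h2 hε hF hn).ex1 γ ⟨hγ, hγ2⟩
  have r' := r
  obtain ⟨D, rfl⟩ := r'
  obtain ⟨S, hs, hS⟩ := D.split hσ h2 hε hF hn
  have hc : Nat.card (CfsgH7.NormOne F q) = q + 1 := CfsgH7.card_ker_pow_units hF
  rw [hs, ← hc]
  have htwo : (2 : F₀) ≠ 0 ↔ Odd q :=
    ⟨fun h => hF₀ ▸ CfsgH8.odd_of_two_ne_zero h, fun h => CfsgH8.two_ne_zero_of_odd (hF₀ ▸ h)⟩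
  have hN : ∀ y : Fˣ, y ∈ CfsgH7.NormOne F q ↔ (y : F) * σ y = 1 := fun y => by
    rw [MonoidHom.mem_ker, powMonoidHom_apply, Units.ext_iff, Units.val_pow_eq_pow_val, hσ,
      pow_succ', Units.val_one]
  have hσσ := CfsgH7.invol_of_orderOf h2
  have h1 : ∀ x : F, x ≠ 0 → ∃ y : CfsgH7.NormOne F q, x * (y.1 : F) = σ x := fun x hx => by
    have : σ x ≠ 0 := by simpa using hx
    refine ⟨⟨Units.mk0 (σ x / x) (div_ne_zero this hx), (hN _).2 ?_⟩, ?_⟩
    · simp only [Units.val_mk0, map_div₀, hσσ]; field_simp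
    · simp only [Units.val_mk0]; field_simp
  have h3 : ∀ y : CfsgH7.NormOne F q, ∃ (x : F) (c : F₀), x ≠ 0 ∧ c ≠ 0 ∧ ε c = x * σ x ∧
      x * (y.1 : F) = σ x := fun y => by
    obtain ⟨x, hx, e⟩ := CfsgH7.exists_h90_two h2 ((hN _).1 y.2)
    have hx' : σ x ≠ 0 := by simpa using hx
    obtain ⟨c, hc⟩ := (hε (σ x * σ (σ x))).1 (by rw [map_mul, hσσ, mul_comm])
    refine ⟨σ x, c, hx', ?_, hc, by rw [hσσ, mul_comm, e]⟩
    rintro rfl
    exact mul_ne_zero hx' (by simpa using hx : σ (σ x) ≠ 0) (by rw [← hc, map_zero])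
  have h4 : ∀ {x : F} {c : F₀}, x ≠ 0 → ε c = x * σ x → c ≠ 0 := fun {x c} hx e => by
    rintro rfl
    exact mul_ne_zero hx (by simpa using hx : σ x ≠ 0) (by rw [← e, map_zero])
  refine ⟨?_, ?_, ?_⟩
  · rintro ⟨⟨m, hm⟩, hp, h⟩
    obtain rfl : n = 2 * m := by omega
    rw [Nat.mul_div_cancel_left _ two_pos] at h ⊢
    have ha := ((CfsgH7.grFamPSU hσ h2 hε hF hn).alt_iff (htwo.2 hp) (by omega) rfl r hB).1 h
    refine CfsgH7.cyc_split_alt fun d => ?_
    rw [hS]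
    constructor
    · rintro ⟨x, c, d₀, hx, h5, h6, h7⟩
      obtain ⟨y, hy⟩ := h1 x hx
      refine ⟨y, Subtype.ext (Units.ext (mul_left_cancel₀ (pow_ne_zero (2 * m) hx) ?_))⟩
      rw [h7, (CfsgH7.md_alt (m := m) B.isUnit ha (by simp) (h4 hx h6)).1 h5, map_pow, h6, ← hy]
      push_cast; ring
    · rintro ⟨y, rfl⟩
      obtain ⟨x, c, hx, hc, h5, h6⟩ := h3 y
      refine ⟨x, c, _, hx, (CfsgH7.md_alt (m := m) B.isUnit ha (by simp) hc).2 rfl, h5, ?_⟩
      rw [map_pow, h5, ← h6]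
      push_cast; ring
  · rintro ⟨⟨m, hm⟩, hp, h⟩
    obtain rfl : n = 2 * m := by omega
    rw [Nat.mul_div_cancel_left _ two_pos] at h
    have ha := ((CfsgH7.grFamPSU hσ h2 hε hF hn).alt_iff (htwo.2 hp) (by omega) rfl r hB).2 h
    let z : CfsgH7.NormOne F q := ⟨-1, (hN _).2 (by simp)⟩
    have hz : orderOf z = 2 := orderOf_eq_prime (Subtype.ext (by simp [z])) fun h =>
      htwo.2 hp (ε.injective (by
        have : ((-1 : Fˣ) : F) = 1 := congrArg (fun y : CfsgH7.NormOne F q => (y.1 : F)) h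
        rw [map_ofNat, map_zero]
        simp only [Units.val_neg, Units.val_one] at this
        linear_combination -this))
    refine CfsgH7.cyc_split_sym hz fun d => ?_
    rw [hS]
    constructor
    · rintro ⟨x, c, d₀, hx, h5, h6, h7⟩
      obtain ⟨y, hy⟩ := h1 x hx
      refine ⟨y, ?_⟩
      rcases (CfsgH7.md_sym (m := m) (htwo.2 hp) ha B.isUnit (by omega) (by simp)
        (h4 hx h6)).1 h5 with h | h
      · refine Or.inl (Subtype.ext (Units.ext (mul_left_cancel₀ (pow_ne_zero (2 * m) hx) ?_)))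
        rw [h7, h, map_pow, h6, ← hy]
        push_cast; ring
      · refine Or.inr (Subtype.ext (Units.ext (mul_left_cancel₀ (pow_ne_zero (2 * m) hx) ?_)))
        rw [h7, h, map_neg, map_pow, h6, ← hy]
        simp only [z]
        push_cast; ring
    · rintro ⟨y, h⟩
      obtain ⟨x, c, hx, hc, h5, h6⟩ := h3 y
      rcases h with rfl | rfl
      · refine ⟨x, c, _, hx, (CfsgH7.md_sym (m := m) (htwo.2 hp) ha B.isUnit (by omega) (by simp)
          hc).2 (Or.inl rfl), h5, ?_⟩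
        rw [map_pow, h5, ← h6]
        push_cast; ring
      · refine ⟨x, c, _, hx, (CfsgH7.md_sym (m := m) (htwo.2 hp) ha B.isUnit (by omega) (by simp)
          hc).2 (Or.inr rfl), h5, ?_⟩
        rw [map_neg, map_pow, h5, ← h6]
        simp only [z]
        push_cast; ring
  · intro h
    refine CfsgH7.cyc_split_le fun d hd => ?_
    obtain ⟨x, c, d₀, hx, h5, h6, h7⟩ := (hS d).1 hd
    have h8 := CfsgH7.md_sq B.isUnit h5
    rw [Fintype.card_fin] at h8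
    obtain ⟨w, rfl, rfl⟩ := CfsgH7.exists_root_of_sq (h4 hx h6) h8 (by
      by_contra h'
      push Not at h'
      exact h ⟨Nat.not_odd_iff_even.1 h'.1, htwo.1 h'.2⟩)
    have hw : ε w ≠ 0 := by
      have := h4 hx h6
      simpa using this
    have hx' : σ x ≠ 0 := by simpa using hx
    refine ⟨⟨Units.mk0 (ε w / x) (div_ne_zero hw hx), (hN _).2 ?_⟩,
      Subtype.ext (Units.ext (mul_left_cancel₀ (pow_ne_zero n hx) ?_))⟩
    · rw [Units.val_mk0, map_div₀, (hε _).2 ⟨w, rfl⟩, div_mul_div_comm, ← h6, map_pow, sq,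
        div_self (mul_ne_zero hw hw)]
    · rw [h7, map_pow ε w n]
      change x ^ n * (ε w / x) ^ n = _
      rw [← mul_pow, mul_div_cancel₀ _ hx]

end Cfsg.Agent.S2709
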