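import Cfsg.Statements.S2710
import Cfsg.Agent.H7.Graph4

set_option autoImplicit false
open Cfsg

namespace Cfsg.Agent.S2710


/-- Let T = PSU_n(q) with n ≥ 4 divisible by 4 (n = 2m) and q odd, realised over the field F with q² elements, G = Inndiag(T) the image of PGU_n(q), and φ the standard field automorphism of T attached to the q-th power map of F (it induces inverse-transpose on the unitary matrices and is a graph automorphism). Its centralizer in G is isomorphic to the projective conformal orthogonal group of the plus-type form Σ xᵢ yᵢ in dimension n over a field F₀ with q elements. (Dimensions n ≡ 2 (mod 4) are not covered.) -/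
theorem result {F : Type*} [Field F] [Fintype F] {q : ℕ} (hodd : Odd q) (hF : Fintype.card F = q ^ 2) {n m : ℕ} (hm : 2 ≤ m) (hnm : n = 2 * m) (h4 : 4 ∣ n) (F₀ : Type*) [Field F₀] [Fintype F₀] (hF₀ : Fintype.card F₀ = q) (σ : F ≃+* F) (hσ : ∀ a : F, σ a = a ^ q) (φ : MulAut (Cfsg.PSU n F q)) (hφ : Cfsg.IsFieldAutPSUOf σ φ) :
    Nonempty (↥(Cfsg.inndiagPSU n F q ⊓ Subgroup.centralizer {φ}) ≃* Cfsg.PGO F₀ (Cfsg.quadFormPlus m F₀)) := by
  obtain ⟨σ', -, h2⟩ := CfsgH7.exists_qfrob hF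
  obtain rfl : σ = σ' := by
    obtain ⟨τ, hτ, hτ2⟩ := CfsgH7.exists_qfrob hF
    haveI := CfsgH7.finite_ringAut (F := F)
    haveI := CfsgH7.ringAut_isCyclic (F := F)
    rw [← CfsgH7.eq_of_orderOf_two hτ2 h2]
    ext x; rw [hσ, hτ]
  obtain ⟨ε, hε⟩ := CfsgH7.exists_ud_setup hF F₀ hF₀ h2
  refine ((CfsgH7.grFamPSU (n := n) hσ h2 hε hF (by omega)).one_case
    (CfsgH8.two_ne_zero_of_odd (hF₀ ▸ hodd)) (m := m) (by omega) hnm (γ := φ) ?_).1 ?_
  · refine ⟨⟨1, 1, one_ne_zero, by simp⟩, ?_⟩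
    rw [CfsgH7.isFieldAutPSUOf_iff.1 hφ, CfsgH7.UD.aut, eq_comm, mul_eq_right,
      ← map_one CfsgH7.diagCU]
    congr 1
    exact Subtype.ext (by simp)
  · obtain ⟨k, rfl⟩ : ∃ k, m = k + k := ⟨n / 4, by omega⟩
    rw [pow_add, Int.units_mul_self]

end Cfsg.Agent.S2710
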