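import Cfsg.Statements.S2712
import Cfsg.Agent.H7.PSpApi

set_option autoImplicit false
open Cfsg

namespace Cfsg.Agent.S2712

theorem gcd_aux {q r : ℕ} (hq : 2 ≤ q) (hr : 1 ≤ r) :
    Nat.gcd 2 ((q ^ r - 1) / (q - 1)) = Nat.gcd (Nat.gcd 2 (q ^ r - 1)) r := by
  rw [← Nat.geomSum_eq hq]
  have h0 : 1 ≤ q ^ r := Nat.one_le_pow _ _ (by omega)
  rcases Nat.even_or_odd q with h | h
  · have h1 : Odd (q ^ r - 1) := by
      have : Even (q ^ r) := Nat.even_pow.2 ⟨h, by omega⟩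
      rw [Nat.odd_sub h0]
      simpa using this
    have h2 : Odd (∑ k ∈ Finset.range r, q ^ k) := by
      apply Odd.of_dvd_nat h1
      rw [Nat.geomSum_eq hq]
      exact Nat.div_dvd_of_dvd (Nat.sub_one_dvd_pow_sub_one q r)
    rw [Nat.coprime_two_left.2 h1, Nat.coprime_two_left.2 h2, Nat.gcd_one_left]
  · have h1 : 2 ∣ q ^ r - 1 := even_iff_two_dvd.1 (Nat.Odd.sub_odd h.pow odd_one)
    rw [Nat.gcd_eq_left h1, Nat.gcd_rec, Nat.gcd_rec 2 r, Finset.sum_nat_mod]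
    simp [Nat.odd_iff.1 h.pow]

/-- Let T = PSp_{2m}(F) be simple over the field F with p^f elements (m ≥ 2, (2m, |F|) ≠ (4, 2)), G = Inndiag(T) the image of the projective conformal symplectic group PGSp_{2m}(F), and x a field automorphism of T of prime order r. Then r divides f; C_G(x) is isomorphic to PGSp_{2m}(F₀) for a field F₀ with p^(f/r) elements; and the G-class of x is the union of exactly gcd(gcd(2, p^f − 1), r) T-classes. -/
theorem result {F : Type*} [Field F] [Fintype F] {p f : ℕ} [Fact p.Prime] (hF : Fintype.card F = p ^ f) (hf : 1 ≤ f) {m : ℕ} (hm : 2 ≤ m) (hs : m = 2 → 3 ≤ Fintype.card F) (x : MulAut (Cfsg.PSp m F)) (hx : Cfsg.IsFieldAutClassPSp x) {r : ℕ} (hr : r.Prime) (hxr : orderOf x = r) (F₀ : Type*) [Field F₀] [Fintype F₀] (hF₀ : Fintype.card F₀ = p ^ (f / r)) :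
    r ∣ f ∧ Nonempty (↥(Cfsg.inndiagPSp m F ⊓ Subgroup.centralizer {x}) ≃* Cfsg.PGSp m F₀) ∧ Cfsg.splitClassCount (Cfsg.inndiagPSp m F) (Cfsg.Inn (Cfsg.PSp m F)) x = Nat.gcd (Nat.gcd 2 (p ^ f - 1)) r := by
  haveI : Nontrivial (Fin m) := Fin.nontrivial_iff_two_le.2 hm
  haveI : (Cfsg.inndiagPSp m F).Normal :=
    CfsgH7.inndiagPSp_eq (F := F) (m := m) ▸ CfsgH7.diagPSp_range_normal hm
  haveI : (Cfsg.Inn (Cfsg.PSp m F)).Normal := inferInstance
  obtain ⟨α, σ, -, hσ⟩ := hx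
  rw [CfsgH7.isStdFieldAutPSp_iff] at hσ
  have ho : orderOf σ = r := by
    rw [← orderOf_injective _ (CfsgH7.fieldPSp_injective hm), ← hσ, ← hxr]
    exact (MulAut.conj α).orderOf_eq x
  have hrf : r ∣ f := ho ▸ CfsgH7.ringAut_orderOf_dvd hF σ
  have hfix : Nat.card (CfsgH7.fixF σ) = p ^ (f / r) :=
    CfsgH7.card_fixF_eq σ (by rw [ho, ← pow_mul, Nat.div_mul_cancel hrf, hF])
  obtain ⟨ε, hε⟩ := CfsgH7.exists_emb_fixF σ F₀ (by rw [hfix, hF₀])
  have hc := CfsgH7.field_centralizer_Sp hm σ ε hε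
  refine ⟨hrf, ?_, ?_⟩
  · obtain ⟨e1⟩ := CfsgH7.inf_centralizer_conj (Cfsg.inndiagPSp m F) α x
    rw [hσ] at e1
    obtain ⟨e2⟩ := CfsgH7.nonempty_equiv_quot
      (CfsgH7.diagPSp.comp (CfsgH7.embGSp (m := m) ε))
      (Cfsg.inndiagPSp m F ⊓ Subgroup.centralizer {CfsgH7.fieldPSp σ})
      (by rw [CfsgH7.inndiagPSp_eq, hc, MonoidHom.range_comp])
      ((Cfsg.Geo.scalars _ F₀).subgroupOf (Cfsg.GSp m F₀)) (by
        ext g
        rw [MonoidHom.mem_ker, MonoidHom.comp_apply, CfsgH7.diagPSp_eq_one_iff hm,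
          Subgroup.mem_subgroupOf, Cfsg.Geo.mem_scalars_iff]
        refine (CfsgH7.GL_map_scalar_iff ε g.1).trans ?_
        exact ⟨fun ⟨c, hc⟩ => ⟨Units.mk0 c (CfsgH7.GL_smul_one_ne_zero (g := g.1) hc), hc⟩,
          fun ⟨c, hc⟩ => ⟨c, hc⟩⟩)
    exact ⟨e1.trans e2⟩
  · rw [← CfsgH7.splitClassCount_conj _ _ α, hσ, CfsgH7.inndiagPSp_eq,
      CfsgH7.split_abstract _ _ CfsgH7.multSp_surjective _
        CfsgH7.inn_le_diagPSp_range _ (fun g => CfsgH7.diagPSp_mem_inn_iff hm) _ _ hc,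
      CfsgH7.map_mult_embGSp]
    have h1 : Nat.card Fˣ = p ^ f - 1 := by rw [Nat.card_units, Nat.card_eq_fintype_card, hF]
    have h2 := CfsgH7.card_range_units_map ε
    rw [Nat.card_eq_fintype_card (α := F₀), hF₀] at h2
    have h3 : 2 ≤ p ^ (f / r) := hF₀ ▸ Fintype.one_lt_card
    rw [CfsgH7.cyc_index_sup' _ h1 h2, show p ^ f = (p ^ (f / r)) ^ r by
      rw [← pow_mul, Nat.div_mul_cancel hrf]]
    exact gcd_aux h3 hr.one_le

end Cfsg.Agent.S2712
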