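import Cfsg.Statements.S2714
import Cfsg.Agent.H7.POApi

set_option autoImplicit false
open Cfsg

namespace Cfsg.Agent.S2714


/-- Let T = Ω_{2m+1}(F) (m ≥ 3, |F| = p^f odd; realised as PΩ of the form x₀² + Σ xᵢ yᵢ), G = Inndiag(T) the image of the conformal orthogonal group in Aut(T), and x a field automorphism of T of prime order r. Then r divides f; C_G(x) is isomorphic to Inndiag(Ω_{2m+1}(F₀)) for a field F₀ with p^(f/r) elements; and the G-class of x is a single T-class when r is odd and the union of exactly two T-classes when r = 2. -/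
theorem result {F : Type*} [Field F] [Fintype F] {p f : ℕ} [Fact p.Prime] (hF : Fintype.card F = p ^ f) (hf : 1 ≤ f) (hodd : Odd (Fintype.card F)) {m : ℕ} (hm : 3 ≤ m) (x : MulAut (Cfsg.POmega F (Cfsg.quadFormOdd m F))) (hx : Cfsg.IsFieldAutClassPOmega (Cfsg.quadFormOdd m F) x) {r : ℕ} (hr : r.Prime) (hxr : orderOf x = r) (F₀ : Type*) [Field F₀] [Fintype F₀] (hF₀ : Fintype.card F₀ = p ^ (f / r)) :
    r ∣ f ∧ Nonempty (↥(Cfsg.inndiagPOmegaOdd m F ⊓ Subgroup.centralizer {x}) ≃* ↥(Cfsg.inndiagPOmegaOdd m F₀)) ∧ (Odd r → Cfsg.splitClassCount (Cfsg.inndiagPOmegaOdd m F) (Cfsg.Inn (Cfsg.POmega F (Cfsg.quadFormOdd m F))) x = 1) ∧ (r = 2 → Cfsg.splitClassCount (Cfsg.inndiagPOmegaOdd m F) (Cfsg.Inn (Cfsg.POmega F (Cfsg.quadFormOdd m F))) x = 2) := by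
  have h2 := CfsgH8.two_ne_zero_of_odd hodd
  haveI := CfsgH8.big_QO (m := m) (by omega) h2
  have hs := CfsgH8.PhiM_surjective (CfsgH8.QO_coe m F) (CfsgH8.Phi_surj_QO hm h2)
  obtain ⟨α, φ, σ, -, h1, e⟩ := hx
  rw [CfsgH7.isFieldAut_iff (CfsgH8.QO_coe m F) σ (CfsgH8.QO_comp _ m)] at h1
  have hker := fun γ => CfsgH8.PhiM_eq_one_iff (CfsgH8.QO_coe m F) (γ := γ)
  have hφ := CfsgH7.FT_frob σ (CfsgH8.QO_comp _ m)
  have ho : orderOf σ = r := by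
    rw [← hxr, ← (MulAut.conj α).orderOf_eq x, MulAut.conj_apply, e, h1,
      CfsgH7.orderOf_Phi _ hker hφ]
    rfl
  have hrf : r ∣ f := ho ▸ CfsgH7.ringAut_orderOf_dvd hF σ
  have hfix : Nat.card (CfsgH7.fixF σ) = p ^ (f / r) :=
    CfsgH7.card_fixF_eq σ (by rw [ho, ← pow_mul, Nat.div_mul_cancel hrf, hF])
  obtain ⟨ε, hε⟩ := CfsgH7.exists_emb_fixF σ F₀ (by rw [hfix, hF₀])
  have h2' : (2 : F₀) ≠ 0 := fun h => h2 (by rw [← map_ofNat ε 2, h, map_zero])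
  haveI := CfsgH8.big_QO (m := m) (by omega) h2'
  obtain ⟨D⟩ := CfsgH7.desc_QO (m := m) hφ ε hε (by simp; ring)
  rw [CfsgH7.inndiagOdd_eq, CfsgH7.inndiagOdd_eq]
  haveI := (CfsgH7.Dg_normal (Q := CfsgH8.QO m F)).map _ hs
  rw [← CfsgH7.splitClassCount_conj _ _ α, e, h1,
    CfsgH7.split_eq _ hker hφ _ (CfsgH7.Inn_POmega_eq _)]
  refine ⟨hrf, ?_, fun h => D.relIndex_eq_one (Or.inl (ho ▸ h)),
    fun h => D.relIndex_odd (ho.trans h) ⟨m, by simp; ring⟩ h2⟩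
  obtain ⟨e1⟩ := CfsgH7.inf_centralizer_conj
    ((CfsgH7.Dg (CfsgH8.QO m F)).map (CfsgH8.PhiM (CfsgH8.QO_coe m F))) α x
  rw [e, h1] at e1
  obtain ⟨e2⟩ := CfsgH7.centralizer_equiv _ hker hφ D _
    fun γ => CfsgH8.PhiM_eq_one_iff (CfsgH8.QO_coe m F₀) (γ := γ)
  exact ⟨e1.trans e2⟩

end Cfsg.Agent.S2714
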