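import Cfsg.Statements.S2715
import Cfsg.Agent.H7.Triality

set_option autoImplicit false
open Cfsg

namespace Cfsg.Agent.S2715


/-- Let T = PΩ⁺_{2m}(F) (m ≥ 4, |F| = p^f; the form Σ xᵢ yᵢ), G = Inndiag(T) the image of the class-preserving similarities in Aut(T), and x a field automorphism of T of prime order r. Then r divides f; C_G(x) is isomorphic to Inndiag(PΩ⁺_{2m}(F₀)) for a field F₀ with p^(f/r) elements; and the G-class of x is the union of exactly c T-classes, where c = 1 if r is odd or p = 2, and otherwise (r = 2, p odd) c = 2 when m is odd and p^(f/2) ≡ 1 (mod 4), and c = 4 in the remaining cases. -/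
theorem result {F : Type*} [Field F] [Fintype F] {p f : ℕ} [Fact p.Prime] (hF : Fintype.card F = p ^ f) (hf : 1 ≤ f) {m : ℕ} (hm : 4 ≤ m) (x : MulAut (Cfsg.POmega F (Cfsg.quadFormPlus m F))) (hx : Cfsg.IsFieldAutClassPOmega (Cfsg.quadFormPlus m F) x) {r : ℕ} (hr : r.Prime) (hxr : orderOf x = r) (F₀ : Type*) [Field F₀] [Fintype F₀] (hF₀ : Fintype.card F₀ = p ^ (f / r)) :
    r ∣ f ∧ Nonempty (↥(Cfsg.inndiagPOmegaPlus m F ⊓ Subgroup.centralizer {x}) ≃* ↥(Cfsg.inndiagPOmegaPlus m F₀)) ∧ ((Odd r ∨ p = 2) → Cfsg.splitClassCount (Cfsg.inndiagPOmegaPlus m F) (Cfsg.Inn (Cfsg.POmega F (Cfsg.quadFormPlus m F))) x = 1) ∧ ((r = 2 ∧ p ≠ 2 ∧ Odd m ∧ p ^ (f / 2) % 4 = 1) → Cfsg.splitClassCount (Cfsg.inndiagPOmegaPlus m F) (Cfsg.Inn (Cfsg.POmega F (Cfsg.quadFormPlus m F))) x = 2) ∧ ((r = 2 ∧ p ≠ 2 ∧ ¬ (Odd m ∧ p ^ (f / 2) % 4 = 1)) → Cfsg.splitClassCount (Cfsg.inndiagPOmegaPlus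 m F) (Cfsg.Inn (Cfsg.POmega F (Cfsg.quadFormPlus m F))) x = 4) := by
  haveI : Fact (3 ≤ m) := ⟨by omega⟩
  have hker := fun γ => CfsgH8.PhiM_eq_one_iff (CfsgH8.QP_coe m F) (γ := γ)
  obtain ⟨α, φ, σ, -, h1, e⟩ := hx
  rw [CfsgH7.isFieldAut_iff (CfsgH8.QP_coe m F) σ (CfsgH8.QH_comp _)] at h1
  have hφ := CfsgH7.FT_frob (Q := CfsgH8.QP m F) σ (CfsgH8.QH_comp _)
  have ho : orderOf σ = r := by
    rw [← hxr, ← (MulAut.conj α).orderOf_eq x, MulAut.conj_apply, e, h1,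
      CfsgH7.orderOf_Phi _ hker hφ]
    rfl
  have hrf : r ∣ f := ho ▸ CfsgH7.ringAut_orderOf_dvd hF σ
  have hfix : Nat.card (CfsgH7.fixF σ) = p ^ (f / r) :=
    CfsgH7.card_fixF_eq σ (by rw [ho, ← pow_mul, Nat.div_mul_cancel hrf, hF])
  obtain ⟨ε, hε⟩ := CfsgH7.exists_emb_fixF σ F₀ (by rw [hfix, hF₀])
  obtain ⟨D⟩ := CfsgH7.desc_QP (m := m) hφ ε hε (by simp; ring) _ (CfsgH7.cls_frob σ)
  rw [CfsgH7.inndiagPlus_eq, CfsgH7.inndiagPlus_eq]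
  haveI := CfsgH7.inndiagPlus_normal (F := F) hm
  haveI : CharP F p := charP_of_card_eq_prime_pow hF
  have h2 : (2 : F) = 0 ↔ p = 2 := by
    rw [← Nat.cast_ofNat, CharP.cast_eq_zero_iff F p, Nat.prime_dvd_prime_iff_eq Fact.out Nat.prime_two]
  rw [← CfsgH7.splitClassCount_conj _ _ α, e, h1,
    CfsgH7.split_eq _ hker hφ _ (CfsgH7.Inn_POmega_eq _)]
  refine ⟨hrf, ?_, fun h => D.relIndex_eq_one (h.imp (fun h => ho ▸ h) h2.2), ?_, ?_⟩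
  · obtain ⟨e1⟩ := CfsgH7.inf_centralizer_conj
      ((CfsgH7.Dg (CfsgH8.QP m F)).map (CfsgH8.PhiM (CfsgH8.QP_coe m F))) α x
    rw [e, h1] at e1
    obtain ⟨e2⟩ := CfsgH7.centralizer_equiv _ hker hφ D _
      fun γ => CfsgH8.PhiM_eq_one_iff (CfsgH8.QP_coe m F₀) (γ := γ)
    exact ⟨e1.trans e2⟩
  · rintro ⟨rfl, hp, h⟩
    rw [CfsgH7.count_field hε ho (mt h2.1 hp) D, hF₀, if_pos h]
  · rintro ⟨rfl, hp, h⟩
    rw [CfsgH7.count_field hε ho (mt h2.1 hp) D, hF₀, if_neg h]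

end Cfsg.Agent.S2715
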