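import Cfsg.Statements.S2716
import Cfsg.Agent.H7.POApi2

set_option autoImplicit false
open Cfsg

namespace Cfsg.Agent.S2716


/-- Let T = PΩ⁻_{2m+2}(F) (m ≥ 3, |F| = p^f; the form Σ xᵢ yᵢ + z₁² + a z₁ z₂ + b z₂² with anisotropic binary part), G = Inndiag(T), and x a field automorphism of T of prime order r. Then r is odd and divides f; C_G(x) is isomorphic to Inndiag(PΩ⁻_{2m+2}(F₀)) for a field F₀ with p^(f/r) elements and some anisotropic binary part over F₀; and the G-class of x is a single T-class. -/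
theorem result {F : Type*} [Field F] [Fintype F] {p f : ℕ} [Fact p.Prime] (hF : Fintype.card F = p ^ f) (hf : 1 ≤ f) {m : ℕ} (hm : 3 ≤ m) (a b : F) (hab : (∀ z₁ z₂ : F, z₁ ^ 2 + a * z₁ * z₂ + b * z₂ ^ 2 = 0 → z₁ = 0 ∧ z₂ = 0)) (x : MulAut (Cfsg.POmega F (Cfsg.quadFormMinus m F a b))) (hx : Cfsg.IsFieldAutClassPOmegaMinus m x) {r : ℕ} (hr : r.Prime) (hxr : orderOf x = r) (F₀ : Type*) [Field F₀] [Fintype F₀] (hF₀ : Fintype.card F₀ = p ^ (f / r)) :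
    Odd r ∧ r ∣ f ∧ (∃ a₀ b₀ : F₀, (∀ z₁ z₂ : F₀, z₁ ^ 2 + a₀ * z₁ * z₂ + b₀ * z₂ ^ 2 = 0 → z₁ = 0 ∧ z₂ = 0) ∧ Nonempty (↥(Cfsg.inndiagPOmegaMinus m F a b ⊓ Subgroup.centralizer {x}) ≃* ↥(Cfsg.inndiagPOmegaMinus m F₀ a₀ b₀))) ∧ Cfsg.splitClassCount (Cfsg.inndiagPOmegaMinus m F a b) (Cfsg.Inn (Cfsg.POmega F (Cfsg.quadFormMinus m F a b))) x = 1 := by
  haveI := CfsgH8.big_QM (m := m) (by omega) hab
  have hs := CfsgH8.PhiM_surjective (CfsgH8.QM_coe m F a b) (CfsgH8.Phi_surj_QM hm hab)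
  obtain ⟨α, φ, e, hφ, h2⟩ := CfsgH7.minus_std hab hx
  have hker := fun γ => CfsgH8.PhiM_eq_one_iff (CfsgH8.QM_coe m F a b) (γ := γ)
  have ho : orderOf φ.σ = r := by
    rw [← hxr, ← (MulAut.conj α).orderOf_eq x, MulAut.conj_apply, e,
      CfsgH7.orderOf_Phi _ hker hφ]
  have hodd : Odd r := hr.odd_of_ne_two (ho ▸ h2)
  have hrf : r ∣ f := ho ▸ CfsgH7.ringAut_orderOf_dvd hF φ.σ
  have hfix : Nat.card (CfsgH7.fixF φ.σ) = p ^ (f / r) :=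
    CfsgH7.card_fixF_eq φ.σ (by rw [ho, ← pow_mul, Nat.div_mul_cancel hrf, hF])
  obtain ⟨ε, hε⟩ := CfsgH7.exists_emb_fixF φ.σ F₀ (by rw [hfix, hF₀])
  obtain ⟨ζ, hζ⟩ := CfsgH8.exists_aniso (F := F₀)
  haveI := CfsgH8.big_QM (m := m) (by omega) hζ
  obtain ⟨D⟩ := CfsgH7.desc_QM' (m := m) hφ ε hε (by simp; ring) (CfsgH7.not_MTS_QM hab) hζ
  rw [CfsgH7.inndiagMinus_eq hab]
  haveI := (CfsgH7.Dg_normal (Q := CfsgH8.QM m F a b)).map _ hs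
  rw [← CfsgH7.splitClassCount_conj _ _ α, e,
    CfsgH7.split_eq _ hker hφ _ (CfsgH7.Inn_POmega_eq _)]
  refine ⟨hodd, hrf, ⟨1, ζ, hζ, ?_⟩, D.relIndex_eq_one (Or.inl (ho ▸ hodd))⟩
  rw [CfsgH7.inndiagMinus_eq hζ]
  obtain ⟨e1⟩ := CfsgH7.inf_centralizer_conj
    ((CfsgH7.Dg (CfsgH8.QM m F a b)).map (CfsgH8.PhiM (CfsgH8.QM_coe m F a b))) α x
  rw [e] at e1
  obtain ⟨e2⟩ := CfsgH7.centralizer_equiv _ hker hφ D _
    fun γ => CfsgH8.PhiM_eq_one_iff (CfsgH8.QM_coe m F₀ 1 ζ) (γ := γ)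
  exact ⟨e1.trans e2⟩

end Cfsg.Agent.S2716
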