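import Cfsg.Statements.S2717
import Cfsg.Agent.H7.POApi2

set_option autoImplicit false
open Cfsg

namespace Cfsg.Agent.S2717


/-- Let T = PΩ⁺_{2m}(F) with m ≥ 5 (dimension 2m ≠ 8) and |F| = p^f, G = Inndiag(T), and x an involutory graph-field automorphism of T. Then f is even; any two involutory graph-field automorphisms of T are G-conjugate; C_G(x) is isomorphic to Inndiag(PΩ⁻_{2m}(F₀)) for a field F₀ with p^(f/2) elements (some anisotropic binary part over F₀); and the G-class of x is the union of exactly c T-classes with c = 1 if p = 2, c = 4 if p is odd, m is odd and p^(f/2) ≡ 1 (mod 4), and c = 2 otherwise. -/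
theorem result {F : Type*} [Field F] [Fintype F] {p f : ℕ} [Fact p.Prime] (hF : Fintype.card F = p ^ f) (hf : 1 ≤ f) {m : ℕ} (hm : 5 ≤ m) (x : MulAut (Cfsg.POmega F (Cfsg.quadFormPlus m F))) (hx : Cfsg.IsGraphFieldAutClassPOmegaPlus m x) (hx2 : orderOf x = 2) (F₀ : Type*) [Field F₀] [Fintype F₀] (hF₀ : Fintype.card F₀ = p ^ (f / 2)) :
    Even f ∧ (∀ y : MulAut (Cfsg.POmega F (Cfsg.quadFormPlus m F)), Cfsg.IsGraphFieldAutClassPOmegaPlus m y → orderOf y = 2 → Cfsg.IsConjUnder (Cfsg.inndiagPOmegaPlus m F) x y) ∧ (∃ a₀ b₀ : F₀, (∀ z₁ z₂ : F₀, z₁ ^ 2 + a₀ * z₁ * z₂ + b₀ * z₂ ^ 2 = 0 → z₁ = 0 ∧ z₂ = 0) ∧ Nonempty (↥(Cfsg.inndiagPOmegaPlus m F ⊓ Subgroup.centralizer {x}) ≃* ↥(Cfsg.inndiagPOmegaMinus (m - 1) F₀ a₀ b₀))) ∧ (p = 2 → Cfsg.splitClassCount (Cfsg.inndiagPOmegaPlus m F) (Cfsg.Inn (Cfsg.POmega F (Cfsg.quadFormPlus m F)))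 x = 1) ∧ ((p ≠ 2 ∧ Odd m ∧ p ^ (f / 2) % 4 = 1) → Cfsg.splitClassCount (Cfsg.inndiagPOmegaPlus m F) (Cfsg.Inn (Cfsg.POmega F (Cfsg.quadFormPlus m F))) x = 4) ∧ ((p ≠ 2 ∧ ¬ (Odd m ∧ p ^ (f / 2) % 4 = 1)) → Cfsg.splitClassCount (Cfsg.inndiagPOmegaPlus m F) (Cfsg.Inn (Cfsg.POmega F (Cfsg.quadFormPlus m F))) x = 2) := by
  haveI : Fact (3 ≤ m) := ⟨by omega⟩
  have hker := fun γ => CfsgH8.PhiM_eq_one_iff (CfsgH8.QP_coe m F) (γ := γ)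
  have hs := CfsgH8.PhiM_surjective (CfsgH8.QP_coe m F) (CfsgH8.Phi_surj_QP hm)
  obtain ⟨φ, rfl, hφ, hc⟩ := CfsgH7.gf_std (CfsgH8.Phi_surj_QP hm) hx (hx2 ▸ Nat.prime_two)
  rw [CfsgH7.orderOf_Phi _ hker hφ] at hx2
  have hrf : 2 ∣ f := hx2 ▸ CfsgH7.ringAut_orderOf_dvd hF φ.σ
  have hfix : Nat.card (CfsgH7.fixF φ.σ) = p ^ (f / 2) :=
    CfsgH7.card_fixF_eq φ.σ (by rw [hx2, ← pow_mul, Nat.div_mul_cancel hrf, hF])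
  obtain ⟨ε, hε⟩ := CfsgH7.exists_emb_fixF φ.σ F₀ (by rw [hfix, hF₀])
  obtain ⟨ζ, hζ⟩ := CfsgH8.exists_aniso (F := F₀)
  haveI := CfsgH8.big_QM (m := m - 1) (by omega) hζ
  have hd : ∀ ψ : CfsgH8.Gam (CfsgH8.QP m F), CfsgH7.FT ψ → ψ.σ = φ.σ →
      CfsgH7.cls CfsgH8.MTS_stdE ψ = -1 →
      Nonempty (CfsgH7.Desc ε (CfsgH8.QM (m - 1) F₀ 1 ζ) ψ) := fun ψ h1 h2 h3 =>
    CfsgH7.desc_QM h1 ε (h2 ▸ hε) (by simp; ring) _ h3 hζ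
  obtain ⟨D⟩ := hd φ hφ rfl hc
  rw [CfsgH7.inndiagPlus_eq]
  haveI := (CfsgH7.Dg_normal (Q := CfsgH8.QP m F)).map _ hs
  haveI : CharP F p := charP_of_card_eq_prime_pow hF
  have h2 : (2 : F) = 0 ↔ p = 2 := by
    rw [← Nat.cast_ofNat, CharP.cast_eq_zero_iff F p, Nat.prime_dvd_prime_iff_eq Fact.out Nat.prime_two]
  have hcount : p ≠ 2 → Cfsg.splitClassCount
      ((CfsgH7.Dg (CfsgH8.QP m F)).map (CfsgH8.PhiM (CfsgH8.QP_coe m F)))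
      (Cfsg.Inn (Cfsg.POmega F (Cfsg.quadFormPlus m F))) (CfsgH8.PhiM (CfsgH8.QP_coe m F) φ) =
      if Odd m ∧ p ^ (f / 2) % 4 = 1 then 4 else 2 := fun hp => by
    have h3 := CfsgH7.FT_gfrob (m := m) hx2 ⟨0, by omega⟩
    obtain ⟨D'⟩ := hd _ h3 (CfsgH7.gfrob_σ _ _) (CfsgH7.cls_gfrob _ _)
    obtain ⟨k, -, hk⟩ := D.exists_conj D' (CfsgH7.gfrob_σ _ _).symm
    rw [← CfsgH7.splitClassCount_conj _ _ (CfsgH8.PhiM (CfsgH8.QP_coe m F) k), ← map_inv, ← map_mul,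
      ← map_mul, hk, CfsgH7.split_eq _ hker h3 _ (CfsgH7.Inn_POmega_eq _),
      CfsgH7.count_gf hε hx2 (mt h2.1 hp) _ D', hF₀]
  refine ⟨even_iff_two_dvd.2 hrf, fun y hy hy2 => ?_, ⟨1, ζ, hζ, ?_⟩, fun hp => ?_,
    fun h => by rw [hcount h.1, if_pos h.2], fun h => by rw [hcount h.1, if_neg h.2]⟩
  · obtain ⟨ψ, rfl, hψ, hc'⟩ := CfsgH7.gf_std (CfsgH8.Phi_surj_QP hm) hy (hy2 ▸ Nat.prime_two)
    rw [CfsgH7.orderOf_Phi _ hker hψ] at hy2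
    haveI := CfsgH7.finite_ringAut (F := F)
    haveI := CfsgH7.ringAut_isCyclic (F := F)
    have h3 := CfsgH7.eq_of_orderOf_two hy2 hx2
    obtain ⟨D'⟩ := hd ψ hψ h3 hc'
    obtain ⟨k, hk, e⟩ := D.exists_conj D' h3.symm
    exact ⟨_, ⟨k, hk, rfl⟩, by rw [← e, map_mul, map_mul, map_inv]⟩
  · rw [CfsgH7.inndiagMinus_eq hζ]
    exact CfsgH7.centralizer_equiv _ hker hφ D _
      fun γ => CfsgH8.PhiM_eq_one_iff (CfsgH8.QM_coe (m - 1) F₀ 1 ζ) (γ := γ)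
  · rw [CfsgH7.split_eq _ hker hφ _ (CfsgH7.Inn_POmega_eq _)]
    exact D.relIndex_eq_one (Or.inr (h2.2 hp))

end Cfsg.Agent.S2717
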