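import Cfsg.Statements.S2718
import Cfsg.Agent.H8.Semi3

set_option autoImplicit false
open Cfsg

namespace Cfsg.Agent.S2718

open CfsgH8

/-- Let T = PΩ⁺_{2m}(F) with m ≥ 4 and |F| = q odd, G = Inndiag(T), and γ an involutory graph automorphism of T induced by a similarity (one interchanging the two classes of maximal totally singular subspaces). Then the G-class of γ is either a single T-class or the union of exactly two T-classes, and it is the union of two unless m is odd and q ≡ 3 (mod 4). -/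
theorem result {F : Type*} [Field F] [Fintype F] (hodd : Odd (Fintype.card F)) {m : ℕ} (hm : 4 ≤ m) (γ : MulAut (Cfsg.POmega F (Cfsg.quadFormPlus m F))) (hγ : Cfsg.IsSimilarityGraphAutPOmegaPlus m γ) (hγ2 : orderOf γ = 2) :
    (Cfsg.splitClassCount (Cfsg.inndiagPOmegaPlus m F) (Cfsg.Inn (Cfsg.POmega F (Cfsg.quadFormPlus m F))) γ = 1 ∨ Cfsg.splitClassCount (Cfsg.inndiagPOmegaPlus m F) (Cfsg.Inn (Cfsg.POmega F (Cfsg.quadFormPlus m F))) γ = 2) ∧ (¬ (Odd m ∧ Fintype.card F % 4 = 3) → Cfsg.splitClassCount (Cfsg.inndiagPOmegaPlus m F) (Cfsg.Inn (Cfsg.POmega F (Cfsg.quadFormPlus m F))) γ = 2) := by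
  have h2 := two_ne_zero_of_odd hodd
  have : Fact (3 ≤ m) := ⟨by omega⟩
  obtain ⟨g, hg, h1, h3⟩ := hγ
  obtain ⟨c, hg'⟩ := hg
  let G : Gam (QP m F) := gamOf g (RingEquiv.refl F) c fun v => by
    simpa [QP_coe] using hg' v
  have hG : Rep G g (RingEquiv.refl F) := rep_gamOf _ _ _ _
  rw [isInduced_iff (QP_coe m F) hG] at h3
  subst h3
  rw [preserves_iff (QP_coe m F) ND_QH Big.good MTS_stdE (γ := G) rfl hG.mulVec] at h1
  have := graph_split (QP_coe m F) h2 (even_QP m) (k := m) (by simp [two_mul]) hm (g := G) rfl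
    ((Int.units_eq_one_or _).resolve_left h1) (hγ2 ▸ pow_orderOf_eq_one _)
  rw [inndiagPlus_eq Big.good]
  exact ⟨this.1, fun h => this.2 (Or.inl ((discC_QP_iff h2 m).2 h))⟩

end Cfsg.Agent.S2718
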