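import Cfsg.Statements.S2719
import Cfsg.Agent.H8.Semi3

set_option autoImplicit false
open Cfsg

namespace Cfsg.Agent.S2719

open CfsgH8

/-- Let T = PΩ⁻_{2m+2}(F) with m ≥ 3 and |F| = q odd (form with anisotropic binary part z₁² + a z₁ z₂ + b z₂²), G = Inndiag(T), and γ an involutory graph automorphism of T (an automorphism in the image of the semisimilarity group, not inner-diagonal, of order 2). Then the G-class of γ is either a single T-class or the union of exactly two T-classes, and it is the union of two unless m is even and q ≡ 1 (mod 4). -/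
theorem result {F : Type*} [Field F] [Fintype F] (hodd : Odd (Fintype.card F)) {m : ℕ} (hm : 3 ≤ m) (a b : F) (hab : (∀ z₁ z₂ : F, z₁ ^ 2 + a * z₁ * z₂ + b * z₂ ^ 2 = 0 → z₁ = 0 ∧ z₂ = 0)) (γ : MulAut (Cfsg.POmega F (Cfsg.quadFormMinus m F a b))) (hγ : Cfsg.IsGraphAutClassPOmegaMinus m a b γ) (hγ2 : orderOf γ = 2) :
    (Cfsg.splitClassCount (Cfsg.inndiagPOmegaMinus m F a b) (Cfsg.Inn (Cfsg.POmega F (Cfsg.quadFormMinus m F a b))) γ = 1 ∨ Cfsg.splitClassCount (Cfsg.inndiagPOmegaMinus m F a b) (Cfsg.Inn (Cfsg.POmega F (Cfsg.quadFormMinus m F a b))) γ = 2) ∧ (¬ (Even m ∧ Fintype.card F % 4 = 1) → Cfsg.splitClassCount (Cfsg.inndiagPOmegaMinus m F a b) (Cfsg.Inn (Cfsg.POmega F (Cfsg.quadFormMinus m F a b))) γ = 2) := by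
  have h2 := two_ne_zero_of_odd hodd
  have := big_QM (F := F) (m := m) (by omega) hab
  obtain ⟨h1, h3, -⟩ := hγ
  rw [gammaPOmega_eq (QM_coe m F a b)] at h1
  obtain ⟨G, rfl⟩ := h1
  rw [inndiagMinus_eq (by omega) hab Big.good] at h3 ⊢
  have hs : ∀ c, scal (QM m F a b) c ∈ GOp (ND_QM hab) Big.good (even_QM m) := fun c =>
    ZOm_le_GOp (even_QM m) (scal_mem_ZS _ c)
  rw [PhiM_mem_map_iff _ hs] at h3
  have h4 : PhiM (QM_coe m F a b) G ^ 2 = 1 := orderOf_dvd_iff_pow_eq_one.1 hγ2.dvd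
  obtain ⟨p, hp, f, hpp, hF⟩ := FiniteField.card' F
  have := Fact.mk hpp
  obtain ⟨τ, h0, h5, h6⟩ := CfsgH7.ringAut_structure hF
  obtain ⟨T, r, rfl, -, t1, t2, -⟩ := exists_frob_QM hF h0 (h5 ▸ pow_orderOf_eq_one τ) m hab
  obtain ⟨i, hi⟩ := hs_GOp (even_QM m) h6 t1 t2 G
  have h7 : G ^ 2 ∈ GOp (ND_QM hab) Big.good (even_QM m) := by
    rw [← map_pow, PhiM_eq_one_iff] at h4
    obtain ⟨c, hc⟩ := h4
    rw [hc]; exact hs c
  have h8 : T ^ (2 * i) ∈ GOp (ND_QM hab) Big.good (even_QM m) := by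
    rw [← QuotientGroup.eq_one_iff] at hi h7 ⊢
    rw [QuotientGroup.mk_mul, QuotientGroup.mk_inv, mul_inv_eq_one] at hi
    rw [mul_comm, pow_mul, QuotientGroup.mk_pow, ← hi, ← QuotientGroup.mk_pow, h7]
  obtain ⟨j, rfl⟩ := Nat.dvd_of_mul_dvd_mul_left two_pos (hi_GOp (even_QM m) h5 t1 t2 h8)
  have h9 : G ∈ GO (QM m F a b) := by
    have := (GO _).mul_mem (mem_GO.2 hi.1) ((GO _).pow_mem (ofOG_mem_GO r) j)
    rwa [← t1, ← pow_mul, inv_mul_cancel_right] at this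
  have := graph_split (QM_coe m F a b) h2 (even_QM m) (k := m + 1) (by simp; ring) (by omega) h9
    ((Int.units_eq_one_or _).resolve_left fun h => h3 ⟨h9, h⟩) h4
  refine ⟨this.1, fun h => this.2 ?_⟩
  rw [discC_QM_iff h2 m hab, Nat.even_add_one]
  have := Nat.odd_iff.1 hodd
  by_cases hm : Even m
  · exact Or.inl ⟨hm, by have := not_and.1 h hm; omega⟩
  · exact Or.inr hm

end Cfsg.Agent.S2719
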