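import Cfsg.Statements.S2722
import Cfsg.Agent.H8.Quot

set_option autoImplicit false
open Cfsg

namespace Cfsg.Agent.S2722

open CfsgH8

/-- Let T = PΩ⁺_{2m}(F) with m ≥ 4 and |F| = q odd. Inside Aut(T), the image G̃ of the conformal orthogonal group of the form modulo the image of the special orthogonal group is elementary abelian of order 4. -/
theorem result {F : Type*} [Field F] [Fintype F] (hodd : Odd (Fintype.card F)) {m : ℕ} (hm : 4 ≤ m) :
    (∃ φ : ↥(Cfsg.pgoAut F (Cfsg.quadFormPlus m F)) →* Multiplicative (ZMod 2 × ZMod 2), Function.Surjective φ ∧ φ.ker = (Cfsg.psoAut F (Cfsg.quadFormPlus m F)).subgroupOf (Cfsg.pgoAut F (Cfsg.quadFormPlus m F))) := by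
  have h2 := two_ne_zero_of_odd hodd
  have : Fact (3 ≤ m) := ⟨by omega⟩
  obtain ⟨π, h⟩ := pres_GO_SO (Q := QP m F) h2 (even_QP m)
  rw [pgoAut_eq (QP_coe m F), psoAut_eq (QP_coe m F) Big.nd Big.good h2]
  exact h.hom _ (scal_mem_ZS _)

end Cfsg.Agent.S2722
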