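import Cfsg.Statements.S2723
import Cfsg.Agent.H8.Quot

set_option autoImplicit false
open Cfsg

namespace Cfsg.Agent.S2723

open CfsgH8

/-- Let T = PΩ⁺_{2m}(F) with m ≥ 4 and |F| = q odd. The image of the special orthogonal group in Aut(T) contains the inner automorphism group T with index 1 (they coincide) when m is odd and q ≡ 3 (mod 4), and with index 2 otherwise (the index is 2 exactly when the discriminant of the form is a square). -/
theorem result {F : Type*} [Field F] [Fintype F] (hodd : Odd (Fintype.card F)) {m : ℕ} (hm : 4 ≤ m) :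
    ((Odd m ∧ Fintype.card F % 4 = 3) → (Cfsg.Inn (Cfsg.POmega F (Cfsg.quadFormPlus m F))).relIndex (Cfsg.psoAut F (Cfsg.quadFormPlus m F)) = 1) ∧ (¬ (Odd m ∧ Fintype.card F % 4 = 3) → (Cfsg.Inn (Cfsg.POmega F (Cfsg.quadFormPlus m F))).relIndex (Cfsg.psoAut F (Cfsg.quadFormPlus m F)) = 2) := by
  have h2 := two_ne_zero_of_odd hodd
  have : Fact (3 ≤ m) := ⟨by omega⟩
  rw [Inn_eq (QP_coe m F), psoAut_eq (QP_coe m F) Big.nd Big.good h2]
  refine ⟨fun h => ?_, fun h => ?_⟩
  · rw [ZS_dick_eq h2 (even_QP m) (discC_QP_neg h2 h), Subgroup.relIndex_self]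
  · obtain ⟨π, hπ⟩ := pres_SO_two h2 (even_QP m) ((discC_QP_iff h2 m).2 h)
    rw [hπ.relIndex _ (scal_mem_ZS _)]
    simp

end Cfsg.Agent.S2723
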