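import Cfsg.Statements.S2726
import Cfsg.Agent.H8.Quot

set_option autoImplicit false
open Cfsg

namespace Cfsg.Agent.S2726

open CfsgH8

/-- Let T = PΩ⁻_{2m+2}(F) with m ≥ 3 and |F| = q odd (form with anisotropic binary part). Inside Aut(T), the image G̃ of the conformal orthogonal group of the form modulo the image of the special orthogonal group is elementary abelian of order 4. -/
theorem result {F : Type*} [Field F] [Fintype F] (hodd : Odd (Fintype.card F)) {m : ℕ} (hm : 3 ≤ m) (a b : F) (hab : (∀ z₁ z₂ : F, z₁ ^ 2 + a * z₁ * z₂ + b * z₂ ^ 2 = 0 → z₁ = 0 ∧ z₂ = 0)) :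
    (∃ φ : ↥(Cfsg.pgoAut F (Cfsg.quadFormMinus m F a b)) →* Multiplicative (ZMod 2 × ZMod 2), Function.Surjective φ ∧ φ.ker = (Cfsg.psoAut F (Cfsg.quadFormMinus m F a b)).subgroupOf (Cfsg.pgoAut F (Cfsg.quadFormMinus m F a b))) := by
  have h2 := two_ne_zero_of_odd hodd
  have := big_QM (m := m) (by omega) hab
  obtain ⟨π, h⟩ := pres_GO_SO (Q := QM m F a b) h2 (even_QM m)
  rw [pgoAut_eq (QM_coe m F a b), psoAut_eq (QM_coe m F a b) Big.nd Big.good h2]
  exact h.hom _ (scal_mem_ZS _)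

end Cfsg.Agent.S2726
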