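import Cfsg.Statements.S2734
import Cfsg.Agent.H8.FoldD4

set_option autoImplicit false
open Cfsg

namespace Cfsg.Agent.S2734

open CfsgH8 CfsgH8.D4 Cfsg.Lie

theorem ext_gen {F : Type*} [Field F] {H : Type*} [Group H] (φ ψ : chevD4.group F →* H)
    (h1 : ∀ i t (hx : (CD F).x ((CD F).p i) t ∈ chevD4.group F), φ ⟨_, hx⟩ = ψ ⟨_, hx⟩)
    (h2 : ∀ i t (hx : (CD F).x ((CD F).neg ((CD F).p i)) t ∈ chevD4.group F),
      φ ⟨_, hx⟩ = ψ ⟨_, hx⟩) (g : chevD4.group F) : φ g = ψ g := by
  have hx : ∀ r t, (CD F).x r t ∈ chevD4.group F := fun r t => by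
    rw [okD4.group_eq]; exact (CD F).x_mem (Set.mem_univ _) t
  obtain ⟨g', hg', e⟩ := (CD F).Xs_univ_le (K := (φ.eqLocus ψ).map (chevD4.group F).subtype)
    (fun i t => ⟨⟨_, hx _ t⟩, h1 i t _, rfl⟩) (fun i t => ⟨⟨_, hx _ t⟩, h2 i t _, rfl⟩)
    (x := g.1) (by rw [← okD4.group_eq]; exact g.2)
  obtain rfl : g' = g := Subtype.ext e
  exact hg'

theorem T_p {F : Type*} [Field F] (i : Fin chevD4.rank) (t : F) :
    T F * (CD F).x ((CD F).p i) t * (T F)⁻¹ = (CD F).x ((CD F).p (f4 (rho i))) t ∧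
    T F * (CD F).x ((CD F).neg ((CD F).p i)) t * (T F)⁻¹ =
      (CD F).x ((CD F).neg ((CD F).p (f4 (rho i)))) t := by
  have : ∀ i : Fin chevD4.rank, epsN (tabD4.si i) = 1 ∧ epsN (tabD4.ng (tabD4.si i)) = 1 ∧
      piN (tabD4.si i) % 24 = tabD4.si (rho i % 4) ∧
      piN (tabD4.ng (tabD4.si i)) % 24 = tabD4.ng (tabD4.si (rho i % 4)) := by decide +kernel
  obtain ⟨a1, a2, a3, a4⟩ := this i
  rw [T_x, T_x]
  constructor
  · rw [show epsN ((CD F).p i) = 1 from a1, Int.cast_one, one_mul]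
    exact congrArg (fun r => (CD F).x r t) (Fin.ext a3)
  · rw [show epsN ((CD F).neg ((CD F).p i)) = 1 from a2, Int.cast_one, one_mul]
    exact congrArg (fun r => (CD F).x r t) (Fin.ext a4)

/-- In the Chevalley group of type D₄ over a finite field F (the matrix group generated by the root elements), a graph automorphism attached to a symmetry π of the Dynkin diagram (sending each fundamental root element x_p(t) to x_{π(p)}(t) and each x_{−p}(t) to x_{−π(p)}(t)) that has order 3 — a standard triality graph automorphism, π being a 3-cycle of the three outer nodes — has fixed-point subgroup isomorphic to the Chevalley group of type G₂ over F. -/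
theorem result {F : Type*} [Field F] [Fintype F] (τ : MulAut ↥(Cfsg.Lie.chevD4.group F)) (hτ : Cfsg.Lie.chevD4.IsGraphAut τ) (hτ3 : orderOf τ = 3) :
    Nonempty (↥(MonoidHom.eqLocus τ.toMonoidHom (MonoidHom.id ↥(Cfsg.Lie.chevD4.group F))) ≃* ↥(Cfsg.Lie.chevG2.group F)) := by
  obtain ⟨π, hπ, h⟩ := hτ
  have hx : ∀ r t, (CD F).x r t ∈ chevD4.group F := fun r t => by
    rw [okD4.group_eq]; exact (CD F).x_mem (Set.mem_univ _) t
  have hexp : ∀ c (i j : Fin chevD4.rank), chevD4.graphExp c i j = 1 := fun c i j => by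
    have : ∀ j : Fin chevD4.rank, chevD4.isLong (chevD4.simple j) = false := by decide +kernel
    simp [ChevalleyDatum.graphExp, this]
  have hs : ∀ i : Fin chevD4.rank, chevD4.simple i = ((CD F).p i).val ∧
      chevD4.neg (chevD4.simple i) = ((CD F).neg ((CD F).p i)).val := fun i =>
    ⟨(okD4.c7' i.2).2.1.symm, by
      rw [← (okD4.c7' i.2).2.1]; exact (okD4.c0' (okD4.c7' i.2).1).1⟩
  have h1 : ∀ i t, τ ⟨_, hx ((CD F).p i) t⟩ = ⟨_, hx ((CD F).p (π i)) t⟩ := fun i t =>
    Subtype.ext (Units.ext (by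
      have := (h ⟨_, hx ((CD F).p i) t⟩ i t).1 (by rw [(hs i).1]; rfl)
      rwa [hexp, pow_one, (hs _).1] at this))
  have h2 : ∀ i t, τ ⟨_, hx ((CD F).neg ((CD F).p i)) t⟩ = ⟨_, hx ((CD F).neg ((CD F).p (π i))) t⟩ :=
    fun i t => Subtype.ext (Units.ext (by
      have := (h ⟨_, hx ((CD F).neg ((CD F).p i)) t⟩ i t).2 (by rw [(hs i).2]; rfl)
      rwa [hexp, pow_one, (hs _).2] at this))
  have hc : (∀ i, π (π i) = i) ∨ (∀ i, π i = f4 (rho i)) ∨ ∀ i, f4 (rho (π i)) = i := by
    clear h h1 h2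
    revert π
    unfold ChevalleyDatum.IsDiagramSymmetry
    decide +kernel
  have key : ∀ g : chevD4.group F, τ g = g ↔ T F * g.1 * (T F)⁻¹ = g.1 := by
    rcases hc with hc | hc | hc
    · have : τ ^ 2 = 1 := MulEquiv.ext fun g => ext_gen (τ ^ 2).toMonoidHom (MonoidHom.id _)
        (fun i t _ => by change τ (τ _) = _; rw [h1, h1]; simp only [hc]; rfl)
        (fun i t _ => by change τ (τ _) = _; rw [h2, h2]; simp only [hc]; rfl) g
      have := orderOf_dvd_of_pow_eq_one this
      rw [hτ3] at this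
      exact absurd this (by decide)
    · intro g
      have := ext_gen ((chevD4.group F).subtype.comp τ.toMonoidHom)
        ((MulAut.conj (T F)).toMonoidHom.comp (chevD4.group F).subtype)
        (fun i t _ => by
          change (τ _ : GL _ F) = T F * (CD F).x _ t * (T F)⁻¹
          rw [h1, (T_p i t).1, ← hc])
        (fun i t _ => by
          change (τ _ : GL _ F) = T F * (CD F).x _ t * (T F)⁻¹
          rw [h2, (T_p i t).2, ← hc]) g
      rw [Subtype.ext_iff]
      exact (show (τ g).1 = T F * g.1 * (T F)⁻¹ from this) ▸ Iff.rfl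
    · intro g
      have := ext_gen ((MulAut.conj (T F)).toMonoidHom.comp
        ((chevD4.group F).subtype.comp τ.toMonoidHom)) (chevD4.group F).subtype
        (fun i t _ => by
          change T F * (τ _ : GL _ F) * (T F)⁻¹ = (CD F).x _ t
          rw [h1, (T_p _ t).1, hc])
        (fun i t _ => by
          change T F * (τ _ : GL _ F) * (T F)⁻¹ = (CD F).x _ t
          rw [h2, (T_p _ t).2, hc]) g
      have e : T F * (τ g).1 * (T F)⁻¹ = g.1 := this
      rw [Subtype.ext_iff]
      constructor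
      · intro e'; rwa [e'] at e
      · intro e'
        have := e.trans e'.symm
        rwa [mul_left_inj, mul_right_inj] at this
  obtain ⟨e⟩ := (fold F).iso
  have h5 : (MonoidHom.eqLocus τ.toMonoidHom (MonoidHom.id ↥(chevD4.group F))).map
      (chevD4.group F).subtype = (CD F).Xs Set.univ ⊓ (fold F).Cz := by
    ext g
    constructor
    · rintro ⟨g, hg, rfl⟩
      exact ⟨okD4.group_eq F ▸ g.2, (fold F).mem_Cz.2 ((key g).1 hg)⟩
    · rintro ⟨h1, h2⟩
      exact ⟨⟨g, (okD4.group_eq F).symm ▸ h1⟩, (key _).2 ((fold F).mem_Cz.1 h2), rfl⟩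
  exact ⟨(Subgroup.equivMapOfInjective _ _ (Subgroup.subtype_injective _)).trans
    ((MulEquiv.subgroupCongr h5).trans (e.trans (MulEquiv.subgroupCongr (okG2.group_eq F).symm)))⟩

end Cfsg.Agent.S2734
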