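import Cfsg.Statements.S2735
import Cfsg.Agent.H7.POApi

set_option autoImplicit false
open Cfsg

namespace Cfsg.Agent.S2735


/-- Let T = Ω_{2m+1}(F) (m ≥ 3, |F| odd) and x a field automorphism of T of prime order r. Then an element y of the coset Inndiag(T)·x (y = δ x with δ induced by a similarity of the form) has order r if and only if y is conjugate to x by an element of Inndiag(T). (T has no graph or graph-field automorphisms.) -/
theorem result {F : Type*} [Field F] [Fintype F] (hodd : Odd (Fintype.card F)) {m : ℕ} (hm : 3 ≤ m) (x δ : MulAut (Cfsg.POmega F (Cfsg.quadFormOdd m F))) (hx : Cfsg.IsFieldAutClassPOmega (Cfsg.quadFormOdd m F) x) {r : ℕ} (hr : r.Prime) (hxr : orderOf x = r) (hδ : δ ∈ Cfsg.inndiagPOmegaOdd m F) :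
    orderOf (δ * x) = r ↔ Cfsg.IsConjUnder (Cfsg.inndiagPOmegaOdd m F) x (δ * x) := by
  have h2 := CfsgH8.two_ne_zero_of_odd hodd
  haveI := CfsgH8.big_QO (m := m) (by omega) h2
  have hs := CfsgH8.PhiM_surjective (CfsgH8.QO_coe m F) (CfsgH8.Phi_surj_QO hm h2)
  obtain ⟨α, φ, σ, -, h1, e⟩ := hx
  rw [CfsgH7.isFieldAut_iff (CfsgH8.QO_coe m F) σ (CfsgH8.QO_comp _ m)] at h1
  rw [CfsgH7.inndiagOdd_eq] at hδ ⊢
  haveI := (CfsgH7.Dg_normal (Q := CfsgH8.QO m F)).map _ hs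
  rw [← hxr]
  refine CfsgH7.coset_conj_of_std _ (e.trans h1) ?_ hδ
  exact CfsgH7.coset_of_desc _ (fun _ => CfsgH8.PhiM_eq_one_iff _) (CfsgH7.FT_frob _ _)
    (CfsgH8.QO m _) fun g _ h3 h4 => CfsgH7.desc_QO h3 _ h4 (by simp; ring)

end Cfsg.Agent.S2735
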