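import Cfsg.Statements.S2736
import Cfsg.Agent.H7.POApi2

set_option autoImplicit false
open Cfsg

namespace Cfsg.Agent.S2736


/-- Let T = PΩ⁺_{2m}(F) with m ≥ 5 (dimension ≠ 8) and x a field automorphism or a graph-field automorphism of T of prime order r. Then an element y of the coset Inndiag(T)·x (y = δ x with δ induced by a class-preserving similarity) has order r if and only if y is conjugate to x by an element of Inndiag(T). -/
theorem result {F : Type*} [Field F] [Fintype F] {m : ℕ} (hm : 5 ≤ m) (x δ : MulAut (Cfsg.POmega F (Cfsg.quadFormPlus m F))) (hx : Cfsg.IsFieldAutClassPOmega (Cfsg.quadFormPlus m F) x ∨ Cfsg.IsGraphFieldAutClassPOmegaPlus m x) {r : ℕ} (hr : r.Prime) (hxr : orderOf x = r) (hδ : δ ∈ Cfsg.inndiagPOmegaPlus m F) :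
    orderOf (δ * x) = r ↔ Cfsg.IsConjUnder (Cfsg.inndiagPOmegaPlus m F) x (δ * x) := by
  haveI : Fact (3 ≤ m) := ⟨by omega⟩
  have hs := CfsgH8.PhiM_surjective (CfsgH8.QP_coe m F) (CfsgH8.Phi_surj_QP hm)
  rw [CfsgH7.inndiagPlus_eq] at hδ ⊢
  haveI := (CfsgH7.Dg_normal (Q := CfsgH8.QP m F)).map _ hs
  rw [← hxr]
  rcases hx with ⟨α, φ, σ, -, h1, e⟩ | hx
  · rw [CfsgH7.isFieldAut_iff (CfsgH8.QP_coe m F) σ (CfsgH8.QH_comp _)] at h1
    exact CfsgH7.coset_conj_of_std _ (e.trans h1) (CfsgH7.coset_plus (CfsgH7.FT_frob _ _)) hδ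
  · obtain ⟨φ, e, hφ, -⟩ := CfsgH7.gf_std (CfsgH8.Phi_surj_QP hm) hx (hxr ▸ hr)
    exact CfsgH7.coset_conj_of_std _ (α := 1) (by simpa using e) (CfsgH7.coset_plus hφ) hδ

end Cfsg.Agent.S2736
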