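import Cfsg.Statements.S2737
import Cfsg.Agent.H7.POApi2

set_option autoImplicit false
open Cfsg

namespace Cfsg.Agent.S2737


/-- Let T = PΩ⁻_{2m+2}(F) (m ≥ 3; form with anisotropic binary part) and x a field automorphism of T of prime order r. Then an element y of the coset Inndiag(T)·x has order r if and only if y is conjugate to x by an element of Inndiag(T). (T has no graph-field automorphisms.) -/
theorem result {F : Type*} [Field F] [Fintype F] {m : ℕ} (hm : 3 ≤ m) (a b : F) (hab : (∀ z₁ z₂ : F, z₁ ^ 2 + a * z₁ * z₂ + b * z₂ ^ 2 = 0 → z₁ = 0 ∧ z₂ = 0)) (x δ : MulAut (Cfsg.POmega F (Cfsg.quadFormMinus m F a b))) (hx : Cfsg.IsFieldAutClassPOmegaMinus m x) {r : ℕ} (hr : r.Prime) (hxr : orderOf x = r) (hδ : δ ∈ Cfsg.inndiagPOmegaMinus m F a b) :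
    orderOf (δ * x) = r ↔ Cfsg.IsConjUnder (Cfsg.inndiagPOmegaMinus m F a b) x (δ * x) := by
  haveI := CfsgH8.big_QM (m := m) (by omega) hab
  have hs := CfsgH8.PhiM_surjective (CfsgH8.QM_coe m F a b) (CfsgH8.Phi_surj_QM hm hab)
  obtain ⟨α, φ, e, hφ, -⟩ := CfsgH7.minus_std hab hx
  rw [CfsgH7.inndiagMinus_eq hab] at hδ ⊢
  haveI := (CfsgH7.Dg_normal (Q := CfsgH8.QM m F a b)).map _ hs
  rw [← hxr]
  refine CfsgH7.coset_conj_of_std _ e ?_ hδ
  obtain ⟨ζ, hζ⟩ := CfsgH8.exists_aniso (F := CfsgH7.fixF φ.σ)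
  exact CfsgH7.coset_of_desc _ (fun _ => CfsgH8.PhiM_eq_one_iff _) hφ
    (CfsgH8.QM m _ 1 ζ) fun g _ h3 h4 =>
      CfsgH7.desc_QM' h3 _ h4 (by simp; ring) (CfsgH7.not_MTS_QM hab) hζ

end Cfsg.Agent.S2737
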