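import Cfsg.Statements.S2738
import Cfsg.Agent.H5.Rep

set_option autoImplicit false
open Cfsg

namespace Cfsg.Agent.S2738

open CfsgH5 MulAction

/-- a diagonal matrix -/
def D : Matrix.SpecialLinearGroup (Fin 3) F4 :=
  ⟨!![1, 0, 0; 0, F4.w, 0; 0, 0, F4.w * F4.w], by decide +kernel⟩
/-- a permutation matrix -/
def P : Matrix.SpecialLinearGroup (Fin 3) F4 := ⟨!![0, 1, 0; 0, 0, 1; 1, 0, 0], by decide +kernel⟩
/-- a scalar matrix -/
def Z : Matrix.SpecialLinearGroup (Fin 3) F4 :=
  ⟨!![F4.w, 0, 0; 0, F4.w, 0; 0, 0, F4.w], by decide +kernel⟩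

theorem nonsplit {G : Type*} [Group G] {a b c : G} (h : a * b = c * (b * a))
    (hc : c ∈ Subgroup.center G) (h1 : c ≠ 1) :
    ¬ ∃ K : Subgroup G, Subgroup.IsComplement' (Subgroup.center G) K := by
  rintro ⟨K, hK⟩
  obtain ⟨⟨⟨z, hz⟩, ⟨k, hk⟩⟩, rfl⟩ := hK.2 a
  obtain ⟨⟨⟨z', hz'⟩, ⟨k', hk'⟩⟩, rfl⟩ := hK.2 b
  have hz := Subgroup.mem_center_iff.1 hz
  have hz' := Subgroup.mem_center_iff.1 hz'
  have e : c = k * k' * (k' * k)⁻¹ := by
    rw [eq_mul_inv_iff_mul_eq]
    apply mul_right_cancel (b := z * z')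
    simp only at h
    calc c * (k' * k) * (z * z') = c * (z' * k' * (z * k)) := by
          rw [← hz' k', ← hz k, mul_assoc k', ← hz' (k * z)]; simp only [mul_assoc]
      _ = z * k * (z' * k') := h.symm
      _ = k * k' * (z * z') := by
          rw [← hz' k', ← hz k, mul_assoc k, ← hz (k' * z'), mul_assoc k', ← hz z']
          simp only [mul_assoc]
  exact h1 (Subgroup.disjoint_def.1 hK.disjoint hc
    (e ▸ K.mul_mem (K.mul_mem hk hk') (K.inv_mem (K.mul_mem hk' hk))))

/-- The special linear group SL(3, 4) has centre of order 3 and does not split over it: no subgroup is a complement to the centre (so SL(3, 4) is a non-split central extension of PSL(3, 4) by a group of order 3). -/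
theorem result (F : Type*) [Field F] [Fintype F] (hF : Fintype.card F = 4) : Nat.card ↥(Subgroup.center (Matrix.SpecialLinearGroup (Fin 3) F)) = 3 ∧ ¬ ∃ K : Subgroup (Matrix.SpecialLinearGroup (Fin 3) F), Subgroup.IsComplement' (Subgroup.center (Matrix.SpecialLinearGroup (Fin 3) F)) K := by
  refine ⟨by rw [card_center_SL_of_dvd 3 (by rw [hF]), hF], ?_⟩
  obtain ⟨e0⟩ := nonempty_equiv_F4 hF
  let e := (slEquiv e0 3).symm
  refine nonsplit (a := e P) (b := e D) (c := e Z) ?_ ?_ ?_
  · rw [← map_mul, ← map_mul, ← map_mul]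
    exact congrArg e (Subtype.ext (by decide +kernel))
  · have : Z ∈ Subgroup.center _ :=
      Matrix.SpecialLinearGroup.mem_center_iff.2 ⟨F4.w, by decide +kernel, by decide +kernel⟩
    rw [Subgroup.mem_center_iff] at this ⊢
    intro g
    obtain ⟨g, rfl⟩ := e.surjective g
    rw [← map_mul, ← map_mul, this]
  · rw [ne_eq, map_eq_one_iff e e.injective]
    decide +kernel

end Cfsg.Agent.S2738
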