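import Cfsg.Statements.S4422

set_option autoImplicit false
open Cfsg

namespace Cfsg.Agent.S4422


/-- Primitive divisors of `q^e - 1` are congruent to 1 modulo `e`. Let `q ≥ 2` and `e ≥ 1` be natural numbers and let `m` be a divisor of `q^e - 1` that is coprime to `q^i - 1` for every `1 ≤ i < e` (so `m` divides the primitive part of `q^e - 1`, the largest such divisor). Then `m ≡ 1 (mod e)`. -/
theorem result (q e m : ℕ) (hq : 2 ≤ q) (he : 1 ≤ e)
    (hm : m ∣ q ^ e - 1) (hcop : ∀ i : ℕ, 1 ≤ i → i < e → Nat.Coprime m (q ^ i - 1)) :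
    m % e = 1 % e := by
  have hpos : 0 < q ^ e - 1 := by
    have : 1 < q ^ e := Nat.one_lt_pow (by omega) (by omega)
    omega
  have hm0 : m ≠ 0 := by
    rintro rfl
    have := Nat.eq_zero_of_zero_dvd hm
    omega
  have key : ∀ r : ℕ, r.Prime → r ∣ m → r ≡ 1 [MOD e] := by
    intro r hr hrm
    haveI := Fact.mk hr
    have h1 : ∀ i : ℕ, (r ∣ q ^ i - 1 ↔ (q : ZMod r) ^ i = 1) := by
      intro i
      have h0 : 1 ≤ q ^ i := Nat.one_le_pow _ _ (by omega)
      rw [← ZMod.natCast_eq_zero_iff, Nat.cast_sub h0, sub_eq_zero]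
      simp
    have he1 : (q : ZMod r) ^ e = 1 := (h1 e).1 (hrm.trans hm)
    have hq0 : (q : ZMod r) ≠ 0 := by
      intro h
      rw [h, zero_pow (by omega)] at he1
      exact zero_ne_one he1
    have hord : orderOf (q : ZMod r) = e := by
      rw [orderOf_eq_iff (by omega)]
      refine ⟨he1, fun i hi hi0 h => ?_⟩
      have := (hcop i hi0 hi)
      have h2 := Nat.dvd_gcd hrm ((h1 i).2 h)
      rw [this] at h2
      exact hr.one_lt.ne' (Nat.dvd_one.1 h2)
    have h3 : e ∣ r - 1 := by
      rw [← hord]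
      exact orderOf_dvd_of_pow_eq_one (ZMod.pow_card_sub_one_eq_one hq0)
    exact ((Nat.modEq_iff_dvd' hr.one_le).2 h3).symm
  clear hm hcop
  change m ≡ 1 [MOD e]
  induction m using Nat.recOnMul with
  | zero => exact absurd rfl hm0
  | one => rfl
  | prime p hp => exact key p hp dvd_rfl
  | mul a b iha ihb =>
    have ha := iha (left_ne_zero_of_mul hm0) (fun r hr h => key r hr (h.mul_right _))
    have hb := ihb (right_ne_zero_of_mul hm0) (fun r hr h => key r hr (h.mul_left _))
    simpa using ha.mul hb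

end Cfsg.Agent.S4422
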