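import Cfsg.Statements.S5014
import Cfsg.Agent.H9.RankOne
-- import your own Cfsg.Agent.* helpers here

set_option autoImplicit false
open Cfsg

namespace Cfsg.Agent.S5014
open CfsgH9

/-- Let X = ⟨A, B⟩ be a rank one group with unipotent subgroups A and B and let Ω be the set of conjugates of A under X. Then Ω has at least three members, X acts doubly transitively on Ω by conjugation (any two ordered pairs of distinct members are carried to one another by a single element of X), and A acts regularly on Ω with A removed: for C, D in Ω different from A there is exactly one element of A conjugating C to D. -/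
theorem result {G : Type*} [Group G] {A B : Subgroup G} (h : Cfsg.IsRankOnePair A B) :
    (∃ C₁ ∈ Cfsg.unipotentSubgroups A B, ∃ C₂ ∈ Cfsg.unipotentSubgroups A B, ∃ C₃ ∈ Cfsg.unipotentSubgroups A B,
      C₁ ≠ C₂ ∧ C₁ ≠ C₃ ∧ C₂ ≠ C₃) ∧
    (∀ C₁ ∈ Cfsg.unipotentSubgroups A B, ∀ C₂ ∈ Cfsg.unipotentSubgroups A B, ∀ D₁ ∈ Cfsg.unipotentSubgroups A B,
      ∀ D₂ ∈ Cfsg.unipotentSubgroups A B, C₁ ≠ C₂ → D₁ ≠ D₂ →
        ∃ x ∈ A ⊔ B, Cfsg.conjBy C₁ x = D₁ ∧ Cfsg.conjBy C₂ x = D₂) ∧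
    (∀ C ∈ Cfsg.unipotentSubgroups A B, ∀ D ∈ Cfsg.unipotentSubgroups A B, C ≠ A → D ≠ A →
      ∃! a : G, a ∈ A ∧ Cfsg.conjBy C a = D) := by
  refine ⟨?_, ?_, ?_⟩
  · obtain ⟨b, hb, hb1⟩ := r1_ex_ne_one (r1_symm h)
    refine ⟨A, left_mem_Om, B, right_mem_Om h, cj b A,
      cj_mem_Om (Subgroup.mem_sup_right hb) left_mem_Om, h.ne, r1_cj_ne h hb hb1, ?_⟩
    intro e
    rw [eq_comm, cj_eq_iff, cj_of_mem (B.inv_mem hb)] at e
    exact h.ne e
  · intro C₁ h1 C₂ h2 D₁ h3 D₂ h4 hC hD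
    obtain ⟨x, hx, rfl, rfl⟩ := r1_two_trans h h1 h2 hC
    obtain ⟨y, hy, rfl, rfl⟩ := r1_two_trans h h3 h4 hD
    refine ⟨y * x⁻¹, Subgroup.mul_mem _ hy (Subgroup.inv_mem _ hx), ?_, ?_⟩ <;>
      simp [conjBy_eq, cj_cj]
  · intro C hC D hD hCA hDA
    obtain ⟨a, ha, rfl⟩ := ((mem_Om_iff h).1 hC).resolve_left hCA
    obtain ⟨a', ha', rfl⟩ := ((mem_Om_iff h).1 hD).resolve_left hDA
    refine ⟨a' * a⁻¹, ⟨A.mul_mem ha' (A.inv_mem ha), by simp [conjBy_eq, cj_cj]⟩, ?_⟩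
    rintro x ⟨hx, e⟩
    rw [conjBy_eq, cj_cj] at e
    rw [← r1_eq_of_cj_eq h (A.mul_mem hx ha) ha' e]; simp

end Cfsg.Agent.S5014
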