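import Cfsg.Statements.S5015
import Cfsg.Agent.H9.RankOne
-- import your own Cfsg.Agent.* helpers here

set_option autoImplicit false
open Cfsg

namespace Cfsg.Agent.S5015
open CfsgH9

/-- Let a group Y act doubly transitively on a set Ω with at least three points, and suppose that the stabilizer of a point α contains a nilpotent subgroup A, normalized by that stabilizer, which acts regularly on the points other than α. Then for any y in Y moving α, the subgroups A and y A y⁻¹ are the unipotent subgroups of a rank one group, and the normal closure of A in Y (the subgroup generated by all conjugates of A) is generated by A and y A y⁻¹ alone. -/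
theorem result {Y Ω : Type*} [Group Y] [MulAction Y Ω]
    (h2 : MulAction.IsMultiplyPretransitive Y Ω 2) (hΩ : 3 ≤ ENat.card Ω) (α : Ω) (A : Subgroup Y)
    (hA : A ≤ MulAction.stabilizer Y α) (hAn : ∀ y ∈ MulAction.stabilizer Y α, Cfsg.conjBy A y = A)
    (hnil : Group.IsNilpotent A) (hreg : ∀ β γ : Ω, β ≠ α → γ ≠ α → ∃! a : Y, a ∈ A ∧ a • β = γ)
    (y : Y) (hy : y ∉ MulAction.stabilizer Y α) :
    Cfsg.IsRankOnePair A (Cfsg.conjBy A y) ∧ Subgroup.normalClosure (A : Set Y) = A ⊔ Cfsg.conjBy A y := by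
  rw [conjBy_eq]
  have hy' : y • α ≠ α := hy
  have dep : ∀ g g' : Y, g • α = g' • α → cj g A = cj g' A := by
    intro g g' e
    have : cj (g'⁻¹ * g) A = A := hAn _ (by
      rw [MulAction.mem_stabilizer_iff, mul_smul, e, inv_smul_smul])
    rw [← cj_cj, cj_eq_iff, inv_inv] at this
    exact this
  have hfixB : ∀ b ∈ cj y A, b • y • α = y • α := by
    intro b hb
    obtain ⟨a, ha, rfl⟩ := mem_cj'.1 hb
    have : a • α = α := hA ha
    simp [mul_smul, this]
  have hfree : ∀ a ∈ A, ∀ β, β ≠ α → a • β = β → a = 1 := by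
    intro a ha β hβ e
    exact (hreg β β hβ hβ).unique ⟨ha, e⟩ ⟨A.one_mem, one_smul _ _⟩
  refine ⟨r1_mk ?_ hnil (nilpotent_cj y hnil) ?_ ?_, ?_⟩
  · intro e
    have : ∃ γ, γ ≠ α ∧ γ ≠ y • α := by
      by_contra hc
      push Not at hc
      have : (Set.univ : Set Ω) ⊆ {α, y • α} := by
        intro γ _
        by_cases h : γ = α
        · simp [h]
        · simp [hc γ h]
      have h1 := Set.encard_le_encard this
      rw [Set.encard_univ] at h1
      have h2 := Set.encard_insert_le ({y • α} : Set Ω) α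
      rw [Set.encard_singleton] at h2
      have := hΩ.trans (h1.trans h2)
      norm_num at this
    obtain ⟨γ, h1, h2⟩ := this
    obtain ⟨a, ⟨ha, e'⟩, -⟩ := hreg (y • α) γ hy' h1
    exact h2 (e' ▸ hfixB a (e ▸ ha))
  · intro a ha ha1
    have hα : a • α = α := hA ha
    have h1 : y⁻¹ • α ≠ α := by rw [Ne, inv_smul_eq_iff]; exact hy'.symm
    have h2 : y⁻¹ • a • y • α ≠ α := by
      rw [Ne, inv_smul_eq_iff]
      exact fun e => ha1 (hfree a ha _ hy' e)
    obtain ⟨c, ⟨hc, e⟩, -⟩ := hreg _ _ h1 h2
    refine ⟨y * c * y⁻¹, conj_mem_cj hc, ?_, ?_⟩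
    · intro e1
      have : c = 1 := by simpa using e1
      rw [this, one_smul, smul_left_cancel_iff] at e
      apply hy'
      rw [← smul_left_cancel_iff a, ← e, hα]
    · rw [cj_cj]
      apply dep
      simp [mul_smul, e]
  · intro b hb hb1
    have h1 : b • α ≠ α := by
      obtain ⟨a, ha, rfl⟩ := mem_cj'.1 hb
      intro e
      have h1 : y⁻¹ • α ≠ α := by rw [Ne, inv_smul_eq_iff]; exact hy'.symm
      have := hfree a ha _ h1 (by rw [eq_inv_smul_iff]; simpa [mul_smul] using e)
      exact hb1 (by simp [this])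
    obtain ⟨a, ⟨ha, e⟩, -⟩ := hreg _ _ hy' h1
    refine ⟨a, ha, ?_, ?_⟩
    · rintro rfl
      rw [one_smul, ← hfixB b hb, smul_left_cancel_iff] at e
      exact hy' e
    · rw [cj_cj]
      apply dep
      simp [mul_smul, e]
  · apply le_antisymm
    · rw [Subgroup.normalClosure, Subgroup.closure_le]
      intro x hx
      obtain ⟨a, ha, hc⟩ := Group.mem_conjugatesOfSet_iff.1 hx
      obtain ⟨g, rfl⟩ := isConj_iff.1 hc
      have h1 : g * a * g⁻¹ ∈ cj g A := conj_mem_cj ha
      by_cases hg : g • α = α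
      · rw [dep g 1 (by simpa using hg), cj_one] at h1
        exact Subgroup.mem_sup_left h1
      · obtain ⟨c, ⟨hc, e⟩, -⟩ := hreg _ _ hy' hg
        rw [dep g (c * y) (by rw [mul_smul, e]), ← cj_cj] at h1
        exact cj_le_of_mem (Subgroup.mem_sup_left hc) le_sup_right h1
    · refine sup_le Subgroup.le_normalClosure ?_
      rw [← cj_of_normal y (Subgroup.normalClosure (A : Set Y))]
      exact cj_le_cj.2 Subgroup.le_normalClosure

end Cfsg.Agent.S5015
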