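import Cfsg.Statements.S5017
import Cfsg.Agent.H9.RankOne
-- import your own Cfsg.Agent.* helpers here

set_option autoImplicit false
open Cfsg

namespace Cfsg.Agent.S5017
open CfsgH9

/-- Let X be a rank one group with unipotent subgroups A and B and N a normal subgroup of X. Then either X = N A or N lies in the centre of X. Consequently a perfect rank one group is quasisimple. -/
theorem result {X : Type*} [Group X] {A B : Subgroup X} (h : Cfsg.IsRankOneGroup X A B) :
    (∀ N : Subgroup X, N.Normal → N ⊔ A = ⊤ ∨ N ≤ Subgroup.center X) ∧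
    (Group.IsPerfect X → Cfsg.IsQuasisimple X) := by
  obtain ⟨htop, h⟩ := h
  have key : ∀ N : Subgroup X, N.Normal → N ⊔ A = ⊤ ∨ N ≤ Subgroup.center X := by
    intro N hN
    rcases r1_normal_dichotomy h (N := N) (fun x _ => cj_of_normal x N) (by rw [htop]; exact le_top) with
      ⟨n, hn, e⟩ | hc
    · left
      rw [eq_top_iff, ← htop]
      refine sup_le le_sup_right ?_
      rw [← e]
      exact cj_le_of_mem (Subgroup.mem_sup_left hn) le_sup_right
    · right
      intro n hn
      rw [Subgroup.mem_center_iff]
      intro g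
      exact (hc n hn g (by rw [htop]; trivial)).symm
  refine ⟨key, fun hp => ⟨hp, ?_⟩⟩
  have hnt : Nontrivial (X ⧸ Subgroup.center X) := by
    rw [QuotientGroup.nontrivial_iff]
    intro hc
    apply r1_not_comm h
    intro a _ b _
    have : a ∈ Subgroup.center X := by rw [hc]; trivial
    exact (Subgroup.mem_center_iff.1 this b).symm
  refine ⟨fun N hN => ?_⟩
  rcases key (N.comap (QuotientGroup.mk' _)) inferInstance with h1 | h1
  · right
    set M := N.comap (QuotientGroup.mk' (Subgroup.center X))
    have hnil : Group.IsNilpotent (X ⧸ M) := by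
      have := h.nilpotent_left
      refine Group.nilpotent_of_surjective ((QuotientGroup.mk' M).comp A.subtype) ?_
      intro q
      obtain ⟨x, rfl⟩ := QuotientGroup.mk'_surjective M q
      have hx : x ∈ ((M ⊔ A : Subgroup X) : Set X) := by rw [h1]; trivial
      rw [Subgroup.normal_mul] at hx
      obtain ⟨m, hm, a, ha, rfl⟩ := hx
      refine ⟨⟨a, ha⟩, ?_⟩
      simp [(QuotientGroup.eq_one_iff m).2 hm]
    have hs : Subsingleton (X ⧸ M) := by
      by_contra hs
      rw [not_subsingleton_iff_nontrivial] at hs
      exact Group.IsPerfect.not_isNilpotent (X ⧸ M) hnil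
    have hM : M = ⊤ := QuotientGroup.subgroup_eq_top_of_subsingleton M hs
    rw [eq_top_iff]
    intro q _
    obtain ⟨x, rfl⟩ := QuotientGroup.mk'_surjective _ q
    have : x ∈ M := by rw [hM]; trivial
    exact this
  · left
    rw [eq_bot_iff]
    intro q hq
    obtain ⟨x, rfl⟩ := QuotientGroup.mk'_surjective _ q
    exact (QuotientGroup.eq_one_iff x).2 (h1 hq)

end Cfsg.Agent.S5017
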