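import Cfsg.Statements.S5018
import Cfsg.Agent.H9.RankOne
-- import your own Cfsg.Agent.* helpers here

set_option autoImplicit false
open Cfsg

namespace Cfsg.Agent.S5018
open CfsgH9

/-- A rank one group is not nilpotent, and its second centre equals its centre. -/
theorem result {X : Type*} [Group X] {A B : Subgroup X} (h : Cfsg.IsRankOneGroup X A B) :
    Subgroup.upperCentralSeries X 2 = Subgroup.center X ∧ ¬ Group.IsNilpotent X := by
  obtain ⟨htop, h⟩ := h
  have key : Subgroup.upperCentralSeries X 2 = Subgroup.center X := by
    apply le_antisymm
    · intro z hz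
      rw [Subgroup.mem_center_iff]
      intro g
      refine (r1_second_centre h (z := z) (by rw [htop]; trivial) ?_ g (by rw [htop]; trivial)).symm
      intro x _ y _
      have := Subgroup.mem_upperCentralSeries_succ_iff.1 hz x
      rw [Subgroup.upperCentralSeries_one, Subgroup.mem_center_iff] at this
      exact (this y).symm
    · rw [← Subgroup.upperCentralSeries_one]
      exact Subgroup.upperCentralSeries_mono X one_le_two
  refine ⟨key, fun hn => ?_⟩
  have := Subgroup.upperCentralSeries.eq_top (G := X) (a := 1) (b := 2) (by norm_num)
    (by rw [key, Subgroup.upperCentralSeries_one])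
  rw [Subgroup.upperCentralSeries_one] at this
  apply r1_not_comm h
  intro a _ b _
  have : a ∈ Subgroup.center X := by rw [this]; trivial
  exact (Subgroup.mem_center_iff.1 this b).symm

end Cfsg.Agent.S5018
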