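import Cfsg.Statements.S5020
import Cfsg.Agent.H9.SpPrime
import Cfsg.Agent.H9.Quasi
import Cfsg.Agent.S5017
-- import your own Cfsg.Agent.* helpers here

set_option autoImplicit false
open Cfsg

namespace Cfsg.Agent.S5020
open CfsgH9
theorem le_closure_of_prime {X : Type*} [Group X] {A K : Subgroup X} {p : ℕ} [hp : Fact p.Prime]
    (hc : Nat.card A = p) {a : X} (ha : a ∈ A) (ha1 : a ≠ 1) (haK : a ∈ K) : A ≤ K := by
  have h1 : (K.subgroupOf A) = ⊥ ∨ K.subgroupOf A = ⊤ := by
    have : Fact (Nat.card A).Prime := ⟨hc ▸ hp.out⟩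
    exact Subgroup.eq_bot_or_eq_top_of_prime_card _
  rcases h1 with h1 | h1
  · exfalso
    have : (⟨a, ha⟩ : A) ∈ K.subgroupOf A := haK
    rw [h1, Subgroup.mem_bot] at this
    exact ha1 (congrArg Subtype.val this)
  · exact Subgroup.subgroupOf_eq_top.1 h1

theorem small {X : Type*} [Group X] {A B : Subgroup X} (h : Cfsg.IsRankOneGroup X A B)
    (hs : Cfsg.IsSpecialRankOnePair A B) (hA : Comm A A) (hB : Comm B B) {p : ℕ} [Fact p.Prime]
    (hc : Nat.card A = p) : ∃ φ : Matrix.SpecialLinearGroup (Fin 2) (ZMod p) →* X, φ.range = ⊤ ∧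
      (φ.ker = ⊥ ∨ φ.ker = Subgroup.center _) := by
  obtain ⟨a, ha, ha1⟩ := r1_ex_ne_one hs.1
  have hp : a ^ p = 1 := by
    have := pow_card_eq_one' (G := A) (x := ⟨a, ha⟩)
    rw [hc] at this
    exact congrArg Subtype.val this
  obtain ⟨φ, hr, hk⟩ := special_prime_hom hs hA hB ha ha1 hp
  refine ⟨φ, ?_, hk⟩
  rw [hr, eq_top_iff, ← h.1]
  have hcB : Nat.card B = p := by
    rw [← hc, ← mu_cj_left hs ha ha1]
    exact (Nat.card_congr (Subgroup.equivMapOfInjective A _ (MulAut.conj _).injective).toEquiv).symm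
  obtain ⟨h1, h2, -⟩ := prt_spec hs.1 ha ha1
  exact sup_le (le_closure_of_prime hc ha ha1 (Subgroup.subset_closure (by simp)))
    (le_closure_of_prime hcB h1 h2 (Subgroup.subset_closure (by simp)))

/-- Let X be a special rank one group with abelian unipotent subgroups A and B, and H = N(A) ∩ N(B) its diagonal subgroup. Then either A has at most three elements and X is isomorphic to SL₂(2), SL₂(3) or PSL₂(3); or X = X' A with the commutator subgroup X' quasisimple and the commutator subgroup ⁅A, H⁆ having more than three elements. -/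
theorem result {X : Type*} [Group X] {A B : Subgroup X} (h : Cfsg.IsRankOneGroup X A B)
    (hs : Cfsg.IsSpecialRankOnePair A B) (hab : Cfsg.HasAbelianUnipotents A B) :
    (ENat.card A ≤ 3 ∧ (Nonempty (X ≃* Matrix.SpecialLinearGroup (Fin 2) (ZMod 2)) ∨
        Nonempty (X ≃* Matrix.SpecialLinearGroup (Fin 2) (ZMod 3)) ∨
        Nonempty (X ≃* Matrix.ProjectiveSpecialLinearGroup (Fin 2) (ZMod 3)))) ∨
    (commutator X ⊔ A = ⊤ ∧ Cfsg.IsQuasisimple (commutator X) ∧
      3 < ENat.card ↥(⁅A, Cfsg.rankOneDiagonal A B⁆ : Subgroup X)) := by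
  have hcA : Comm A A := comm_self_iff.2 hab.1
  have hcB : Comm B B := comm_self_iff.2 hab.2
  by_cases hc : ENat.card A ≤ 3
  · left
    refine ⟨hc, ?_⟩
    have hfin : Finite A := by
      rw [← ENat.card_lt_top]
      exact lt_of_le_of_lt hc (by decide)
    have hle : Nat.card A ≤ 3 := by
      rw [ENat.card_eq_coe_natCard] at hc
      exact_mod_cast hc
    have hnt : Nontrivial A := (Subgroup.nontrivial_iff_ne_bot A).2 (r1_left_ne_bot hs.1)
    have hgt : 1 < Nat.card A := Finite.one_lt_card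
    have h23 : Nat.card A = 2 ∨ Nat.card A = 3 := by omega
    rcases h23 with h2 | h3
    · left
      obtain ⟨φ, hr, hk⟩ := small h hs hcA hcB h2
      have hk' : φ.ker = ⊥ := by
        rcases hk with hk | hk
        · exact hk
        · rw [hk]; exact sl2_center_two (by decide)
      exact ⟨(MulEquiv.ofBijective φ ⟨(MonoidHom.ker_eq_bot_iff φ).1 hk', MonoidHom.range_eq_top.1 hr⟩).symm⟩
    · right
      obtain ⟨φ, hr, hk⟩ := small h hs hcA hcB h3
      rcases iso_of_ker φ hr hk with ⟨⟨e⟩⟩ | ⟨⟨e⟩⟩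
      · exact Or.inl ⟨Subgroup.topEquiv.symm.trans e⟩
      · exact Or.inr ⟨Subgroup.topEquiv.symm.trans e⟩
  · right
    have hc' : 3 < ENat.card A := lt_of_not_ge hc
    have hperf : commutator X = ⊤ := by
      have := special_perfect hs hcA hcB hc'
      rwa [h.1] at this
    refine ⟨by rw [hperf, top_sup_eq], ?_, ?_⟩
    · rw [hperf]
      exact isQuasisimple_top ((S5017.result h).2 ⟨hperf⟩)
    · refine lt_of_lt_of_le hc' ?_
      exact ENat.card_le_card_of_injective (Subgroup.inclusion_injective (le_commutator_diagonal hs hcA hcB hc'))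

end Cfsg.Agent.S5020
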