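import Cfsg.Statements.S5021
import Cfsg.Agent.H9.Special
-- import your own Cfsg.Agent.* helpers here

set_option autoImplicit false
open Cfsg

namespace Cfsg.Agent.S5021
open CfsgH9

/-- In a special rank one group with abelian unipotent subgroups A and B, either A is an elementary abelian p-group for some prime p, or A is torsion-free and divisible (every element of A has an n-th root in A for every positive n). -/
theorem result {X : Type*} [Group X] {A B : Subgroup X} (h : Cfsg.IsRankOneGroup X A B)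
    (hs : Cfsg.IsSpecialRankOnePair A B) (hab : Cfsg.HasAbelianUnipotents A B) :
    (∃ p : ℕ, p.Prime ∧ Cfsg.IsElementaryAbelian p A) ∨
    ((∀ a ∈ A, a ≠ 1 → ¬ IsOfFinOrder a) ∧ ∀ a ∈ A, ∀ n : ℕ, 0 < n → ∃ c ∈ A, c ^ n = a) := by
  have hA := comm_self_iff.2 hab.1
  have hB := comm_self_iff.2 hab.2
  by_cases ht : ∀ a ∈ A, a ≠ 1 → ¬ IsOfFinOrder a
  · refine Or.inr ⟨ht, fun a ha n hn => ?_⟩
    by_cases ha1 : a = 1
    · exact ⟨1, A.one_mem, by simp [ha1]⟩
    · exact exists_root hs hA hB ha n fun e => ht a ha ha1 (isOfFinOrder_iff_pow_eq_one.2 ⟨n, hn, e⟩)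
  · left
    push Not at ht
    obtain ⟨a, ha, ha1, hfin⟩ := ht
    have hn : orderOf a ≠ 1 := by simpa using ha1
    have hp := Nat.minFac_prime hn
    have ho := orderOf_pow_orderOf_div hfin.orderOf_pos.ne' (Nat.minFac_dvd (orderOf a))
    refine ⟨_, hp, hab.1, pow_eq_one_of_prime hs hA hB
      (A.pow_mem ha (orderOf a / (orderOf a).minFac)) ?_ hp ?_⟩
    · intro e
      rw [e, orderOf_one] at ho
      exact hp.one_lt.ne ho
    · nth_rewrite 2 [← ho]
      exact pow_orderOf_eq_one _

end Cfsg.Agent.S5021
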