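import Cfsg.Statements.S5022
import Cfsg.Agent.H9.SpPrime
-- import your own Cfsg.Agent.* helpers here

set_option autoImplicit false
open Cfsg

namespace Cfsg.Agent.S5022
open CfsgH9

/-- Let X be a special rank one group with abelian unipotent subgroups A and B, where A is an elementary abelian p-group for the prime p. Then for every non-identity a in A and the non-identity b in B with b⁻¹ A b = a⁻¹ B a, the subgroup generated by a and b is isomorphic to SL₂(p) or to PSL₂(p). -/
theorem result {X : Type*} [Group X] {A B : Subgroup X} (h : Cfsg.IsRankOneGroup X A B)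
    (hs : Cfsg.IsSpecialRankOnePair A B) (hab : Cfsg.HasAbelianUnipotents A B)
    {p : ℕ} [Fact p.Prime] (hA : Cfsg.IsElementaryAbelian p A)
    {a b : X} (ha : a ∈ A) (ha1 : a ≠ 1) (hb : b ∈ B) (hb1 : b ≠ 1) (hab' : Cfsg.conjBy A b⁻¹ = Cfsg.conjBy B a⁻¹) :
    Nonempty (↥(Subgroup.closure ({a, b} : Set X)) ≃* Matrix.SpecialLinearGroup (Fin 2) (ZMod p)) ∨
    Nonempty (↥(Subgroup.closure ({a, b} : Set X)) ≃* Matrix.ProjectiveSpecialLinearGroup (Fin 2) (ZMod p)) := by
  have hcA : Comm A A := comm_self_iff.2 hab.1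
  have hcB : Comm B B := comm_self_iff.2 hab.2
  have hb' : prt A B a = b := by
    have h1 := prt_eq hs.1 (A.inv_mem ha) (inv_ne_one.2 ha1) (B.inv_mem hb) hab'
    rw [prt_inv hs ha ha1, inv_inj] at h1
    exact h1
  obtain ⟨φ, hr, hk⟩ := special_prime_hom hs hcA hcB ha ha1 (hA.2 a ha)
  rw [hb'] at hr
  exact iso_of_ker φ hr hk

end Cfsg.Agent.S5022
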