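import Cfsg.Statements.S5023
import Cfsg.Agent.H9.QuadMod
-- import your own Cfsg.Agent.* helpers here

set_option autoImplicit false
open Cfsg

namespace Cfsg.Agent.S5023
open CfsgH9

/-- Let X be a rank one group with unipotent subgroups A and B that acts faithfully on an abelian group V (written additively) with A acting quadratically: a' • (a • v − v) = a • v − v for all a, a' in A and v in V. Then A is either torsion-free or an elementary abelian p-group for some prime p. -/
theorem result {X : Type*} [Group X] {A B : Subgroup X} (h : Cfsg.IsRankOneGroup X A B)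
    {V : Type*} [AddCommGroup V] [DistribMulAction X V] (hf : ∀ x : X, (∀ v : V, x • v = v) → x = 1)
    (hq : ∀ a ∈ A, ∀ a' ∈ A, ∀ v : V, a' • (a • v - v) = a • v - v) :
    (∀ a ∈ A, a ≠ 1 → ¬ IsOfFinOrder a) ∨ ∃ p : ℕ, p.Prime ∧ Cfsg.IsElementaryAbelian p A := by
  obtain ⟨htop, h⟩ := h
  have comm : ∀ x y : X, (∀ v : V, y • (x • v - v) = x • v - v) →
      (∀ v : V, x • (y • v - v) = y • v - v) → x * y = y * x := by
    intro x y h1 h2
    have : (y * x)⁻¹ * (x * y) = 1 := by
      apply hf
      intro v
      rw [mul_smul, inv_smul_eq_iff, mul_smul, mul_smul]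
      have e1 := h1 v
      have e2 := h2 v
      rw [smul_sub, sub_eq_iff_eq_add] at e1 e2
      rw [e1, e2]; abel
    exact (inv_mul_eq_one.1 this).symm
  have hX : ∃ x ∈ A ⊔ B, ∃ n : V, x • n - n ∉ fixAdd V (A ⊔ B) := by
    by_contra hc
    push Not at hc
    apply r1_not_comm h
    intro a ha b hb
    have ha := Subgroup.mem_sup_left (T := B) ha
    have hb := Subgroup.mem_sup_right (S := A) hb
    exact comm a b (fun v => hc a ha v b hb) (fun v => hc b hb v a ha)
  by_cases ht : ∀ a ∈ A, a ≠ 1 → ¬ IsOfFinOrder a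
  · exact Or.inl ht
  · right
    push Not at ht
    obtain ⟨a, ha, ha1, hfin⟩ := ht
    have hn : orderOf a ≠ 1 := by simpa using ha1
    have hp := Nat.minFac_prime hn
    refine ⟨_, hp, ⟨⟨fun x y => Subtype.ext (comm x y (fun v => hq x x.2 y y.2 v)
      (fun v => hq y y.2 x x.2 v))⟩⟩, ?_⟩
    have ho := orderOf_pow_orderOf_div hfin.orderOf_pos.ne' (Nat.minFac_dvd (orderOf a))
    refine pow_eq_one_of_quadratic (N := V) h (fun a ha n a' ha' => hq a ha a' ha' n) hX
      (A.pow_mem ha (orderOf a / (orderOf a).minFac)) ?_ ?_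
    · intro e
      rw [e, orderOf_one] at ho
      exact hp.one_lt.ne ho
    · nth_rewrite 2 [← ho]
      exact pow_orderOf_eq_one _

end Cfsg.Agent.S5023
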