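import Cfsg.Statements.S5026
import Cfsg.Agent.H9.Root
-- import your own Cfsg.Agent.* helpers here

set_option autoImplicit false
open Cfsg

namespace Cfsg.Agent.S5026
open CfsgH9
theorem aux {G : Type*} [Group G] {S : Set (Subgroup G)} (hS : Cfsg.IsRootSubgroupSet S)
    (hdeg : Cfsg.IsDegenerateRootSet S) {a b : G} (ha : a ∈ Cfsg.rootElements S)
    (hb : b ∈ Cfsg.rootElements S) (hab : a * b = b * a) (hab1 : a * b ≠ 1) {C : Subgroup G} (hC : C ∈ S)
    (h : ∀ c ∈ C, c * (a * b) = (a * b) * c) : ∀ c ∈ C, c * a = a * c := by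
  obtain ⟨ha1, A, hA, ha⟩ := ha
  obtain ⟨hb1, B, hB, hb⟩ := hb
  rcases rs_pair hS hA hC with h1 | h1 | h1
  · exact fun c hc => (h1 a ha c hc).symm
  · exfalso
    have e : cj (b * a) C = C := cj_eq_of_centralizes fun c hc => by rw [← hab, h c hc]
    have e2 : cj b⁻¹ C = cj a C := by
      rw [← cj_cj, cj_eq_iff] at e; exact e.symm
    have h2 := mem_Om_of_cj_eq hS hA hC hB h1 ha ha1 (B.inv_mem hb) e2
    have h3 := eq_of_fix_Om h1 h2 left_mem_Om hb hb1
      (fix_of_commute_Om h1 (le_of_mem_Om h2 hb) ha ha1 hab.symm)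
    subst h3
    exact hab1 (hab ▸ r1_eq_one_of_fix h1 (B.mul_mem hb ha) e)
  · exact absurd h1 (hdeg A hA C hC)

theorem mem_iff {G : Type*} [Group G] {S : Set (Subgroup G)} {x : G} {C : Subgroup G} :
    C ∈ Cfsg.centralizingMembers S (Subgroup.zpowers x) ↔ C ∈ S ∧ ∀ c ∈ C, c * x = x * c := by
  unfold Cfsg.centralizingMembers
  rw [Set.mem_setOf_eq, ← comm_iff_le_centralizer]
  refine and_congr_right fun _ => ⟨fun h c hc => h c hc x (Subgroup.mem_zpowers x), fun h => ?_⟩
  apply Comm.symm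
  rw [comm_iff_le_centralizer, Subgroup.zpowers_le]
  exact h


/-- Let S be a degenerate set of abstract root subgroups of G (a set of abstract transvection groups) and let a, b be commuting non-identity elements of members of S with a b ≠ 1. Then the members of S centralizing a b are exactly those centralizing both a and b. -/
theorem result {G : Type*} [Group G] {S : Set (Subgroup G)} (hS : Cfsg.IsRootSubgroupSet S) (hdeg : Cfsg.IsDegenerateRootSet S)
    {a b : G} (ha : a ∈ Cfsg.rootElements S) (hb : b ∈ Cfsg.rootElements S) (hab : a * b = b * a) (hab1 : a * b ≠ 1) :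
    Cfsg.centralizingMembers S (Subgroup.zpowers (a * b)) =
      Cfsg.centralizingMembers S (Subgroup.zpowers a) ∩ Cfsg.centralizingMembers S (Subgroup.zpowers b) := by
  ext C
  rw [Set.mem_inter_iff, mem_iff, mem_iff, mem_iff]
  constructor
  · rintro ⟨hC, h⟩
    exact ⟨⟨hC, aux hS hdeg ha hb hab hab1 hC h⟩, hC, aux hS hdeg hb ha hab.symm (hab ▸ hab1) hC (hab ▸ h)⟩
  · rintro ⟨⟨hC, h1⟩, -, h2⟩
    exact ⟨hC, fun c hc => by rw [← mul_assoc, h1 c hc, mul_assoc, h2 c hc, mul_assoc]⟩

end Cfsg.Agent.S5026
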