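import Cfsg.Statements.S5027
import Cfsg.Agent.H9.Root
-- import your own Cfsg.Agent.* helpers here

set_option autoImplicit false
open Cfsg

namespace Cfsg.Agent.S5027
open CfsgH9

/-- Let S be a set of abstract root subgroups of G such that every member of S has a rank one partner in S (the graph of rank one pairs on S has no isolated vertex). Then the second centre of G equals its centre. -/
theorem result {G : Type*} [Group G] {S : Set (Subgroup G)} (hS : Cfsg.IsRootSubgroupSet S)
    (hF : ∀ A ∈ S, ¬ Cfsg.IsIsolatedIn (Cfsg.FAdj S) S A) : Subgroup.upperCentralSeries G 2 = Subgroup.center G := by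
  apply le_antisymm
  · intro z hz
    have : (⨆ A ∈ S, A) ≤ Subgroup.centralizer {z} := by
      refine iSup₂_le fun A hA a ha => ?_
      rw [Subgroup.mem_centralizer_singleton_iff]
      by_cases ha1 : a = 1
      · simp [ha1]
      obtain ⟨B, hB, hr⟩ := ni_of_not_isolated hA (hF A hA)
      have h1 := Subgroup.mem_upperCentralSeries_succ_iff.1 hz a
      rw [Subgroup.upperCentralSeries_one, Subgroup.mem_center_iff] at h1
      rw [commutatorElement_def] at h1
      have e : z * a * z⁻¹ * a⁻¹ * a = z * a * z⁻¹ := by group
      have := eq_one_of_central_translate hS hA hB (rs_cj hS hA z) hr ha ha1 (fun x _ => (h1 x).symm)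
        (fun x _ => (h1 x).symm) (by rw [e]; exact conj_mem_cj ha) (by rw [e]; simpa using ha1)
      rw [mul_inv_eq_one, mul_inv_eq_iff_eq_mul] at this
      exact this.symm
    rw [hS.generates] at this
    rw [Subgroup.mem_center_iff]
    exact fun g => Subgroup.mem_centralizer_singleton_iff.1 (this (Subgroup.mem_top g))
  · rw [← Subgroup.upperCentralSeries_one]
    exact Subgroup.upperCentralSeries_mono G one_le_two

end Cfsg.Agent.S5027
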