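import Cfsg.Statements.S5029
import Cfsg.Agent.H9.Root
-- import your own Cfsg.Agent.* helpers here

set_option autoImplicit false
open Cfsg

namespace Cfsg.Agent.S5029
open CfsgH9

/-- Let S be a set of abstract root subgroups of G, A ∈ S having a rank one partner in S, and B ∈ S with C = ⁅A, B⁆ ∈ S. Then the members of S contained in AC are the conjugates of A by elements of B together with C, they partition AC, the members of S inside AC partition AC so that A is a line partner of C, and for every non-identity a ∈ A the map b ↦ a⁻¹ b⁻¹ a b is an isomorphism from B onto C. -/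
theorem result {G : Type*} [Group G] {S : Set (Subgroup G)} (hS : Cfsg.IsRootSubgroupSet S)
    {A B : Subgroup G} (hA : ¬ Cfsg.IsIsolatedIn (Cfsg.FAdj S) S A) (hAS : A ∈ S) (hB : B ∈ S) (hC : ⁅A, B⁆ ∈ S) :
    Cfsg.membersIn S (A ⊔ ⁅A, B⁆) = (fun b : G => Cfsg.conjBy A b) '' (B : Set G) ∪ {⁅A, B⁆} ∧
    Cfsg.IsSubgroupPartition (A ⊔ ⁅A, B⁆) (Cfsg.membersIn S (A ⊔ ⁅A, B⁆)) ∧
    A ∈ Cfsg.linePartners S ⁅A, B⁆ ∧
    ∀ a ∈ A, a ≠ 1 → ∃ φ : ↥B ≃* ↥⁅A, B⁆, ∀ b : ↥B, (φ b : G) = a⁻¹ * (b : G)⁻¹ * a * b := by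
  have h := rc_of_commutator_mem hS hAS hB hC
  have hni := ni_of_not_isolated hAS hA
  refine ⟨?_, rc_partition hS hAS h hni, line_symm hAS (rc_line hS hAS h hni), ?_⟩
  · ext E
    constructor
    · rintro ⟨hE, hle⟩
      rcases rc_members hS hAS h hni hE hle with ⟨b, hb, rfl⟩ | rfl
      · exact Or.inl ⟨b, hb, rfl⟩
      · exact Or.inr rfl
    · rintro (⟨b, hb, rfl⟩ | rfl)
      · exact ⟨rs_cj hS hAS b, cj_le_sup_commutator hb⟩
      · exact ⟨hC, le_sup_right⟩
  · intro a ha ha1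
    have hm : ∀ b : B, a⁻¹ * (b : G)⁻¹ * a * b ∈ ⁅A, B⁆ := fun b => by
      simpa using comm_mem (A.inv_mem ha) (B.inv_mem b.2)
    let f : B →* ↥⁅A, B⁆ := MonoidHom.mk' (fun b => ⟨_, hm b⟩) (by
      intro b b'
      apply Subtype.ext
      have := comm_mul_right_of (rc_comm_right h) (A.inv_mem ha) (B.inv_mem b.2) (B.inv_mem b'.2)
      have hc := rs_comm_self hS hB _ b.2 _ b'.2
      simp only [inv_inv] at this
      simp only [Subgroup.coe_mul, ← this]
      rw [← mul_inv_rev (b' : G) b, ← hc, inv_inv])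
    refine ⟨MulEquiv.ofBijective f ⟨?_, ?_⟩, fun b => rfl⟩
    · rw [injective_iff_map_eq_one]
      intro b hb
      have : a⁻¹ * (b : G)⁻¹ * a * b = 1 := congrArg Subtype.val hb
      apply Subtype.ext
      refine rc_inj hS hAS h hni ha b.2 ha1 ?_
      calc a * b = b * a * (a⁻¹ * (b : G)⁻¹ * a * b) := by group
        _ = _ := by rw [this, mul_one]
    · rintro ⟨c, hc⟩
      obtain ⟨b, hb, rfl⟩ := rc_surj h (A.inv_mem ha) (inv_ne_one.2 ha1) hc
      exact ⟨⟨b⁻¹, B.inv_mem hb⟩, Subtype.ext (by simp [f])⟩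

end Cfsg.Agent.S5029
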