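import Cfsg.Statements.S5030
import Cfsg.Agent.H9.Lines
-- import your own Cfsg.Agent.* helpers here

set_option autoImplicit false
open Cfsg

namespace Cfsg.Agent.S5030
open CfsgH9
section Aux
open scoped commutatorElement
variable {G : Type*} [Group G]

/-- elements of `R` whose commutators with `M` lie in `L` -/
def Tc (L M R : Subgroup G) (hL : ∀ r ∈ R, cj r L = L) : Subgroup G where
  carrier := {x | x ∈ R ∧ ∀ y ∈ M, x * y * x⁻¹ * y⁻¹ ∈ L}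
  one_mem' := ⟨R.one_mem, fun y _ => by simp⟩
  mul_mem' := by
    rintro x x' ⟨hx, h⟩ ⟨hx', h'⟩
    refine ⟨R.mul_mem hx hx', fun y hy => ?_⟩
    have e : x * x' * y * (x * x')⁻¹ * y⁻¹ = (x * (x' * y * x'⁻¹ * y⁻¹) * x⁻¹) * (x * y * x⁻¹ * y⁻¹) := by
      group
    rw [e]
    exact L.mul_mem (hL x hx ▸ conj_mem_cj (h' y hy)) (h y hy)
  inv_mem' := by
    rintro x ⟨hx, h⟩
    refine ⟨R.inv_mem hx, fun y hy => ?_⟩
    have e : x⁻¹ * y * x⁻¹⁻¹ * y⁻¹ = x⁻¹ * (x * y * x⁻¹ * y⁻¹)⁻¹ * x⁻¹⁻¹ := by group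
    rw [e]
    exact hL x⁻¹ (R.inv_mem hx) ▸ conj_mem_cj (L.inv_mem (h y hy))

theorem le_Tc {L M R K : Subgroup G} (hL : ∀ r ∈ R, cj r L = L) :
    K ≤ Tc L M R hL ↔ K ≤ R ∧ ⁅K, M⁆ ≤ L := by
  constructor
  · intro h
    refine ⟨fun x hx => (h hx).1, Subgroup.commutator_le.2 fun x hx y hy => (h hx).2 y hy⟩
  · rintro ⟨h1, h2⟩ x hx
    exact ⟨h1 hx, fun y hy => h2 (comm_mem hx hy)⟩

theorem cl_left {L M R K₁ K₂ : Subgroup G} (hL : ∀ r ∈ R, cj r L = L) (h1 : K₁ ≤ R) (h2 : K₂ ≤ R)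
    (h3 : ⁅K₁, M⁆ ≤ L) (h4 : ⁅K₂, M⁆ ≤ L) : ⁅K₁ ⊔ K₂, M⁆ ≤ L :=
  ((le_Tc hL).1 (sup_le ((le_Tc hL).2 ⟨h1, h3⟩) ((le_Tc hL).2 ⟨h2, h4⟩))).2

theorem cl_right {L M R K₁ K₂ : Subgroup G} (hL : ∀ r ∈ R, cj r L = L) (h1 : K₁ ≤ R) (h2 : K₂ ≤ R)
    (h3 : ⁅M, K₁⁆ ≤ L) (h4 : ⁅M, K₂⁆ ≤ L) : ⁅M, K₁ ⊔ K₂⁆ ≤ L := by
  rw [Subgroup.commutator_comm] at h3 h4 ⊢
  exact cl_left hL h1 h2 h3 h4

theorem cl_comm {L K M : Subgroup G} (h : Comm K M) : ⁅K, M⁆ ≤ L := by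
  rw [comm_iff.1 h]; exact bot_le

theorem cl_symm {L K M : Subgroup G} (h : ⁅K, M⁆ ≤ L) : ⁅M, K⁆ ≤ L := by
  rwa [Subgroup.commutator_comm]

theorem cj_centralizer {N : Subgroup G} : ∀ r ∈ N, cj r (Subgroup.centralizer (N : Set G)) =
    Subgroup.centralizer (N : Set G) := fun r hr =>
  cj_eq_of_centralizes fun z hz => Subgroup.mem_centralizer_iff.1 hz r hr

theorem class_two {X K : Subgroup G} (hX : Comm X X) (hK : Comm K K) (h1 : Comm ⁅X, K⁆ X)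
    (h2 : Comm ⁅X, K⁆ K) : Comm ⁅X ⊔ K, X ⊔ K⁆ (X ⊔ K) := by
  rw [comm_iff_le_centralizer]
  have h3 : ⁅X, K⁆ ≤ Subgroup.centralizer ((X ⊔ K : Subgroup G) : Set G) :=
    comm_iff_le_centralizer.1 (h1.sup_right h2)
  refine cl_left cj_centralizer le_sup_left le_sup_right ?_ ?_
  · exact cl_right cj_centralizer le_sup_left le_sup_right (cl_comm hX) h3
  · exact cl_right cj_centralizer le_sup_left le_sup_right (cl_symm h3) (cl_comm hK)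

theorem commutator_le_self (X : Subgroup G) : ⁅X, X⁆ ≤ X := by
  simpa using Subgroup.commutator_le_sup X X

variable {S : Set (Subgroup G)} {A B C : Subgroup G}

theorem pair_class_two (hS : IsRootSubgroupSet S) (hA : A ∈ S) (hC : C ∈ S) (h : ¬ IsRankOnePair A C) :
    Comm ⁅A ⊔ C, A ⊔ C⁆ (A ⊔ C) := by
  rcases rs_pair hS hA hC with h1 | h1 | h1
  · refine class_two (rs_comm_self hS hA) (rs_comm_self hS hC) ?_ ?_ <;>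
    · rw [comm_iff.1 h1]; intro x hx y _; rw [Subgroup.mem_bot.1 hx]; simp
  · exact absurd h1 h
  · exact class_two (rs_comm_self hS hA) (rs_comm_self hS hC) (rc_comm_left h1) (rc_comm_right h1)

theorem not_r1 (hS : IsRootSubgroupSet S) (hA : A ∈ S) (hC : C ∈ S) (h : RootCommutatorCase S A B)
    (hAC : Comm A C) {b : G} (hb : b ∈ B) (hb1 : b ≠ 1) : ¬ IsRankOnePair (cj b A) C := by
  intro hr
  obtain ⟨d, hd, hd1⟩ := rs_ex hS (rc_mem h)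
  have hd' : d ∈ ⁅B, A⁆ := by rwa [Subgroup.commutator_comm]
  obtain ⟨a, ha, e⟩ := rc_surj (rc_symm h) hb hb1 hd'
  have ha1 : a ≠ 1 := by rintro rfl; apply hd1; rw [e]; group
  have hcA := rc_comm_cj hS hA h hb
  have e2 : a⁻¹ * (b * a * b⁻¹) = d := by
    rw [e, hcA _ (A.inv_mem ha) _ (conj_mem_cj ha)]
  have := eq_one_of_central_translate hS (rs_cj hS hA b) hC (rc_mem h) hr (a := b * a * b⁻¹) (z := a⁻¹)
    (conj_mem_cj ha) (by intro h; apply ha1; simpa [mul_inv_eq_one] using h)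
    (fun x hx => hcA _ (A.inv_mem ha) x hx) (fun x hx => hAC _ (A.inv_mem ha) x hx) (e2 ▸ hd) (e2 ▸ hd1)
  exact ha1 (inv_eq_one.1 this)

theorem comm_cj_iff_comm (h : RootCommutatorCase S A B) (hAC : Comm A C) {b : G} (hb : b ∈ B)
    (hb1 : b ≠ 1) : Comm (cj b A) C ↔ Comm ⁅A, B⁆ C := by
  constructor
  · intro h1
    have := hAC.sup_left h1
    rw [sup_cj_eq h hb hb1] at this
    exact this.mono le_sup_right le_rfl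
  · intro h1
    exact (hAC.sup_left h1).mono (cj_le_sup_commutator hb) le_rfl

theorem cj_sup_commutator (h : Comm ⁅A, B⁆ B) : ∀ b ∈ B, cj b (A ⊔ ⁅A, B⁆) = A ⊔ ⁅A, B⁆ := by
  refine cj_eq_self_of_le fun b hb => ?_
  rw [cj_sup, h.symm.cj_eq hb]
  exact sup_le (cj_le_sup_commutator hb) le_sup_right

theorem nilp {D E N : Subgroup G} (hD : D = ⁅A, B⁆) (hE : E = ⁅C, B⁆) (hN : N = (A ⊔ D) ⊔ (C ⊔ E))
    (hA : Comm A A) (hB : Comm B B) (hC : Comm C C) (hDD : Comm D D) (hEE : Comm E E)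
    (hDA : Comm D A) (hDB : Comm D B) (hEC : Comm E C) (hEB : Comm E B) (hAC : Comm A C)
    (hN2 : Comm ⁅N, N⁆ N) : Group.IsNilpotent (N ⊔ B : Subgroup G) := by
  have hAN : A ≤ N := by rw [hN]; exact le_sup_of_le_left le_sup_left
  have hDN : D ≤ N := by rw [hN]; exact le_sup_of_le_left le_sup_right
  have hCN : C ≤ N := by rw [hN]; exact le_sup_of_le_right le_sup_left
  have hEN : E ≤ N := by rw [hN]; exact le_sup_of_le_right le_sup_right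
  have hBN : ∀ b ∈ B, cj b N = N := by
    intro b hb
    rw [hN, cj_sup, hD, hE, cj_sup_commutator (hD ▸ hDB) b hb, cj_sup_commutator (hE ▸ hEB) b hb]
  have hRN : ∀ r ∈ N ⊔ B, cj r N = N := cj_fix_sup (fun n hn => cj_of_mem hn) hBN
  have hRZ : ∀ r ∈ N ⊔ B, cj r ⁅N, N⁆ = ⁅N, N⁆ := fun r hr => by rw [cj_commutator, hRN r hr]
  have hZN : ⁅N, N⁆ ≤ N := commutator_le_self N
  have hNR : N ≤ N ⊔ B := le_sup_left
  have hBR : B ≤ N ⊔ B := le_sup_right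
  -- last term
  have h4 : Comm ⁅D, E⁆ (N ⊔ B) :=
    (hN2.mono (Subgroup.commutator_mono hDN hEN) le_rfl).sup_right
      ((hDB.sup_left hEB).mono (Subgroup.commutator_le_sup D E) le_rfl)
  have hR4 : ∀ r ∈ N ⊔ B, cj r ⁅D, E⁆ = ⁅D, E⁆ := fun r hr => h4.symm.cj_eq hr
  -- the second term
  have hK2N : D ⊔ E ⊔ ⁅N, N⁆ ≤ N := sup_le (sup_le hDN hEN) hZN
  have hR2 : ∀ r ∈ N ⊔ B, cj r (D ⊔ E ⊔ ⁅N, N⁆) = D ⊔ E ⊔ ⁅N, N⁆ := by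
    refine cj_fix_sup (cj_eq_self_of_le fun n hn x hx => ?_) fun b hb => ?_
    · obtain ⟨y, hy, rfl⟩ := mem_cj'.1 hx
      have e : n * y * n⁻¹ = (n * y * n⁻¹ * y⁻¹) * y := by group
      rw [e]
      exact Subgroup.mul_mem _ (Subgroup.mem_sup_right (comm_mem hn (hK2N hy))) hy
    · rw [cj_sup, cj_sup, hDB.symm.cj_eq hb, hEB.symm.cj_eq hb, hRZ b (hBR hb)]
  have hNB : ⁅N, B⁆ ≤ D ⊔ E ⊔ ⁅N, N⁆ := by
    have : ⁅(A ⊔ D) ⊔ (C ⊔ E), B⁆ ≤ D ⊔ E ⊔ ⁅N, N⁆ := by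
      refine cl_left hR2 (sup_le (hAN.trans hNR) (hDN.trans hNR)) (sup_le (hCN.trans hNR) (hEN.trans hNR))
        (cl_left hR2 (hAN.trans hNR) (hDN.trans hNR) ?_ (cl_comm hDB))
        (cl_left hR2 (hCN.trans hNR) (hEN.trans hNR) ?_ (cl_comm hEB))
      · rw [← hD]; exact le_sup_of_le_left le_sup_left
      · rw [← hE]; exact le_sup_of_le_left le_sup_right
    rwa [← hN] at this
  have s1 : ⁅N ⊔ B, N ⊔ B⁆ ≤ D ⊔ E ⊔ ⁅N, N⁆ :=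
    cl_left hR2 hNR hBR (cl_right hR2 hNR hBR le_sup_right hNB)
      (cl_right hR2 hNR hBR (cl_symm hNB) (cl_comm hB))
  have s2 : ⁅D ⊔ E ⊔ ⁅N, N⁆, N ⊔ B⁆ ≤ ⁅N, N⁆ := by
    refine cl_right hRZ hNR hBR (Subgroup.commutator_mono hK2N le_rfl) ?_
    refine cl_left hRZ (sup_le (hDN.trans hNR) (hEN.trans hNR)) (hZN.trans hNR)
      (cl_comm (hDB.sup_left hEB)) ?_
    refine Subgroup.commutator_le.2 fun x hx y hy => ?_
    have e : ⁅x, y⁆ = x * (y * x⁻¹ * y⁻¹) := by rw [commutatorElement_def]; group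
    rw [e]
    exact Subgroup.mul_mem _ hx (hRZ y (hBR hy) ▸ conj_mem_cj (Subgroup.inv_mem _ hx))
  have hZ4 : ∀ r ∈ ⁅N, N⁆, cj r ⁅D, E⁆ = ⁅D, E⁆ := fun r hr => hR4 r (hNR (hZN hr))
  have hT : ∀ n ∈ N, cj n (Tc ⁅D, E⁆ B ⁅N, N⁆ hZ4) = Tc ⁅D, E⁆ B ⁅N, N⁆ hZ4 := fun n hn =>
    cj_eq_of_centralizes fun z hz => (hN2 z hz.1 n hn).symm
  -- the key computation
  have key : ∀ {A' D' E' : Subgroup G}, D' = ⁅A', B⁆ → A' ≤ N → D' ≤ N → E' ≤ N → Comm E' B →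
      ⁅D', E'⁆ ≤ ⁅D, E⁆ → ⁅A', E'⁆ ≤ Tc ⁅D, E⁆ B ⁅N, N⁆ hZ4 := by
    intro A' D' E' hD' h1 h2 h3 h5 h6
    refine Subgroup.commutator_le.2 fun a ha e he => ⟨comm_mem (h1 ha) (h3 he), fun b hb => ?_⟩
    have hd : b * a * b⁻¹ * a⁻¹ ∈ D' := hD' ▸ comm_mem' ha hb
    set d := b * a * b⁻¹ * a⁻¹ with hddef
    have hbe : b * e * b⁻¹ = e := by rw [← h5 e he b hb]; group
    have hz : ⁅a, e⁆ ∈ ⁅N, N⁆ := comm_mem (h1 ha) (h3 he)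
    have e1 : b * ⁅a, e⁆ * b⁻¹ = d * ⁅a, e⁆ * d⁻¹ * (d * e * d⁻¹ * e⁻¹) := by
      calc _ = (b * a * b⁻¹) * (b * e * b⁻¹) * (b * a * b⁻¹)⁻¹ * (b * e * b⁻¹)⁻¹ := by
            rw [commutatorElement_def]; group
        _ = _ := by rw [hbe, hddef, commutatorElement_def]; group
    rw [← hN2 _ hz d (h2 hd), mul_inv_cancel_right] at e1
    have e2 : ⁅a, e⁆ * b * ⁅a, e⁆⁻¹ * b⁻¹ = ⁅a, e⁆ * (b * ⁅a, e⁆ * b⁻¹)⁻¹ := by group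
    rw [e2, e1]
    have e3 : ⁅a, e⁆ * (⁅a, e⁆ * (d * e * d⁻¹ * e⁻¹))⁻¹ = ⁅a, e⁆ * (d * e * d⁻¹ * e⁻¹)⁻¹ * ⁅a, e⁆⁻¹ := by
      group
    rw [e3]
    exact hZ4 _ hz ▸ conj_mem_cj (Subgroup.inv_mem _ (h6 (comm_mem hd he)))
  have s3 : ⁅⁅N, N⁆, N ⊔ B⁆ ≤ ⁅D, E⁆ := by
    refine cl_right hR4 hNR hBR (cl_comm hN2) ?_
    have hDE : ⁅D, E⁆ ≤ Tc ⁅D, E⁆ B ⁅N, N⁆ hZ4 :=
      (le_Tc hZ4).2 ⟨Subgroup.commutator_mono hDN hEN, cl_comm (h4.mono le_rfl hBR)⟩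
    have hAE := key hD hAN hDN hEN hEB le_rfl
    have hCD := key hE hCN hEN hDN hDB (cl_symm le_rfl)
    have hmix : ⁅A ⊔ D, C ⊔ E⁆ ≤ Tc ⁅D, E⁆ B ⁅N, N⁆ hZ4 :=
      cl_left hT hAN hDN (cl_right hT hCN hEN (cl_comm hAC) hAE) (cl_right hT hCN hEN (cl_symm hCD) hDE)
    have : ⁅(A ⊔ D) ⊔ (C ⊔ E), (A ⊔ D) ⊔ (C ⊔ E)⁆ ≤ Tc ⁅D, E⁆ B ⁅N, N⁆ hZ4 :=
      cl_left hT (sup_le hAN hDN) (sup_le hCN hEN)
        (cl_right hT (sup_le hAN hDN) (sup_le hCN hEN)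
          (cl_comm ((hA.sup_left hDA).sup_right (hDA.symm.sup_left hDD))) hmix)
        (cl_right hT (sup_le hAN hDN) (sup_le hCN hEN) (cl_symm hmix)
          (cl_comm ((hC.sup_left hEC).sup_right (hEC.symm.sup_left hEE))))
    rw [← hN] at this
    exact ((le_Tc hZ4).1 this).2
  rw [Subgroup.isNilpotent_iff_lowerCentralSeries]
  refine ⟨4, ?_⟩
  simp only [Subgroup.lowerCentralSeries_succ, Subgroup.lowerCentralSeries_zero]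
  rw [eq_bot_iff]
  exact (Subgroup.commutator_mono ((Subgroup.commutator_mono ((Subgroup.commutator_mono s1 le_rfl).trans s2)
    le_rfl).trans s3) le_rfl).trans (cl_comm h4)

end Aux

/-- Let S be a set of abstract root subgroups of G and A, B, C ∈ S with ⁅A, B⁆ ∈ S and ⁅B, C⁆ ∈ S, where A and C are different and commute. For a non-identity b ∈ B put X = ⟨A, b⁻¹ C b⟩ and Y = ⟨b⁻¹ A b, C⟩ and R = ⟨A, B, C⟩. Then X and Y are either both abelian or both nilpotent of class exactly two; X and Y commute elementwise; XY is normal in R with R = (XY) B; and R is nilpotent. -/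
theorem result {G : Type*} [Group G] {S : Set (Subgroup G)} (hS : Cfsg.IsRootSubgroupSet S)
    {A B C : Subgroup G} (hA : A ∈ S) (hB : B ∈ S) (hC : C ∈ S) (hAB : ⁅A, B⁆ ∈ S) (hBC : ⁅B, C⁆ ∈ S)
    (hAC : C ∈ Cfsg.commutingPartners S A)
    {b : G} (hb : b ∈ B) (hb1 : b ≠ 1) :
    ((IsMulCommutative ↥(A ⊔ Cfsg.conjBy C b⁻¹) ∧ IsMulCommutative ↥(Cfsg.conjBy A b⁻¹ ⊔ C)) ∨
      ((¬ IsMulCommutative ↥(A ⊔ Cfsg.conjBy C b⁻¹) ∧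
          ⁅⁅A ⊔ Cfsg.conjBy C b⁻¹, A ⊔ Cfsg.conjBy C b⁻¹⁆, A ⊔ Cfsg.conjBy C b⁻¹⁆ = ⊥) ∧
        (¬ IsMulCommutative ↥(Cfsg.conjBy A b⁻¹ ⊔ C) ∧
          ⁅⁅Cfsg.conjBy A b⁻¹ ⊔ C, Cfsg.conjBy A b⁻¹ ⊔ C⁆, Cfsg.conjBy A b⁻¹ ⊔ C⁆ = ⊥))) ∧
    ⁅A ⊔ Cfsg.conjBy C b⁻¹, Cfsg.conjBy A b⁻¹ ⊔ C⁆ = ⊥ ∧
    (∀ r ∈ A ⊔ B ⊔ C, Cfsg.conjBy ((A ⊔ Cfsg.conjBy C b⁻¹) ⊔ (Cfsg.conjBy A b⁻¹ ⊔ C)) r =
      (A ⊔ Cfsg.conjBy C b⁻¹) ⊔ (Cfsg.conjBy A b⁻¹ ⊔ C)) ∧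
    ((A ⊔ Cfsg.conjBy C b⁻¹) ⊔ (Cfsg.conjBy A b⁻¹ ⊔ C)) ⊔ B = A ⊔ B ⊔ C ∧
    Group.IsNilpotent ↥(A ⊔ B ⊔ C) := by
  simp only [conjBy_eq]
  have hrAB := rc_of_commutator_mem hS hA hB hAB
  have hrCB := rc_symm (rc_of_commutator_mem hS hB hC hBC)
  have hcAC : Comm A C := comm_iff.2 hAC.2.2
  have hb' : b⁻¹ ∈ B := B.inv_mem hb
  have hb1' : b⁻¹ ≠ 1 := inv_ne_one.2 hb1
  have hAA := rs_comm_self hS hA
  have hCC := rs_comm_self hS hC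
  have hA' := rs_cj hS hA b⁻¹
  have hC' := rs_cj hS hC b⁻¹
  have hX2 : Comm ⁅A ⊔ cj b⁻¹ C, A ⊔ cj b⁻¹ C⁆ (A ⊔ cj b⁻¹ C) :=
    pair_class_two hS hA hC' fun hr => not_r1 hS hC hA hrCB hcAC.symm hb' hb1' (r1_symm hr)
  have hY2 : Comm ⁅cj b⁻¹ A ⊔ C, cj b⁻¹ A ⊔ C⁆ (cj b⁻¹ A ⊔ C) :=
    pair_class_two hS hA' hC (not_r1 hS hA hC hrAB hcAC hb' hb1')
  have hXY : Comm (A ⊔ cj b⁻¹ C) (cj b⁻¹ A ⊔ C) :=
    ((rc_comm_cj hS hA hrAB hb').sup_right hcAC).sup_left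
      ((hcAC.symm.cj b⁻¹).sup_right (rc_comm_cj hS hC hrCB hb').symm)
  have hiff : Comm (A ⊔ cj b⁻¹ C) (A ⊔ cj b⁻¹ C) ↔ Comm (cj b⁻¹ A ⊔ C) (cj b⁻¹ A ⊔ C) := by
    have h1 : Comm (A ⊔ cj b⁻¹ C) (A ⊔ cj b⁻¹ C) ↔ Comm (cj b A) C := by
      rw [← comm_cj_iff b⁻¹ (A := cj b A), cj_inv_cj]
      exact ⟨fun h => h.mono le_sup_left le_sup_right, fun h =>
        (hAA.sup_left h.symm).sup_right (h.sup_left (rs_comm_self hS hC'))⟩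
    have h2 : Comm (cj b⁻¹ A ⊔ C) (cj b⁻¹ A ⊔ C) ↔ Comm (cj b⁻¹ A) C :=
      ⟨fun h => h.mono le_sup_left le_sup_right, fun h =>
        ((rs_comm_self hS hA').sup_left h.symm).sup_right (h.sup_left hCC)⟩
    rw [h1, h2, comm_cj_iff_comm hrAB hcAC hb hb1, comm_cj_iff_comm hrAB hcAC hb' hb1']
  have hN : (A ⊔ cj b⁻¹ C) ⊔ (cj b⁻¹ A ⊔ C) = (A ⊔ ⁅A, B⁆) ⊔ (C ⊔ ⁅C, B⁆) := by
    rw [← sup_cj_eq hrAB hb' hb1', ← sup_cj_eq hrCB hb' hb1']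
    ac_rfl
  have hR : ((A ⊔ cj b⁻¹ C) ⊔ (cj b⁻¹ A ⊔ C)) ⊔ B = A ⊔ B ⊔ C := by
    refine le_antisymm (sup_le (sup_le (sup_le ?_ ?_) (sup_le ?_ ?_)) ?_) (sup_le (sup_le ?_ ?_) ?_)
    · exact le_sup_of_le_left le_sup_left
    · exact cj_le_of_mem (Subgroup.mem_sup_left (Subgroup.mem_sup_right hb')) le_sup_right
    · exact cj_le_of_mem (Subgroup.mem_sup_left (Subgroup.mem_sup_right hb')) (le_sup_of_le_left le_sup_left)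
    · exact le_sup_right
    · exact le_sup_of_le_left le_sup_right
    · exact le_sup_of_le_left (le_sup_of_le_left le_sup_left)
    · exact le_sup_right
    · exact le_sup_of_le_left (le_sup_of_le_right le_sup_right)
  refine ⟨?_, comm_iff.1 hXY, ?_, hR, ?_⟩
  · by_cases h : Comm (A ⊔ cj b⁻¹ C) (A ⊔ cj b⁻¹ C)
    · exact Or.inl ⟨comm_self_iff.1 h, comm_self_iff.1 (hiff.1 h)⟩
    · exact Or.inr ⟨⟨fun h' => h (comm_self_iff.2 h'), comm_iff.1 hX2⟩,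
        fun h' => h (hiff.2 (comm_self_iff.2 h')), comm_iff.1 hY2⟩
  · rw [← hR]
    refine cj_fix_sup (fun n hn => cj_of_mem hn) fun y hy => ?_
    rw [hN, cj_sup, cj_sup_commutator (rc_comm_right hrAB) y hy, cj_sup_commutator (rc_comm_right hrCB) y hy]
  · rw [← hR]
    refine nilp rfl rfl hN hAA (rs_comm_self hS hB) hCC (rs_comm_self hS hAB)
      (rs_comm_self hS (rc_mem hrCB)) (rc_comm_left hrAB) (rc_comm_right hrAB) (rc_comm_left hrCB)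
      (rc_comm_right hrCB) hcAC ?_
    rw [comm_iff_le_centralizer]
    refine cl_left cj_centralizer le_sup_left le_sup_right
      (cl_right cj_centralizer le_sup_left le_sup_right ?_ (cl_comm hXY))
      (cl_right cj_centralizer le_sup_left le_sup_right (cl_comm hXY.symm) ?_)
    · exact comm_iff_le_centralizer.1 (hX2.sup_right (hXY.mono (commutator_le_self _) le_rfl))
    · exact comm_iff_le_centralizer.1 ((hXY.symm.mono (commutator_le_self _) le_rfl).sup_right hY2)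

end Cfsg.Agent.S5030
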