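import Cfsg.Statements.S5033
import Cfsg.Agent.H9.Quasi
-- import your own Cfsg.Agent.* helpers here

set_option autoImplicit false
open Cfsg

namespace Cfsg.Agent.S5033
open CfsgH9

/-- Quasisimplicity criterion for groups generated by abstract root subgroups. Let S be a set of abstract root subgroups of G with more than one member such that: the graph of rank one pairs on S is connected; no two different members of S have the same set of commuting members of S; if S is degenerate then every member of S has more than three elements; and every rank one pair in S is special. Then for every A ∈ S one has G = G' A with A ∩ G' ≠ 1, and the commutator subgroup G' is quasisimple. Moreover G is perfect if S is non-degenerate, or if some rank one pair A, B in S generates a perfect group. -/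
theorem result {G : Type*} [Group G] {S : Set (Subgroup G)} (hS : Cfsg.IsRootSubgroupSet S) (h2 : ∃ A ∈ S, ∃ B ∈ S, A ≠ B)
    (h1 : Cfsg.IsConnectedFamily (Cfsg.FAdj S) S)
    (h2' : ∀ A ∈ S, ∀ C ∈ S, A ≠ C → Cfsg.centralizingMembers S A ≠ Cfsg.centralizingMembers S C)
    (h3 : Cfsg.IsDegenerateRootSet S → ∀ A ∈ S, 3 < ENat.card A)
    (h4 : ∀ A ∈ S, ∀ B ∈ Cfsg.rankOnePartners S A, Cfsg.IsSpecialRankOnePair A B) :
    (∀ A ∈ S, commutator G ⊔ A = ⊤ ∧ A ⊓ commutator G ≠ ⊥) ∧ Cfsg.IsQuasisimple ↥(commutator G) ∧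
    (Cfsg.IsNondegenerateRootSet S → commutator G = ⊤) ∧
    ((∃ A ∈ S, ∃ B ∈ Cfsg.rankOnePartners S A, Group.IsPerfect ↥(A ⊔ B)) → commutator G = ⊤) := by
  obtain ⟨A₀, hA₀, B₀, hB₀, hne⟩ := h2
  have hcl := class_of_connected hS ⟨A₀, hA₀⟩ h1
  have hni : ∀ A ∈ S, NI S A := fun A hA =>
    FR.ni (h1 A₀ hA₀ A hA) (FR.ni_of_ne (h1 A₀ hA₀ B₀ hB₀) hne.symm)
  have hperf : IsDegenerateRootSet S → ∀ A ∈ S, ∀ B ∈ S, IsRankOnePair A B → ⁅A ⊔ B, A ⊔ B⁆ = A ⊔ B :=
    fun hdeg A hA B hB hr => special_perfect (h4 A hA B ⟨hB, hr⟩) (rs_comm_self hS hA)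
      (rs_comm_self hS hB) (h3 hdeg A hA)
  have hp := class_perfect hcl hni hperf
  refine ⟨fun A hA => ?_, ?_, fun _ => hp, fun _ => hp⟩
  · rw [hp]
    exact ⟨top_sup_eq A, by rw [inf_top_eq]; exact hS.ne_bot A hA⟩
  · rw [hp]
    refine isQuasisimple_top (isQuasisimple_of hp ?_ fun N hN => ?_)
    · intro hc
      obtain ⟨B, -, hr⟩ := hni A₀ hA₀
      apply r1_not_comm hr
      intro a _ b _
      have : a ∈ Subgroup.center G := by rw [hc]; trivial
      exact (Subgroup.mem_center_iff.1 this b).symm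
    · by_cases hfix : ∀ A ∈ S, ∀ n ∈ N, cj n A = A
      · exact Or.inr (le_center_of_fix_members hS hni hfix)
      · left
        push Not at hfix
        obtain ⟨A, hA, n, hn, hne⟩ := hfix
        exact normal_eq_top_of_centralizing_ne hcl hni hperf hA hn
          (h2' A hA _ (rs_cj hS hA n) hne.symm)

end Cfsg.Agent.S5033
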