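import Cfsg.Statements.S5034
import Cfsg.Agent.H9.Lines2
-- import your own Cfsg.Agent.* helpers here

set_option autoImplicit false
open Cfsg

namespace Cfsg.Agent.S5034
open CfsgH9

/-- Let S be a non-degenerate class of abstract root subgroups of G, A ∈ S and B a rank one partner of A. Then some line partner C of A has ⁅B, C⁆ ∈ S, and the rank one pair A, B is special. -/
theorem result {G : Type*} [Group G] {S : Set (Subgroup G)} (hS : Cfsg.IsRootSubgroupClass S) (hnd : Cfsg.IsNondegenerateRootSet S)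
    {A B : Subgroup G} (hA : A ∈ S) (hB : B ∈ Cfsg.rankOnePartners S A) :
    (∃ C ∈ Cfsg.linePartners S A, C ∈ Cfsg.commutatorPartners S B) ∧ Cfsg.IsSpecialRankOnePair A B := by
  obtain ⟨C, hC, h1, h2⟩ := nd_exists_line hS (nd_ni hS hnd) hnd.2.2 hA hB.1 hB.2
  exact ⟨⟨C, hC, hC.1.1, h1.1⟩,
    special_of_line hS.1 hA hB.1 hB.2 (mem_linePartners.1 hC).2.2.1 hC.1.1 h1 h2⟩

end Cfsg.Agent.S5034
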