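import Cfsg.Statements.S5035
import Cfsg.Agent.H9.Lines2
-- import your own Cfsg.Agent.* helpers here

set_option autoImplicit false
open Cfsg

namespace Cfsg.Agent.S5035
open CfsgH9

/-- Let S be a set of abstract root subgroups of G whose graph of rank one pairs is connected, and f a homomorphism from G onto a group H. Then either the images of the members of S form a set of abstract root subgroups of H whose graph of rank one pairs is again connected, or H equals the image of a member of S. -/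
theorem result {G H : Type*} [Group G] [Group H] {S : Set (Subgroup G)} (hS : Cfsg.IsRootSubgroupSet S)
    (hc : Cfsg.IsConnectedFamily (Cfsg.FAdj S) S) (f : G →* H) (hf : Function.Surjective f) :
    (Cfsg.IsRootSubgroupSet ((fun A : Subgroup G => A.map f) '' S) ∧
      Cfsg.IsConnectedFamily (Cfsg.FAdj ((fun A : Subgroup G => A.map f) '' S)) ((fun A : Subgroup G => A.map f) '' S)) ∨
    ∃ A ∈ S, A.map f = ⊤ := by
  have key : ∀ A B : Subgroup G, IsRankOnePair A B → A.map f = B.map f ∨
      (IsRankOnePair (A.map f) (B.map f) ∧ ∀ a ∈ A, f a = 1 → a = 1) := by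
    intro A B h
    rcases r1_normal_dichotomy h (N := f.ker ⊓ (A ⊔ B))
      (fun x hx => by rw [cj_inf, cj_of_normal, cj_of_mem hx]) inf_le_right with ⟨n, hn, e⟩ | hc
    · left
      rw [← e, map_cj, (MonoidHom.mem_ker).1 hn.1, cj_one]
    · right
      have inj : ∀ {A B : Subgroup G}, IsRankOnePair A B →
          (∀ n ∈ f.ker ⊓ (A ⊔ B), ∀ x ∈ A ⊔ B, n * x = x * n) → ∀ a ∈ A, f a = 1 → a = 1 :=
        fun h hc a ha h1 => r1_eq_one_of_fix h ha (cj_eq_of_centralizes fun b hb =>
          hc a ⟨h1, Subgroup.mem_sup_left ha⟩ b (Subgroup.mem_sup_right hb))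
      have cond : ∀ {A B : Subgroup G}, IsRankOnePair A B → (∀ b ∈ B, f b = 1 → b = 1) →
          ∀ a ∈ A.map f, a ≠ 1 → ∃ b ∈ B.map f, b ≠ 1 ∧ cj b (A.map f) = cj a (B.map f) := by
        rintro A B h hi _ ⟨a, ha, rfl⟩ ha1
        obtain ⟨b, hb, hb1, e⟩ := r1_ex h ha (by rintro rfl; simp at ha1)
        exact ⟨f b, ⟨b, hb, rfl⟩, fun e => hb1 (hi b hb e), by rw [← map_cj, ← map_cj, e]⟩
      have hiA := inj h hc
      have hiB := inj (r1_symm h) (by rwa [sup_comm])
      have := h.nilpotent_left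
      have := h.nilpotent_right
      refine ⟨r1_mk ?_ (Group.nilpotent_of_surjective _ (f.subgroupMap_surjective A))
        (Group.nilpotent_of_surjective _ (f.subgroupMap_surjective B)) (cond h hiB)
        (cond (r1_symm h) hiA), hiA⟩
      intro e
      obtain ⟨b, hb, hb1⟩ := r1_ex_ne_one (r1_symm h)
      have : f b ∈ A.map f := e ▸ ⟨b, hb, rfl⟩
      obtain ⟨a, ha, e1⟩ := this
      apply hb1
      apply r1_eq_one_of_fix (r1_symm h) hb
      rw [show b = (b * a⁻¹) * a by group, cj_mul_of_mem _ ha]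
      refine cj_eq_of_centralizes fun x hx => hc _ ⟨?_, ?_⟩ x (Subgroup.mem_sup_left hx)
      · simp [MonoidHom.mem_ker, e1]
      · exact Subgroup.mul_mem _ (Subgroup.mem_sup_right hb) (Subgroup.mem_sup_left (A.inv_mem ha))
  have hgen : (⨆ A ∈ (fun A : Subgroup G => A.map f) '' S, A) = ⊤ := by
    rw [iSup_image, ← Subgroup.map_top_of_surjective f hf, ← hS.generates]
    simp [Subgroup.map_iSup]
  rcases S.eq_empty_or_nonempty with rfl | hne
  · left
    refine ⟨⟨by simp, by simp, hgen, by simp, by simp⟩, fun A hA => by simp at hA⟩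
  by_cases hex : ∃ A ∈ S, ∃ B ∈ S, IsRankOnePair (A.map f) (B.map f) ∧ ∀ a ∈ A, f a = 1 → a = 1
  · left
    obtain ⟨A, hA, B, hB, hr, hi⟩ := hex
    have hcl := class_of_connected hS hne hc
    have hi' : ∀ E ∈ S, ∀ a ∈ E, f a = 1 → a = 1 := by
      intro E hE a ha h1
      obtain ⟨g, rfl⟩ := hcl.2.2 A hA E hE
      obtain ⟨x, hx, rfl⟩ := mem_cj'.1 ha
      rw [hi x hx (by simpa using h1)]; simp
    have hS' : Cfsg.IsRootSubgroupSet ((fun A : Subgroup G => A.map f) '' S) := by
      refine ⟨?_, ?_, hgen, ?_, ?_⟩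
      · rintro _ ⟨E, hE, rfl⟩
        have := hS.commutative E hE
        infer_instance
      · rintro _ ⟨E, hE, rfl⟩ e
        obtain ⟨a, ha, ha1⟩ := rs_ex hS hE
        have : f a ∈ E.map f := ⟨a, ha, rfl⟩
        rw [show E.map f = ⊥ from e] at this
        exact ha1 (hi' E hE a ha this)
      · rintro _ ⟨E, hE, rfl⟩ g
        obtain ⟨g, rfl⟩ := hf g
        exact ⟨_, rs_cj hS hE g, map_cj f g E⟩
      · rintro _ ⟨E, hE, rfl⟩ _ ⟨F, hF, rfl⟩
        beta_reduce
        rcases rs_pair hS hE hF with h | h | h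
        · left
          rw [← Subgroup.map_commutator, comm_iff.1 h, Subgroup.map_bot]
        · rcases key E F h with h1 | h1
          · left
            rw [← h1, ← Subgroup.map_commutator, comm_iff.1 (rs_comm_self hS hE), Subgroup.map_bot]
          · exact Or.inr (Or.inl h1.1)
        · refine Or.inr (Or.inr (rc_mk ?_ ?_ ?_ ?_ ?_))
          · exact ⟨_, h.1, Subgroup.map_commutator _ _ _⟩
          · rw [← Subgroup.map_commutator, comm_iff, ← Subgroup.map_commutator,
              comm_iff.1 (rc_comm_left h), Subgroup.map_bot]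
          · rw [← Subgroup.map_commutator, comm_iff, ← Subgroup.map_commutator,
              comm_iff.1 (rc_comm_right h), Subgroup.map_bot]
          · rw [← Subgroup.map_commutator]
            rintro _ ⟨a, ha, rfl⟩ ha1 _ ⟨c, hc, rfl⟩
            obtain ⟨b, hb, rfl⟩ := rc_surj h ha (by rintro rfl; simp at ha1) hc
            exact ⟨f b, ⟨b, hb, rfl⟩, by simp⟩
          · rw [← Subgroup.map_commutator]
            rintro _ ⟨a, ha, rfl⟩ ha1 _ ⟨c, hc, rfl⟩
            obtain ⟨b, hb, rfl⟩ := rc_surj' (rc_symm h) ha (by rintro rfl; simp at ha1)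
              (by rwa [Subgroup.commutator_comm])
            exact ⟨f b, ⟨b, hb, rfl⟩, by simp⟩
    refine ⟨hS', class_connected ⟨hS', hne.image _, ?_⟩ (A := A.map f) ⟨_, ⟨B, hB, rfl⟩, hr⟩ ⟨A, hA, rfl⟩⟩
    rintro _ ⟨E, hE, rfl⟩ _ ⟨F, hF, rfl⟩
    obtain ⟨g, rfl⟩ := hcl.2.2 E hE F hF
    exact ⟨f g, map_cj f g E⟩
  · right
    obtain ⟨A, hA⟩ := hne
    refine ⟨A, hA, ?_⟩
    have : ∀ B, FR S A B → B.map f = A.map f := by
      intro B hB
      induction hB with
      | refl => rfl
      | tail _ h2 ih =>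
        rcases key _ _ h2.2.2 with h | h
        · rw [← h, ih]
        · exact absurd ⟨_, h2.1, _, h2.2.1, h⟩ hex
    rw [eq_top_iff, ← hgen]
    refine iSup₂_le ?_
    rintro _ ⟨B, hB, rfl⟩
    exact (this B (hc A hA B hB)).le

end Cfsg.Agent.S5035
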