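import Cfsg.Statements.S5036
import Cfsg.Agent.H9.Lines2
-- import your own Cfsg.Agent.* helpers here

set_option autoImplicit false
open Cfsg

namespace Cfsg.Agent.S5036
open CfsgH9

/-- Let S be a set of abstract root subgroups of G, A, B ∈ S with C = ⁅A, B⁆ ∈ S, and D ∈ S with ⁅D, C⁆ = A. Put X = ⟨B, D⟩ and N = AC. Then B, D form a rank one pair; the conjugates of A under X are the conjugates of C under X, namely the conjugates of A by elements of B together with C, equally the conjugates of C by elements of D together with A, and they partition N; and the centralizer of N in X is central in X. -/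
theorem result {G : Type*} [Group G] {S : Set (Subgroup G)} (hS : Cfsg.IsRootSubgroupSet S)
    {A B D : Subgroup G} (hA : A ∈ S) (hB : B ∈ S) (hC : ⁅A, B⁆ ∈ S) (hD : D ∈ S) (hDC : ⁅D, ⁅A, B⁆⁆ = A) :
    Cfsg.IsRankOnePair B D ∧
    {E | ∃ x ∈ B ⊔ D, E = Cfsg.conjBy A x} = {E | ∃ x ∈ B ⊔ D, E = Cfsg.conjBy ⁅A, B⁆ x} ∧
    {E | ∃ x ∈ B ⊔ D, E = Cfsg.conjBy A x} = (fun b : G => Cfsg.conjBy A b) '' (B : Set G) ∪ {⁅A, B⁆} ∧
    {E | ∃ x ∈ B ⊔ D, E = Cfsg.conjBy A x} = (fun d : G => Cfsg.conjBy ⁅A, B⁆ d) '' (D : Set G) ∪ {A} ∧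
    Cfsg.IsSubgroupPartition (A ⊔ ⁅A, B⁆) {E | ∃ x ∈ B ⊔ D, E = Cfsg.conjBy A x} ∧
    ∀ x ∈ (B ⊔ D) ⊓ Subgroup.centralizer ((A ⊔ ⁅A, B⁆ : Subgroup G) : Set G), ∀ y ∈ B ⊔ D, x * y = y * x := by
  have h := rc_of_commutator_mem hS hA hB hC
  have h' : RootCommutatorCase S D ⁅A, B⁆ := rc_of_commutator_mem hS hD hC (hDC.symm ▸ hA)
  have hr := r1_of_rc_rc hS hA hB hD h hDC
  set C := ⁅A, B⁆ with hCdef
  have hAD : Comm A D := hDC ▸ rc_comm_left h'
  have hCA : Comm C A := rc_comm_left h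
  have hCB : Comm C B := rc_comm_right h
  have hnB : ∀ b ∈ B, cj b (A ⊔ C) = A ⊔ C := cj_eq_self_of_le fun b hb => by
    rw [cj_sup, hCB.symm.cj_eq hb]
    exact sup_le (cj_le_sup_commutator hb) le_sup_right
  have hnD : ∀ b ∈ D, cj b (A ⊔ C) = A ⊔ C := cj_eq_self_of_le fun b hb => by
    rw [cj_sup, hAD.symm.cj_eq hb]
    refine sup_le le_sup_left ?_
    have := cj_le_sup_commutator (A := C) hb
    rwa [Subgroup.commutator_comm, hDC, sup_comm] at this
  have hn := cj_fix_sup hnB hnD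
  have hNB : ⁅A ⊔ C, B⁆ = C := by
    refine le_antisymm (Subgroup.commutator_le.2 fun x hx b hb => ?_)
      (Subgroup.commutator_mono le_sup_left le_rfl)
    obtain ⟨a, ha, c, hc, rfl⟩ := (mem_sup_of_comm hCA.symm).1 hx
    have : a * c * b * (a * c)⁻¹ * b⁻¹ = a * b * a⁻¹ * b⁻¹ := by
      rw [mul_assoc a c b, hCB c hc b hb]; group
    rw [commutatorElement_def, this]; exact comm_mem ha hb
  have hND : ⁅A ⊔ C, D⁆ = A := by
    have hDC' : ⁅C, D⁆ = A := by rw [Subgroup.commutator_comm, hDC]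
    refine le_antisymm (Subgroup.commutator_le.2 fun x hx b hb => ?_)
      (hDC'.symm.le.trans (Subgroup.commutator_mono le_sup_right le_rfl))
    rw [sup_comm] at hx
    obtain ⟨c, hc, a, ha, rfl⟩ := (mem_sup_of_comm hCA).1 hx
    have : c * a * b * (c * a)⁻¹ * b⁻¹ = c * b * c⁻¹ * b⁻¹ := by
      rw [mul_assoc c a b, hAD a ha b hb]; group
    rw [commutatorElement_def, this, ← hDC']; exact comm_mem hc hb
  -- the map `E ↦ [N, E]` on the unipotent subgroups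
  have hmap : ∀ x ∈ B ⊔ D, ∀ E, cj x ⁅A ⊔ C, E⁆ = ⁅A ⊔ C, cj x E⁆ := fun x hx E => by
    rw [cj_commutator, hn x hx]
  have hset : {E | ∃ x ∈ B ⊔ D, E = Cfsg.conjBy A x} = (fun E => ⁅A ⊔ C, E⁆) '' Om B D := by
    ext E
    constructor
    · rintro ⟨x, hx, rfl⟩
      exact ⟨cj x D, cj_mem_Om hx (right_mem_Om hr), by simp only; rw [← hmap x hx, hND]; rfl⟩
    · rintro ⟨F, hF, rfl⟩
      rw [← Om_symm hr] at hF
      obtain ⟨x, hx, rfl⟩ := mem_Om.1 hF
      rw [sup_comm] at hx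
      exact ⟨x, hx, by simp only; rw [← hmap x hx, hND]; rfl⟩
  have e2 : {E | ∃ x ∈ B ⊔ D, E = Cfsg.conjBy A x} = (fun b : G => Cfsg.conjBy A b) '' (B : Set G) ∪ {C} := by
    rw [hset]
    ext E
    constructor
    · rintro ⟨F, hF, rfl⟩
      rcases (mem_Om_iff hr).1 hF with rfl | ⟨b, hb, rfl⟩
      · exact Or.inr hNB
      · exact Or.inl ⟨b, hb, by simp only; rw [← hmap b (Subgroup.mem_sup_left hb), hND]; rfl⟩
    · rintro (⟨b, hb, rfl⟩ | rfl)
      · exact ⟨cj b D, (mem_Om_iff hr).2 (Or.inr ⟨b, hb, rfl⟩),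
          by simp only; rw [← hmap b (Subgroup.mem_sup_left hb), hND]; rfl⟩
      · exact ⟨B, left_mem_Om, hNB⟩
  have hAC : ∀ x ∈ A, x ∈ C → x = 1 := fun x hx hx' => by
    obtain ⟨b, hb, hb1⟩ := rs_ex hS hB
    by_contra hx1
    exact hb1 (rc_inj' hS hB h ⟨D, hD, hr⟩ hx hb hx1 (hCB x hx' b hb))
  refine ⟨hr, ?_, e2, ?_, ?_, ?_⟩
  · rw [hset]
    ext E
    constructor
    · rintro ⟨F, hF, rfl⟩
      obtain ⟨x, hx, rfl⟩ := mem_Om.1 hF
      exact ⟨x, hx, by simp only; rw [← hmap x hx, hNB]; rfl⟩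
    · rintro ⟨x, hx, rfl⟩
      exact ⟨cj x B, cj_mem_Om hx left_mem_Om, by simp only; rw [← hmap x hx, hNB]; rfl⟩
  · rw [hset]
    ext E
    constructor
    · rintro ⟨F, hF, rfl⟩
      rcases (mem_Om_iff' hr).1 hF with rfl | ⟨b, hb, rfl⟩
      · exact Or.inr hND
      · exact Or.inl ⟨b, hb, by simp only; rw [← hmap b (Subgroup.mem_sup_right hb), hNB]; rfl⟩
    · rintro (⟨b, hb, rfl⟩ | rfl)
      · exact ⟨cj b B, (mem_Om_iff' hr).2 (Or.inr ⟨b, hb, rfl⟩),
          by simp only; rw [← hmap b (Subgroup.mem_sup_right hb), hNB]; rfl⟩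
      · exact ⟨D, right_mem_Om hr, hND⟩
  · rw [e2]
    have hdis : ∀ b ∈ B, cj b A ⊓ C = ⊥ := fun b hb => by
      rw [← hCB.symm.cj_eq hb, ← cj_inf, cj_eq_bot_iff, eq_bot_iff]
      exact fun x hx => hAC x hx.1 hx.2
    refine ⟨?_, ?_, ?_⟩
    · rintro _ (⟨b, hb, rfl⟩ | rfl)
      · exact cj_le_sup_commutator hb
      · exact le_sup_right
    · intro x hx hx1
      rw [sup_comm, mem_sup_of_comm hCA] at hx
      obtain ⟨c, hc, a, ha, rfl⟩ := hx
      by_cases ha1 : a = 1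
      · exact ⟨C, Or.inr rfl, by simpa [ha1] using hc⟩
      · obtain ⟨b, hb, e1⟩ := rc_mul_mem_cj h ha ha1 hc
        exact ⟨cj b A, Or.inl ⟨b, hb, rfl⟩, e1 ▸ conj_mem_cj ha⟩
    · rintro _ (⟨b, hb, rfl⟩ | rfl) _ (⟨b', hb', rfl⟩ | rfl) hne
      · simp only [conjBy_eq] at hne ⊢
        rw [← cj_inj (g := b⁻¹), cj_inf, cj_inv_cj, cj_cj, cj_bot, eq_bot_iff]
        rintro x ⟨hx, hx'⟩
        obtain ⟨a, ha, rfl⟩ := mem_cj'.1 hx'
        have hb'' := B.mul_mem (B.inv_mem hb) hb'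
        have h1 := hAC _ (A.mul_mem hx (A.inv_mem ha)) (comm_mem' ha hb'')
        rw [mul_inv_eq_one, mul_inv_eq_iff_eq_mul] at h1
        by_contra hx1
        have ha1 : a ≠ 1 := by rintro rfl; simp at hx1
        have := rc_inj' hS hB h ⟨D, hD, hr⟩ ha hb'' ha1 h1.symm
        rw [inv_mul_eq_one] at this
        exact hne (by rw [this])
      · exact hdis b hb
      · rw [inf_comm]; exact hdis b' hb'
      · exact absurd rfl hne
  · rcases r1_normal_dichotomy hr (N := (B ⊔ D) ⊓ Subgroup.centralizer ((A ⊔ C : Subgroup G) : Set G))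
      (cj_eq_self_of_le fun x hx y hy => by
        obtain ⟨z, hz, rfl⟩ := mem_cj'.1 hy
        refine ⟨Subgroup.mul_mem _ (Subgroup.mul_mem _ hx hz.1) (Subgroup.inv_mem _ hx), fun w hw => ?_⟩
        have hw' : x⁻¹ * w * x ∈ A ⊔ C := by rw [← mem_cj, hn x hx]; exact hw
        have := hz.2 _ hw'
        calc _ = x * (x⁻¹ * w * x * z) * x⁻¹ := by group
          _ = _ := by rw [this]; group) inf_le_left with ⟨n, hn', e⟩ | hc
    · exfalso
      apply rc_not_comm hS h'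
      have : cj n C = C := cj_eq_of_centralizes fun c hc => (hn'.2 c (Subgroup.mem_sup_right hc)).symm
      rw [← e, ← this]
      exact hCB.symm.cj n
    · exact hc

end Cfsg.Agent.S5036
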