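import Cfsg.Statements.S5037
import Cfsg.Agent.H9.Lines2
-- import your own Cfsg.Agent.* helpers here

set_option autoImplicit false
open Cfsg

namespace Cfsg.Agent.S5037
open CfsgH9

/-- Let S be a class of abstract root subgroups of G that is either degenerate or non-degenerate (so either the commutator case never occurs, or all three cases occur), and A ≠ C members of S. If every member of S commuting with A commutes with C, then A and C have the same commuting members of S; and if every rank one partner of A is a rank one partner of C, then A and C commute and have the same rank one partners. -/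
theorem result {G : Type*} [Group G] {S : Set (Subgroup G)} (hS : Cfsg.IsRootSubgroupClass S)
    (hdn : Cfsg.IsDegenerateRootSet S ∨ Cfsg.IsNondegenerateRootSet S)
    {A C : Subgroup G} (hA : A ∈ S) (hC : C ∈ S) (hAC : A ≠ C) :
    (Cfsg.centralizingMembers S A ⊆ Cfsg.centralizingMembers S C →
      Cfsg.centralizingMembers S A = Cfsg.centralizingMembers S C) ∧
    (Cfsg.rankOnePartners S A ⊆ Cfsg.rankOnePartners S C →
      ⁅A, C⁆ = ⊥ ∧ Cfsg.rankOnePartners S A = Cfsg.rankOnePartners S C) := by
  by_cases hex : ∃ A ∈ S, ∃ B ∈ S, IsRankOnePair A B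
  · have hni : ∀ A ∈ S, NI S A := fun A hA => class_ni hS hex hA
    refine ⟨centralizingMembers_eq_of_subset hS (hni C hC) hA hC, fun h => ?_⟩
    have key : ∀ X ∈ S, ∀ Y ∈ S, rankOnePartners S X ⊆ rankOnePartners S Y → Comm X Y := by
      intro X hX Y hY h
      rcases rs_pair hS.1 hX hY with h1 | h1 | h1
      · exact h1
      · exact absurd rfl (h ⟨hY, h1⟩).2.ne
      · obtain ⟨F, hF, h2, h3⟩ := rc_exists_r1_comm hS.1 hni hX hY h1
        exact absurd h3.symm (r1_not_comm (h ⟨hF, h2⟩).2)
    refine ⟨comm_iff.1 (key A hA C hC h), Set.Subset.antisymm h ?_⟩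
    obtain ⟨B, hB, hr⟩ := hni A hA
    refine preorder_symm (R := fun X Y => rankOnePartners S X ⊆ rankOnePartners S Y)
      (fun h1 h2 => h1.trans h2) (fun {X Y} g h D hD => ?_)
      (fun g h => key B hB _ (rs_cj hS.1 hB g) h) hr (h ⟨hB, hr⟩).2 (key A hA C hC h) h
    have := h ⟨rs_cj hS.1 hD.1 g⁻¹, by simpa using r1_cj hD.2 g⁻¹⟩
    exact ⟨hD.1, by simpa using r1_cj this.2 g⟩
  · have hdeg := hdn.resolve_right fun h => hex h.2.1
    have hcomm : ∀ X ∈ S, ∀ Y ∈ S, Comm X Y := fun X hX Y hY =>
      ((rs_pair hS.1 hX hY).resolve_right fun h => h.elim (fun h => hex ⟨X, hX, Y, hY, h⟩) (hdeg X hX Y hY))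
    refine ⟨fun h => Set.Subset.antisymm h fun D hD => ?_, fun h => ⟨comm_iff.1 (hcomm A hA C hC),
      Set.Subset.antisymm h fun D hD => absurd ⟨C, hC, D, hD.1, hD.2⟩ hex⟩⟩
    exact mem_centralizingMembers.2 ⟨hD.1, hcomm D hD.1 A hA⟩

end Cfsg.Agent.S5037
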