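import Cfsg.Statements.S5038
import Cfsg.Agent.H9.Lines2
-- import your own Cfsg.Agent.* helpers here

set_option autoImplicit false
open Cfsg

namespace Cfsg.Agent.S5038
open CfsgH9

/-- Let S be a set of abstract root subgroups of G in which every member has a rank one partner, A ∈ S and B a line partner of A. Then the subgroup generated by the members of S normalizing AB permutes the members of S inside AB doubly transitively by conjugation. -/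
theorem result {G : Type*} [Group G] {S : Set (Subgroup G)} (hS : Cfsg.IsRootSubgroupSet S)
    (hF : ∀ A ∈ S, ¬ Cfsg.IsIsolatedIn (Cfsg.FAdj S) S A) {A B : Subgroup G} (hA : A ∈ S) (hB : B ∈ Cfsg.linePartners S A) :
    ∀ C₁ ∈ Cfsg.membersIn S (A ⊔ B), ∀ C₂ ∈ Cfsg.membersIn S (A ⊔ B), ∀ D₁ ∈ Cfsg.membersIn S (A ⊔ B),
      ∀ D₂ ∈ Cfsg.membersIn S (A ⊔ B), C₁ ≠ C₂ → D₁ ≠ D₂ →
        ∃ x ∈ ⨆ E ∈ Cfsg.normalizingMembers S (A ⊔ B), E, Cfsg.conjBy C₁ x = D₁ ∧ Cfsg.conjBy C₂ x = D₂ := by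
  have hni : ∀ A ∈ S, NI S A := fun A hA => ni_of_not_isolated hA (hF A hA)
  set K := ⨆ E ∈ Cfsg.normalizingMembers S (A ⊔ B), E with hK
  -- for every point `P` there is another point `C` whose complement is one orbit of a subgroup fixing `C`
  have key : ∀ P ∈ S, P ≤ A ⊔ B → ∃ C ∈ S, C ≤ A ⊔ B ∧ C ≠ P ∧
      ∀ E ∈ S, E ≤ A ⊔ B → E ≠ C → ∃ x ∈ K, cj x P = E ∧ cj x C = C := by
    intro P hP hle
    obtain ⟨Q, hQ, hsupQ⟩ : ∃ Q ∈ linePartners S P, P ⊔ Q = A ⊔ B := by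
      by_cases hPA : P = A
      · exact ⟨B, hPA ▸ hB, by rw [hPA]⟩
      obtain ⟨A', hA', hr⟩ := hni A hA
      obtain ⟨C, hC, hsup, h1, h2⟩ := exists_rc_on_line hS hA hA' hr hB
      by_cases hPC : P = C
      · exact ⟨A, hPC ▸ line_symm hA hC, by rw [hPC, sup_comm, hsup]⟩
      obtain ⟨f, hf, rfl, -⟩ := r1_of_mem_line hS hA hA' hr (mem_linePartners.1 hC).2.2.1 h1 h2 hP
        (hsup ▸ hle) hPC
      have e : cj f C = C := (rc_comm_right h1).cj_eq hf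
      have h3 := line_cj hS hC f
      rw [e] at h3
      refine ⟨C, h3, ?_⟩
      have h4 := rc_of_r1_comm_rc hS hA hA' hr (mem_linePartners.1 hC).2.2.1 h1
      rw [← hsup]
      apply le_antisymm (sup_le (hsup ▸ hle) le_sup_right) (sup_le ?_ le_sup_right)
      have h5 := cj_le_sup_commutator (A := cj f A) (Subgroup.inv_mem _ hf)
      have h6 := congrArg (cj f) h2
      rw [cj_commutator, cj_of_mem hf, e] at h6
      rwa [h6, cj_inv_cj] at h5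
    obtain ⟨P', hP', hr⟩ := hni P hP
    obtain ⟨C, hC, hsup, h1, h2⟩ := exists_rc_on_line hS hP hP' hr hQ
    rw [hsupQ] at hsup
    refine ⟨C, hC.1.1, hsup ▸ le_sup_right, hC.1.2.1, fun E hE hEle hne => ?_⟩
    obtain ⟨f, hf, rfl, -⟩ := r1_of_mem_line hS hP hP' hr (mem_linePartners.1 hC).2.2.1 h1 h2 hE
      (hsup ▸ hEle) hne
    refine ⟨f, ?_, rfl, (rc_comm_right h1).cj_eq hf⟩
    have hmem : ⁅P', C⁆ ∈ Cfsg.normalizingMembers S (A ⊔ B) := by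
      refine ⟨h1.1, fun x hx => cj_eq_self_iff.1 (cj_eq_self_of_le (A := ⁅P', C⁆) ?_ x hx)⟩
      intro x hx
      rw [← hsup, cj_sup, (rc_comm_right h1).cj_eq hx]
      refine sup_le ?_ le_sup_right
      have := cj_le_sup_commutator (A := P) hx
      rwa [h2] at this
    exact (le_iSup₂_of_le (f := fun E (_ : E ∈ Cfsg.normalizingMembers S (A ⊔ B)) => E) _ hmem le_rfl) hf
  have hKn : ∀ x ∈ K, cj x (A ⊔ B) = A ⊔ B := by
    have : K ≤ Subgroup.normalizer ((A ⊔ B : Subgroup G) : Set G) := iSup₂_le fun E hE => hE.2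
    exact fun x hx => cj_eq_self_iff.2 (this hx)
  obtain ⟨C, hC, hCle, hCA, hCt⟩ := key A hA le_sup_left
  obtain ⟨C', hC', hC'le, hC'C, hC't⟩ := key C hC hCle
  have trans1 : ∀ E ∈ S, E ≤ A ⊔ B → ∃ x ∈ K, cj x E = C := by
    intro E hE hle
    by_cases hEC : E = C
    · exact ⟨1, K.one_mem, by simp [hEC]⟩
    obtain ⟨T, hT, hTle, hT1, hT2⟩ : ∃ T ∈ S, T ≤ A ⊔ B ∧ T ≠ C ∧ T ≠ C' := by
      obtain ⟨T, hT, hTle, hTA, hTB⟩ := line_third hA hS hB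
      by_cases h1 : A = C'
      · by_cases h2 : B = C
        · exact ⟨T, hT, hTle, h2 ▸ hTB, h1 ▸ hTA⟩
        · exact ⟨B, hB.1.1, le_sup_right, h2, h1 ▸ hB.1.2.1⟩
      · exact ⟨A, hA, le_sup_left, hCA.symm, h1⟩
    obtain ⟨x, hx, e1, -⟩ := hCt E hE hle hEC
    obtain ⟨y, hy, e2, -⟩ := hCt T hT hTle hT1
    obtain ⟨z, hz, e3, -⟩ := hC't T hT hTle hT2
    refine ⟨z⁻¹ * y * x⁻¹, K.mul_mem (K.mul_mem (K.inv_mem hz) hy) (K.inv_mem hx), ?_⟩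
    rw [← cj_cj, ← e1, cj_inv_cj, ← cj_cj, e2, ← e3, cj_inv_cj]
  have trans2 : ∀ E ∈ S, E ≤ A ⊔ B → ∀ F ∈ S, F ≤ A ⊔ B → E ≠ F → ∃ x ∈ K, cj x E = C ∧ cj x F = A := by
    intro E hE hle F hF hFle hne
    obtain ⟨x, hx, e⟩ := trans1 E hE hle
    obtain ⟨y, hy, e1, e2⟩ := hCt (cj x F) (rs_cj hS hF x) (by rw [← hKn x hx]; exact cj_le_cj.2 hFle)
      (by rw [← e]; exact fun h => hne (cj_inj.1 h).symm)
    refine ⟨y⁻¹ * x, K.mul_mem (K.inv_mem hy) hx, ?_, ?_⟩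
    · rw [← cj_cj, e, cj_inv_of_fix e2]
    · rw [← cj_cj, ← e1, cj_inv_cj]
  intro C₁ h1 C₂ h2 D₁ h3 D₂ h4 hC hD
  obtain ⟨x, hx, e1, e2⟩ := trans2 C₁ h1.1 h1.2 C₂ h2.1 h2.2 hC
  obtain ⟨y, hy, e3, e4⟩ := trans2 D₁ h3.1 h3.2 D₂ h4.1 h4.2 hD
  refine ⟨y⁻¹ * x, K.mul_mem (K.inv_mem hy) hx, ?_, ?_⟩
  · rw [conjBy_eq, ← cj_cj, e1, ← e3, cj_inv_cj]
  · rw [conjBy_eq, ← cj_cj, e2, ← e4, cj_inv_cj]

end Cfsg.Agent.S5038
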