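import Cfsg.Statements.S5039
import Cfsg.Agent.H9.Quasi
import Cfsg.Agent.H9.SL2
-- import your own Cfsg.Agent.* helpers here

set_option autoImplicit false
universe u
open Cfsg

namespace Cfsg.Agent.S5039
open CfsgH9
theorem exists_common {G : Type*} [Group G] {S : Set (Subgroup G)} (hS : IsRootSubgroupClass S)
    (hdeg : IsDegenerateRootSet S) {A B C : Subgroup G} (hA : A ∈ S) (hC : C ∈ S)
    (hr : IsRankOnePair A B) (hAC : Comm A C) : ∃ D ∈ S, IsRankOnePair A D ∧ IsRankOnePair C D := by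
  by_contra hn
  push Not at hn
  let T : Set (Subgroup G) := {D | D ∈ S ∧ (D = C ∨ IsRankOnePair C D)}
  have hN : (⨆ D ∈ T, D).Normal := by
    rw [← Subgroup.normalizer_eq_top_iff, eq_top_iff, ← hS.1.generates]
    refine iSup₂_le fun E hE e he => cj_eq_self_iff.1 ?_
    rcases rs_pair hS.1 hC hE with h | h | h
    · refine cj_eq_self_of_le (A := E) (fun e he => ?_) e he
      simp only [cj_iSup]
      refine iSup₂_le fun D hD => le_iSup₂_of_le (f := fun E (_ : E ∈ T) => E) (cj e D) ⟨rs_cj hS.1 hD.1 e, ?_⟩ le_rfl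
      rcases hD.2 with rfl | h1
      · exact Or.inl (h.symm.cj_eq he)
      · right
        have := r1_cj h1 e
        rwa [h.symm.cj_eq he] at this
    · exact cj_of_mem (le_iSup₂_of_le (f := fun E (_ : E ∈ T) => E) E ⟨hE, Or.inr h⟩ le_rfl he)
    · exact absurd h (hdeg C hC E hE)
  have htop := normal_eq_top_of_mem hS (N := ⨆ D ∈ T, D) hC
    (le_iSup₂_of_le (f := fun E (_ : E ∈ T) => E) C ⟨hC, Or.inl rfl⟩ le_rfl)
  have : (⨆ D ∈ T, D) ≤ Subgroup.centralizer (A : Set G) := by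
    refine iSup₂_le fun D hD => comm_iff_le_centralizer.1 ?_
    rcases hD.2 with rfl | h
    · exact hAC.symm
    · rcases rs_pair hS.1 hA hD.1 with h1 | h1 | h1
      · exact h1.symm
      · exact absurd h (hn D hD.1 h1)
      · exact absurd h1 (hdeg A hA D hD.1)
  rw [htop] at this
  exact r1_not_comm hr (comm_iff_le_centralizer.2 (le_top.trans this)).symm

theorem case_order {G : Type*} [Group G] {A B C D : Subgroup G} (hAB : IsRankOnePair A B)
    (hAD : IsRankOnePair A D) (hCD : IsRankOnePair C D) (hAC : Comm A C) (hne : A ≠ C) (hA : Comm A A)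
    (hD : Comm D D) (hΓ : ∀ g, cj g A ≠ A → Comm A (cj g A) → Comm B (cj g A))
    {d : G} (hd : d ∈ D) (hd1 : d ≠ 1) (hd2 : d ^ 2 ≠ 1) (hd3 : d ^ 3 ≠ 1) : False := by
  obtain ⟨a, ha, ha1, e1⟩ := r1_ex (r1_symm hAD) hd hd1
  obtain ⟨c, hc, -, e2⟩ := r1_ex (r1_symm hCD) hd hd1
  obtain ⟨h1, h2, h3, h4⟩ := triangle_conj hCD hAC hD ha hd hc e1.symm e2.symm
  set n := c⁻¹ * a with hn
  set m := n * d⁻¹ * n⁻¹ * d with hm
  have hna : ∀ x ∈ A, Commute n x := fun x hx => by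
    have h5 : Commute c x := (hAC x hx c hc).symm
    have h6 : Commute a x := hA a ha x hx
    exact h5.inv_left.mul_left h6
  have hnA : cj n A = A := cj_eq_of_centralizes hna
  have hnD : cj n⁻¹ D ≠ D := by
    intro e
    have hmD : m ∈ D := by
      refine D.mul_mem ?_ hd
      have := cj_inv_of_fix e
      rw [inv_inv] at this
      rw [← this]; exact conj_mem_cj (D.inv_mem hd)
    have hm1 : m ≠ 1 := by
      intro e; rw [e, cj_one] at h3; exact hne h3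
    exact r1_not_comm (r1_cj_self hAD hmD hm1) (h3 ▸ hAC)
  have hdd : Commute (n * d⁻¹ * n⁻¹) d := (h1 d hd _ (conj_mem_cj (D.inv_mem hd))).symm
  have key : ∀ j : ℕ, d ^ j ≠ 1 → cj (m ^ j) A ≠ A ∧ Comm A (cj (m ^ j) A) := by
    intro j hj
    obtain ⟨a', ha', -, e3⟩ := r1_ex (r1_symm hAD) (D.pow_mem hd j) hj
    have f1 : cj (m ^ j) A = cj (n * (d ^ j)⁻¹ * a') (cj n⁻¹ D) := by
      rw [hm, hdd.mul_pow, ← cj_cj, ← e3, cj_cj, cj_cj, conj_pow, mul_assoc _ a', (hna a' ha').inv_left.eq.symm]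
      congr 1; group
    have f2 : A = cj (n * (d ^ j)⁻¹ * a') D := by
      rw [← cj_cj, e3, ← cj_cj, cj_inv_cj, hnA]
    constructor
    · intro e
      rw [f1] at e
      exact hnD (cj_inj.1 (e.trans f2))
    · rw [f1]
      nth_rewrite 1 [f2]
      rw [comm_cj_iff, ← comm_cj_iff n, cj_cj_inv]
      exact h1.symm
  have hn2 : Commute d (n ^ 2 * d * (n ^ 2)⁻¹) := by
    have hac : Commute a c := hAC a ha c hc
    have e4 : n ^ 2 = (c ^ 2)⁻¹ * a ^ 2 := by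
      rw [hn, hac.symm.inv_left.mul_pow, inv_pow]
    by_cases ha2 : a ^ 2 = 1
    · have : c ^ 2 = 1 := by rw [← h4, conj_pow, ha2]; simp
      rw [e4, ha2, this]; simp
    · obtain ⟨d', hd', -, e5⟩ := r1_ex hAD (A.pow_mem ha 2) ha2
      have e6 : cj d' C = cj (c ^ 2) D := by
        rw [← h3, cj_cj, ← h2 d' hd', ← cj_cj, e5, cj_cj, ← h4, conj_pow,
          cj_mul_of_fix _ (cj_inv_of_fix (cj_eq_of_centralizes h2))]
      have := (triangle_conj hCD hAC hD (A.pow_mem ha 2) hd' (C.pow_mem hc 2) e5 e6).1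
      rw [← e4] at this
      exact this d hd _ (conj_mem_cj hd)
  have hz : Commute m (n * m * n⁻¹) := by
    have g1 : Commute d (n * d * n⁻¹) := h1 d hd _ (conj_mem_cj hd)
    have g2 : Commute (n * d * n⁻¹) (n ^ 2 * d * (n ^ 2)⁻¹) := by
      have := g1.map (MulAut.conj n)
      simpa [pow_two, mul_assoc] using this
    have e7 : m = (n * d * n⁻¹)⁻¹ * d := by rw [hm]; group
    have e8 : n * m * n⁻¹ = (n ^ 2 * d * (n ^ 2)⁻¹)⁻¹ * (n * d * n⁻¹) := by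
      rw [hm]; simp only [pow_two, mul_inv_rev, inv_inv, mul_assoc, inv_mul_cancel_left, mul_inv_cancel_left]
    rw [e8]
    nth_rewrite 1 [e7]
    exact (g2.inv_inv.mul_right (Commute.refl _).inv_left).mul_left (hn2.inv_right.mul_right g1)
  obtain ⟨k2, k2'⟩ := key 2 hd2
  obtain ⟨k3, k3'⟩ := key 3 hd3
  obtain ⟨y, hy, hy1⟩ := r1_ex_ne_one (r1_symm hAB)
  have c1 : Commute y c := hΓ m (h3 ▸ hne.symm) (h3 ▸ hAC) y hy c (h3 ▸ hc)
  have c2 : Commute y (m ^ 2 * a * (m ^ 2)⁻¹) := hΓ _ k2 k2' y hy _ (conj_mem_cj ha)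
  have c3 : Commute y (m ^ 3 * a * (m ^ 3)⁻¹) := hΓ _ k3 k3' y hy _ (conj_mem_cj ha)
  apply r1_not_commute hAB ha ha1 hy hy1
  have e9 : n = m * a⁻¹ * m⁻¹ * a := by
    conv_lhs => rw [hn, ← h4]
    group
  have e10 : a⁻¹ = c⁻¹ * (m ^ 2 * a * (m ^ 2)⁻¹) * (m ^ 3 * a * (m ^ 3)⁻¹)⁻¹ * (m ^ 2 * a * (m ^ 2)⁻¹) *
      c⁻¹ * (m ^ 2 * a * (m ^ 2)⁻¹) * c⁻¹ := by
    have e11 : m * (m * n * m⁻¹ * n⁻¹) * m⁻¹ = m * n * m⁻¹ * n⁻¹ := by
      calc _ = m * (m * (n * m * n⁻¹)⁻¹) * m⁻¹ := by group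
        _ = _ := by rw [hz.inv_right.eq]; group
    rw [← h4]
    rw [e9] at e11
    generalize m = m' at *
    calc a⁻¹ = m' * a⁻¹ * m'⁻¹ * (m' ^ 2 * a * (m' ^ 2)⁻¹) *
        (m' * (m' * a⁻¹ * m'⁻¹ * a) * m'⁻¹ * (m' * a⁻¹ * m'⁻¹ * a)⁻¹) * (m' * a * m'⁻¹)⁻¹ := by group
      _ = _ := by rw [← e11]; group
  have : Commute y a⁻¹ := by
    rw [e10]
    exact (((((c1.inv_right.mul_right c2).mul_right c3.inv_right).mul_right c2).mul_right
      c1.inv_right).mul_right c2).mul_right c1.inv_right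
  exact (Commute.inv_right_iff.1 this).symm

theorem case_perfect {G : Type*} [Group G] {S : Set (Subgroup G)} (hS : IsRootSubgroupSet S)
    {A B C D : Subgroup G} (hC : C ∈ S)
    (hAD : IsRankOnePair A D) (hBD : IsRankOnePair B D) (hCD : IsRankOnePair C D) (hAC : Comm A C)
    (hBC : Comm B C) (hne : A ≠ C) (hA : Comm A A)
    (hD : Comm D D) (hΓ : ∀ E ∈ S, (E ≠ A ∧ Comm E A) ↔ (E ≠ B ∧ Comm E B)) :
    ∀ a ∈ A, a ∈ ⁅A ⊔ B, A ⊔ B⁆ → a = 1 := by
  obtain ⟨w, hwD, hwA⟩ : ∃ w, (∀ x ∈ D, w * x = x * w) ∧ cj w A = B := by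
    obtain ⟨d, hd, hd1⟩ := r1_ex_ne_one (r1_symm hAD)
    obtain ⟨a, ha, -, e1⟩ := r1_ex (r1_symm hAD) hd hd1
    obtain ⟨b, hb, -, e3⟩ := r1_ex (r1_symm hBD) hd hd1
    obtain ⟨c, hc, -, e2⟩ := r1_ex (r1_symm hCD) hd hd1
    obtain ⟨-, h2, h3, -⟩ := triangle_conj hCD hAC hD ha hd hc e1.symm e2.symm
    obtain ⟨-, h2', h3', -⟩ := triangle_conj hCD hBC hD hb hd hc e3.symm e2.symm
    refine ⟨_⁻¹ * _, fun x hx => ?_, by rw [← cj_cj, h3, ← h3', cj_inv_cj]⟩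
    have g1 : Commute _ x := h2 x hx
    have g2 : Commute _ x := h2' x hx
    exact g2.inv_left.mul_left g1
  let P : Subgroup G → Subgroup G → Prop := fun X Y => ∀ E ∈ S, (E ≠ X ∧ Comm E X) ↔ (E ≠ Y ∧ Comm E Y)
  have Pcj : ∀ {X Y} (g : G), P X Y → P (cj g X) (cj g Y) := by
    intro X Y g h E hE
    have := h _ (rs_cj hS hE g⁻¹)
    rw [← comm_cj_iff g, ← comm_cj_iff (B := Y) g, cj_cj_inv, Ne, Ne, cj_eq_iff, cj_eq_iff, inv_inv] at this
    exact this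
  have Ptrans : ∀ {X Y Z}, P X Y → P Y Z → P X Z := fun h1 h2 E hE => (h1 E hE).trans (h2 E hE)
  have Psymm : ∀ {X Y}, P X Y → P Y X := fun h1 E hE => (h1 E hE).symm
  have Prefl : ∀ X, P X X := fun X E hE => Iff.rfl
  have hθ : ∀ a ∈ A, P (cj a D) (cj (w * a * w⁻¹) D) := by
    intro a ha
    by_cases ha1 : a = 1
    · simpa [ha1] using Prefl D
    obtain ⟨d, hd, -, e⟩ := r1_ex hAD ha ha1
    rw [cj_mul_of_fix _ (cj_inv_of_fix (cj_eq_of_centralizes hwD)), ← cj_cj, ← e, cj_cj, hwD d hd,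
      ← cj_cj, hwA]
    exact Pcj d hΓ
  let Rel : G → G → Prop := fun x a => ∀ a' ∈ A, P (cj (x * a') D) (cj (a * a') D)
  have Rmul : ∀ {x y a b}, b ∈ A → Rel x a → Rel y b → Rel (x * y) (a * b) := by
    intro x y a b hb h1 h2 a' ha'
    have h3 := Pcj x (h2 a' ha')
    rw [cj_cj, cj_cj, ← mul_assoc] at h3
    rw [mul_assoc a]
    exact Ptrans h3 (h1 _ (A.mul_mem hb ha'))
  have Rinv : ∀ {x a}, a ∈ A → Rel x a → Rel x⁻¹ a⁻¹ := by
    intro x a ha h1 a' ha'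
    have h3 := Pcj x⁻¹ (h1 _ (A.mul_mem (A.inv_mem ha) ha'))
    rw [cj_cj, cj_cj, inv_mul_cancel_left, mul_inv_cancel_left] at h3
    exact Psymm h3
  let W : Subgroup G :=
    { carrier := {x | ∃ a ∈ A, Rel x a}
      one_mem' := ⟨1, A.one_mem, fun a' _ => Prefl _⟩
      mul_mem' := by
        rintro x y ⟨a, ha, h1⟩ ⟨b, hb, h2⟩
        exact ⟨a * b, A.mul_mem ha hb, Rmul hb h1 h2⟩
      inv_mem' := by
        rintro x ⟨a, ha, h1⟩
        exact ⟨a⁻¹, A.inv_mem ha, Rinv ha h1⟩ }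
  let T : Subgroup G :=
    { carrier := {x | Rel x 1}
      one_mem' := fun a' _ => Prefl _
      mul_mem' := fun h1 h2 => by simpa using Rmul A.one_mem h1 h2
      inv_mem' := fun h1 => by simpa using Rinv A.one_mem h1 }
  have hW : A ⊔ B ≤ W := by
    refine sup_le (fun a ha => ⟨a, ha, fun a' _ => Prefl _⟩) fun b hb => ?_
    rw [← hwA] at hb
    obtain ⟨a, ha, rfl⟩ := mem_cj'.1 hb
    refine ⟨a, ha, fun a' ha' => ?_⟩
    have h1 := Pcj (w * a * w⁻¹) (hθ a' ha')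
    rw [cj_cj, cj_cj] at h1
    refine Ptrans h1 (Psymm ?_)
    convert hθ _ (A.mul_mem ha ha') using 2
    group
  have hT : ⁅W, W⁆ ≤ T := by
    rw [Subgroup.commutator_le]
    rintro x ⟨a, ha, h1⟩ y ⟨b, hb, h2⟩
    have := Rmul (A.inv_mem hb) (Rmul (A.inv_mem ha) (Rmul hb h1 h2) (Rinv ha h1)) (Rinv hb h2)
    rw [hA a ha b hb] at this
    change Rel _ 1
    simpa [commutatorElement_def] using this
  intro a ha hmem
  by_contra ha1
  have h1 := hT (Subgroup.commutator_mono hW hW hmem) 1 A.one_mem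
  obtain ⟨d, hd, -, e⟩ := r1_ex hAD ha ha1
  rw [mul_one, mul_one, cj_one, ← e] at h1
  have h2 := ((h1 _ (rs_cj hS hC d)).1 ⟨fun e => hne (cj_inj.1 e).symm, hAC.symm.cj d⟩).2
  rw [← cj_of_mem hd, comm_cj_iff] at h2
  exact r1_not_comm hCD h2


/-- Let S be a class of abstract root subgroups of G containing two different commuting members. Suppose that, in case S is degenerate and every element of every member of S has order at most 3, the following holds: for every A ∈ S and every rank one partner B of A there are subgroups A₀ ≤ A and B₀ ≤ B generating an image of SL₂(k) with central kernel, k a field with at least four elements, A₀ and B₀ being the images of the unitriangular subgroups. Then every rank one pair A, B in S is special. -/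
theorem result {G : Type u} [Group G] {S : Set (Subgroup G)} (hS : Cfsg.IsRootSubgroupClass S)
    (hcomm : ∃ A ∈ S, ∃ C ∈ S, A ≠ C ∧ ⁅A, C⁆ = ⊥)
    (hH : Cfsg.IsDegenerateRootSet S → (∀ A ∈ S, ∀ a ∈ A, 0 < orderOf a ∧ orderOf a ≤ 3) →
      ∀ A ∈ S, ∀ B ∈ Cfsg.rankOnePartners S A, ∃ A₀ B₀ : Subgroup G, A₀ ≤ A ∧ B₀ ≤ B ∧
        ∃ (k : Type u) (_ : Field k), 3 < ENat.card k ∧ Cfsg.IsPSL2PairOver k A₀ B₀)
    {A B : Subgroup G} (hA : A ∈ S) (hB : B ∈ Cfsg.rankOnePartners S A) : Cfsg.IsSpecialRankOnePair A B := by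
  have hni : ∀ E ∈ S, NI S E := fun E hE => class_ni hS ⟨A, hA, B, hB.1, hB.2⟩ hE
  by_cases hdeg : IsDegenerateRootSet S
  swap
  · obtain ⟨C, hC, h1, h2⟩ := nd_exists_line hS hni (exists_rc_of_not_degenerate hdeg) hA hB.1 hB.2
    exact special_of_line hS.1 hA hB.1 hB.2 (mem_linePartners.1 hC).2.2.1 hC.1.1 h1 h2
  have dich : ∀ X ∈ S, ∀ Y ∈ S, Comm X Y ∨ IsRankOnePair X Y := fun X hX Y hY =>
    (rs_pair hS.1 hX hY).imp_right fun h => h.resolve_right (hdeg X hX Y hY)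
  by_contra hns
  have hΓ1 : ∀ C ∈ S, C ≠ A → Comm C A → Comm C B := fun C hC hne hc =>
    (dich C hC B hB.1).resolve_right fun hr => hns (special_of_triangle hB.2 hr hc.symm hne.symm
      (rs_comm_self hS.1 hA) (rs_comm_self hS.1 hB.1))
  have hΓ2 : ∀ C ∈ S, C ≠ B → Comm C B → Comm C A := fun C hC hne hc =>
    (dich C hC A hA).resolve_right fun hr => hns (special_symm (special_of_triangle (r1_symm hB.2) hr
      hc.symm hne.symm (rs_comm_self hS.1 hB.1) (rs_comm_self hS.1 hA)))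
  obtain ⟨C, hC, hne, hAC⟩ : ∃ C ∈ S, A ≠ C ∧ Comm A C := by
    obtain ⟨A', hA', C', hC', hne, hc⟩ := hcomm
    obtain ⟨g, rfl⟩ := hS.2.2 A' hA' A hA
    exact ⟨cj g C', rs_cj hS.1 hC' g, fun e => hne (cj_inj.1 e), (comm_iff.2 hc).cj g⟩
  have hBC : Comm B C := (hΓ1 C hC hne.symm hAC.symm).symm
  obtain ⟨D, hD, hAD, hCD⟩ := exists_common hS hdeg hA hC hB.2 hAC
  have hBD : IsRankOnePair B D := (dich B hB.1 D hD).resolve_left fun hc =>
    r1_not_comm hAD (hΓ2 D hD (fun e => r1_not_comm hCD (e ▸ hBC.symm)) hc.symm).symm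
  by_cases hord : ∀ A ∈ S, ∀ a ∈ A, 0 < orderOf a ∧ orderOf a ≤ 3
  · obtain ⟨A₀, B₀, hA₀, hB₀, k, _, hk, φ, h1, h2, h3, h4⟩ := hH hdeg hord A hA B hB
    have hx : φ (xU 1) ∈ A₀ := h3 ▸ ⟨xU 1, by rw [upper_eq]; exact ⟨1, rfl⟩, rfl⟩
    have hx2 : φ (xU 1) ∈ ⁅A ⊔ B, A ⊔ B⁆ := by
      have : φ (xU 1) ∈ (commutator _).map φ := ⟨xU 1, by rw [sl2_perfect hk]; trivial, rfl⟩
      rw [map_commutator_eq, h1] at this
      exact Subgroup.commutator_mono (sup_le_sup hA₀ hB₀) (sup_le_sup hA₀ hB₀) this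
    have := case_perfect hS.1 hC hAD hBD hCD hAC hBC hne (rs_comm_self hS.1 hA) (rs_comm_self hS.1 hD)
      (fun E hE => ⟨fun h => ⟨fun e => r1_not_comm hB.2 (e ▸ h.2.symm), hΓ1 E hE h.1 h.2⟩,
        fun h => ⟨fun e => r1_not_comm hB.2 (e ▸ h.2), hΓ2 E hE h.1 h.2⟩⟩) _ (hA₀ hx) hx2
    have h5 := Subgroup.mem_center_iff.1 (h2 this) (xL 1)
    exact r1_not_commute special_UU_LL.1 ⟨1, rfl⟩ (by simp [xU_eq_one]) ⟨1, rfl⟩ (by simp [xL_eq_one]) h5.symm
  · push Not at hord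
    obtain ⟨E, hE, e, he, ho⟩ := hord
    obtain ⟨g, rfl⟩ := hS.2.2 E hE D hD
    have hpow : ∀ j : ℕ, 0 < j → j ≤ 3 → (g * e * g⁻¹) ^ j ≠ 1 := by
      intro j hj hj3 h
      have h1 : e ^ j = 1 := by simpa [conj_pow] using h
      have h2 := orderOf_le_of_pow_eq_one hj h1
      have h3 := ho (isOfFinOrder_iff_pow_eq_one.2 ⟨j, hj, h1⟩).orderOf_pos
      omega
    exact case_order hB.2 hAD hCD hAC hne (rs_comm_self hS.1 hA) (rs_comm_self hS.1 hD)
      (fun x h1 h2 => (hΓ1 _ (rs_cj hS.1 hA x) h1 h2.symm).symm) (conj_mem_cj he)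
      (by simpa using hpow 1 (by norm_num) (by norm_num)) (hpow 2 (by norm_num) (by norm_num))
      (hpow 3 (by norm_num) (by norm_num))

end Cfsg.Agent.S5039
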