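import Cfsg.Statements.S5040
import Cfsg.Agent.H9.Lines2
-- import your own Cfsg.Agent.* helpers here

set_option autoImplicit false
open Cfsg

namespace Cfsg.Agent.S5040
open CfsgH9

/-- Let S be a non-degenerate class of abstract root subgroups of G and Δ a weak TI-subset of S. Then the members of Δ commute with one another elementwise. -/
theorem result {G : Type*} [Group G] {S : Set (Subgroup G)} (hS : Cfsg.IsRootSubgroupClass S) (hnd : Cfsg.IsNondegenerateRootSet S)
    {Δ : Set (Subgroup G)} (hΔ : Cfsg.IsWeakTISubset S Δ) : Cfsg.IsAbelianFamily Δ := by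
  obtain ⟨hsub, -, hne, hti⟩ := hΔ
  let N : Subgroup G :=
    { carrier := {g | ∀ E, E ∈ Δ ↔ cj g E ∈ Δ}
      one_mem' := fun E => by simp
      mul_mem' := fun {x y} hx hy E => by rw [← cj_cj, ← hx, ← hy]
      inv_mem' := fun {x} hx E => by rw [hx (cj x⁻¹ E), cj_cj_inv] }
  have hN : ∀ A ∈ Δ, ∀ E ∈ S, Comm E A → E ≤ N := by
    intro A hA E hE hc e he
    by_cases he1 : e = 1
    · rw [he1]; exact N.one_mem
    rcases hti e ⟨he1, E, hE, he⟩ with h | h
    · intro F
      constructor
      · intro hF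
        rw [← h]; exact ⟨F, hF, rfl⟩
      · intro hF
        rw [← h] at hF
        obtain ⟨F', hF', e1⟩ := hF
        rw [← cj_inj.1 e1]; exact hF'
    · exact absurd hA (Set.disjoint_left.1 h ⟨A, hA, hc.cj_eq he⟩)
  have hr : ∀ A ∈ Δ, ∀ B ∈ S, B ≤ N → ¬ IsRankOnePair A B := by
    intro A hA B hB hBN hr
    apply hne
    refine Set.Subset.antisymm hsub fun D hD => ?_
    obtain ⟨u, hu, rfl⟩ := nd_generated hS hnd (hsub hA) hB hr (U := N)
      (fun C hC => hN A hA C hC.1.1 (mem_linePartners.1 hC).2.2.1.symm) hBN D hD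
    exact (hu A).1 hA
  intro A hA B hB
  rcases rs_pair hS.1 (hsub hA) (hsub hB) with h | h | h
  · exact h
  · exact absurd h (hr A hA B (hsub hB) (hN B hB B (hsub hB) (rs_comm_self hS.1 (hsub hB))))
  · obtain ⟨F, hF, h1, h2⟩ := rc_exists_r1_comm hS.1 (nd_ni hS hnd) (hsub hA) (hsub hB) h
    exact absurd h1 (hr A hA F hF (hN B hB F hF h2))

end Cfsg.Agent.S5040
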