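import Cfsg.Statements.S5042
import Cfsg.Agent.H9.Lines2
-- import your own Cfsg.Agent.* helpers here

set_option autoImplicit false
open Cfsg

namespace Cfsg.Agent.S5042
open CfsgH9

/-- Let S be a non-degenerate class of abstract root subgroups of G, A ∈ S and B a rank one partner of A. Then G is generated by the line partners of A together with B. -/
theorem result {G : Type*} [Group G] {S : Set (Subgroup G)} (hS : Cfsg.IsRootSubgroupClass S) (hnd : Cfsg.IsNondegenerateRootSet S)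
    {A B : Subgroup G} (hA : A ∈ S) (hB : B ∈ Cfsg.rankOnePartners S A) :
    (⨆ C ∈ Cfsg.linePartners S A, C) ⊔ B = ⊤ := by
  rw [eq_top_iff, ← hS.1.generates]
  have hU : ∀ C ∈ linePartners S A, C ≤ (⨆ C ∈ Cfsg.linePartners S A, C) ⊔ B := fun C hC =>
    le_sup_of_le_left (le_iSup₂_of_le (f := fun E (_ : E ∈ Cfsg.linePartners S A) => E) C hC le_rfl)
  have hAU : A ≤ (⨆ C ∈ Cfsg.linePartners S A, C) ⊔ B := by
    obtain ⟨C, hC, h1, h2⟩ := nd_exists_line hS (nd_ni hS hnd) hnd.2.2 hA hB.1 hB.2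
    obtain ⟨b, hb, hb1⟩ := rs_ex hS.1 hB.1
    obtain ⟨u, hu, e⟩ := nd_generated hS hnd hA hB.1 hB.2 hU le_sup_right B hB.1
    rw [eq_comm, cj_eq_iff] at e
    have := cj_le_of_mem (Subgroup.inv_mem _ hu) (le_sup_right (a := ⨆ C ∈ Cfsg.linePartners S A, C) (b := B))
    rwa [← e] at this
  refine iSup₂_le fun D hD => ?_
  obtain ⟨u, hu, rfl⟩ := nd_generated hS hnd hA hB.1 hB.2 hU le_sup_right D hD
  exact cj_le_of_mem hu hAU

end Cfsg.Agent.S5042
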