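import Cfsg.Statements.S5043
import Cfsg.Agent.H9.ExSL
-- import your own Cfsg.Agent.* helpers here

set_option autoImplicit false
open Matrix
open Cfsg

namespace Cfsg.Agent.S5043
open CfsgH9

/-- Let k be a field and n a natural number. In SL_{n+3}(k) (so in every dimension at least 3) the conjugates of the root subgroup of elementary transvections 1 + c E₁₂ (c ∈ k) — that is, the groups of transvections attached to an incident point–hyperplane pair — form a non-degenerate class of abstract k-root subgroups of SL_{n+3}(k) whose graph of rank one pairs is connected. -/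
theorem result (k : Type*) [Field k] (n : ℕ) :
    Cfsg.IsRootSubgroupClass {A : Subgroup (Matrix.SpecialLinearGroup (Fin (n + 3)) k) |
        ∃ g : Matrix.SpecialLinearGroup (Fin (n + 3)) k,
          A = Cfsg.conjBy (Subgroup.closure {t : Matrix.SpecialLinearGroup (Fin (n + 3)) k |
            ∃ c : k, (t : Matrix (Fin (n + 3)) (Fin (n + 3)) k) = Matrix.transvection 0 1 c}) g} ∧
    Cfsg.IsNondegenerateRootSet {A : Subgroup (Matrix.SpecialLinearGroup (Fin (n + 3)) k) |
        ∃ g : Matrix.SpecialLinearGroup (Fin (n + 3)) k,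
          A = Cfsg.conjBy (Subgroup.closure {t : Matrix.SpecialLinearGroup (Fin (n + 3)) k |
            ∃ c : k, (t : Matrix (Fin (n + 3)) (Fin (n + 3)) k) = Matrix.transvection 0 1 c}) g} ∧
    Cfsg.IsKRootSubgroupSet k {A : Subgroup (Matrix.SpecialLinearGroup (Fin (n + 3)) k) |
        ∃ g : Matrix.SpecialLinearGroup (Fin (n + 3)) k,
          A = Cfsg.conjBy (Subgroup.closure {t : Matrix.SpecialLinearGroup (Fin (n + 3)) k |
            ∃ c : k, (t : Matrix (Fin (n + 3)) (Fin (n + 3)) k) = Matrix.transvection 0 1 c}) g} ∧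
    Cfsg.IsConnectedFamily (Cfsg.FAdj {A : Subgroup (Matrix.SpecialLinearGroup (Fin (n + 3)) k) |
        ∃ g : Matrix.SpecialLinearGroup (Fin (n + 3)) k,
          A = Cfsg.conjBy (Subgroup.closure {t : Matrix.SpecialLinearGroup (Fin (n + 3)) k |
            ∃ c : k, (t : Matrix (Fin (n + 3)) (Fin (n + 3)) k) = Matrix.transvection 0 1 c}) g})
      {A : Subgroup (Matrix.SpecialLinearGroup (Fin (n + 3)) k) |
        ∃ g : Matrix.SpecialLinearGroup (Fin (n + 3)) k,
          A = Cfsg.conjBy (Subgroup.closure {t : Matrix.SpecialLinearGroup (Fin (n + 3)) k |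
            ∃ c : k, (t : Matrix (Fin (n + 3)) (Fin (n + 3)) k) = Matrix.transvection 0 1 c}) g} := by
  have h01 : (0 : Fin (n + 3)) ≠ 1 := by simp
  have h10 : (1 : Fin (n + 3)) ≠ 0 := by simp
  have h12 : (1 : Fin (n + 3)) ≠ 2 := by
    intro e
    have := congrArg Fin.val e
    simp [Nat.mod_eq_of_lt] at this
  have h02 : (0 : Fin (n + 3)) ≠ 2 := by
    intro e
    have := congrArg Fin.val e
    simp [Nat.mod_eq_of_lt] at this
  rw [SL_class_eq h01]
  have hS := (linFam_SL (k := k) (ι := Fin (n + 3))).rootSet SL_gen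
  have hrc := (linFam_SL (k := k) (ι := Fin (n + 3))).rc (single_mem_TvS h01) (single_mem_TvS h12)
    (by simp [single_mul_single_same, single_mul_single_of_ne, h02.symm])
    (by simp [single_mul_single_same, single_mul_single_of_ne, h02.symm]) one_ne_zero
    (by simpa [single_mul_single_same, single_mul_single_of_ne, h02.symm] using single_mem_TvS h02)
  refine ⟨class_of_connected hS ⟨_, _, single_mem_TvS h01, rfl⟩ SL_connected, ⟨?_, ?_, ?_⟩,
    linFam_SL.kRootSet SL_gen, SL_connected⟩
  · exact ⟨_, ⟨_, single_mem_TvS h01, rfl⟩, _, hrc.1, rc_ne_commutator hS hrc,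
      comm_iff.1 (rc_comm_left hrc).symm⟩
  · exact ⟨_, ⟨_, single_mem_TvS h01, rfl⟩, _, ⟨_, single_mem_TvS h10, rfl⟩,
      (linFam_SL.opp (single_mem_TvS h01) (single_mem_TvS h10) one_ne_zero
        (by simp [single_mul_single_same]) (by simp [single_mul_single_same])).2.2⟩
  · exact ⟨_, ⟨_, single_mem_TvS h01, rfl⟩, _, ⟨_, single_mem_TvS h12, rfl⟩, hrc⟩

end Cfsg.Agent.S5043
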