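import Cfsg.Statements.S5045
import Cfsg.Agent.H9.RootInv3
-- import your own Cfsg.Agent.* helpers here

set_option autoImplicit false
open Cfsg

namespace Cfsg.Agent.S5045
open CfsgH9

/-- Let G be a finite group generated by a set D of root involutions, and W the set of members of D whose product with every other member of D has even order or is trivial (the isolated vertices of the odd-order-product graph on D). Then W is conjugation-invariant and generates a normal 2-subgroup of G meeting D in exactly W; the commutator of two members of D lying in different connected components of that graph, each with more than one member, lies in the subgroup generated by W; and for a in such a component, every member of D commuting with a, different from a and with product with a in D, lies in that component or in W. -/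
theorem result {G : Type*} [Group G] [Finite G] {D : Set G} (hD : Cfsg.IsRootInvolutionSet D) :
    (∀ w ∈ {w | Cfsg.IsIsolatedElem (Cfsg.OddAdj D) D w}, ∀ g : G, g * w * g⁻¹ ∈ {w | Cfsg.IsIsolatedElem (Cfsg.OddAdj D) D w}) ∧
    (Subgroup.closure {w | Cfsg.IsIsolatedElem (Cfsg.OddAdj D) D w}).Normal ∧
    IsPGroup 2 ↥(Subgroup.closure {w | Cfsg.IsIsolatedElem (Cfsg.OddAdj D) D w}) ∧
    (Subgroup.closure {w | Cfsg.IsIsolatedElem (Cfsg.OddAdj D) D w} : Set G) ∩ D = {w | Cfsg.IsIsolatedElem (Cfsg.OddAdj D) D w} ∧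
    (∀ a ∈ D, ∀ b ∈ D, (∃ a' ∈ Cfsg.elemComponentOf (Cfsg.OddAdj D) D a, a' ≠ a) →
      (∃ b' ∈ Cfsg.elemComponentOf (Cfsg.OddAdj D) D b, b' ≠ b) →
      Cfsg.elemComponentOf (Cfsg.OddAdj D) D a ≠ Cfsg.elemComponentOf (Cfsg.OddAdj D) D b →
        a * b * a⁻¹ * b⁻¹ ∈ Subgroup.closure {w | Cfsg.IsIsolatedElem (Cfsg.OddAdj D) D w}) ∧
    (∀ a ∈ D, (∃ a' ∈ Cfsg.elemComponentOf (Cfsg.OddAdj D) D a, a' ≠ a) →
      Cfsg.productPartners D a ⊆ Cfsg.elemComponentOf (Cfsg.OddAdj D) D a ∪ {w | Cfsg.IsIsolatedElem (Cfsg.OddAdj D) D w}) := by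
  have hR := RI.of_set hD
  have hW : ∀ w ∈ {w | Cfsg.IsIsolatedElem (Cfsg.OddAdj D) D w}, ∀ g : G,
      g * w * g⁻¹ ∈ {w | Cfsg.IsIsolatedElem (Cfsg.OddAdj D) D w} := by
    intro w hw g
    rw [Set.mem_ofPred_eq, isolated_iff] at hw ⊢
    refine ⟨hD.conj_mem w hw.1 g, fun y hy ho => hw.2 _ (hD.conj_mem y hy g⁻¹) ?_⟩
    simpa [mul_assoc] using ho.conj g⁻¹
  have hN : (Subgroup.closure {w | Cfsg.IsIsolatedElem (Cfsg.OddAdj D) D w}).Normal := by
    refine ⟨fun t ht g => ?_⟩
    induction ht using Subgroup.closure_induction with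
    | one => simp
    | mem t ht => exact Subgroup.subset_closure (hW t ht g)
    | mul s t _ _ hs ht => convert Subgroup.mul_mem _ hs ht using 1; group
    | inv s _ hs => convert Subgroup.inv_mem _ hs using 1; group
  have hP : IsPGroup 2 ↥(Subgroup.closure {w | Cfsg.IsIsolatedElem (Cfsg.OddAdj D) D w}) :=
    isPGroup_closure_of_not_od hR (fun w hw => hw.1) (fun u hu v hv => by
      have := hW v hv u
      rwa [hR.inv hu.1] at this) fun u hu v hv => (isolated_iff.1 hu).2 v hv.1
  have hX : ∀ a ∈ D, (∃ a' ∈ Cfsg.elemComponentOf (Cfsg.OddAdj D) D a, a' ≠ a) →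
      Cfsg.productPartners D a ⊆ Cfsg.elemComponentOf (Cfsg.OddAdj D) D a ∪
        {w | Cfsg.IsIsolatedElem (Cfsg.OddAdj D) D w} := by
    rintro a ha ⟨a', ha', hne⟩ b hb
    rw [mem_productPartners] at hb
    obtain ⟨x, hx, ho⟩ := OR.exists_od ha'.2 hne
    by_cases hex : ∃ y ∈ D, Od b y
    · obtain ⟨y, hy, ho'⟩ := hex
      exact Or.inl ⟨hb.1, hb.or_of_od hR ha hx ho hy ho'⟩
    · push Not at hex
      exact Or.inr (isolated_iff.2 ⟨hb.1, hex⟩)
  refine ⟨hW, hN, hP, ?_, ?_, hX⟩
  · refine Set.Subset.antisymm ?_ fun w hw => ⟨Subgroup.subset_closure hw, hw.1⟩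
    rintro d ⟨hd, hdD⟩
    refine isolated_iff.2 ⟨hdD, fun y hy ho => ho.not_sq_mem hR hdD hP ?_⟩
    have := Subgroup.mul_mem _ hd (hN.conj_mem d hd y)
    rwa [hR.inv hy, ← mul_assoc, ← mul_assoc, mul_assoc _ d y, ← pow_two] at this
  · intro a ha b hb h1 h2 hne
    have hcomp : ∀ {u v : G}, OR D u v →
        Cfsg.elemComponentOf (Cfsg.OddAdj D) D u = Cfsg.elemComponentOf (Cfsg.OddAdj D) D v := by
      intro u v h
      ext w
      exact and_congr_right fun _ => ⟨fun h' => h.symm.trans h', fun h' => h.trans h'⟩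
    rw [hR.inv ha, hR.inv hb]
    rcases hR.tri ha hb with h | h | h
    · rw [h, mul_assoc b, hR.sq a ha, mul_one, hR.sq b hb]; exact Subgroup.one_mem _
    · exact absurd (hcomp (or_single ha hb h)) hne
    · rcases hX a ha h1 (mem_productPartners.2 (h.xp_left hR ha hb)) with h3 | h3
      · rcases hX b hb h2 (mem_productPartners.2 (h.xp_right hR ha hb)) with h4 | h4
        · exact absurd ((hcomp h3.2).trans (hcomp h4.2).symm) hne
        · exact Subgroup.subset_closure h4
      · exact Subgroup.subset_closure h3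

end Cfsg.Agent.S5045
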