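import Cfsg.Statements.S5046
import Cfsg.Agent.H9.RootInv3
-- import your own Cfsg.Agent.* helpers here

set_option autoImplicit false
open Cfsg

namespace Cfsg.Agent.S5046
open CfsgH9

/-- Let G be a finite group generated by a set D of root involutions whose odd-order-product graph is connected, and d ∈ D. Then the members e of D with the same commuting members as d are exactly those for which the union of the commuting members of d and the members whose product with d has order 4 equals the corresponding union for e. -/
theorem result {G : Type*} [Group G] [Finite G] {D : Set G} (hD : Cfsg.IsRootInvolutionSet D)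
    (hc : Cfsg.IsConnectedSet (Cfsg.OddAdj D) D) {d : G} (hd : d ∈ D) :
    Cfsg.sameCommutingClass D d =
      {e | e ∈ D ∧ Cfsg.commutingMembers D d ∪ Cfsg.fourPartners D d = Cfsg.commutingMembers D e ∪ Cfsg.fourPartners D e} := by
  have hR := RI.of_set hD
  have hcl := oneClass_of_connected hR hc
  have key : ∀ {u : G}, u ∈ D → Cfsg.commutingMembers D u ∪ Cfsg.fourPartners D u = D \ Aset D u := by
    intro u hu
    ext y
    constructor
    · rintro (h | h)
      · exact ⟨h.1, fun ho => ho.2.not_comm hR hu h.1 h.2.symm⟩
      · exact ⟨h.1, fun ho => ho.2.not_fo h.2⟩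
    · rintro ⟨hy, h⟩
      rcases hR.tri hu hy with h1 | h1 | h1
      · exact Or.inl ⟨hy, h1.symm⟩
      · exact absurd ⟨hy, h1⟩ h
      · exact Or.inr ⟨hy, h1⟩
  ext e
  refine and_congr_right fun he => ?_
  rw [key hd, key he]
  constructor
  · intro h
    rw [Set.Subset.antisymm (Aset_subset_of_C_subset hR he hd h.symm.subset)
      (Aset_subset_of_C_subset hR hd he h.subset)]
  · intro h
    refine C_eq_of_Aset_eq hR hcl hd he ?_
    ext y
    by_cases hy : y ∈ D
    · have := Set.ext_iff.1 h y
      simp only [Set.mem_diff, hy, true_and] at this
      exact not_iff_not.1 this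
    · exact ⟨fun h => absurd h.1 hy, fun h => absurd h.1 hy⟩

end Cfsg.Agent.S5046
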