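import Cfsg.Statements.S5049
import Cfsg.Agent.H9.RootInv3
-- import your own Cfsg.Agent.* helpers here

set_option autoImplicit false
open Cfsg

namespace Cfsg.Agent.S5049
open CfsgH9

/-- Let G be a finite group generated by a set D of odd transpositions (root involutions with no product of order 4), Q = O₂(G), and for a ∈ D let Q_a be the commutator subgroup of Q with a. Then every member of D commuting with a centralizes Q_a; and for b ∈ D with ab of odd order greater than 1, the centralizer of ab in Q is the intersection of the centralizers of a and b in Q. -/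
theorem result {G : Type*} [Group G] [Finite G] {D : Set G} (hD : Cfsg.IsOddTranspositionSet D) {a : G} (ha : a ∈ D) :
    (∀ e ∈ Cfsg.commutingMembers D a, ∀ q ∈ ⁅Cfsg.pCore 2 G, Subgroup.zpowers a⁆, e * q = q * e) ∧
    (∀ b ∈ Cfsg.oddPartners D a,
      Cfsg.pCore 2 G ⊓ Subgroup.centralizer {a * b} = Cfsg.pCore 2 G ⊓ Subgroup.centralizer {a} ⊓ Subgroup.centralizer {b}) := by
  have hR := RI.of_set hD.1
  have hP : IsPGroup 2 (Cfsg.pCore 2 G) := CfsgL0.isPGroup_pCore G 2
  have hN : (Cfsg.pCore 2 G).Normal := inferInstance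
  have key : ∀ e ∈ D, e * a = a * e → ∀ q ∈ Cfsg.pCore 2 G, e * (q * a * q⁻¹) = (q * a * q⁻¹) * e := by
    intro e he hea q hq
    have hm := hD.1.conj_mem a ha q
    rcases hR.tri he hm with h | h | h
    · exact h
    · exfalso
      apply h.not_sq_mem hR he hP
      rw [← QuotientGroup.eq_one_iff]
      have h1 : (q : G ⧸ Cfsg.pCore 2 G) = 1 := (QuotientGroup.eq_one_iff q).2 hq
      have h2 : (e * a) ^ 2 = 1 := by
        rw [Commute.mul_pow hea, pow_two, pow_two, hR.sq e he, hR.sq a ha, one_mul]
      have h3 := congrArg (QuotientGroup.mk' (Cfsg.pCore 2 G)) h2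
      simp only [QuotientGroup.mk'_apply, QuotientGroup.mk_pow, QuotientGroup.mk_mul, QuotientGroup.mk_inv,
        QuotientGroup.mk_one, h1, one_mul, inv_one, mul_one] at h3 ⊢
      exact h3
    · exact absurd h (hD.2 _ he _ hm)
  constructor
  · intro e he q hq
    have : ⁅Cfsg.pCore 2 G, Subgroup.zpowers a⁆ ≤ Subgroup.centralizer {e} := by
      rw [Subgroup.commutator_le]
      rintro q hq _ ⟨k, rfl⟩
      rw [Subgroup.mem_centralizer_singleton_iff, commutatorElement_def]
      have h1 : Commute e (q * a * q⁻¹) := key e he.1 he.2 q hq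
      have h2 : Commute e a := he.2
      have := (h1.zpow_right k).mul_right (h2.zpow_right k).inv_right
      rw [conj_zpow] at this
      exact this.symm
    exact (Subgroup.mem_centralizer_singleton_iff.1 (this hq)).symm
  · intro b hb
    rw [mem_oddPartners] at hb
    ext q
    simp only [Subgroup.mem_inf, Subgroup.mem_centralizer_singleton_iff]
    constructor
    · rintro ⟨hq, h⟩
      have h1 := key a ha rfl q hq
      have hm := hD.1.conj_mem a ha q
      have hm' := hD.1.conj_mem b hb.1 q
      have e1 : a * (q * a * q⁻¹) = b * (q * b * q⁻¹) := by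
        have h2 : (q * a * q⁻¹) * (q * b * q⁻¹) = a * b := by
          calc _ = q * (a * b) * q⁻¹ := by group
            _ = _ := by rw [h]; group
        calc _ = a * ((q * a * q⁻¹) * (q * b * q⁻¹)) * (q * b * q⁻¹) := by
              rw [mul_assoc a, mul_assoc (q * a * q⁻¹), hR.sq _ hm', mul_one]
          _ = _ := by rw [h2, hR.sq_assoc ha]
      have h2 : b * (q * b * q⁻¹) = (q * b * q⁻¹) * b := by
        rcases hR.tri hb.1 hm' with h3 | h3 | h3
        · exact h3
        · exfalso
          apply h3.mul_ne_one hR hb.1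
          apply eq_one_of_odd_of_sq h3.2
          rw [← e1]
          nth_rewrite 1 [h1]
          rw [mul_assoc, hR.sq_assoc ha, hR.sq _ hm]
        · exact absurd h3 (hD.2 _ hb.1 _ hm')
      have h3 : a * (q * a * q⁻¹) = 1 := by
        refine hR.lemD hb.1 hb.2.symm ?_ ?_ ?_ ?_
        · nth_rewrite 1 [h1]
          rw [mul_assoc, hR.sq_assoc ha, hR.sq _ hm]
        · rw [e1, mul_assoc, ← h2]
        · rw [mul_assoc, ← h1]
        · rw [mul_assoc, ← h1, hR.sq_assoc ha]; exact hm
      have h4 : b * (q * b * q⁻¹) = 1 := e1 ▸ h3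
      refine ⟨⟨hq, ?_⟩, ?_⟩
      · rw [← mul_inv_eq_iff_eq_mul, eq_inv_of_mul_eq_one_right h3, hR.inv ha]
      · rw [← mul_inv_eq_iff_eq_mul, eq_inv_of_mul_eq_one_right h4, hR.inv hb.1]
    · rintro ⟨⟨hq, h1⟩, h2⟩
      exact ⟨hq, by rw [← mul_assoc, h1, mul_assoc, h2, mul_assoc]⟩

end Cfsg.Agent.S5049
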