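import Cfsg.Statements.S5057
import Cfsg.Agent.H9.RootInv
-- import your own Cfsg.Agent.* helpers here

set_option autoImplicit false
open Cfsg

namespace Cfsg.Agent.S5057
open CfsgH9
theorem ord_aux : ∀ g : Equiv.Perm (Fin 6), Equiv.Perm.sign g = 1 →
    g * g * g = 1 ∨ g * g * g * g = 1 ∨ g * g * g * g * g = 1 := by
  decide +kernel

theorem conj_aux : ∀ g : Equiv.Perm (Fin 6), g * g = 1 → g ≠ 1 → Equiv.Perm.sign g = 1 →
    ∃ h : Equiv.Perm (Fin 6), g * h = h * (Equiv.swap 0 1 * Equiv.swap 2 3) ∧ Equiv.Perm.sign h = 1 := by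
  decide +kernel

theorem ord_le (g : alternatingGroup (Fin 6)) : orderOf g ∣ 3 ∨ orderOf g ∣ 4 ∨ orderOf g ∣ 5 := by
  refine (ord_aux g.1 g.2).imp (fun h => ?_) (Or.imp (fun h => ?_) fun h => ?_) <;>
    refine orderOf_dvd_of_pow_eq_one (Subtype.ext ?_) <;>
    simpa only [pow_succ, pow_zero, one_mul, Subgroup.coe_mul, Subgroup.coe_one] using h


/-- The involutions of the alternating group of degree 6 form a class of root involutions (a single conjugacy class of involutions generating the group, any two of which commute, have product of odd order, or have product of order 4 whose square is again an involution of the class), and the product of any two of them has order at most 5. -/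
theorem result :
    Cfsg.IsRootInvolutionClass {g : ↥(alternatingGroup (Fin 6)) | orderOf g = 2} ∧
    ∀ d ∈ {g : ↥(alternatingGroup (Fin 6)) | orderOf g = 2}, ∀ e ∈ {g : ↥(alternatingGroup (Fin 6)) | orderOf g = 2},
      orderOf (d * e) ≤ 5 := by
  have hconj : ∀ d ∈ {g : ↥(alternatingGroup (Fin 6)) | orderOf g = 2}, ∀ g : alternatingGroup (Fin 6),
      g * d * g⁻¹ ∈ {g : ↥(alternatingGroup (Fin 6)) | orderOf g = 2} := fun d hd g =>
    (CfsgH4.orderOf_conj' g d).trans hd
  let t : alternatingGroup (Fin 6) := ⟨Equiv.swap 0 1 * Equiv.swap 2 3, Equiv.Perm.mem_alternatingGroup.2 (by decide)⟩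
  have ht : orderOf t = 2 := CfsgH4.orderOf_eq_two_iff.2 ⟨Subtype.ext (by decide), fun e =>
    absurd (congrArg Subtype.val e) (by decide)⟩
  refine ⟨⟨⟨fun d hd => hd, ?_, hconj, fun a ha b hb => ?_⟩, ⟨t, ht⟩, fun a ha b hb => ?_⟩,
    fun a _ b _ => ?_⟩
  · haveI : IsSimpleGroup (alternatingGroup (Fin 6)) := alternatingGroup.isSimpleGroup (by simp)
    have hN : (Subgroup.closure {g : ↥(alternatingGroup (Fin 6)) | orderOf g = 2}).Normal := by
      refine ⟨fun t ht g => ?_⟩
      induction ht using Subgroup.closure_induction with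
      | one => simp
      | mem t ht => exact Subgroup.subset_closure (hconj t ht g)
      | mul s t _ _ hs ht => convert Subgroup.mul_mem _ hs ht using 1; group
      | inv s _ hs => convert Subgroup.inv_mem _ hs using 1; group
    refine (hN.eq_bot_or_eq_top).resolve_left fun e => CfsgH4.ne_one_of_orderOf ht ?_
    exact Subgroup.mem_bot.1 (e ▸ Subgroup.subset_closure ht)
  · rcases ord_le (a * b) with h | h | h
    · exact Or.inr (Or.inl (Odd.of_dvd_nat (by decide) h))
    · by_cases h4 : orderOf (a * b) = 4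
      · refine Or.inr (Or.inr ⟨h4, ?_⟩)
        change orderOf _ = 2
        rw [orderOf_pow' _ two_ne_zero, h4]; rfl
      · left
        have h2 : orderOf (a * b) ∣ 2 := by
          have := Nat.le_of_dvd (by norm_num) h
          interval_cases orderOf (a * b) <;> simp_all
        have h3 : (a * b)⁻¹ = a * b := inv_eq_of_mul_eq_one_right (by
          rw [← pow_two]; exact orderOf_dvd_iff_pow_eq_one.1 h2)
        rw [← h3, mul_inv_rev, CfsgH4.inv_eq_of_orderOf ha, CfsgH4.inv_eq_of_orderOf hb]
    · exact Or.inr (Or.inl (Odd.of_dvd_nat (by decide) h))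
  · have key : ∀ d : alternatingGroup (Fin 6), orderOf d = 2 → ∃ h, d = h * t * h⁻¹ := by
      intro d hd
      obtain ⟨h, h1, h2⟩ := conj_aux d.1 (congrArg Subtype.val (CfsgH4.mul_self_of_orderOf hd))
        (fun e => CfsgH4.ne_one_of_orderOf hd (Subtype.ext e)) d.2
      exact ⟨⟨h, h2⟩, eq_mul_inv_of_mul_eq (Subtype.ext h1)⟩
    obtain ⟨g, rfl⟩ := key a ha
    obtain ⟨h, rfl⟩ := key b hb
    exact ⟨h * g⁻¹, by group⟩
  · rcases ord_le (a * b) with h | h | h <;> have := Nat.le_of_dvd (by norm_num) h <;> omega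

end Cfsg.Agent.S5057
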