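import Cfsg.Statements.S5058
import Cfsg.Agent.H9.ExSL
-- import your own Cfsg.Agent.* helpers here

set_option autoImplicit false
open Matrix
open Cfsg

namespace Cfsg.Agent.S5058
open CfsgH9

/-- Let F be a finite field of characteristic 2 and n a natural number. Then the transvections of SL_{n+3}(F) (so in every dimension at least 3) (the conjugates of the elementary matrices 1 + c E₁₂, c ≠ 0) form a class of root involutions of SL_{n+3}(F); when F has two elements they form a class of {3,4}⁺-transpositions (every product of odd order has order 1 or 3). -/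
theorem result (F : Type*) [Field F] [Fintype F] [CharP F 2] (n : ℕ) :
    Cfsg.IsRootInvolutionClass {t : Matrix.SpecialLinearGroup (Fin (n + 3)) F | ∃ c : F, c ≠ 0 ∧
        ∃ g : Matrix.SpecialLinearGroup (Fin (n + 3)) F, ((g⁻¹ * t * g : Matrix.SpecialLinearGroup (Fin (n + 3)) F) :
          Matrix (Fin (n + 3)) (Fin (n + 3)) F) = Matrix.transvection 0 1 c} ∧
    (Fintype.card F = 2 → Cfsg.IsThreeFourPlusTranspositionSet {t : Matrix.SpecialLinearGroup (Fin (n + 3)) F | ∃ c : F, c ≠ 0 ∧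
        ∃ g : Matrix.SpecialLinearGroup (Fin (n + 3)) F, ((g⁻¹ * t * g : Matrix.SpecialLinearGroup (Fin (n + 3)) F) :
          Matrix (Fin (n + 3)) (Fin (n + 3)) F) = Matrix.transvection 0 1 c}) := by
  have h01 : (0 : Fin (n + 3)) ≠ 1 := by simp
  have hL := linFam_SL (k := F) (ι := Fin (n + 3))
  have hS := hL.rootSet SL_gen
  have h2 : (2 : F) = 0 := CharTwo.two_eq_zero
  have hD : {t : Matrix.SpecialLinearGroup (Fin (n + 3)) F | ∃ c : F, c ≠ 0 ∧
        ∃ g : Matrix.SpecialLinearGroup (Fin (n + 3)) F, ((g⁻¹ * t * g : Matrix.SpecialLinearGroup (Fin (n + 3)) F) :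
          Matrix (Fin (n + 3)) (Fin (n + 3)) F) = Matrix.transvection 0 1 c} =
      {t | ∃ s ∈ TvS F (Fin (n + 3)), SpecialLinearGroup.coeMonoidHom t = 1 + (1 : F) • s} := by
    ext t
    constructor
    · rintro ⟨c, hc, g, hg⟩
      refine ⟨_, hL.conj _ (TvS_smul (single_mem_TvS h01) hc) g, ?_⟩
      have : t = g * (g⁻¹ * t * g) * g⁻¹ := by group
      rw [this, map_mul, map_mul, SpecialLinearGroup.coeMonoidHom_apply (g⁻¹ * t * g), hg, Matrix.transvection,
        mul_add, add_mul, mul_one, rho_mul_inv, one_smul, smul_single, smul_eq_mul, mul_one]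
    · rintro ⟨s, hs, ht⟩
      obtain ⟨g, hg⟩ := FR.conj (SL_connected _ ⟨_, single_mem_TvS h01, rfl⟩ _ ⟨s, hs, rfl⟩)
      have h1 : t ∈ RG F _ s := (mem_RG (hL.sq s hs)).2 ⟨1, ht⟩
      rw [hg, mem_cj, mem_RG (hL.sq _ (single_mem_TvS h01))] at h1
      obtain ⟨c, hc⟩ := h1
      refine ⟨c, fun e => ?_, g, by
        rw [← SpecialLinearGroup.coeMonoidHom_apply, hc, Matrix.transvection, smul_single, smul_eq_mul, mul_one]⟩
      have h3 := (hL.eq_one_iff (single_mem_TvS h01) hc).2 e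
      have h4 : t = 1 := by
        have : t = g * (g⁻¹ * t * g) * g⁻¹ := by group
        rw [this, h3]; group
      exact one_ne_zero ((hL.eq_one_iff hs ht).1 h4)
  rw [hD]
  set D := {t : Matrix.SpecialLinearGroup (Fin (n + 3)) F |
    ∃ s ∈ TvS F (Fin (n + 3)), SpecialLinearGroup.coeMonoidHom t = 1 + (1 : F) • s} with hDdef
  have hord : ∀ t ∈ D, orderOf t = 2 := by
    rintro t ⟨s, hs, ht⟩
    refine CfsgH4.orderOf_eq_two_iff.2 ⟨hL.inj ?_, fun e => one_ne_zero ((hL.eq_one_iff hs ht).1 e)⟩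
    rw [map_mul, ht, map_one, one_smul, mul_add, add_mul, add_mul, hL.sq s hs, mul_one, mul_one, one_mul,
      add_zero, add_assoc, ← two_smul F, h2, zero_smul, add_zero]
  have hopp : ∀ {a b : Matrix.SpecialLinearGroup (Fin (n + 3)) F} {s t}, s ∈ TvS F (Fin (n + 3)) →
      t ∈ TvS F (Fin (n + 3)) → SpecialLinearGroup.coeMonoidHom a = 1 + (1 : F) • s →
      SpecialLinearGroup.coeMonoidHom b = 1 + (1 : F) • t → ∀ c : F, c ≠ 0 → s * t * s = c • s → t * s * t = c • t →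
      Od a b ∧ (Fintype.card F = 2 → orderOf (a * b) = 1 ∨ orderOf (a * b) = 3) := by
    intro a b s t hs ht ha hb c hc h3 h4
    obtain ⟨⟨φ, -, -, e1, e2⟩, -, hr⟩ := hL.opp hs ht hc h3 h4
    have ha' : a ∈ RG F _ s := (mem_RG (hL.sq s hs)).2 ⟨1, ha⟩
    have hb' : b ∈ RG F _ t := (mem_RG (hL.sq t ht)).2 ⟨1, hb⟩
    have ha1 : a ≠ 1 := fun e => one_ne_zero ((hL.eq_one_iff hs ha).1 e)
    have hb1 : b ≠ 1 := fun e => one_ne_zero ((hL.eq_one_iff ht hb).1 e)
    have hne : a ≠ b := fun e => ha1 (r1_inf_eq_bot hr ha' (e ▸ hb'))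
    rw [← e1, upper_eq] at ha'
    rw [← e2, lower_eq] at hb'
    obtain ⟨_, hx, rfl⟩ := ha'
    obtain ⟨_, hy, rfl⟩ := hb'
    obtain ⟨x, rfl⟩ := mem_UU.1 hx
    obtain ⟨y, rfl⟩ := mem_LL.1 hy
    have hx0 : x ≠ 0 := by rintro rfl; simp at ha1
    have hy0 : y ≠ 0 := by rintro rfl; simp at hb1
    refine ⟨⟨hne, ?_⟩, fun hcard => ?_⟩
    · rw [← map_mul]
      exact Odd.of_dvd_nat (odd_order_xU_xL hx0 hy0) (orderOf_map_dvd φ _)
    · have hone : ∀ z : F, z ≠ 0 → z = 1 := fun z hz => by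
        have := FiniteField.pow_card_sub_one_eq_one z hz
        rwa [hcard, pow_one] at this
      rw [hone x hx0, hone y hy0, ← map_mul]
      have h5 : (xU (1 : F) * xL 1) ^ 3 = 1 := by
        apply sl2_ext <;> simp [pow_succ, sl2_mul_apply]
        · linear_combination 6 * h2
        · linear_combination 4 * h2
        · linear_combination 4 * h2
        · linear_combination 2 * h2
      have h6 : orderOf (φ (xU 1 * xL 1)) ∣ 3 := orderOf_dvd_of_pow_eq_one (by rw [← map_pow, h5, map_one])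
      exact (Nat.dvd_prime Nat.prime_three).1 h6
  have hfour : ∀ {a b : Matrix.SpecialLinearGroup (Fin (n + 3)) F} {s t}, s ∈ TvS F (Fin (n + 3)) →
      t ∈ TvS F (Fin (n + 3)) → SpecialLinearGroup.coeMonoidHom a = 1 + (1 : F) • s →
      SpecialLinearGroup.coeMonoidHom b = 1 + (1 : F) • t → s * t * s = 0 → t * s * t = 0 →
      ∀ c : F, c ≠ 0 → c • (s * t - t * s) ∈ TvS F (Fin (n + 3)) → orderOf (a * b) = 4 ∧ (a * b) ^ 2 ∈ D := by
    intro a b s t hs ht ha hb h3 h4 c hc h5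
    have h6 := rho_comm (hL.sq s hs) (hL.sq t ht) h3 h4 ha hb
    rw [CfsgH4.inv_eq_of_orderOf (hord a ⟨s, hs, ha⟩), CfsgH4.inv_eq_of_orderOf (hord b ⟨t, ht, hb⟩),
      mul_assoc, ← pow_two, mul_one] at h6
    have h7 : (a * b) ^ 2 ∈ D := by
      refine ⟨_, ?_, h6⟩
      have := TvS_smul h5 (inv_ne_zero hc)
      rwa [smul_smul, inv_mul_cancel₀ hc, one_smul] at this
    refine ⟨?_, h7⟩
    have h8 := hord _ h7
    refine orderOf_eq_prime_pow (p := 2) (n := 1) (CfsgH4.ne_one_of_orderOf h8) ?_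
    rw [show 2 ^ (1 + 1) = 2 * 2 from rfl, pow_mul, pow_two]
    exact CfsgH4.mul_self_of_orderOf h8
  have hcomm : ∀ {a b : Matrix.SpecialLinearGroup (Fin (n + 3)) F} {s t}, s ∈ TvS F (Fin (n + 3)) →
      t ∈ TvS F (Fin (n + 3)) → SpecialLinearGroup.coeMonoidHom a = 1 + (1 : F) • s →
      SpecialLinearGroup.coeMonoidHom b = 1 + (1 : F) • t → s * t = t * s → a * b = b * a := by
    intro a b s t hs ht ha hb h
    exact comm_RG hL.inj (hL.sq s hs) (hL.sq t ht) h a ((mem_RG (hL.sq s hs)).2 ⟨1, ha⟩) b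
      ((mem_RG (hL.sq t ht)).2 ⟨1, hb⟩)
  have hRI : IsRootInvolutionSet D := by
    refine ⟨hord, ?_, ?_, ?_⟩
    · rw [eq_top_iff, ← SL_gen]
      refine iSup₂_le ?_
      rintro _ ⟨s, hs, rfl⟩ g hg
      obtain ⟨c, hc⟩ := (mem_RG (hL.sq s hs)).1 hg
      by_cases hc0 : c = 0
      · rw [(hL.eq_one_iff hs hc).2 hc0]; exact Subgroup.one_mem _
      · exact Subgroup.subset_closure ⟨_, TvS_smul hs hc0, by rw [hc, one_smul]⟩
    · rintro t ⟨s, hs, ht⟩ g
      refine ⟨_, hL.conj s hs g, ?_⟩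
      rw [map_mul, map_mul, ht, mul_add, add_mul, mul_one, rho_mul_inv, one_smul, one_smul]
    · rintro a ⟨s, hs, ha⟩ b ⟨t, ht, hb⟩
      rcases hL.pair s hs t ht with h | ⟨c, hc, h3, h4⟩ | ⟨h3, h4, c, hc, h5⟩
      · exact Or.inl (hcomm hs ht ha hb h)
      · exact Or.inr (Or.inl (hopp hs ht ha hb c hc h3 h4).1.2)
      · exact Or.inr (Or.inr (hfour hs ht ha hb h3 h4 c hc h5))
  refine ⟨⟨hRI, ?_, ?_⟩, fun hcard => ⟨hRI, ?_⟩⟩
  · obtain ⟨g, hg⟩ := hL.ex _ (single_mem_TvS h01) 1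
    exact ⟨g, _, single_mem_TvS h01, hg⟩
  · have hcl : OneClass D := by
      refine oneClass_of_connected (RI.of_set hRI) ?_
      rintro a ⟨s, hs, ha⟩ b ⟨t, ht, hb⟩
      obtain ⟨w, hw, ⟨c, hc, h3, h4⟩, ⟨d, hd, h5, h6⟩⟩ := TvS_common_opp hs ht
      obtain ⟨g, hg⟩ := hL.ex w hw 1
      exact (or_single (D := D) ⟨s, hs, ha⟩ ⟨w, hw, hg⟩ (hopp hs hw ha hg c hc h3 h4).1).trans
        (or_single (D := D) ⟨w, hw, hg⟩ ⟨t, ht, hb⟩ (hopp hw ht hg hb d hd h5 h6).1)
    intro a ha b hb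
    obtain ⟨g, -, e⟩ := hcl a ha b hb
    exact ⟨g, e⟩
  · rintro a ⟨s, hs, ha⟩ b ⟨t, ht, hb⟩ ho
    rcases hL.pair s hs t ht with h | ⟨c, hc, h3, h4⟩ | ⟨h3, h4, c, hc, h5⟩
    · left
      rw [orderOf_eq_one_iff]
      apply eq_one_of_odd_of_sq ho
      have h1 := hcomm hs ht ha hb h
      calc _ = a * (b * a) * b := by group
        _ = 1 := by
          rw [← h1, ← mul_assoc, CfsgH4.mul_self_of_orderOf (hord a ⟨s, hs, ha⟩), one_mul,
            CfsgH4.mul_self_of_orderOf (hord b ⟨t, ht, hb⟩)]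
    · exact (hopp hs ht ha hb c hc h3 h4).2 hcard
    · rw [(hfour hs ht ha hb h3 h4 c hc h5).1] at ho
      exact absurd ho (by decide)

end Cfsg.Agent.S5058
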