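import Cfsg.Statements.S5060
import Cfsg.Agent.H9.Dickson
-- import your own Cfsg.Agent.* helpers here

set_option autoImplicit false
open Cfsg

namespace Cfsg.Agent.S5060
open CfsgH9

/-- Let k ⊆ K be fields with the characteristic of k not 2 and k not of order 3, and let α ∈ K be a non-zero element algebraic over k. Then the subgroup of SL₂(K) generated by the upper unitriangular matrices with entry c and the lower unitriangular matrices with entry cα, c ranging over k, is exactly the group of matrices of SL₂(K) with all entries in k(α). -/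
theorem result {k K : Type*} [Field k] [Field K] [Algebra k K] (hk2 : ringChar k ≠ 2) (hk3 : Nat.card k ≠ 3)
    (α : K) (hα : IsAlgebraic k α) (hα0 : α ≠ 0) :
    (Subgroup.closure ({g : Matrix.SpecialLinearGroup (Fin 2) K | ∃ c : k, (g : Matrix (Fin 2) (Fin 2) K) = !![1, algebraMap k K c; 0, 1]} ∪
        {g : Matrix.SpecialLinearGroup (Fin 2) K | ∃ c : k, (g : Matrix (Fin 2) (Fin 2) K) = !![1, 0; algebraMap k K c * α, 1]}) :
      Set (Matrix.SpecialLinearGroup (Fin 2) K)) =
    {g : Matrix.SpecialLinearGroup (Fin 2) K | ∀ i j : Fin 2, (g : Matrix (Fin 2) (Fin 2) K) i j ∈ IntermediateField.adjoin k ({α} : Set K)} := by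
  let K' := IntermediateField.adjoin k ({α} : Set K)
  let α' : K' := IntermediateField.AdjoinSimple.gen k α
  have hint : IsIntegral k α := hα.isIntegral
  have hint' : IsIntegral k α' := by
    rw [← isIntegral_algebraMap_iff (B := K) (algebraMap K' K).injective]
    exact hint
  have hadj : Algebra.adjoin k {α'} = ⊤ := (IntermediateField.adjoin.powerBasis hint).adjoin_gen_eq_top
  have hα' : α' ≠ 0 := fun e => hα0 (congrArg Subtype.val e)
  have hD := dickson (two_ne_zero_of_ringChar hk2) (three_lt_card hk2 hk3) hint' hα' hadj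
  let φ : Matrix.SpecialLinearGroup (Fin 2) K' →* Matrix.SpecialLinearGroup (Fin 2) K :=
    Matrix.SpecialLinearGroup.map (algebraMap K' K)
  have hφ : ∀ g i j, (φ g).1 i j = (g.1 i j : K) := fun g i j => rfl
  have hr : ∀ g, g ∈ φ.range ↔ ∀ i j : Fin 2, (g : Matrix (Fin 2) (Fin 2) K) i j ∈ K' := by
    intro g
    constructor
    · rintro ⟨h, rfl⟩ i j
      exact (h.1 i j).2
    · intro h
      refine ⟨⟨Matrix.of fun i j => ⟨g.1 i j, h i j⟩, ?_⟩, Subtype.ext (by ext i j; rfl)⟩
      apply Subtype.ext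
      rw [Matrix.det_fin_two]
      exact sl2_det g
  ext g
  rw [Set.mem_ofPred_eq, ← hr, MonoidHom.range_eq_map, ← hD, HK, MonoidHom.map_closure, Set.image_union]
  have e1 : φ '' {g | ∃ c : k, g = xU (algebraMap k K' c)} =
      {g : Matrix.SpecialLinearGroup (Fin 2) K | ∃ c : k, (g : Matrix (Fin 2) (Fin 2) K) = !![1, algebraMap k K c; 0, 1]} := by
    ext g
    constructor
    · rintro ⟨_, ⟨c, rfl⟩, rfl⟩
      refine ⟨c, ?_⟩
      ext i j
      fin_cases i <;> fin_cases j <;> rfl
    · rintro ⟨c, hc⟩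
      refine ⟨_, ⟨c, rfl⟩, Subtype.ext ?_⟩
      rw [hc]
      ext i j
      fin_cases i <;> fin_cases j <;> rfl
  have e2 : φ '' {g | ∃ c : k, g = xL (algebraMap k K' c * α')} =
      {g : Matrix.SpecialLinearGroup (Fin 2) K | ∃ c : k, (g : Matrix (Fin 2) (Fin 2) K) = !![1, 0; algebraMap k K c * α, 1]} := by
    ext g
    constructor
    · rintro ⟨_, ⟨c, rfl⟩, rfl⟩
      refine ⟨c, ?_⟩
      ext i j
      fin_cases i <;> fin_cases j <;> rfl
    · rintro ⟨c, hc⟩
      refine ⟨_, ⟨c, rfl⟩, Subtype.ext ?_⟩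
      rw [hc]
      ext i j
      fin_cases i <;> fin_cases j <;> rfl
  rw [e1, e2]
  rfl

end Cfsg.Agent.S5060
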