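import Cfsg.Statements.S5061
import Cfsg.Agent.H9.Unip
-- import your own Cfsg.Agent.* helpers here

set_option autoImplicit false
open Cfsg

namespace Cfsg.Agent.S5061
open CfsgH9

/-- Let M be a finite-dimensional vector space over a field k, G ≤ GL(M), and 𝒲 a set of subgroups of G, invariant under conjugation by G, such that any two members of 𝒲 generate a subgroup acting unipotently on M (for some n all products of n endomorphisms g − 1 from it vanish). Then the subgroup generated by all members of 𝒲 acts unipotently on M and is normal in G. -/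
theorem result {k : Type*} [Field k] {M : Type*} [AddCommGroup M] [Module k M] [FiniteDimensional k M]
    {G : Subgroup (LinearMap.GeneralLinearGroup k M)} {W : Set (Subgroup (LinearMap.GeneralLinearGroup k M))} (hWG : ∀ A ∈ W, A ≤ G)
    (hWW : ∀ A ∈ W, ∀ B ∈ W, Cfsg.IsUnipotentOn (A ⊔ B)) (hWconj : ∀ A ∈ W, ∀ g ∈ G, Cfsg.conjBy A g ∈ W) :
    Cfsg.IsUnipotentOn (⨆ A ∈ W, A) ∧ ∀ g ∈ G, Cfsg.conjBy (⨆ A ∈ W, A) g = ⨆ A ∈ W, A := by
  constructor
  · rw [isUnipotentOn_iff]
    have := unip_closure_of_pairs (k := k) (D := {d | ∃ A ∈ W, d ∈ A}) ?_ ?_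
    · refine this.mono (iSup₂_le fun A hA d hd => Subgroup.subset_closure ⟨A, hA, hd⟩)
    · rintro p ⟨A, hA, hp⟩ x ⟨B, hB, hx⟩
      refine ⟨⟨_, hWconj B hB p (hWG A hA hp), conj_mem_cj hx⟩,
        ⟨_, hWconj B hB p⁻¹ (inv_mem (hWG A hA hp)), ?_⟩⟩
      have := conj_mem_cj (g := p⁻¹) hx
      rwa [inv_inv] at this
    · rintro p ⟨A, hA, hp⟩ x ⟨B, hB, hx⟩
      refine (isUnipotentOn_iff.1 (hWW A hA B hB)).mono ((Subgroup.closure_le _).2 ?_)
      rintro a (rfl | rfl)
      · exact Subgroup.mem_sup_left hp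
      · exact Subgroup.mem_sup_right hx
  · have key : ∀ g ∈ G, cj g (⨆ A ∈ W, A) ≤ ⨆ A ∈ W, A := by
      intro g hg
      simp only [cj_iSup]
      exact iSup₂_le fun A hA => le_iSup₂_of_le (f := fun A (_ : A ∈ W) => A) _ (hWconj A hA g hg) le_rfl
    exact cj_eq_self_of_le key

end Cfsg.Agent.S5061
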