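import Cfsg.Statements.S5063
import Cfsg.Agent.H9.QFinal
-- import your own Cfsg.Agent.* helpers here

set_option autoImplicit false
universe u
open Cfsg

namespace Cfsg.Agent.S5063
open CfsgH9

/-- Let k be a field of characteristic not 2 with k not of order 3, M a finite-dimensional k-vector space and G ≤ GL(M) such that (G, M) is a quadratic pair (M irreducible for G, and G generated by its quadratically acting elements σ whose scalar family 1 + c(σ − 1), c ∈ k, lies in G). Write 𝒬_d for the quadratic elements of G of minimal commutator rank, E(σ) for the subgroup generated by the members of 𝒬_d with the same fixed space and commutator space as σ, and Σ for the set of these subgroups. Then G is a central product of finitely many quasisimple normal subgroups G₁, …, G_s (pairwise commuting and together generating G), each generated by the quadratic elements of G it contains, and every quadratic element of G lies in one of them. -/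
theorem result {k : Type u} [Field k] (hk2 : ringChar k ≠ 2) (hk3 : Nat.card k ≠ 3)
    {M : Type u} [AddCommGroup M] [Module k M] [FiniteDimensional k M]
    {G : Subgroup (LinearMap.GeneralLinearGroup k M)} (hG : Cfsg.IsQuadraticPair G) :
    ∃ (s : ℕ) (Gi : Fin s → Subgroup (LinearMap.GeneralLinearGroup k M)),
      (∀ i, Gi i ≤ G ∧ ∀ g ∈ G, Cfsg.conjBy (Gi i) g = Gi i) ∧ (∀ i j, i ≠ j → ⁅Gi i, Gi j⁆ = ⊥) ∧ (⨆ i, Gi i) = G ∧
      (∀ i, Cfsg.IsQuasisimple ↥(Gi i) ∧ Subgroup.closure (Cfsg.quadraticElements G ∩ (Gi i : Set (LinearMap.GeneralLinearGroup k M))) = Gi i) ∧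
      Cfsg.quadraticElements G ⊆ ⋃ i, (Gi i : Set (LinearMap.GeneralLinearGroup k M)) := by
  have k2 := two_ne_zero_of_ringChar hk2
  have k3 := three_lt_card hk2 hk3
  obtain ⟨𝒢, f1, f2, f3, f4, f5⟩ := quad_decomp k2 k3 (Module.finrank k M + 1) G (hypH_of_irreducible hG.1) hG.2
    (fun r _ _ => by omega)
  have hfin : Finite 𝒢 := f1
  obtain ⟨r, ⟨e⟩⟩ := Finite.exists_equiv_fin 𝒢
  refine ⟨r, fun i => (e.symm i).1, fun i => ⟨(f2 _ (e.symm i).2).1, (f2 _ (e.symm i).2).2.1⟩,
    fun i j hij => comm_iff.1 (f3 _ (e.symm i).2 _ (e.symm j).2 fun h => hij (e.symm.injective (Subtype.ext h))),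
    ?_, fun i => (f2 _ (e.symm i).2).2.2, fun σ hσ => ?_⟩
  · rw [← f4, iSup_subtype']
    exact e.symm.iSup_comp (g := fun K : 𝒢 => K.1)
  · obtain ⟨K, hK, h⟩ := f5 σ hσ
    exact Set.mem_iUnion.2 ⟨e ⟨K, hK⟩, by simpa using h⟩

end Cfsg.Agent.S5063
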