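import Cfsg.Statements.S5064
import Cfsg.Agent.H9.QStruct
-- import your own Cfsg.Agent.* helpers here

set_option autoImplicit false
universe u
open Cfsg

namespace Cfsg.Agent.S5064
open CfsgH9

/-- Let k be a field of characteristic not 2 with k not of order 3, M a finite-dimensional k-vector space and G ≤ GL(M) such that (G, M) is a quadratic pair (M irreducible for G, and G generated by its quadratically acting elements σ whose scalar family 1 + c(σ − 1), c ∈ k, lies in G). Write 𝒬_d for the quadratic elements of G of minimal commutator rank, E(σ) for the subgroup generated by the members of 𝒬_d with the same fixed space and commutator space as σ, and Σ for the set of these subgroups. If σ, τ ∈ 𝒬_d and the subgroup H generated by their two scalar families does not act unipotently on M, then H is isomorphic to SL₂ over a simple algebraic extension k(λ) of k. -/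
theorem result {k : Type u} [Field k] (hk2 : ringChar k ≠ 2) (hk3 : Nat.card k ≠ 3)
    {M : Type u} [AddCommGroup M] [Module k M] [FiniteDimensional k M]
    {G : Subgroup (LinearMap.GeneralLinearGroup k M)} (hG : Cfsg.IsQuadraticPair G)
    {σ τ : LinearMap.GeneralLinearGroup k M} (hσ : σ ∈ Cfsg.minimalQuadraticElements G) (hτ : τ ∈ Cfsg.minimalQuadraticElements G)
    (hH : ¬ Cfsg.IsUnipotentOn (Subgroup.closure (Cfsg.scalarFamily σ ∪ Cfsg.scalarFamily τ))) :
    ∃ (K : Type u) (_ : Field K) (_ : Algebra k K) (lam : K), IsAlgebraic k lam ∧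
      IntermediateField.adjoin k ({lam} : Set K) = ⊤ ∧
      Nonempty (↥(Subgroup.closure (Cfsg.scalarFamily σ ∪ Cfsg.scalarFamily τ)) ≃* Matrix.SpecialLinearGroup (Fin 2) K) := by
  rw [mem_minimalQuadraticElements] at hσ hτ
  have h2 := two_ne_zero_of_ringChar hk2
  have h3 := three_lt_card hk2 hk3
  set s := (σ : M →ₗ[k] M) - 1 with hs
  set t := (τ : M →ₗ[k] M) - 1 with ht
  have hz : ¬ IsNilpotent (s * t + t * s) := by
    intro hz
    obtain ⟨N, hN, h1, h2⟩ := exists_nil_of_z (k := k) hσ.qn.sq hτ.qn.sq hz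
    refine hH (isUnipotentOn_iff.2 (unip_closure hN ?_))
    rintro g (⟨c, hc⟩ | ⟨c, hc⟩) <;> rw [hc, add_sub_cancel_left]
    · exact N.smul_mem c h1
    · exact N.smul_mem c h2
  obtain ⟨e, u, h⟩ := exists_fit (k := k) hσ.qn.sq hτ.qn.sq hz
  obtain ⟨hF, -, hT, het, -⟩ := fit_main h2 h3 h hσ.qn hτ
  obtain ⟨-, -, -, hes, -⟩ := fit_main h2 h3 h.symm hτ.qn hσ
  letI := hF.toField
  refine ⟨FitR k (s * t + t * s) e, inferInstance, inferInstance, Ideal.Quotient.mk _ Polynomial.X,
    Algebra.IsAlgebraic.isAlgebraic _, ?_, ?_⟩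
  · exact IntermediateField.adjoin_eq_top_of_algebra _ _ (adjoin_FitR _ _)
  · have : h.Phi.range = Subgroup.closure (Cfsg.scalarFamily σ ∪ Cfsg.scalarFamily τ) := by
      rw [MonoidHom.range_eq_map, ← hT, HK, MonoidHom.map_closure, Set.image_union]
      congr 2
      · ext g
        constructor
        · rintro ⟨_, ⟨c, rfl⟩, rfl⟩; exact ⟨c, by rw [h.Phi_xU_k, hes]⟩
        · rintro ⟨c, hc⟩; exact ⟨_, ⟨c, rfl⟩, Units.ext (by rw [h.Phi_xU_k, hes, hc])⟩
      · ext g
        constructor
        · rintro ⟨_, ⟨c, rfl⟩, rfl⟩; exact ⟨c, by rw [h.Phi_xL_k, het]⟩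
        · rintro ⟨c, hc⟩; exact ⟨_, ⟨c, rfl⟩, Units.ext (by rw [h.Phi_xL_k, het, hc])⟩
    exact ⟨((MonoidHom.ofInjective h.Phi_injective).trans (MulEquiv.subgroupCongr this)).symm⟩

end Cfsg.Agent.S5064
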