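import Cfsg.Statements.S5065
import Cfsg.Agent.H9.QTri
-- import your own Cfsg.Agent.* helpers here

set_option autoImplicit false
universe u
open Cfsg

namespace Cfsg.Agent.S5065
open CfsgH9

/-- Let k be a field of characteristic not 2 with k not of order 3, M a finite-dimensional k-vector space and G ≤ GL(M) such that (G, M) is a quadratic pair (M irreducible for G, and G generated by its quadratically acting elements σ whose scalar family 1 + c(σ − 1), c ∈ k, lies in G). Write 𝒬_d for the quadratic elements of G of minimal commutator rank, E(σ) for the subgroup generated by the members of 𝒬_d with the same fixed space and commutator space as σ, and Σ for the set of these subgroups. For σ, τ ∈ 𝒬_d put A = E(σ), B = E(τ) and X = ⟨A, B⟩. Then either X acts unipotently on M, or A and B are the unipotent subgroups of a special rank one group X; in the latter case X contains exactly one central involution acting as −1 on the commutator space [M, X] and trivially on the fixed space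 C_M(X), and M is the direct sum of C_M(X) and [M, X]. -/
theorem result {k : Type u} [Field k] (hk2 : ringChar k ≠ 2) (hk3 : Nat.card k ≠ 3)
    {M : Type u} [AddCommGroup M] [Module k M] [FiniteDimensional k M]
    {G : Subgroup (LinearMap.GeneralLinearGroup k M)} (hG : Cfsg.IsQuadraticPair G)
    {σ τ : LinearMap.GeneralLinearGroup k M} (hσ : σ ∈ Cfsg.minimalQuadraticElements G) (hτ : τ ∈ Cfsg.minimalQuadraticElements G) :
    Cfsg.IsUnipotentOn (Cfsg.sameActionSubgroup G σ ⊔ Cfsg.sameActionSubgroup G τ) ∨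
    (Cfsg.IsSpecialRankOnePair (Cfsg.sameActionSubgroup G σ) (Cfsg.sameActionSubgroup G τ) ∧
      (∃! i : LinearMap.GeneralLinearGroup k M, i ∈ Cfsg.sameActionSubgroup G σ ⊔ Cfsg.sameActionSubgroup G τ ∧ i ≠ 1 ∧ i * i = 1 ∧
        (∀ x ∈ Cfsg.sameActionSubgroup G σ ⊔ Cfsg.sameActionSubgroup G τ, i * x = x * i) ∧
        (∀ m ∈ Cfsg.commutatorSubmodule (Cfsg.sameActionSubgroup G σ ⊔ Cfsg.sameActionSubgroup G τ), (i : M →ₗ[k] M) m = -m) ∧
        (∀ m ∈ Cfsg.fixedSubmodule (Cfsg.sameActionSubgroup G σ ⊔ Cfsg.sameActionSubgroup G τ), (i : M →ₗ[k] M) m = m)) ∧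
      IsCompl (Cfsg.fixedSubmodule (Cfsg.sameActionSubgroup G σ ⊔ Cfsg.sameActionSubgroup G τ))
        (Cfsg.commutatorSubmodule (Cfsg.sameActionSubgroup G σ ⊔ Cfsg.sameActionSubgroup G τ))) := by
  rw [mem_minimalQuadraticElements] at hσ hτ
  have h2 := two_ne_zero_of_ringChar hk2
  have h3 := three_lt_card hk2 hk3
  rw [sameActionSubgroup_eq hσ, sameActionSubgroup_eq hτ]
  set s := (σ : M →ₗ[k] M) - 1 with hs
  set t := (τ : M →ₗ[k] M) - 1 with ht
  by_cases ho : Opp s t
  swap
  · exact Or.inl (isUnipotentOn_iff.2 (unip_of_not_opp h2 h3 hσ hτ ho))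
  right
  have hc := opp_isCompl h2 h3 hσ hτ ho
  obtain ⟨t', ht', hstd⟩ := exists_std h2 h3 hσ hτ ho
  obtain ⟨hm', e1, e2⟩ := hτ.of_mem_ES ht' hstd.symm.ne
  rw [fixedSubmodule_sup, commutatorSubmodule_sup, fixedSubmodule_EG hσ.qn, fixedSubmodule_EG hτ.qn,
    commutatorSubmodule_EG hσ.qn, commutatorSubmodule_EG hτ.qn]
  refine ⟨special_of_opp h2 h3 hσ hτ ho, ?_, hc⟩
  rw [← e1, ← e2, ← hstd.ker_e, ← hstd.range_e]
  set e := s * t' + t' * s with he
  have hee : e * e = e := hstd.ee
  have hes : e * s = s := hstd.es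
  have het : e * t' = t' := hstd.et
  have hse : s * e = s := by rw [← (z_comm_left hstd.ss).eq]; exact hes
  have hte : t' * e = t' := by rw [← (z_comm_right hstd.tt).eq]; exact het
  let w : (M →ₗ[k] M)ˣ := uS s hstd.ss * (uS t' hstd.tt)⁻¹ * uS s hstd.ss
  have hw : w ∈ EG G s ⊔ EG G t :=
    mul_mem (mul_mem (Subgroup.mem_sup_left (uS_mem_EG hσ.qn.mem_ES))
      (inv_mem (Subgroup.mem_sup_right (uS_mem_EG ht')))) (Subgroup.mem_sup_left (uS_mem_EG hσ.qn.mem_ES))
  have hw1 : (w : M →ₗ[k] M) = 1 - e + s - t' := by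
    simp only [w, Units.val_mul, uS_val, uS_inv]
    have : (1 + s) * (1 - t') * (1 + s) = 1 + s + s + s * s - t' - s * t' - t' * s - s * t' * s := by noncomm_ring
    rw [this, hstd.ss, hstd.sts, he]; abel
  have hw2 : ((w * w : (M →ₗ[k] M)ˣ) : M →ₗ[k] M) = 1 - e - e := by
    rw [Units.val_mul, hw1]
    simp only [mul_add, add_mul, mul_sub, sub_mul, one_mul, mul_one, hee, hes, het, hse, hte, hstd.ss, hstd.tt]
    rw [he]; abel
  have hx : ∀ {a : M →ₗ[k] M}, LinearMap.ker e ≤ LinearMap.ker a → LinearMap.range a ≤ LinearMap.range e →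
      e * a = a ∧ a * e = a := by
    intro a h1 h2
    have k1 := mul_eq_zero_of_range_le (x := 1 - e) h2 (by rw [sub_mul, one_mul, hee, sub_self])
    have k2 := mul_eq_zero_of_ker_le (x := 1 - e) h1 (by rw [mul_sub, mul_one, hee, sub_self])
    rw [sub_mul, one_mul, sub_eq_zero] at k1
    rw [mul_sub, mul_one, sub_eq_zero] at k2
    exact ⟨k1.symm, k2.symm⟩
  have hX1 : EG G s ⊔ EG G t ≤ FixG (LinearMap.ker e) := by
    rw [← le_fixedSubmodule, fixedSubmodule_sup, fixedSubmodule_EG hσ.qn, fixedSubmodule_EG hτ.qn, he,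
      hstd.ker_e, e1]
  have hX2 : EG G s ⊔ EG G t ≤ CofixG (LinearMap.range e) := by
    rw [← commutatorSubmodule_le', commutatorSubmodule_sup, commutatorSubmodule_EG hσ.qn,
      commutatorSubmodule_EG hτ.qn, he, hstd.range_e, e2]
  refine ⟨w * w, ⟨mul_mem hw hw, fun h1 => ?_, ?_, fun x hx' => ?_, ?_, ?_⟩, ?_⟩
  · rw [h1, Units.val_one, sub_sub, eq_comm, sub_eq_self, ← two_smul k, smul_eq_zero] at hw2
    exact hstd.ne (by rw [← hes, hw2.resolve_left h2, zero_mul])
  · apply Units.ext
    rw [Units.val_mul, hw2]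
    simp only [mul_sub, sub_mul, one_mul, mul_one, hee, Units.val_one]
    abel
  · apply Units.ext
    obtain ⟨k1, k2⟩ := hx (hX1 hx') (hX2 hx')
    rw [mul_sub, mul_one] at k1
    rw [sub_mul, one_mul, ← k1, sub_left_inj] at k2
    rw [Units.val_mul, Units.val_mul x, hw2]
    simp only [mul_sub, sub_mul, one_mul, mul_one, k2]
  · rintro _ ⟨v, rfl⟩
    rw [hw2, LinearMap.sub_apply, LinearMap.sub_apply, ← Module.End.mul_apply e, hee]; simp
  · intro v hv
    rw [LinearMap.mem_ker] at hv
    rw [hw2, LinearMap.sub_apply, LinearMap.sub_apply, hv]; simp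
  · rintro i ⟨-, -, -, -, h1, h4⟩
    apply Units.ext
    rw [hw2]
    ext v
    have k1 := h1 (e v) ⟨v, rfl⟩
    have k2 := h4 (v - e v) (by rw [LinearMap.mem_ker, map_sub, ← Module.End.mul_apply, hee, sub_self])
    rw [map_sub, k1] at k2
    simp only [LinearMap.sub_apply, Module.End.one_apply]
    linear_combination (norm := abel1) k2

end Cfsg.Agent.S5065
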