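import Cfsg.Statements.S5067
import Cfsg.Agent.H9.Conj
-- import your own Cfsg.Agent.* helpers here

set_option autoImplicit false
open Cfsg

namespace Cfsg.Agent.S5067
open CfsgH9
theorem aux {P : Type*} [Group P] [Group.IsNilpotent P] (hna : ¬ IsMulCommutative P) {E : Subgroup P}
    (hE : IsMulCommutative ↥E) :
    Group.nilpotencyClass ↥(Subgroup.normalClosure (E : Set P)) < Group.nilpotencyClass P := by
  set N := Subgroup.normalClosure (E : Set P)
  have hle : N ≤ E ⊔ commutator P := by
    haveI : (E ⊔ commutator P).Normal := Subgroup.Normal.of_commutator_le _ le_sup_right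
    exact Subgroup.normalClosure_le_normal (show E ≤ E ⊔ commutator P from le_sup_left)
  have h2 : N.lowerCentralSeries 1 ≤ (⊤ : Subgroup P).lowerCentralSeries 2 := by
    set K := (⊤ : Subgroup P).lowerCentralSeries 2
    have hc : ∀ c ∈ commutator P, ∀ g : P, Commute (QuotientGroup.mk' K c) (QuotientGroup.mk' K g) := by
      intro c hc g
      rw [← commutatorElement_eq_one_iff_commute, ← map_commutatorElement, QuotientGroup.mk'_apply,
        QuotientGroup.eq_one_iff]
      exact Subgroup.commutator_mem_commutator hc (Subgroup.mem_top g)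
    refine Subgroup.commutator_le.2 fun x hx y hy => ?_
    obtain ⟨e, he, c, hc1, rfl⟩ := (mem_sup_of_normalizes fun a _ => cj_of_normal a _).1 (hle hx)
    obtain ⟨e', he', c', hc2, rfl⟩ := (mem_sup_of_normalizes fun a _ => cj_of_normal a _).1 (hle hy)
    rw [← QuotientGroup.eq_one_iff, ← QuotientGroup.mk'_apply, map_commutatorElement,
      commutatorElement_eq_one_iff_commute, map_mul]
    refine Commute.mul_left ?_ (hc c hc1 _)
    rw [map_mul]
    exact Commute.mul_right (Commute.map (comm_self_iff.2 hE e he e' he') _) (hc c' hc2 _).symm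
  have h3 : ∀ k, N.lowerCentralSeries (k + 1) ≤ (⊤ : Subgroup P).lowerCentralSeries (k + 2) := by
    intro k
    induction k with
    | zero => exact h2
    | succ k ih => exact Subgroup.commutator_mono ih le_top
  have h4 : ¬ Group.nilpotencyClass P ≤ 1 := by
    intro h
    rw [← Subgroup.lowerCentralSeries_eq_bot_iff_nilpotencyClass_le] at h
    exact hna ⟨⟨fun a b => comm_iff.2 h a trivial b trivial⟩⟩
  obtain ⟨k, hk⟩ : ∃ k, Group.nilpotencyClass P = k + 2 := ⟨Group.nilpotencyClass P - 2, by omega⟩
  have h5 := h3 k
  rw [← hk, Subgroup.lowerCentralSeries_nilpotencyClass, le_bot_iff, ← Subgroup.top_subtype_lowerCentralSeries,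
    Subgroup.map_eq_bot_iff_of_injective _ N.subtype_injective,
    Subgroup.lowerCentralSeries_eq_bot_iff_nilpotencyClass_le] at h5
  omega


/-- Let P be a non-abelian nilpotent p-group (every element of p-power order; P possibly infinite) generated by two abelian subgroups E and F. Then the normal closure of E in P, and likewise that of F, has nilpotency class strictly smaller than that of P. -/
theorem result {P : Type*} [Group P] {p : ℕ} [Fact p.Prime] (hP : IsPGroup p P) [Group.IsNilpotent P]
    (hna : ¬ IsMulCommutative P) {E F : Subgroup P} (hE : IsMulCommutative ↥E) (hF : IsMulCommutative ↥F) (hgen : E ⊔ F = ⊤) :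
    Group.nilpotencyClass ↥(Subgroup.normalClosure (E : Set P)) < Group.nilpotencyClass P ∧
    Group.nilpotencyClass ↥(Subgroup.normalClosure (F : Set P)) < Group.nilpotencyClass P := by
  exact ⟨aux hna hE, aux hna hF⟩

end Cfsg.Agent.S5067
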