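import Cfsg.Statements.S5069
import Cfsg.Agent.H9.QComp
-- import your own Cfsg.Agent.* helpers here

set_option autoImplicit false
universe u
open Cfsg

namespace Cfsg.Agent.S5069
open CfsgH9

/-- Let k be a field of characteristic not 2 with k not of order 3, M a finite-dimensional k-vector space and G ≤ GL(M) such that (G, M) is a quadratic pair (M irreducible for G, and G generated by its quadratically acting elements σ whose scalar family 1 + c(σ − 1), c ∈ k, lies in G). Write 𝒬_d for the quadratic elements of G of minimal commutator rank, E(σ) for the subgroup generated by the members of 𝒬_d with the same fixed space and commutator space as σ, and Σ for the set of these subgroups. Then Σ is a disjoint union of finitely many parts Σ₁, …, Σ_r such that the subgroups G_i generated by the Σ_i commute pairwise, each G_i is quasisimple, and inside G_i the members of Σ_i form a class of abstract root subgroups in which every rank one pair A, B contains subgroups A₀ ≤ A, B₀ ≤ B generating an image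 of SL₂(k₁) with central kernel on unitriangular subgroups for some field k₁ with at least four elements. -/
theorem result {k : Type u} [Field k] (hk2 : ringChar k ≠ 2) (hk3 : Nat.card k ≠ 3)
    {M : Type u} [AddCommGroup M] [Module k M] [FiniteDimensional k M]
    {G : Subgroup (LinearMap.GeneralLinearGroup k M)} (hG : Cfsg.IsQuadraticPair G) :
    ∃ (r : ℕ) (part : Fin r → Set (Subgroup (LinearMap.GeneralLinearGroup k M))),
      (⋃ i, part i) = Cfsg.quadraticRootSubgroups G ∧ (∀ i j, i ≠ j → Disjoint (part i) (part j)) ∧ (∀ i, (part i).Nonempty) ∧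
      (∀ i j, i ≠ j → ⁅(⨆ A ∈ part i, A), (⨆ A ∈ part j, A)⁆ = ⊥) ∧
      (∀ i, Cfsg.IsQuasisimple ↥(⨆ A ∈ part i, A) ∧
        Cfsg.IsRootSubgroupClass ((fun A : Subgroup (LinearMap.GeneralLinearGroup k M) => A.subgroupOf (⨆ B ∈ part i, B)) '' (part i)) ∧
        ∀ A ∈ part i, ∀ B ∈ Cfsg.rankOnePartners (part i) A, ∃ A₀ B₀ : Subgroup (LinearMap.GeneralLinearGroup k M), A₀ ≤ A ∧ B₀ ≤ B ∧
          ∃ (k₁ : Type u) (_ : Field k₁), 3 < ENat.card k₁ ∧ Cfsg.IsPSL2PairOver k₁ A₀ B₀) := by
  have k2 := two_ne_zero_of_ringChar hk2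
  have k3 := three_lt_card hk2 hk3
  have hU := (hypH_of_irreducible hG.1).noUnip
  have hfin : Finite {P | ∃ A ∈ quadraticRootSubgroups G, P = qcomp G A} := finite_qcomp k2 k3 hU
  obtain ⟨r, ⟨e⟩⟩ := Finite.exists_equiv_fin {P | ∃ A ∈ quadraticRootSubgroups G, P = qcomp G A}
  have hdis : ∀ i j, i ≠ j → Disjoint (e.symm i).1 (e.symm j).1 := by
    intro i j hij
    obtain ⟨A, hA, e1⟩ := (e.symm i).2
    obtain ⟨B, hB, e2⟩ := (e.symm j).2
    rw [Set.disjoint_left]
    intro C h1 h2
    rw [e1] at h1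
    rw [e2] at h2
    exact hij (e.symm.injective (Subtype.ext (by rw [e1, e2, ← qcomp_eq h1, qcomp_eq h2])))
  refine ⟨r, fun i => (e.symm i).1, ?_, hdis, fun i => ?_, fun i j hij => ?_, fun i => ?_⟩
  · ext A
    rw [Set.mem_iUnion]
    constructor
    · rintro ⟨i, hi⟩
      obtain ⟨B, -, e1⟩ := (e.symm i).2
      rw [e1] at hi
      exact hi.1
    · intro hA
      exact ⟨e ⟨_, A, hA, rfl⟩, by rw [e.symm_apply_apply]; exact mem_qcomp_self hA⟩
  · obtain ⟨A, hA, e1⟩ := (e.symm i).2
    exact ⟨A, by beta_reduce; rw [e1]; exact mem_qcomp_self hA⟩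
  · have := hdis i j hij
    obtain ⟨A, hA, e1⟩ := (e.symm i).2
    obtain ⟨B, hB, e2⟩ := (e.symm j).2
    beta_reduce
    rw [e1, e2] at this ⊢
    exact comm_iff.1 (comm_iSup_left fun C hC => (comm_iSup_left fun D hD =>
      (qcomp_comm k2 k3 hU hC hD.1 (Set.disjoint_right.1 this hD)).symm).symm)
  · obtain ⟨A, hA, e1⟩ := (e.symm i).2
    beta_reduce
    rw [e1]
    refine ⟨quasi_qcomp k2 k3 hU hA, class_qcomp k2 k3 hU hA, fun B hB C hC => ?_⟩
    obtain ⟨A₀, B₀, h1, h2, h3⟩ := quad_psl2 k2 k3 hU hB.1 hC.1.1 hC.2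
    exact ⟨A₀, B₀, h1, h2, k, inferInstance, k3, h3⟩

end Cfsg.Agent.S5069
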