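import Cfsg.Statements.S5073
import Cfsg.Agent.H9.QRoot
-- import your own Cfsg.Agent.* helpers here

set_option autoImplicit false
universe u
open Cfsg

namespace Cfsg.Agent.S5073
open CfsgH9

/-- Let k be a field of characteristic not 2 with k not of order 3, M a finite-dimensional k-vector space and G ≤ GL(M) such that (G, M) is a quadratic pair (M irreducible for G, and G generated by its quadratically acting elements σ whose scalar family 1 + c(σ − 1), c ∈ k, lies in G). Write 𝒬_d for the quadratic elements of G of minimal commutator rank, E(σ) for the subgroup generated by the members of 𝒬_d with the same fixed space and commutator space as σ, and Σ for the set of these subgroups. Let E, F ∈ Σ. If some non-identity element of E commutes with some non-identity element of F, or some non-identity element of E normalizes F, then E and F commute elementwise. -/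
theorem result {k : Type u} [Field k] (hk2 : ringChar k ≠ 2) (hk3 : Nat.card k ≠ 3)
    {M : Type u} [AddCommGroup M] [Module k M] [FiniteDimensional k M]
    {G : Subgroup (LinearMap.GeneralLinearGroup k M)} (hG : Cfsg.IsQuadraticPair G)
    {E F : Subgroup (LinearMap.GeneralLinearGroup k M)} (hE : E ∈ Cfsg.quadraticRootSubgroups G) (hF : F ∈ Cfsg.quadraticRootSubgroups G)
    (h : (∃ e ∈ E, e ≠ 1 ∧ ∃ f ∈ F, f ≠ 1 ∧ e * f = f * e) ∨ E ⊓ Subgroup.normalizer (F : Set (LinearMap.GeneralLinearGroup k M)) ≠ ⊥) :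
    ⁅E, F⁆ = ⊥ := by
  have k2 := two_ne_zero_of_ringChar hk2
  have k3 := three_lt_card hk2 hk3
  have hU := (hypH_of_irreducible hG.1).noUnip
  obtain ⟨s, hs, rfl⟩ := mem_quadraticRootSubgroups.1 hE
  obtain ⟨t, ht, rfl⟩ := mem_quadraticRootSubgroups.1 hF
  rw [← comm_iff]
  by_contra hc
  by_cases ho : Opp s t
  · have hr := r1_of_opp k2 k3 hs ht ho
    rcases h with ⟨e, he, he1, f, hf, hf1, h⟩ | h
    · exact r1_not_commute hr he he1 hf hf1 h
    · obtain ⟨e, he, he1⟩ := exists_ne_one_of_ne_bot h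
      exact he1 (r1_eq_one_of_fix hr he.1 (cj_eq_self_iff.2 he.2))
  rcases h with ⟨e, he, he1, f, hf, hf1, h⟩ | h
  · obtain ⟨a, ha, rfl⟩ := exists_of_mem_EG he
    obtain ⟨b, hb, rfl⟩ := exists_of_mem_EG hf
    refine comm_ne_zero k2 k3 hs ht ho hc ha (fun e => he1 (uS_eq_one.2 e)) hb (fun e => hf1 (uS_eq_one.2 e)) ?_
    have := congrArg Units.val h
    simp only [Units.val_mul, uS_val, mul_add, add_mul, one_mul, mul_one] at this
    linear_combination (norm := abel1) this
  · obtain ⟨e, he, he1⟩ := exists_ne_one_of_ne_bot h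
    obtain ⟨a, ha, rfl⟩ := exists_of_mem_EG he.1
    have ha0 : a ≠ 0 := fun e => he1 (uS_eq_one.2 e)
    have h1 := cj_eq_self_iff.2 he.2
    rw [cj_EG ha.1.uS_mem, uS_conj, sandwich k2 k3 hs ht ho ha ha ht.qn.mem_ES, sub_zero] at h1
    have hq := ht.conj_uS ha.1
    rw [sandwich k2 k3 hs ht ho ha ha ht.qn.mem_ES, sub_zero] at hq
    have h2 : a * t - t * a ∈ ES G t := by
      have h3 : t + (a * t - t * a) ∈ ES G t := ES_eq_of_EG_eq h1 ▸ hq.qn.mem_ES
      have h4 := sub_mem h3 ht.qn.mem_ES
      rwa [add_sub_cancel_left] at h4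
    have hne := comm_ne_zero k2 k3 hs ht ho hc ha ha0 ht.qn.mem_ES ht.ne
    obtain ⟨ha', a2, a3⟩ := hs.of_mem_ES ha ha0
    obtain ⟨-, c2, c3, c4⟩ := comm_case ha' ht (sandwich k2 k3 hs ht ho ha ha ht.qn.mem_ES)
      (sandwich k2 k3 ht hs (fun h => ho h.symm) ht.qn.mem_ES ht.qn.mem_ES ha) hne
    obtain ⟨-, d2, d3⟩ := ht.of_mem_ES h2 hne
    have aa := mul_eq_zero_iff_le.1 ha.1.sq
    have tt := mul_eq_zero_iff_le.1 ht.qn.sq
    have e1 : LinearMap.range a ≤ LinearMap.ker t := by
      rw [← d2, c3]; exact le_inf le_sup_left (aa.trans le_sup_right)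
    have e2 : LinearMap.range a ≤ LinearMap.range t := by
      rw [← d3, c2]; exact (le_inf le_rfl e1).trans le_sup_left
    exact ha0 (LinearMap.range_eq_bot.1 (by rw [← c4]; exact (inf_eq_left.2 e2).symm))

end Cfsg.Agent.S5073
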